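import Cfsg.Agent.Root.Max4

/-! Maximality of subspace stabilisers: in `SL` (`isMaximalIn_stab_SL`), totally singular subspaces
(`isMaximalIn_stab_ts`), non-degenerate subspaces (`isMaximalIn_stab_nd`, `isMaximalIn_stab_quad`),
non-singular points (`isMaximalIn_stab_point`). -/

set_option autoImplicit false

namespace Cfsg.Agent.Root.Mx

open Cfsg.Agent.Geom Cfsg.Agent.AutCl Module QuadraticMap

variable {F : Type*} [Field F] {σ : F →+* F} {V : Type*} [AddCommGroup V] [Module F V]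
  {Φ : Formed σ V} [FiniteDimensional F V]

theorem exists_notMem_of_stab {W : Submodule F V} {g : V ≃ₗ[F] V} (h : g ∉ stab W) :
    ∃ x ∈ W, g x ∉ W := by
  by_contra! hc; exact h (mem_stab_of_le hc)

theorem isMaximalIn_stab_SL {ι : Type} [Fintype ι] [DecidableEq ι] {W : Submodule F (ι → F)}
    (h0 : W ≠ ⊥) (h1 : W ≠ ⊤) : Geo.IsMaximalIn (SLg F (ι → F)) (stab W ⊓ SLg F (ι → F)) := by
  refine max_crit inf_le_right ?_ fun X h2 h3 g hg hg' => SLg_le fun v => ?_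
  · obtain ⟨x, hx, hx0⟩ := Submodule.exists_mem_ne_zero_of_ne_bot h0
    obtain ⟨y, -, hy⟩ := SetLike.exists_of_lt (lt_top_iff_ne_top.2 h1)
    obtain ⟨φ, e1, e2⟩ := Submodule.exists_le_ker_of_notMem (p := F ∙ y) (v := x) fun e => hy
      (by simpa using (Submodule.span_singleton_le_iff_mem _ _).2 hx (by
        simpa using exch (S := ⊥) (by simpa using e) (by simpa)))
    have e2 : φ y = 0 := e2 (Submodule.mem_span_singleton_self y)
    refine ⟨_, tv_mem_SLg e2, fun h => hy ?_⟩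
    have := (h.1 x).1 hx
    rwa [LinearEquiv.transvection.apply, W.add_mem_iff_right hx, W.smul_mem_iff e1] at this
  have h4 : W ≤ centres X := fun p hp φ e => hasL_tv e (h2 ⟨mem_stab_of_le fun v hv => by
    rw [LinearEquiv.transvection.apply]; exact add_mem hv (W.smul_mem _ hp), tv_mem_SLg e⟩)
  obtain ⟨x, hx, hp⟩ := exists_notMem_of_stab fun e => hg' ⟨e, h3 hg⟩
  have h5 := map_mem_centres (h4 hx) hg
  by_cases h6 : g x ∈ W ⊔ F ∙ v
  · exact sup_le h4 ((Submodule.span_singleton_le_iff_mem _ _).2 h5) (exch h6 hp)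
  obtain ⟨φ, e1, e2⟩ := Submodule.exists_le_ker_of_notMem h6
  have e3 : ((φ (g x))⁻¹ • φ) v = 0 := by simpa using Or.inr (e2 (mem_sup_self _ _))
  have := map_mem_centres h5 (h2 ⟨mem_stab_of_le fun w hw => by
    rw [LinearEquiv.transvection.apply]
    simpa [show φ w = 0 from e2 (Submodule.mem_sup_left hw)], tv_mem_SLg e3⟩)
  rw [LinearEquiv.transvection.apply] at this
  simpa [e1] using sub_mem this h5

omit [FiniteDimensional F V] in
theorem IsE.fix {W : Submodule F V} {x y : V} {d : F} {g : V ≃ₗ[F] V} (hg : IsE Φ x y d g)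
    (hx : x ∈ Φ.perp W) (hy : y ∈ Φ.perp W) : ∀ v ∈ W, g v = v := fun v hv => by
  rw [hg.apply_perp (Φ.B_eq_zero_symm (hx v hv)), Φ.B_eq_zero_symm (hy v hv)]; simp

theorem isMaximalIn_stab_ts [Finite F] (hn : Φ.Nondeg) (h10 : 10 ≤ finrank F V) {W : Submodule F V}
    (h0 : W ≠ ⊥) (hW : Φ.TotSing W) (H : ∀ p ∈ Φ.perp W, ∀ r ∈ Φ.perp W, Φ.IsPair p r →
      ∃ y ∈ Φ.perp W, y ∈ Φ.pairPerp p r ∧ ∃ d ≠ (0 : F), Φ.τ * d = Φ.Q y ∧ Φ.ε * d + σ d = Φ.B y y) :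
    Geo.IsMaximalIn (EG Φ) (stab W ⊓ EG Φ) := by
  refine max_crit inf_le_right ?_ fun X h2 h3 g hg hg' => ?_
  · obtain ⟨x, hx, hx0⟩ := Submodule.exists_mem_ne_zero_of_ne_bot h0
    obtain ⟨r, hr⟩ := hn.exists_isPair hx0 (hW.sing hx)
    have := hn.two_mul_finrank_le hW.le_perp
    obtain ⟨z, -, hz, hs, e⟩ := exists_sing_pf Φ ![x, r] (U := ⊤) (R := W) (by rw [finrank_top]; omega)
    obtain ⟨g, hg⟩ := exists_isE0 hn hr.sf hs (e 1)
    refine ⟨g, IsE_mem_EG hg, fun h => hz ?_⟩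
    have := (h.1 x).1 hx
    rw [hg.app, Φ.B_eq_zero_symm (show Φ.B x z = 0 from e 0), hr.fe, Φ.εε] at this
    simpa using sub_mem hx this
  have h4 : ∀ x ∈ W, Full Φ X x := fun x hx => ⟨hW.sing hx, fun a d g hg =>
    h2 ⟨mem_stab_of_le fun v hv => by
      rw [hg.apply_perp (hW.1 x hx v hv)]; exact add_mem hv (W.smul_mem _ hx), IsE_mem_EG hg⟩⟩
  obtain ⟨x, hx, hp⟩ := exists_notMem_of_stab fun e => hg' ⟨e, h3 hg⟩
  have h5 := (h4 x hx).map hg (EG_le_isom (h3 hg))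
  by_cases h6 : g x ∈ Φ.perp W
  swap
  · obtain ⟨y, hy, e⟩ : ∃ y ∈ W, Φ.B y (g x) ≠ 0 := by by_contra! hc; exact h6 hc
    exact EG_le_of_full hn (h4 y hy) h5 e
  obtain ⟨r, hr, e⟩ := hn.exists_hyperbolic_partner hp h6 h5.1.1 h5.1.2
  have hpr : Φ.IsPair (g x) r := ⟨h5.1, ⟨e.1, e.2.1⟩, e.2.2⟩
  obtain ⟨y, hy, hy', d, hd, e1, e2⟩ := H _ h6 r hr hpr
  rw [Φ.mem_pairPerp] at hy'
  obtain ⟨s, hs⟩ := exists_isE hn hpr.sf hy'.2 e1 e2
  refine EG_le_of_full' hn h5 (h2 ⟨fix_le_stab _ (IsE.fix hs hr hy), IsE_mem_EG hs⟩) hs.mem_isom ?_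
  rw [hs.app]
  simp [h5.1.2, hy'.1, Φ.B_eq_zero_symm hy'.1, hpr.ef, hpr.fe, hd, Φ.ε_ne_zero]

theorem isMaximalIn_stab_ts' [Finite F] (hn : Φ.Nondeg) (h10 : 10 ≤ finrank F V) {W : Submodule F V}
    (h0 : W ≠ ⊥) (hW : Φ.TotSing W) {d : F} (hd : d ≠ 0) (h1 : Φ.τ * d = 0) (h2 : Φ.ε * d + σ d = 0) :
    Geo.IsMaximalIn (EG Φ) (stab W ⊓ EG Φ) :=
  isMaximalIn_stab_ts hn h10 h0 hW fun _ _ _ _ _ =>
    ⟨0, zero_mem _, zero_mem _, d, hd, by simpa using h1, by simpa using h2⟩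

theorem isMaximalIn_stab_ts_quad [Finite F] {Q : QuadraticForm F V} (hn : (Formed.ofQuad Q).Nondeg)
    (h10 : 10 ≤ finrank F V) {W : Submodule F V} (h0 : W ≠ ⊥) (hW : ∀ x ∈ W, Q x = 0)
    (H : 2 * (finrank F W + 1) = finrank F V → ∀ U : Submodule F V, (∀ x ∈ U, Q x = 0) →
      2 * finrank F U ≠ finrank F V) :
    Geo.IsMaximalIn (EG (Formed.ofQuad Q)) (stab W ⊓ EG (Formed.ofQuad Q)) := by
  have hW' := Formed.totSing_ofQuad.2 hW
  refine isMaximalIn_stab_ts hn h10 h0 hW' fun p hp r hr hpr => ?_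
  by_contra! hc
  have h1 : (Formed.ofQuad Q).TotSing ((Formed.ofQuad Q).perp (W ⊔ ((F ∙ p) ⊔ F ∙ r))) :=
    Formed.totSing_ofQuad.2 fun y hy => by
      rw [Formed.perp_sup] at hy
      by_contra e
      exact hc y hy.1 hy.2 (Q y) e (one_mul _) (isE_eich (map_zero Q) (by simp)).hB
  have nm : ∀ S : Submodule F V, r ∈ (Formed.ofQuad Q).perp S → finrank F ↥(S ⊔ F ∙ p) = finrank F S + 1 :=
    fun S hS => by
      have hp : p ∉ S := fun e => one_ne_zero (hpr.ef.symm.trans (hS p e))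
      have := Submodule.finrank_sup_add_finrank_inf_eq S (F ∙ p)
      rwa [finrank_span_singleton hpr.left_ne_zero,
        ((Submodule.disjoint_span_singleton_of_notMem hp)).eq_bot, finrank_bot, add_zero] at this
  have h2 := h1.sup_span (Formed.le_perp_perp _ _ (Submodule.mem_sup_right (Submodule.mem_sup_left
    (Submodule.mem_span_singleton_self p)))) hpr.se.1 hpr.se.2
  have h3 := hW'.sup_span hp hpr.se.1 hpr.se.2
  have h4 := hn.two_mul_finrank_le h2.le_perp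
  have h5 := hn.two_mul_finrank_le h3.le_perp
  rw [nm _ (Formed.le_perp_perp _ _ (Submodule.mem_sup_right (mem_sup_self _ _)))] at h4
  have h6 := hn.finrank_add_finrank_perp (W ⊔ ((F ∙ p) ⊔ F ∙ r))
  have h7 := Submodule.finrank_add_le_finrank_add_finrank W ((F ∙ p) ⊔ F ∙ r)
  rw [hpr.finrank_span] at h7
  have h8 := nm W hr
  exact H (by omega) _ h3.2 (by omega)

/-- In a non-degenerate plane every non-singular vector has an independent one of the same norm. -/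
def Plane (Φ : Formed σ V) (W : Submodule F V) : Prop :=
  finrank F W = 2 → ∀ a ∈ W, ¬ Φ.Sing a → ∃ v ∈ W, v ∉ F ∙ a ∧ Φ.B v v = Φ.B a a ∧ Φ.Q v = Φ.Q a

theorem perp_le_of_fix [Finite F] (hn : Φ.Nondeg) {A : Submodule F V} (hA : (Φ.restrict A).Nondeg)
    (hp : Plane Φ (Φ.perp A)) (M : Submodule F V)
    (hM : ∀ g ∈ Φ.isom, (∀ v ∈ A, g v = v) → ∀ m ∈ M, g m ∈ M) {b : V} (hb : b ∈ M)
    (hb' : b ∈ Φ.perp A) (hb0 : b ≠ 0) : Φ.perp A ≤ M := by
  have hB := hn.restrict_perp hA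
  by_cases h3 : 3 ≤ finrank F (Φ.perp A)
  · exact le_of_inv hn hB h3 M.toAddSubgroup (fun x hx y hy d g hg =>
      hM g hg.mem_isom (IsE.fix hg hx hy)) hb (by
        by_contra! hc; exact hb0 (eq_zero_of_nd hB hb' hc))
  have hs := (Submodule.span_singleton_le_iff_mem _ _).2 hb'
  have hs' := (Submodule.span_singleton_le_iff_mem _ _).2 hb
  have h1 := finrank_span_singleton (K := F) hb0
  by_cases h2 : finrank F (Φ.perp A) = 2
  swap
  · exact (Submodule.eq_of_le_of_finrank_le hs (by omega)).ge.trans hs'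
  obtain ⟨v, hv, e1, e2, e3⟩ : ∃ v ∈ Φ.perp A, v ∉ F ∙ b ∧ Φ.B v v = Φ.B b b ∧ Φ.Q v = Φ.Q b := by
    by_cases h4 : Φ.Sing b
    swap; · exact hp h2 b hb' h4
    obtain ⟨r, hr, e⟩ := exists_pair_mem hn hB hb' hb0 h4
    refine ⟨r, hr, fun hc => ?_, e.sf.2.trans h4.2.symm, e.sf.1.trans h4.1.symm⟩
    obtain ⟨c, rfl⟩ := Submodule.mem_span_singleton.1 hc
    simpa [h4.2] using e.ef
  have d := fun x hx hx' => Submodule.disjoint_def.1 (Φ.restrict_nondeg_iff.1 hA) x hx hx'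
  obtain ⟨g, hg, rfl⟩ := hn.step (H := A) (fun e => hb0 (d _ e hb'))
    (fun e => e1 (d _ e hv ▸ zero_mem _)) (sub_mem hv hb') e3 e2
  have h5 : (F ∙ b) < (F ∙ b) ⊔ F ∙ g b :=
    left_lt_sup.2 fun e => e1 (e (Submodule.mem_span_singleton_self _))
  have := Submodule.finrank_lt_finrank_of_lt h5
  exact (Submodule.eq_of_le_of_finrank_le (sup_le hs ((Submodule.span_singleton_le_iff_mem _ _).2 hv))
    (by omega)).ge.trans (sup_le hs' ((Submodule.span_singleton_le_iff_mem _ _).2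
      (hM g (Φ.elemFix_le_isom _ hg) (Φ.elemFix_fix hg) b hb)))

theorem stab_perp_inf (hn : Φ.Nondeg) (W : Submodule F V) :
    stab (Φ.perp W) ⊓ EG Φ = stab W ⊓ EG Φ :=
  le_antisymm (fun g hg => ⟨hn.perp_perp W ▸ Formed.perp_mem_stab (EG_le_isom hg.2) hg.1, hg.2⟩)
    fun _ hg => ⟨Formed.perp_mem_stab (EG_le_isom hg.2) hg.1, hg.2⟩

theorem isMaximalIn_stab_nd [Finite F] (hn : Φ.Nondeg) {A : Submodule F V} (hA : (Φ.restrict A).Nondeg)
    (h5 : 5 ≤ finrank F A) (h1 : A ≠ ⊤) (hp : Plane Φ (Φ.perp A))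
    (adj : ∀ U, (Φ.restrict U).Nondeg → 2 ≤ finrank F U → Adj Φ U)
    (hi : ∀ g ∈ Φ.isom, ¬ ∀ x ∈ A, g x ∈ Φ.perp A) : Geo.IsMaximalIn (EG Φ) (stab A ⊓ EG Φ) := by
  have dj := fun x hx hx' => Submodule.disjoint_def.1 (Φ.restrict_nondeg_iff.1 hA) x hx hx'
  obtain ⟨e, he, f, hf, hef⟩ := exists_pair hn hA (by omega)
  refine max_crit inf_le_right ?_ fun X h2 h3 g hg hg' => ?_
  · obtain ⟨b, hb, hb0⟩ := Submodule.exists_mem_ne_zero_of_ne_bot (p := Φ.perp A) fun e =>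
      h1 (by rw [← hn.perp_perp A, e, Φ.perp_bot])
    obtain ⟨d, g, hg⟩ := exists_isE' hn hef.se (hb e he)
    refine ⟨g, IsE_mem_EG hg, fun h => hb0 (dj b ?_ hb)⟩
    have := (h.1 f).1 hf
    rw [hg.apply_r hef (hb f hf)] at this
    simpa [A.smul_mem_iff Φ.ε_ne_zero] using sub_mem (sub_mem hf (A.smul_mem d he)) this
  have st : ∀ {U : Submodule F V}, U ≤ A → ∀ g ∈ Φ.isom, (∀ v ∈ Φ.perp U, g v = v) → g ∈ stab A :=
    fun hU g hg h => mem_stab_of_le fun x hx => mem_of_fix_perp hn hg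
      (fun v hv => h v (Φ.perp_anti hU hv)) hx
  have inE : InE Φ X A := fun x hx y hy _ _ hg => h2 ⟨st le_rfl _ hg.mem_isom
    (IsE.fix hg (Φ.le_perp_perp _ hx) (Φ.le_perp_perp _ hy)), IsE_mem_EG hg⟩
  have sub : ∀ x ∈ A, ∀ r ∈ A, Φ.IsPair x r → (Φ.restrict (A ⊓ Φ.pairPerp x r)).Nondeg ∧
      3 ≤ finrank F ↥(A ⊓ Φ.pairPerp x r) := fun x hx r hr h => by
    have hs : (F ∙ x) ⊔ (F ∙ r) ≤ A := sup_le ((Submodule.span_singleton_le_iff_mem _ _).2 hx)
      ((Submodule.span_singleton_le_iff_mem _ _).2 hr)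
    have := finrank_inf_perp hn hA hs
    rw [h.finrank_span] at this
    exact ⟨nondeg_inf_perp hn hA h.nondeg_span hs, by unfold Formed.pairPerp; omega⟩
  have full : ∀ x ∈ A, x ≠ 0 → ∀ a d, HasE Φ X x a d → a ∉ A → Full Φ X x := by
    intro x hx hx0 a d ha ha'
    obtain ⟨r, hr, hxr⟩ := exists_pair_mem hn hA hx hx0 ha.sp
    obtain ⟨u1, u2⟩ := sub x hx r hr hxr
    have lift : ∀ g ∈ Φ.isom, g ∈ stab A → ∀ c : F, g x = c • x → ∀ b ∈ Φ.perp A, ∀ d,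
        HasE Φ X x b d → HasE Φ X (c • x) (g b) d := fun g hg hg' c e b hb d h => by
      obtain ⟨k, k1, k2, k3⟩ := adj _ u1 (by omega) g hg
      have := h.conj (h2 ⟨mul_mem (st inf_le_left k k1 k2) hg', k3⟩) (mul_mem k1 hg)
      rwa [LinearEquiv.mul_apply, LinearEquiv.mul_apply, e, k2 _ (Submodule.smul_mem _ c fun u hu =>
        Φ.B_eq_zero_symm (Φ.mem_pairPerp.1 hu.2).1), k2 _ (Φ.perp_anti inf_le_left
          ((Formed.perp_mem_stab hg hg' b).1 hb))] at this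
    have h4 : ∀ y ∈ A, Φ.B x y = 0 → y ∈ AE Φ X ha.sp := fun y hy e => inE.hasE hn hx hy ha.sp e
    let M : Submodule F V :=
      { carrier := {b | b ∈ Φ.perp A ∧ b ∈ AE Φ X ha.sp}
        zero_mem' := ⟨zero_mem _, zero_mem _⟩
        add_mem' := fun h h' => ⟨add_mem h.1 h'.1, add_mem h.2 h'.2⟩
        smul_mem' := fun c b ⟨h, d, h'⟩ => ⟨Submodule.smul_mem _ c h, by
          rcases eq_or_ne c 0 with rfl | hc
          · simp
          have hc' : σ c ≠ 0 := by simpa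
          have t := fun v (hv : v ∈ Φ.perp A) => hxr.torus_perp (Units.mk0 _ hc')
            (Φ.mem_pairPerp.2 ⟨hv x hx, hv r hr⟩)
          have := (lift _ (hxr.torus (Units.mk0 _ hc')).2 (st le_rfl _ (hxr.torus _).2 t) _
            (hxr.torus_left _) b h d h').of_smul hc'
          rw [t b h, Units.val_mk0, Φ.σσ] at this
          exact ⟨_, this⟩⟩ }
    obtain ⟨w, hw, e⟩ := exists_prj hn hA a
    have h6 := perp_le_of_fix hn hA hp M (fun g hg hf b ⟨h, d, h'⟩ =>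
      ⟨(Formed.perp_mem_stab hg (fix_le_stab _ hf) b).1 h, d, by
        simpa using lift g hg (fix_le_stab _ hf) 1 (by simp [hf x hx]) b h d h'⟩) (b := a - w)
      ⟨fun y hy => by rw [map_sub, e y hy, sub_self], sub_mem ⟨d, ha⟩ (h4 w hw ((e x hx).trans ha.pa))⟩
      (fun y hy => by rw [map_sub, e y hy, sub_self]) (fun e => ha' (sub_eq_zero.1 e ▸ hw))
    refine full_of_AE ha.sp (fun b hb => ?_) fun d g hg => inE x hx 0 (zero_mem _) d g hg
    obtain ⟨w, hw, e⟩ := exists_prj hn hA b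
    simpa using add_mem (h6 (x := b - w) fun y hy => by rw [map_sub, e y hy, sub_self]).2
      (h4 w hw ((e x hx).trans hb))
  have win : ∀ x ∈ A, x ≠ 0 → ∀ p, HasE Φ X p x 0 → p ∉ A → EG Φ ≤ X := by
    intro x hx hx0 p ha hp
    have h4 := full x hx hx0 _ _ ha.swap (by simpa [A.smul_mem_iff Φ.ε_ne_zero])
    obtain ⟨r, hr, hxr⟩ := exists_pair_mem hn hA hx hx0 h4.1
    obtain ⟨u1, u2⟩ := sub x hx r hr hxr
    obtain ⟨y, hy, y', hy', hyy⟩ := exists_pair hn u1 u2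
    have mv : ∀ y ∈ A ⊓ Φ.pairPerp x r, Φ.Sing y → Full Φ X (x - y) := fun y hy hs => by
      have e := Φ.mem_pairPerp.1 hy.2
      obtain ⟨s, s1, s2⟩ := inE.hasE0 hn hr hy.1 hxr.sf hs e.2
      have := h4.map s1 s2.mem_isom
      rwa [s2.app, Φ.B_eq_zero_symm e.1, hxr.fe, Φ.εε, zero_mul, sub_zero, zero_smul, add_zero,
        one_smul] at this
    refine EG_le_of_full hn (mv y hy hyy.se) (mv y' hy' hyy.sf) ?_
    simp [h4.1.2, (Φ.mem_pairPerp.1 hy'.2).1, Φ.B_eq_zero_symm (Φ.mem_pairPerp.1 hy.2).1, hyy.ef]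
  have stage : ∀ p a d, HasE Φ X p a d → p ∉ A → ∀ v ∈ A, Φ.B v p = 0 → Φ.B v a ≠ 0 → EG Φ ≤ X := by
    intro p a d ha hp v hv e1 e2
    obtain ⟨U, u1, u2, u3, u4, u5⟩ := exists_nd_perp hn hA (by omega) hv e1 e2
    obtain ⟨z, hz, hz0, e⟩ := (inE.mono u1).exists_siegel hn u2 (by omega) ha.sp u4 ⟨d, ha⟩ u5
    exact win z (u1 hz) hz0 p e hp
  have hg1 := EG_le_isom (h3 hg)
  by_contra hc
  have dich : ∀ x ∈ A, Φ.Sing x → g x ∈ A ∨ g x ∈ Φ.perp A := by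
    intro x hx hs
    by_contra! h4
    obtain ⟨r, hr, e⟩ : ∃ r ∈ A, Φ.B r (g x) ≠ 0 := by by_contra! hc; exact h4.2 hc
    obtain ⟨z, hz, hz0, hzs, e1⟩ := exists_sing_pf Φ ![x, g.symm r] (U := A) (R := ⊥) (by simp; omega)
    have e2 : Φ.B (g.symm r) z = 0 := e1 1
    rw [← hg1.1, LinearEquiv.apply_symm_apply] at e2
    have h6 := (inE.hasE0 hn hx hz hs hzs (e1 0)).conj hg hg1
    have h7 : ∀ v ∈ A, Φ.B v (g z) = 0 := fun v hv => by
      by_contra h8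
      refine hc (stage _ _ _ h6 h4.1 (v - σ (Φ.B v (g x) / Φ.B r (g x)) • r)
        (sub_mem hv (A.smul_mem _ hr)) ?_ ?_)
      · rw [Φ.B_sub_left, Φ.B_smul_left, Φ.σσ]; field_simp; ring
      · rwa [Φ.B_sub_left, Φ.B_smul_left, e2, mul_zero, sub_zero]
    exact hc (stage _ _ _ h6.swap (fun h8 => hz0 (by simpa using eq_zero_of_nd hA h8 h7)) r hr e2
      (by simpa [Φ.ε_ne_zero]))
  have all : ∀ C C' : Submodule F V, (∀ x ∈ C, ∀ y ∈ C', Φ.B x y = 0) →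
      (∀ x ∈ A, Φ.Sing x → g x ∈ C ∨ g x ∈ C') → g e ∈ C → ∀ x ∈ A, g x ∈ C := by
    intro C C' o di hj
    have opp : ∀ x, ∀ y ∈ A, Φ.Sing y → Φ.B x y ≠ 0 → g x ∈ C → g y ∈ C := fun x y hy hs e h1 =>
      (di y hy hs).resolve_right fun h => e ((hg1.1 x y).symm.trans (o _ h1 _ h))
    refine sing_ind he hf hef (C.comap (g : V →ₗ[F] V)).toAddSubgroup fun x hx hs => ?_
    rcases eq_or_ne x 0 with rfl | hx0
    · exact zero_mem _
    by_cases e' : Φ.B x e = 0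
    · obtain ⟨w, hw, hws, h1, h2⟩ := exists_sing_both hn hA he hef.left_ne_zero hef.se hx hx0 e'
      exact opp w x hx hs (fun e => h2 (Φ.B_eq_zero_symm e)) (opp e w hw hws h1 hj)
    · exact opp e x hx hs (fun e => e' (Φ.B_eq_zero_symm e)) hj
  rcases dich e he hef.se with h4 | h4
  · exact hg' ⟨mem_stab_of_le (all A (Φ.perp A) (fun x hx y hy => hy x hx) dich h4), h3 hg⟩
  · exact hi g hg1 (all _ A (fun x hx y hy => Φ.B_eq_zero_symm (hx y hy))
      (fun x hx hs => (dich x hx hs).symm) h4)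

theorem not_map_perp (hn : Φ.Nondeg) {A : Submodule F V} (h : finrank F V < 2 * finrank F A) :
    ∀ g ∈ Φ.isom, ¬ ∀ x ∈ A, g x ∈ Φ.perp A := fun g _ hc => by
  have h1 : A.map (g : V →ₗ[F] V) ≤ Φ.perp A := by rintro _ ⟨x, hx, rfl⟩; exact hc x hx
  have := Submodule.finrank_mono h1
  have := hn.finrank_add_finrank_perp A
  rw [LinearEquiv.finrank_map_eq] at *
  omega

theorem isMaximalIn_stab_nd' [Finite F] (hn : Φ.Nondeg) (h10 : 10 ≤ finrank F V) {W : Submodule F V}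
    (hW : (Φ.restrict W).Nondeg) (h0 : W ≠ ⊥) (h1 : W ≠ ⊤) (hp : Plane Φ W) (hp' : Plane Φ (Φ.perp W))
    (adj : ∀ U, (Φ.restrict U).Nondeg → 2 ≤ finrank F U → Adj Φ U)
    (hi : finrank F V = 2 * finrank F W → ∀ g ∈ Φ.isom, ¬ ∀ x ∈ W, g x ∈ Φ.perp W) :
    Geo.IsMaximalIn (EG Φ) (stab W ⊓ EG Φ) := by
  have := hn.finrank_add_finrank_perp W
  rcases lt_trichotomy (finrank F V) (2 * finrank F W) with h | h | h
  · exact isMaximalIn_stab_nd hn hW (by omega) h1 hp' adj (not_map_perp hn h)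
  · exact isMaximalIn_stab_nd hn hW (by omega) h1 hp' adj (hi h)
  · rw [← stab_perp_inf hn]
    exact isMaximalIn_stab_nd hn (hn.restrict_perp hW) (by omega)
      (fun e => h0 (by rw [← hn.perp_perp W, e, hn.perp_top])) (by rwa [hn.perp_perp]) adj
      (not_map_perp hn (by omega))

theorem plane_herm [Finite F] (hσ : σ ≠ RingHom.id F) (hε : Φ.ε = 1) {W : Submodule F V}
    (hW : (Φ.restrict W).Nondeg) : Plane Φ W := fun h2 a ha hs => by
  have hn : Φ.B a a ≠ 0 := fun e => hs ⟨Φ.Q_eq_zero hσ _, e⟩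
  have := finrank_span_one (F := F) a
  obtain ⟨b, hb, hb0, e⟩ := exists_mem_notMem (Φ := Φ) (U := W) (S := ⊥) ![a]
    (by rw [sup_bot_eq, finrank_bot]; omega)
  have e : Φ.B a b = 0 := e 0
  have nm : ∀ c : F, c ≠ 0 → c • b ∉ F ∙ a := fun c hc h => by
    rw [Submodule.smul_mem_iff _ hc] at h
    obtain ⟨c, rfl⟩ := Submodule.mem_span_singleton.1 h
    have : c = 0 := by simpa [hn] using e
    simp [this] at hb0
  have hs : (F ∙ a) ⊔ (F ∙ b) ≤ W := sup_le ((Submodule.span_singleton_le_iff_mem _ _).2 ha)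
    ((Submodule.span_singleton_le_iff_mem _ _).2 hb)
  have h3 : (F ∙ a) < (F ∙ a) ⊔ F ∙ b :=
    left_lt_sup.2 fun e => nm 1 one_ne_zero (by simpa using e (Submodule.mem_span_singleton_self _))
  have h4 := Submodule.finrank_lt_finrank_of_lt h3
  rw [finrank_span_singleton (by rintro rfl; simp at hn)] at h4
  have hb1 : Φ.B b b ≠ 0 := fun e' => hb0 (by
    refine eq_zero_of_nd hW hb fun x hx => ?_
    rw [← Submodule.eq_of_le_of_finrank_le hs (by omega)] at hx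
    exact Φ.mem_pairPerp.2 ⟨e, e'⟩ x hx)
  have fx : ∀ x, σ (Φ.B x x) = Φ.B x x := fun x => by simpa [hε] using B_self_eq (Φ := Φ) x
  obtain ⟨c, hc⟩ := exists_norm_eq hσ Φ.σσ (a := Φ.B a a / Φ.B b b) (by rw [map_div₀, fx, fx])
  refine ⟨c • b, W.smul_mem c hb, nm c (by rintro rfl; exact div_ne_zero hn hb1 (by simpa using hc.symm)), ?_,
    by rw [Φ.Q_eq_zero hσ, Φ.Q_eq_zero hσ]⟩
  rw [Φ.B_smul_left, Φ.B_smul_right, ← mul_assoc, hc, div_mul_cancel₀ _ hb1]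

theorem plane_quad {Q : QuadraticForm F V} (hn : (Formed.ofQuad Q).Nondeg) {W : Submodule F V}
    (hW : ((Formed.ofQuad Q).restrict W).Nondeg)
    (h : finrank F W = 2 → (∃ x ∈ W, x ≠ 0 ∧ Q x = 0) → ∃ s : F, s ≠ 0 ∧ s ^ 2 ≠ 1) :
    Plane (Formed.ofQuad Q) W := fun h2 a ha hs => by
  rw [Formed.sing_ofQuad] at hs
  suffices ∃ v ∈ W, v ∉ F ∙ a ∧ Q v = Q a by
    obtain ⟨v, h1, h2, h3⟩ := this
    exact ⟨v, h1, h2, by simp [polar_self', h3], h3⟩
  by_cases hx : ∃ x ∈ W, x ≠ 0 ∧ Q x = 0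
  · obtain ⟨s, hs0, hs1⟩ := h h2 hx
    obtain ⟨e, he, he0, hq⟩ := hx
    obtain ⟨f, hf, hef⟩ := exists_pair_mem hn hW he he0 (Formed.sing_ofQuad.2 hq)
    have : W = (F ∙ e) ⊔ F ∙ f := (Submodule.eq_of_le_of_finrank_eq (sup_le
      ((Submodule.span_singleton_le_iff_mem _ _).2 he) ((Submodule.span_singleton_le_iff_mem _ _).2 hf))
      (by rw [hef.finrank_span, h2])).symm
    obtain ⟨_, h1, _, h3, rfl⟩ := Submodule.mem_sup.1 (this ▸ ha)
    obtain ⟨α, rfl⟩ := Submodule.mem_span_singleton.1 h1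
    obtain ⟨β, rfl⟩ := Submodule.mem_span_singleton.1 h3
    rw [hef.quad_plane] at hs
    refine ⟨(s * α) • e + (s⁻¹ * β) • f, add_mem (W.smul_mem _ he) (W.smul_mem _ hf), fun hc => ?_,
      by rw [hef.quad_plane, hef.quad_plane]; field_simp⟩
    obtain ⟨c, hc⟩ := Submodule.mem_span_singleton.1 hc
    have e1 := congrArg (polar Q e) hc
    have e2 := congrArg (polar Q f) hc
    simp [polar_self', hef.Q_left, hef.Q_right, hef.polar_eq, hef.polar_eq', left_ne_zero_of_mul hs,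
      right_ne_zero_of_mul hs] at e1 e2
    exact hs1 (by rw [e2] at e1; field_simp at e1; linear_combination e1)
  push Not at hx
  have := finrank_span_one (F := F) a
  obtain ⟨u, hu, h3, h4⟩ : ∃ u ∈ W, u ∉ F ∙ a ∧ polar Q u a ≠ 0 := by
    obtain ⟨u, hu, h3⟩ := exists_notMem_of_lt (U := W) (R := F ∙ a) (by omega)
    obtain ⟨w, hw, h4⟩ : ∃ w ∈ W, polar Q w a ≠ 0 := by
      by_contra! hc; exact hs (by rw [eq_zero_of_nd hW ha hc, map_zero])
    by_cases h5 : w ∈ F ∙ a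
    swap; · exact ⟨w, hw, h5, h4⟩
    by_cases h6 : polar Q u a = 0
    · exact ⟨u + w, add_mem hu hw, by rwa [Submodule.add_mem_iff_left _ h5], by simpa [h6]⟩
    · exact ⟨u, hu, h3, h6⟩
  refine ⟨(refl Q u).1 a, (refl_mem_stab hu a).1 ha, fun hc => h3 ?_, OG.map_Q _ _⟩
  have := sub_mem (Submodule.mem_span_singleton_self a) hc
  rwa [refl_apply, sub_sub_cancel, Submodule.smul_mem_iff _ (mul_ne_zero (inv_ne_zero
    (hx u hu (by rintro rfl; simp at h4))) h4)] at this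

/-- An orthogonal sum of two isometric spaces of even dimension is hyperbolic. -/
theorem exists_ts_of_map_perp [Finite F] {Q : QuadraticForm F V} {W : Submodule F V}
    (hW : ((Formed.ofQuad Q).restrict W).Nondeg) (he : Even (finrank F W)) {g : V ≃ₗ[F] V}
    (hg : g ∈ (Formed.ofQuad Q).isom) (h : ∀ x ∈ W, g x ∈ (Formed.ofQuad Q).perp W) :
    ∃ U : Submodule F V, (∀ x ∈ U, Q x = 0) ∧ finrank F U = finrank F W := by
  have hW' : (Formed.ofQuad (Q.comp W.subtype)).Nondeg := hW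
  obtain ⟨k, hk⟩ := hW'.exists_wittIndex
  obtain ⟨e, he⟩ := exists_isIso_of_wittIndex hW' (nondeg_smul hW' (c := -1) (by simp)) rfl he hk
    ((wittIndex_smul (by simp)).2 hk)
  let f : W →ₗ[F] V := W.subtype + (g : V →ₗ[F] V) ∘ₗ W.subtype ∘ₗ e
  refine ⟨LinearMap.range f, ?_, LinearMap.finrank_range_of_inj ?_⟩
  · rintro _ ⟨x, rfl⟩
    have h1 : -1 * Q (e x) = Q x := he.2 x
    have h2 : Q (g (e x)) = Q (e x) := hg.2 _
    have h3 : polar Q x (g (e x)) = 0 := h _ (e x).2 _ x.2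
    change Q (x + g (e x)) = 0
    rw [quad_add, h2, h3]; linear_combination -h1
  · rw [← LinearMap.ker_eq_bot, LinearMap.ker_eq_bot']
    intro x hx
    refine Subtype.ext (eq_zero_of_nd hW x.2 fun y hy => ?_)
    have : (x : V) = -g (e x) := eq_neg_of_add_eq_zero_left hx
    rw [this, map_neg, h _ (e x).2 y hy, neg_zero]

theorem isMaximalIn_stab_point [Finite F] (hn : Φ.Nondeg) (h2 : NotSp2 Φ) (h7 : 7 ≤ finrank F V) {v : V}
    (hv : ¬ Φ.Sing v) : Geo.IsMaximalIn (EG Φ) (stab (F ∙ v) ⊓ EG Φ) := by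
  have hv0 : v ≠ 0 := by rintro rfl; exact hv Φ.sing_zero
  have sp2 : ∀ v w : V, finrank F ↥((F ∙ v) ⊔ F ∙ w) ≤ 2 := fun v w => by
    have := finrank_span_one (F := F) v
    have := finrank_sup_one (F ∙ v) w
    omega
  refine max_crit inf_le_right ?_ fun X h1 h3 g hg hg' => ?_
  · have := finrank_span_one (F := F) v
    obtain ⟨x, -, hx, hs, e⟩ := exists_sing_pf Φ ![v] (U := ⊤) (R := F ∙ v) (by rw [finrank_top]; omega)
    obtain ⟨y, hy, e1⟩ := hn.exists_perp_eq_one (H := F ∙ x) (x := v) fun h => hx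
      (by simpa using exch (S := ⊥) (by simpa using h) (by simpa))
    obtain ⟨d, g, hg⟩ := exists_isE' hn hs (Φ.mem_perp_span_singleton.1 hy)
    refine ⟨g, IsE_mem_EG hg, fun h => hx ?_⟩
    have := (h.1 v).1 (Submodule.mem_span_singleton_self _)
    rwa [hg.apply_perp (Φ.B_eq_zero_symm (show Φ.B v x = 0 from e 0)), e1, one_smul,
      Submodule.add_mem_iff_right _ (Submodule.mem_span_singleton_self _)] at this
  have hg1 := EG_le_isom (h3 hg)
  have hw : g v ∉ F ∙ v := fun e => hg' ⟨mem_stab_of_le fun x hx => by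
    obtain ⟨c, rfl⟩ := Submodule.mem_span_singleton.1 hx
    rw [map_smul]; exact Submodule.smul_mem _ _ e, h3 hg⟩
  have base : ∀ p, Φ.Sing p → Φ.B v p = 0 → ∀ a, Φ.B v a = 0 → Φ.B p a = 0 → ∃ d, HasE Φ X p a d := by
    intro p hp e a e1 e2
    obtain ⟨d, s, hs⟩ := exists_isE' hn hp e2
    exact ⟨d, s, h1 ⟨fix_le_stab _ (IsE.fix hs (Φ.mem_perp_span_singleton.2 e)
      (Φ.mem_perp_span_singleton.2 e1)), IsE_mem_EG hs⟩, hs⟩
  have full : ∀ p, Φ.Sing p → p ∉ (F ∙ v) ⊔ (F ∙ g v) → p ∈ Φ.pairPerp v (g v) → Full Φ X p := by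
    intro p hp h4 h5
    rw [Φ.mem_pairPerp] at h5
    refine full_of_AE' hn (by omega) h2 (by rintro rfl; simp at h4) hp fun a ha => ?_
    obtain ⟨w, h6, h7⟩ := hn.exists_perp_eq_one' (H := (F ∙ v) ⊔ F ∙ p) fun e => h4 (exch e hw)
    replace h6 := Φ.mem_pairPerp.1 h6
    obtain ⟨d, h8⟩ := base (g.symm p) (hp.map (inv_mem hg1)) (by rw [← hg1.1]; simpa using h5.2)
      (g.symm (a - Φ.B (g v) a • w)) (by rw [← hg1.1]; simp [h7]) (by rw [← hg1.1]; simp [ha, h6.2])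
    have h9 := h8.conj hg hg1
    simp only [LinearEquiv.apply_symm_apply] at h9
    simpa using add_mem (show _ ∈ AE Φ X hp from ⟨d, h9⟩) (show _ ∈ AE Φ X hp from
      base p hp h5.1 (Φ.B (g v) a • w) (by simp [h6.1]) (by simp [h6.2]))
  have := sp2 v (g v)
  obtain ⟨p, -, hp, hs, e⟩ := exists_sing_pf Φ ![v, g v] (U := ⊤) (R := (F ∙ v) ⊔ F ∙ g v)
    (by rw [finrank_top]; omega)
  have hp' : p ∈ Φ.pairPerp v (g v) := Φ.mem_pairPerp.2 ⟨e 0, e 1⟩
  obtain ⟨r, hr, e1, e2, e3⟩ := hn.exists_hyperbolic_partner hp hp' hs.1 hs.2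
  exact EG_le_of_full hn (full p hs hp hp') (full r ⟨e1, e2⟩
    (fun h => by simpa [e3] using Φ.B_eq_zero_symm (hp' r h)) hr) (by simp [e3])

theorem nondeg_of_on {ι : Type} {Φ : Formed σ (ι → F)} {W : Submodule F (ι → F)}
    {f : (ι → F) → (ι → F) → F} (h : Geo.IsNondegenerateOn f W) (hf : ∀ u v, Φ.B u v = 0 ↔ f u v = 0) :
    (Φ.restrict W).Nondeg :=
  Φ.restrict_nondeg_iff'.2 fun u hu h' => by_contra fun h0 =>
    let ⟨x, hx, e⟩ := (h u hu h0).2; e ((hf _ _).1 (h' x hx))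

end Cfsg.Agent.Root.Mx
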