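import Cfsg.Agent.Root.Ext3

/-! Extension field subgroups of prime degree, III: the orthogonal case `isMaximalIn_extO`
(odd characteristic, dimension at least four over the extension field). -/

set_option autoImplicit false

namespace Cfsg.Agent.Root.Mx

open Cfsg.Agent.Geom Cfsg.Agent.AutCl Module QuadraticMap

section Quad
variable {F : Type*} [Field F] {V : Type*} [AddCommGroup V] [Module F V] [FiniteDimensional F V]
  {Q : QuadraticForm F V} {W : Submodule F V}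

omit [FiniteDimensional F V] in
theorem nondeg_span_nonsing (h2 : (2 : F) ≠ 0) {a : V} (ha' : Q a ≠ 0) : ((Formed.ofQuad Q).restrict (F ∙ a)).Nondeg :=
  (Formed.restrict_nondeg_iff' _).2 fun u hu h => by
    obtain ⟨c, rfl⟩ := Submodule.mem_span_singleton.1 hu
    rw [show c = 0 by simpa [polar_self', h2, ha'] using h a (Submodule.mem_span_singleton_self a), zero_smul]

theorem exists_orth_nonsing (h2 : (2 : F) ≠ 0) (hn : (Formed.ofQuad Q).Nondeg) (hW : ((Formed.ofQuad Q).restrict W).Nondeg)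
    (h : 2 ≤ finrank F W) {a : V} (ha : a ∈ W) (ha' : Q a ≠ 0) : ∃ e ∈ W, Q e ≠ 0 ∧ polar Q a e = 0 := by
  have hl := (Submodule.span_singleton_le_iff_mem _ _).2 ha
  obtain ⟨e, he, he'⟩ := exists_nonsing (nondeg_inf_perp hn hW (nondeg_span_nonsing h2 ha') hl) fun e => by
    have := finrank_inf_perp hn hW hl
    have := finrank_span_one (F := F) a
    rw [e, finrank_bot] at *; omega
  exact ⟨e, he.1, he', (Formed.mem_perp_span_singleton _).1 he.2⟩

theorem exists_Q_eq [Finite F] (h2 : (2 : F) ≠ 0) (hn : (Formed.ofQuad Q).Nondeg)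
    (hW : ((Formed.ofQuad Q).restrict W).Nondeg) (h : 2 ≤ finrank F W) (c : F) : ∃ z ∈ W, Q z = c := by
  obtain ⟨a, ha, ha'⟩ := exists_nonsing hW fun e => by rw [e, finrank_bot] at h; omega
  obtain ⟨e, he, he', h0⟩ := exists_orth_nonsing h2 hn hW h ha ha'
  obtain ⟨x, y, hc⟩ := exists_bin h2 ha' he' c
  exact ⟨x • a + y • e, add_mem (W.smul_mem _ ha) (W.smul_mem _ he), by
    simp [quad_add, quad_smul, h0, ← hc, mul_comm]⟩

theorem exists_sq_move (h2 : (2 : F) ≠ 0) {s : F} (s0 : s ≠ 0) (s1 : s ^ 2 ≠ 1) (hn : (Formed.ofQuad Q).Nondeg)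
    (hW : ((Formed.ofQuad Q).restrict W).Nondeg) (h : 2 ≤ finrank F W) {v y : V} (hy : y ∈ W) (hv : polar Q y v ≠ 0) :
    ∃ T ∈ (Formed.ofQuad Q).isom, (∀ x ∈ (Formed.ofQuad Q).perp W, T x = x) ∧ (T * T) v ≠ v := by
  obtain ⟨a, ha, a1, a2⟩ : ∃ a ∈ W, Q a ≠ 0 ∧ polar Q a v ≠ 0 := by
    by_contra! hc
    obtain ⟨c, c1, c2⟩ := exists_nonsing hW fun e => by rw [e, finrank_bot] at h; omega
    have b0 : Q y = 0 := by_contra fun e => hv (hc y hy e)
    have b1 : Q (y + c) = 0 := by_contra fun e => hv (by simpa [hc c c1 c2] using hc _ (add_mem hy c1) e)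
    have b2 : Q (y - c) = 0 := by_contra fun e => hv (by simpa [hc c c1 c2] using hc _ (sub_mem hy c1) e)
    rw [quad_add] at b1; rw [quad_sub] at b2
    exact mul_ne_zero h2 c2 (by linear_combination b1 + b2 - 2 * b0)
  obtain ⟨e, he, e1, e2⟩ := exists_orth_nonsing h2 hn hW h ha a1
  obtain ⟨t, t0, t1⟩ : ∃ t : F, t ≠ 0 ∧ Q (a + t • e) ≠ 0 := by
    by_contra! hc
    have b1 := hc 1 one_ne_zero
    have b2 := hc s s0
    simp only [quad_add, quad_smul, polar_smul_right, e2, smul_zero] at b1 b2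
    exact mul_ne_zero (sub_ne_zero.2 s1) e1 (by linear_combination b2 - b1)
  refine ⟨(refl Q a * refl Q (a + t • e)).1, Subtype.property _, fun x hx => by
    rw [OG.mul_apply, refl_of_perp (hx _ (add_mem ha (W.smul_mem _ he))), refl_of_perp (hx _ ha)], fun hc => ?_⟩
  have : (refl Q a).1 ((refl Q (a + t • e)).1 v) = (refl Q (a + t • e)).1 ((refl Q a).1 v) := by
    conv_rhs => rw [← hc]
    simp only [← LinearEquiv.mul_apply, ← Subgroup.coe_mul, mul_assoc, refl_mul_cancel]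
  have := congrArg (polar Q e) this
  simp only [refl_apply, polar_sub_right, polar_smul_right, polar_add_right, polar_add_left, polar_smul_left,
    polar_comm Q e a, e2, polar_self', smul_eq_mul] at this
  generalize Q (a + t • e) = c at t1 this
  exact mul_ne_zero (mul_ne_zero (mul_ne_zero (mul_ne_zero (mul_ne_zero h2 h2) t0) e1) a2) a1 (by
    field_simp at this; linear_combination -this)

end Quad

variable {F K : Type*} [Field F] [Field K] [Algebra F K] {V : Type*} [AddCommGroup V] [Module F V]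
  [Module K V] [IsScalarTower F K V] {Q : QuadraticForm F V} {Q' : QuadraticForm K V} {L : Dual F K}
  {X : Subgroup (V ≃ₗ[F] V)} {g : V ≃ₗ[F] V} {u w : V}

local notation "f" => algebraMap F K
local notation "Φ" => Formed.ofQuad Q
local notation "Ψ" => Formed.ofQuad Q'

/-- Standing hypotheses in the orthogonal case. -/
structure TO (Q : QuadraticForm F V) (Q' : QuadraticForm K V) (L : Dual F K) (X : Subgroup (V ≃ₗ[F] V)) : Prop
    extends TS (Formed.ofQuad Q) (Formed.ofQuad Q') L X where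
  sq : ∀ g ∈ (Formed.ofQuad Q').isom, (g * g).restrictScalars F ∈ X
  two : (2 : F) ≠ 0
  four : 4 ≤ finrank K V

namespace TO
variable [Finite K] [FiniteDimensional K V]

omit [Finite K] [FiniteDimensional K V] in
theorem two' (T : TO Q Q' L X) : (2 : K) ≠ 0 := by rw [← map_ofNat f]; exact (map_ne_zero f).2 T.two

omit [Finite K] [FiniteDimensional K V] in
theorem sing (T : TO Q Q' L X) (hu : (Ψ).Sing u) (k : K) : (Φ).Sing (k • u) := by
  have : (Φ).B (k • u) (k • u) = 0 := by rw [T.hB, (Ψ).B_smul_left, (Ψ).B_smul_right, hu.2]; simp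
  exact ⟨(mul_eq_zero.1 ((polar_self' Q _).symm.trans this)).resolve_left T.two, this⟩

omit [Finite K] [FiniteDimensional K V] in
theorem exists_s (T : TO Q Q' L X) : ∃ s : K, s ≠ 0 ∧ s ^ 2 ≠ 1 := by
  haveI : FiniteDimensional F K := .of_finrank_pos T.pr.pos
  obtain ⟨κ, -, hk⟩ := exists_notMem_of_lt (F := F) (U := ⊤) (R := F ∙ (1 : K)) (by
    have := finrank_span_one (F := F) (1 : K); have := T.pr.two_le; rw [finrank_top]; omega)
  refine ⟨κ, by rintro rfl; simp at hk, fun e => ?_⟩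
  rcases mul_self_eq_one_iff.1 ((pow_two κ).symm.trans e) with rfl | rfl <;> simp at hk

omit [Finite K] in
theorem plane (T : TO Q Q' L X) (hw : (Ψ).Sing w) {y : V} (h : (Ψ).B w y ≠ 0) :
    ((Ψ).restrict ((Ψ).pairPerp w y)).Nondeg ∧ 2 ≤ finrank K ((Ψ).pairPerp w y) := by
  refine ⟨T.hn'.restrict_perp (nondeg_plane hw.2 h), ?_⟩
  have := T.hn'.finrank_add_finrank_perp ((K ∙ w) ⊔ K ∙ y)
  have := finrank_sup_one (K ∙ w) y
  have := finrank_span_one (F := K) w
  have := T.four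
  unfold Formed.pairPerp; omega

theorem out (T : TO Q Q' L X) (h : MT Ψ X g u w) : Out K X u := by
  have gd : ∀ {g w}, MT Ψ X g u w → ∀ x ∉ Ak K g u w, (Ψ).B w (g (x • u)) = 0 → Out K X u := fun {g w} h x hx e => by
    obtain ⟨z, hz, hz'⟩ := exists_notMem_of_lt (R := K ∙ w) (U := ⊤ ⊓ pf Ψ ![w, g (x • u)]) (by
      have := finrank_pf («Φ» := Ψ) ![w, g (x • u)] ⊤
      have := finrank_span_one (F := K) w
      have := T.four
      rw [finrank_top] at *; omega)
    exact h.good T.toTS hx e (mem_pf.1 hz.2 0) ((Ψ).B_eq_zero_symm (mem_pf.1 hz.2 1)) hz'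
  by_cases hc : ∃ x ∉ Ak K g u w, (Ψ).B w (g (x • u)) = 0
  · obtain ⟨x, hx, e⟩ := hc
    exact gd h x hx e
  push Not at hc
  obtain ⟨x, hx⟩ : ∃ x, x ∉ Ak K g u w := by by_contra! hc; exact h.top (eq_top_iff.2 fun x _ => hc x)
  obtain ⟨hW, hW'⟩ := T.plane h.ws (hc x hx)
  have pp : ∀ c : K, c • w ∈ (Ψ).perp ((Ψ).pairPerp w (g (x • u))) := fun c =>
    (Ψ).le_perp_perp _ (Submodule.mem_sup_left (Submodule.smul_mem _ _ (Submodule.mem_span_singleton_self _)))
  have py : g (x • u) ∈ (Ψ).perp ((Ψ).pairPerp w (g (x • u))) := (Ψ).le_perp_perp _ (mem_sup_self _ _)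
  have all : ∀ k : K, ∀ z ∈ (Ψ).pairPerp w (g (x • u)), (Ψ).B z (g (k • u)) = 0 := fun k z hz => by_contra fun e => by
    obtain ⟨s, s0, s1⟩ := T.exists_s
    obtain ⟨t, ht, e1, e2⟩ := exists_sq_move T.two' s0 s1 T.hn' hW hW' hz e
    have fx : ∀ v ∈ (Ψ).perp ((Ψ).pairPerp w (g (x • u))), (t * t) v = v := fun v hv => by simp [e1 v hv]
    have bx : ∀ v ∈ (Ψ).perp ((Ψ).pairPerp w (g (x • u))), (Ψ).B v ((t * t) (g (k • u)) - g (k • u)) = 0 :=
      fun v hv => by rw [map_sub, ← (mul_mem ht ht).1 v (g (k • u)), fx v hv, sub_self]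
    obtain ⟨k', e⟩ := h.stab (T.sq t ht) (fun c => fx _ (pp c)) hx (zero_mem _) (by simpa using fx _ py) k
    have e3 : (t * t) (g (k • u)) - g (k • u) = g ((k' - k) • u) := by rw [sub_smul, map_sub, ← e]; rfl
    obtain ⟨c, hc'⟩ := mem_Ak.1 (by_contra fun e => hc (k' - k) e (by rw [← e3, ← one_smul K w]; exact bx _ (pp 1)))
    have := bx _ py
    rw [e3, ← hc', map_smul, smul_eq_mul, mul_eq_zero, (Ψ).B_eq_zero_comm] at this
    exact e2 (sub_eq_zero.1 (by rw [e3, ← hc', this.resolve_right (hc x hx), zero_smul]))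
  obtain ⟨b, hb, b0⟩ := (Submodule.ne_bot_iff _).1 h.B_bot
  obtain ⟨z, hz, e⟩ := exists_Q_eq T.two' T.hn' hW hW' (b / (Ψ).B w (g (x • u)))
  have hz' := (Ψ).mem_pairPerp.1 hz
  obtain ⟨d, t, ht⟩ := exists_isE' T.hn' h.ws hz'.1
  obtain rfl : d = _ := (one_mul d).symm.trans (ht.hQ.trans e)
  have e1 : t (g (x • u)) = g (x • u) - b • w - (Ψ).B w (g (x • u)) • z := by
    rw [ht.app, (Ψ).B_eq_zero_symm hz'.2, div_mul_cancel₀ _ (hc x hx)]; simp [Formed.ofQuad, sub_eq_add_neg]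
  have le := MT.le_conj (g := g) (u := u) (w := w) (t := t.restrictScalars F) fun c : K => by simp [ht.apply_p]
  have hx' : x ∉ Ak K (g⁻¹ * t.restrictScalars F * g) u u := fun hm => by
    obtain ⟨c, hm⟩ := mem_Ak.1 hm
    have e2 : t (g (x • u)) = g (c • u) := by simp [hm]
    obtain rfl : z = 0 := eq_zero_of_nd hW hz fun y hy => by
      have := all c y hy
      rw [← e2, e1, map_sub, map_sub, all x y hy, pp b y hy] at this
      simpa [show polar Q' w (g (x • u)) ≠ 0 from hc x hx] using this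
    exact div_ne_zero b0 (hc x hx) (by simpa using e.symm)
  have hs := mul_mem (mul_mem (inv_mem h.hg) (T.hE _ _ _ _ ht)) h.hg
  refine gd ⟨hs, h.u0, h.us, h.u0, h.us, fun e => hx' (e ▸ Submodule.mem_top), fun e => h.bot (eq_bot_iff.2 (e ▸ le)),
    fun s hs lt => h.max s hs (le.trans_lt lt)⟩ x hx' (eq_zero_of_dual T.L0 fun k => ?_)
  obtain ⟨y, hy⟩ := mem_Ak.1 hb
  have e2 : ∀ k k' : K, (Φ).B (g (k • u)) (g (k' • u)) = 0 := fun k k' => by
    rw [(T.hi h.hg).1, T.hB, (Ψ).B_smul_left, (Ψ).B_smul_right, h.us.2]; simp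
  have := (T.hi h.hg).1 (k • u) (g⁻¹ (t (g (x • u))))
  rw [T.hB (k • u), (Ψ).B_smul_left] at this
  refine this.symm.trans ?_
  rw [show g (g⁻¹ (t (g (x • u)))) = t (g (x • u)) by simp, e1, show b • w = g (y • u) by simp [hy], map_sub, map_sub, e2,
    e2, T.hB, map_smul, (Ψ).B_eq_zero_symm (all k z hz)]
  simp

/-- All Eichler maps of `Φ` with centre in `K u` and data in `u^⊥` lie in `X`. -/
def Big (Q : QuadraticForm F V) (Q' : QuadraticForm K V) (X : Subgroup (V ≃ₗ[F] V)) (u : V) : Prop :=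
  ∀ (k : K) z, (Formed.ofQuad Q').B u z = 0 → ∃ d, HasE (Formed.ofQuad Q) X (k • u) z d

theorem big [FiniteDimensional F V] (T : TO Q Q' L X) (u0 : u ≠ 0) (us : (Ψ).Sing u) (h : Out K X u) : Big Q Q' X u := by
  haveI : FiniteDimensional F K := .of_finrank_pos T.pr.pos
  obtain ⟨lam, x, a₀, l1, l2, a0, H⟩ := h
  obtain ⟨a, ha, k₀, hk⟩ : ∃ a, lam a = 0 ∧ ∃ k, ∀ k', (1 + rk1 a lam) * LinearMap.mul F K k ≠
      LinearMap.mul F K k' * (1 + rk1 a lam) := by
    by_contra! hc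
    exact T.two' (four_of_norm l1 l2 a0 hc).2.1
  obtain ⟨s, hs, e, -⟩ := H a ha
  obtain ⟨u', hp⟩ := T.hn'.exists_isPair u0 us
  let P : (V →ₗ[F] K) → Prop := fun θ => (∀ k : K, θ (k • u) = 0) ∧ ∃ t ∈ X, ∀ v, (Ψ).B u v = 0 → t v = v + θ v • u
  have pu : ∀ {v} (k : K), (Ψ).B u v = 0 → (Ψ).B u (v + k • u) = 0 := fun k h => by rw [map_add, map_smul, h, us.2]; simp
  have ad : ∀ θ θ', P θ → P θ' → P (θ + θ') := fun θ θ' ⟨a1, t, ht, a2⟩ ⟨b1, t', ht', b2⟩ =>
    ⟨by simp [a1, b1], _, mul_mem ht ht', fun v hv => by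
      rw [LinearEquiv.mul_apply, b2 v hv, a2 _ (pu _ hv)]; simp [a1, add_smul, add_assoc, add_comm (θ v • u)]⟩
  have ng : ∀ θ, P θ → P (-θ) := fun θ ⟨a1, t, ht, a2⟩ => ⟨by simp [a1], _, inv_mem ht, fun v hv =>
    t.symm_apply_eq.2 (by rw [a2 _ (pu _ hv)]; simp [a1, -neg_smul, add_assoc, ← add_smul])⟩
  have cj : ∀ s ∈ X, ∀ σ : End F K, (∀ k : K, s (k • u) = σ k • u) → ∀ θ θ', P θ → (∀ k : K, θ' (k • u) = 0) →
      (∀ v, (Ψ).B u v = 0 → θ' (s v) = σ (θ v)) → P θ' := fun s hs σ e θ θ' ⟨a1, t, ht, a2⟩ b1 b2 =>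
    ⟨b1, _, mul_mem (mul_mem hs ht) (inv_mem hs), fun v hv => by
      obtain ⟨v, rfl⟩ := s.surjective v
      have : (Ψ).B u v = 0 := eq_zero_of_dual T.L0 fun k => by
        have := (T.hi hs).1 (k • u) v
        rw [e, T.hB, T.hB, (Ψ).B_smul_left, (Ψ).B_smul_left, hv] at this
        simpa using this.symm
      simp [a2 v this, e, b2 v this]⟩
  let M : Subring (End F K) :=
    { carrier := {ρ | ∀ θ, P θ → P (ρ ∘ₗ θ)}
      mul_mem' := fun ha hb θ h => ha _ (hb θ h)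
      add_mem' := fun ha hb θ h => by rw [LinearMap.add_comp]; exact ad _ _ (ha θ h) (hb θ h)
      one_mem' := fun θ h => h
      zero_mem' := fun θ h => ⟨by simp, 1, one_mem _, by simp⟩
      neg_mem' := fun ha θ h => by rw [LinearMap.neg_comp]; exact ng _ (ha θ h) }
  have hK : ∀ k, LinearMap.mul F K k ∈ M := fun k => by
    have : ∀ κ : K, LinearMap.mul F K (κ * κ) ∈ M := fun κ => by
      rcases eq_or_ne κ 0 with rfl | h0
      · simpa using M.zero_mem
      have e1 : ∀ k : K, (hp.torus (Units.mk0 κ h0)).1 ((hp.torus (Units.mk0 κ h0)).1 (k • u)) = (κ * κ * k) • u :=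
        fun k => by simp [hp.torus_left, smul_smul, mul_comm, mul_left_comm]
      refine fun θ hθ => cj _ (T.sq _ (hp.torus (Units.mk0 κ h0)).2) (LinearMap.mul F K (κ * κ)) e1 θ _ hθ
        (by simp [hθ.1]) fun v hv => ?_
      have e2 : ∀ v, (Ψ).B u v = 0 → ∃ c : K, (hp.torus (Units.mk0 κ h0)).1 v = v + c • u := fun v hv =>
        ⟨_, by rw [hp.torus_apply, hv, mul_zero, zero_smul, add_zero]⟩
      obtain ⟨c, e3⟩ := e2 v hv
      obtain ⟨c', e4⟩ := e2 _ (pu c hv)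
      simp [e3, e4, hθ.1, -map_add]; simp [hθ.1]
    obtain ⟨x, y, rfl⟩ := sum_sq k
    rw [map_add]; exact add_mem (this x) (this y)
  have aa : ∀ k, lam (k + lam k • a) = lam k := fun k => by simp [ha]
  have e' : ∀ k : K, s⁻¹ (k • u) = (1 - rk1 a lam) k • u := fun k => s.symm_apply_eq.2 (by rw [e]; simp [ha])
  obtain ⟨b, μ, b0, μ0, h1⟩ := exists_rk1_of_subring T.pr M hK
    (ρ := (1 + rk1 a lam) * LinearMap.mul F K k₀ * (1 - rk1 a lam))
    (fun θ hθ => cj s hs (1 + rk1 a lam) e _ _ (hK k₀ _ (cj _ (inv_mem hs) _ e' θ ((1 - rk1 a lam) ∘ₗ θ ∘ₗ s.toLinearMap) hθ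
      (by simp [e, hθ.1]) fun v _ => by simp)) (by simp [hθ.1]) fun v _ => by simp) fun k' e => hk k' (by
      rw [← e]; ext; simp [ha])
  obtain ⟨m, hm⟩ := T.exists_rep μ
  have m0 : m ≠ 0 := by rintro rfl; exact μ0 (LinearMap.ext fun k => by simp [hm])
  intro k
  have key : ∀ z, (Ψ).B u z = 0 → ∀ r ∈ X, (∀ c : K, r (c • u) = c • u) → z - r z ∈ AE Φ X (T.sing us k) :=
    fun z hz r hr e => by
      obtain ⟨d, E, hE⟩ := exists_isE' T.hn' us (a := m⁻¹ • z) (by rw [map_smul, hz, smul_zero])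
      obtain ⟨-, t, ht, et⟩ := hK (k / b) _ (h1 (((Ψ).B (m⁻¹ • z)).restrictScalars F) ⟨fun c => by
        rw [LinearMap.restrictScalars_apply, map_smul, hE.ap, smul_zero], _, T.hE _ _ _ _ hE,
        fun v hv => hE.apply_perp hv⟩)
      refine ⟨_, comm_triv T.hn T.hi (P := (K ∙ u).restrictScalars F) (Submodule.smul_mem (K ∙ u) k
        (Submodule.mem_span_singleton_self u)) (T.sing us k) (T.mem_perp.2 hz) ht (fun v hv => ?_) hr fun v hv => ?_⟩
      · rw [et v (T.mem_perp.1 hv), T.hB]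
        simp [hm, m0, div_mul_cancel₀ _ b0]
      · obtain ⟨c, rfl⟩ := Submodule.mem_span_singleton.1 hv; exact e c
  have hW := hp.nondeg_pairPerp T.hn'
  have hW' : 2 ≤ finrank K ((Ψ).pairPerp u u') := (T.plane us (by rw [hp.ef]; simp)).2
  have k1 : ∀ c : K, c • u ∈ AE Φ X (T.sing us k) := fun c => by
    obtain ⟨y, hy, y0⟩ := exists_nonsing hW fun e => by rw [e, finrank_bot] at hW'; omega
    have hy := ((Ψ).mem_pairPerp.1 hy).1
    obtain ⟨d, E, hE⟩ := exists_isE' T.hn' us (a := (-c / (2 * Q' y)) • y) (by rw [map_smul, hy, smul_zero])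
    convert key y hy _ (T.hE _ _ _ _ hE) fun c => by simp [hE.apply_p] using 1
    simp [hE.apply_perp hy, polar_self', div_mul_cancel₀ _ (mul_ne_zero T.two' y0)]
  have k2 : ∀ z ∈ (Ψ).pairPerp u u', z ∈ AE Φ X (T.sing us k) := fun z hz => by
    let A : Submodule K V :=
      { carrier := {z | ∀ c : K, c • z ∈ AE Φ X (T.sing us k)}
        add_mem' := fun h1 h2 c => by rw [smul_add]; exact add_mem (h1 c) (h2 c)
        zero_mem' := fun c => by simp
        smul_mem' := fun c z h c' => by rw [smul_smul]; exact h _ }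
    by_contra hc
    obtain ⟨y, hy, y1, y2⟩ := sep T.hn' hW (S := (Ψ).pairPerp u u' ⊓ A) inf_le_left hz fun e =>
      hc (by simpa using e.2 1)
    obtain ⟨s, s0, s1⟩ := T.exists_s
    obtain ⟨t, ht, e1, e2⟩ := exists_sq_move T.two' s0 s1 T.hn' hW hW' hz (v := y) (by rw [← ofQuad_B_apply, y2]; simp)
    have ht' := inv_mem (mul_mem ht ht)
    have fx : ∀ v ∈ (Ψ).perp ((Ψ).pairPerp u u'), (t * t)⁻¹ v = v := fun v hv =>
      (t * t).symm_apply_eq.2 (by simp [e1 v hv])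
    refine e2 (sub_eq_zero.1 (eq_zero_of_nd hW (sub_mem (mem_of_fix_perp T.hn' (mul_mem ht ht) (fun v hv => by
      simp [e1 v hv]) hy) hy) fun v hv => ?_))
    have := y1 (v - (t * t)⁻¹ v) ⟨sub_mem hv (mem_of_fix_perp T.hn' ht' fx hv), fun c => by
      rw [smul_sub, ← map_smul]
      exact key (c • v) (by rw [map_smul, ((Ψ).mem_pairPerp.1 hv).1, smul_zero]) _
        (inv_mem (T.sq t ht)) fun c => fx _ ((Ψ).le_perp_perp _ (Submodule.mem_sup_left
          (Submodule.smul_mem _ _ (Submodule.mem_span_singleton_self _))))⟩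
    rw [(Ψ).B_sub_left, ← (mul_mem ht ht).1 ((t * t)⁻¹ v)] at this
    rw [map_sub, ← neg_eq_zero, neg_sub, ← this]; simp
  intro z hz
  have := add_mem (k2 _ (hp.sub_mem_pairPerp z)) (k1 ((Ψ).ε * (Ψ).B u' z))
  rwa [hz, zero_smul, sub_zero, sub_add_cancel] at this

theorem EG_le [Finite F] [FiniteDimensional F V] (T : TO Q Q' L X) (u0 : u ≠ 0) (us : (Ψ).Sing u) (h : Big Q Q' X u) :
    EG Φ ≤ X := by
  haveI : FiniteDimensional F K := .of_finrank_pos T.pr.pos
  obtain ⟨u', hp⟩ := T.hn'.exists_isPair u0 us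
  obtain ⟨k, hk⟩ : ∃ k, L k ≠ 0 := by by_contra! hc; exact T.L0 (LinearMap.ext hc)
  obtain ⟨hW, hW'⟩ := T.plane us (y := u') (by rw [hp.ef]; simp)
  obtain ⟨z, hz, e⟩ := exists_Q_eq T.two' T.hn' hW hW' (-k)
  replace hz := (Ψ).mem_pairPerp.1 hz
  obtain ⟨d, s, hs⟩ := exists_isE' T.hn' hp.sf hz.2
  have e1 : (Ψ).B u (s u) = k := by
    rw [hs.app, (Ψ).B_eq_zero_symm hz.1, hp.fe, (one_mul d).symm.trans (hs.hQ.trans e), map_sub, map_add, map_smul,
      map_smul, hp.ef, hz.1, us.2]; simp [Formed.ofQuad]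
  have k0 : (Ψ).B u (s u) ≠ 0 := by rw [e1]; rintro rfl; simp at hk
  have hs' := T.hE _ _ _ _ hs
  have h' : Big Q Q' X (s u) := fun c z hz => by
    obtain ⟨z, rfl⟩ := s.surjective z
    obtain ⟨d, hd⟩ := h c z (hs.mem_isom.1 u z ▸ hz)
    exact ⟨d, by simpa using hd.conj hs' (T.hi hs')⟩
  have us' : (Φ).Sing u := by simpa using T.sing us 1
  have hd := finrank_mul_finrank F K V
  have h3 : 3 ≤ finrank F V := by have := T.pr.two_le; have := T.four; nlinarith
  refine EG_le_of_full' T.hn (full_of_AE' T.hn h3 (notSp2_quad Q) u0 us' fun a ha => ?_) hs' (T.hi hs')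
    (by rwa [T.hB, LinearEquiv.restrictScalars_apply, e1])
  obtain ⟨hW, hW'⟩ := T.plane us k0
  obtain ⟨y, hy, y0⟩ := exists_nonsing hW fun e => by rw [e, finrank_bot] at hW'; omega
  replace hy := (Ψ).mem_pairPerp.1 hy
  have b1 : (Ψ).B u (a - ((Ψ).B u a / (Ψ).B u (s u)) • s u) = 0 := by
    rw [map_sub, map_smul, smul_eq_mul, div_mul_cancel₀ _ k0, sub_self]
  generalize (Ψ).B u a / (Ψ).B u (s u) = c at b1
  obtain ⟨d₁, h1⟩ := h 1 _ b1
  obtain ⟨d₂, h2⟩ := h 1 y hy.1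
  obtain ⟨d₃, h3⟩ := h' c (((L k)⁻¹ • k / (2 * Q' y)) • y) (by rw [map_smul, hy.2, smul_zero])
  rw [one_smul] at h1 h2
  have h4 := h3.move h2 ((Φ).B_eq_zero_symm (by simpa [ha, -Formed.ofQuad_B] using h1.pa))
    (by rw [T.hB, (Ψ).B_smul_left, (Ψ).B_eq_zero_symm hy.1]; simp) (by rw [T.hB, (Ψ).B_smul_left, hy.2]; simp)
  rw [T.hB, (Ψ).B_smul_left, ofQuad_B_apply, polar_self', RingHom.id_apply, div_mul_cancel₀ _ (mul_ne_zero T.two' y0),
    map_smul, smul_eq_mul, inv_mul_cancel₀ hk, one_smul] at h4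
  exact ⟨_, (h1.mul h4).congr (sub_add_cancel _ _) rfl⟩

theorem mem_normG [Finite V] (T : TO Q Q' L X) (hg : g ∈ X)
    (H : ∀ g ∈ X, ∀ u w, u ≠ 0 → (Ψ).Sing u → w ≠ 0 → (Ψ).Sing w → Ak K g u w ≠ ⊥ → Ak K g u w = ⊤) :
    g ∈ normG (scal F K V) := by
  have one : ∀ {g : V ≃ₗ[F] V} {u w}, g u = w → Ak K g u w ≠ ⊥ := fun e =>
    (Submodule.ne_bot_iff _).2 ⟨1, mem_Ak.2 ⟨1, by simp [e]⟩, one_ne_zero⟩
  have sg : ∀ u, u ≠ 0 → (Ψ).Sing u → (Ψ).Sing (g u) := fun u u0 us => by_contra fun hc => by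
    have h0 : Q' (g u) ≠ 0 := fun e => hc (Formed.sing_ofQuad.2 e)
    have h1 := T.hn'.restrict_perp (nondeg_span_nonsing T.two' h0)
    have h3 : 3 ≤ finrank K ((Ψ).perp (K ∙ g u)) := by
      have := T.hn'.finrank_add_finrank_perp (K ∙ g u); have := finrank_span_one (F := K) (g u); have := T.four; omega
    by_cases hy : ∃ k : K, ∃ y ∈ (Ψ).perp (K ∙ g u), (Ψ).B y (g (k • u)) ≠ 0
    · obtain ⟨k, hy⟩ := hy
      have := le_of_inv T.hn' h1 h3 (LinearMap.range (g.toLinearMap ∘ₗ kv F K u)).toAddSubgroup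
        (fun x hx y hy d t ht a ⟨k, e⟩ => by
          obtain ⟨c, hc⟩ := mem_Ak.1 (H _ (mul_mem (mul_mem (inv_mem hg) (T.hE _ _ _ _ ht)) hg) u u u0 us u0 us
            (one (by simp [ht.app, (Ψ).B_eq_zero_symm (hx _ (Submodule.mem_span_singleton_self _)),
              (Ψ).B_eq_zero_symm (hy _ (Submodule.mem_span_singleton_self _)), -Formed.ofQuad_B])) ▸ Submodule.mem_top : k ∈ _)
          exact ⟨c, by simp [hc, ← e]⟩) (a := g (k • u)) ⟨k, rfl⟩ hy
      obtain ⟨w, hw, w0, ws⟩ := exists_sing_notMem Ψ (U := (Ψ).perp (K ∙ g u)) (R := ⊥) (by simpa)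
      have := Ak_eq_top (g := g) (u := u) (by simpa using w0) (eq_top_iff.2 fun c _ => by
        obtain ⟨k, e⟩ := this _ (Submodule.smul_mem _ c hw)
        exact mem_Ak.2 ⟨k, by simp [← e]⟩)
      obtain ⟨c, e⟩ := mem_Ak.1 (this ▸ Submodule.mem_top : (1 : K) ∈ _)
      exact h0 (by rw [← one_smul K u, ← e, quad_smul, show Q' w = 0 from ws.1, mul_zero])
    push Not at hy
    have := Ak_eq_top (g := g⁻¹) (u := g u) u0 (eq_top_iff.2 fun k _ =>
      show _ ∈ K ∙ g u from T.hn'.perp_perp (K ∙ g u) ▸ hy k)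
    refine mul_ne_zero T.two' h0 ((polar_self' Q' _).symm.trans (eq_zero_of_dual T.L0 fun k => ?_))
    obtain ⟨c, e⟩ := mem_Ak.1 (this ▸ Submodule.mem_top : k ∈ _)
    have := (T.hi hg).1 (c • u) u
    rw [T.hB, T.hB, (Ψ).B_smul_left c, us.2, e] at this
    simpa using this
  refine (inv_mem_iff.1 (mem_normG_scal.2 fun k => ?_))
  have : ∀ u, ∃ c : K, (Ψ).Sing u → g⁻¹ (k • g u) = c • u := fun u => by
    by_cases us : (Ψ).Sing u
    · rcases eq_or_ne u 0 with rfl | u0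
      · exact ⟨0, by simp⟩
      obtain ⟨c, e⟩ := mem_Ak.1 (H _ (inv_mem hg) (g u) u (by simpa) (sg u u0 us) u0 us (one (by simp)) ▸
        Submodule.mem_top : k ∈ _)
      exact ⟨c, fun _ => e.symm⟩
    · exact ⟨0, fun h => absurd h us⟩
  choose c hc using this
  have key : ∀ u v, (Ψ).Sing u → (Ψ).Sing v → (Ψ).B u v ≠ 0 → c u = c v := fun u v us vs e => by
    obtain ⟨hW, hW'⟩ := T.plane us e
    obtain ⟨y, hy, e'⟩ := exists_Q_eq T.two' T.hn' hW hW' (polar Q' u v)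
    replace hy := mem_pairPerp_quad.1 hy
    have s1 : ∀ t : K, t * t = 1 → (Ψ).Sing (u - v + t • y) := fun t ht => Formed.sing_ofQuad.2 (by
      simp [quad_add, quad_sub, quad_smul, hy.1, hy.2, e', show Q' u = 0 from us.1, show Q' v = 0 from vs.1, pow_two, ht])
    have a1 := hc _ (s1 1 (by simp))
    have a2 := hc _ (s1 (-1) (by simp))
    generalize c (u - v + (1 : K) • y) = c₁ at a1
    generalize c (u - v + (-1 : K) • y) = c₂ at a2
    simp only [one_smul, neg_smul, map_add, map_sub, map_neg, smul_add, smul_sub, smul_neg, hc u us, hc v vs] at a1 a2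
    have a3 : c₁ • (u - v + y) + c₂ • (u - v - y) = (2 * c u) • u - (2 * c v) • v := by
      linear_combination (norm := module) -a1 - a2
    have a4 := congrArg (polar Q' u) a3
    have a5 := congrArg (polar Q' v) a3
    simp only [polar_add_right, polar_sub_right, polar_smul_right, hy.1, hy.2, show polar Q' u u = 0 from us.2,
      show polar Q' v v = 0 from vs.2, polar_comm Q' v u, smul_eq_mul] at a4 a5
    exact mul_left_cancel₀ (mul_ne_zero T.two' e) (by rw [ofQuad_B_apply]; linear_combination -a4 - a5)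
  obtain ⟨u, u0, us⟩ := exists_sing_top Ψ (by have := T.four; omega)
  obtain ⟨u', hp⟩ := T.hn'.exists_isPair u0 us
  refine ⟨c u, fun v => ?_⟩
  obtain ⟨v, rfl⟩ := g.surjective v
  simpa using sing_ind (W := ⊤) trivial trivial hp (LinearMap.eqLocus
    ((g⁻¹).toLinearMap ∘ₗ (LinearMap.lsmul K V k).restrictScalars F ∘ₗ g.toLinearMap)
    ((LinearMap.lsmul K V (c u)).restrictScalars F)).toAddSubgroup (fun x _ xs => show g⁻¹ (k • g x) = c u • x by
      rcases eq_or_ne x 0 with rfl | x0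
      · simp
      rw [hc x xs]; congr 1
      by_cases e : (Ψ).B x u = 0
      · obtain ⟨w, -, ws, w1, w2⟩ := exists_sing_both T.hn' (nondeg_top T.hn') trivial u0 us trivial x0 e
        rw [key x w xs ws w2, key u w us ws w1]
      · exact key x u xs us e) v trivial

end TO

theorem isMaximalIn_extO' [Finite F] [Finite V] (hn : (Φ).Nondeg) (hr : (finrank F K).Prime) (h2 : (2 : F) ≠ 0)
    (h4 : 4 ≤ finrank K V) (hL : L 1 = 1) (hB : ∀ x y, (Φ).B x y = L ((Ψ).B x y)) (hn' : (Ψ).Nondeg) :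
    Geo.IsMaximalIn (EG Φ) (normG (scal F K V) ⊓ EG Φ) := by
  haveI : FiniteDimensional F K := .of_finrank_pos hr.pos
  haveI : FiniteDimensional K V := .of_finrank_pos (by omega)
  haveI := FiniteDimensional.trans F K V
  haveI : Finite K := Module.finite_of_finite F
  have L0 : L ≠ 0 := by rintro rfl; simp at hL
  have h2' : (2 : K) ≠ 0 := by rw [← map_ofNat f]; exact (map_ne_zero f).2 h2
  have hd := finrank_mul_finrank F K V
  have h5 : 5 ≤ finrank F V := by have := hr.two_le; nlinarith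
  have sq : ∀ g ∈ (Ψ).isom, (g * g).restrictScalars F ∈ normG (scal F K V) ⊓ EG Φ := fun g hg => by
    let g' : OG Q := ⟨g.restrictScalars F, Formed.mem_isom_ofQuad.2 fun x => mul_left_cancel₀ h2 (by
      rw [← polar_self', ← polar_self', ← ofQuad_B_apply, ← ofQuad_B_apply, hB, hB x]; exact congrArg L (hg.1 x x))⟩
    have hx := notExc_of_two_ne_zero (Q := Q) h2
    exact ⟨mem_normG_scal.2 fun k => ⟨k, fun v => by simp⟩, (mem_EG_quad hn h5 (g := g' * g')).2
      ((mem_commutator_iff hn hx _).2 ⟨by rw [dick_mul hn hx, Int.units_mul_self], by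
        rw [spin_mul hn hx, Int.units_mul_self]⟩)⟩
  have T : ∀ X, normG (scal F K V) ⊓ EG Φ ≤ X → X ≤ EG Φ → TO Q Q' L X := fun X hX hX' =>
    ⟨⟨hn, hn', hB, L0, hr, hX'.trans EG_le_isom, fun p a d s hs => by
      obtain ⟨d', s', hs'⟩ := exists_isE' hn' hs.sp (a := (2 : K)⁻¹ • a) (by rw [map_smul, hs.pa, smul_zero])
      have h6 := hs'.mul hs'
      rw [← two_smul K, smul_inv_smul₀ h2'] at h6
      rw [hs.ext (h6.congr rfl ((one_mul _).symm.trans (h6.hQ.trans (hs.hQ.symm.trans (one_mul _)))))]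
      exact hX (sq _ hs'.mem_isom)⟩, fun g hg => hX (sq g hg), h2, h4⟩
  refine max_crit inf_le_right ?_ fun X hX hX' g hg hg' => ?_
  · obtain ⟨u, u0, us⟩ := exists_sing_top Ψ (by omega)
    obtain ⟨w, hp⟩ := hn'.exists_isPair u0 us
    replace T := T _ le_rfl inf_le_right
    obtain ⟨y, hy, y0⟩ := exists_nonsing (hp.nondeg_pairPerp hn') fun e => by
      have := (T.plane us (y := w) (by rw [hp.ef]; simp)).2; rw [e, finrank_bot] at this; omega
    replace hy := (Ψ).mem_pairPerp.1 hy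
    obtain ⟨d, t, ht⟩ := exists_isE' hn (by simpa using T.sing us 1) (a := y) (by rw [hB, hy.1, map_zero])
    refine ⟨t, IsE_mem_EG ht, fun hc => ?_⟩
    obtain ⟨c, c0, c1⟩ := exists_kerL hr.two_le L
    obtain ⟨k, e⟩ := mem_normG_scal.1 hc.1 c⁻¹
    replace e := congrArg ((Ψ).B y) (e (c • w))
    rw [inv_smul_smul₀ c0, ht.app, ht.app, hB u, hB u, map_smul ((Ψ).B u), hp.ef, smul_eq_mul, mul_one, c1, hL] at e
    simp only [map_sub, map_add, map_smul, ← algebraMap_smul K (_ : F), (Ψ).B_eq_zero_symm hy.1,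
      (Ψ).B_eq_zero_symm hy.2] at e
    simp [Formed.ofQuad, polar_self', h2', y0] at e
  replace T := T X hX hX'
  by_contra hc
  refine hg' ⟨T.mem_normG hg fun g hg u w u0 us w0 ws h0 => by_contra fun h1 => hc ?_, hX' hg⟩
  obtain ⟨g, u, w, h⟩ := exists_MT hg u0 us w0 ws h1 h0
  exact T.EG_le h.u0 h.us (T.big h.u0 h.us (T.out h))

theorem isMaximalIn_extO [Finite F] [Finite V] (hn : (Φ).Nondeg) (hr : (finrank F K).Prime) (h2 : (2 : F) ≠ 0)
    (h4 : 4 ≤ finrank K V) (hsa : ∀ (k : K) u v, polar Q (k • u) v = polar Q u (k • v)) :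
    Geo.IsMaximalIn (EG Φ) (normG (scal F K V) ⊓ EG Φ) := by
  haveI : FiniteDimensional F K := .of_finrank_pos hr.pos
  haveI : FiniteDimensional K V := .of_finrank_pos (by omega)
  obtain ⟨L, hL, -⟩ := exists_fun (S := (⊥ : Submodule F K)) (w := 1) (by simp)
  have L0 : L ≠ 0 := by rintro rfl; simp at hL
  obtain ⟨B', h1, h3⟩ := exists_trace_form hn L0 hsa
  have h2' : (2 : K) ≠ 0 := by rw [← map_ofNat f]; exact (map_ne_zero f).2 h2
  have sy : ∀ x y, B' x y = B' y x := fun x y => sub_eq_zero.1 (eq_zero_of_dual L0 fun k => by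
    have a1 := h1 (k • x) y
    have a2 := h1 y (k • x)
    simp only [map_smul, LinearMap.smul_apply, smul_eq_mul, ofQuad_B_apply] at a1 a2
    rw [mul_sub, map_sub, ← a1, ← a2, polar_comm, sub_self])
  obtain ⟨Q', hQ⟩ : ∃ Q' : QuadraticForm K V, ∀ x y, polar Q' x y = B' x y :=
    ⟨LinearMap.BilinMap.toQuadraticMap ((2 : K)⁻¹ • B'), fun x y => by
      rw [LinearMap.BilinMap.polar_toQuadraticMap]; simp [sy y x]; field_simp; ring⟩
  exact isMaximalIn_extO' (Q' := Q') hn hr h2 h4 hL (fun x y => by rw [h1, ofQuad_B_apply, hQ])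
    fun x hx => h3 x fun y => (hQ x y).symm.trans (hx y)

end Cfsg.Agent.Root.Mx
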