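import Cfsg.Agent.Root.RankOne

/-! Abstract root subgroups (Timmesfeld), basics. `CC A B C` is the commutator case with `C = ⁅A, B⁆`;
`RS S` are the axioms of a set of abstract root subgroups without the generation axiom;
`NI S A` says that `A` has a rank one partner in `S`. Main results: `RS.eq_of_mul_mem` (no root element
`z a` with `1 ≠ z` centralizing `⟨A, B⟩`), `RS.ti`, `RS.cc_of_mem`, the triangle lemma `RS.triangle`. -/

namespace Cfsg.Agent.Root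
open Cfsg

variable {G : Type*} [Group G] {S : Set (Subgroup G)} {A B C D E F : Subgroup G}

/-- The commutator case for the pair `(A, B)`, with commutator subgroup `C`. -/
structure CC (A B C : Subgroup G) : Prop where
  eq : ⁅A, B⁆ = C
  cA : Comm C A
  cB : Comm C B
  surjL : ∀ a ∈ A, a ≠ 1 → ∀ c ∈ C, ∃ b ∈ B, c = a * b * a⁻¹ * b⁻¹
  surjR : ∀ b ∈ B, b ≠ 1 → ∀ c ∈ C, ∃ a ∈ A, c = a * b * a⁻¹ * b⁻¹

namespace CC

theorem mem (h : CC A B C) {a b : G} (ha : a ∈ A) (hb : b ∈ B) : a * b * a⁻¹ * b⁻¹ ∈ C :=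
  h.eq ▸ Subgroup.commutator_mem_commutator ha hb

theorem symm (h : CC A B C) : CC B A C := by
  refine ⟨by rw [Subgroup.commutator_comm, h.eq], h.cB, h.cA, fun b hb hb1 c hc => ?_,
    fun a ha ha1 c hc => ?_⟩
  · obtain ⟨a, ha, e⟩ := h.surjR b hb hb1 c⁻¹ (C.inv_mem hc)
    exact ⟨a, ha, by rw [← inv_inv c, e]; group⟩
  · obtain ⟨b, hb, e⟩ := h.surjL a ha ha1 c⁻¹ (C.inv_mem hc)
    exact ⟨b, hb, by rw [← inv_inv c, e]; group⟩

theorem conj (h : CC A B C) (g : G) : CC (conjBy A g) (conjBy B g) (conjBy C g) := by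
  refine ⟨by rw [← conjBy_commutator, h.eq], h.cA.conj g, h.cB.conj g, ?_, ?_⟩
  · intro a' ha' ha1 c' hc'
    obtain ⟨a, ha, rfl⟩ := mem_conjBy'.1 ha'
    obtain ⟨c, hc, rfl⟩ := mem_conjBy'.1 hc'
    obtain ⟨b, hb, rfl⟩ := h.surjL a ha (by rintro rfl; simp at ha1) c hc
    exact ⟨_, conj_mem_conjBy g hb, by group⟩
  · intro b' hb' hb1 c' hc'
    obtain ⟨b, hb, rfl⟩ := mem_conjBy'.1 hb'
    obtain ⟨c, hc, rfl⟩ := mem_conjBy'.1 hc'
    obtain ⟨a, ha, rfl⟩ := h.surjR b hb (by rintro rfl; simp at hb1) c hc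
    exact ⟨_, conj_mem_conjBy g ha, by group⟩

theorem unique (h : CC A B C) (h' : CC A B D) : C = D := h.eq.symm.trans h'.eq

theorem conjBy_le (h : CC A B C) {a : G} (ha : a ∈ A) : conjBy B a ≤ B ⊔ C := by
  rw [conjBy_le_iff]
  intro b hb
  have : a * b * a⁻¹ = a * b * a⁻¹ * b⁻¹ * b := by group
  rw [this]
  exact Subgroup.mul_mem _ (Subgroup.mem_sup_right (h.mem ha hb)) (Subgroup.mem_sup_left hb)

theorem conjBy_le' (h : CC A B C) {b : G} (hb : b ∈ B) : conjBy A b ≤ A ⊔ C := h.symm.conjBy_le hb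

theorem comm_conj (h : CC A B C) (hB : Comm B B) {a : G} (ha : a ∈ A) : Comm (conjBy B a) B :=
  (Comm.sup_left hB h.cB).mono (h.conjBy_le ha) le_rfl

theorem not_comm (h : CC A B C) (hA : A ≠ ⊥) (hC : C ≠ ⊥) : ¬ Comm A B := fun hc =>
  hC (h.eq ▸ comm_iff.2 hc)

theorem not_rankOne (h : CC A B C) (hB : Comm B B) : ¬ IsRankOnePair A B := by
  intro hr
  obtain ⟨a, ha, ha1⟩ := R1.exists_left hr
  exact R1.not_comm (R1.pair_conj_left hr ha ha1).1 (h.comm_conj hB ha).symm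

theorem comm_mul_right (h : CC A B C) {a b b' : G} (ha : a ∈ A) (hb : b ∈ B) (hb' : b' ∈ B) :
    a * (b * b') * a⁻¹ * (b * b')⁻¹ = (a * b * a⁻¹ * b⁻¹) * (a * b' * a⁻¹ * b'⁻¹) := by
  have := h.cB _ (h.mem ha hb') b hb
  calc _ = a * b * a⁻¹ * b⁻¹ * (b * (a * b' * a⁻¹ * b'⁻¹)) * b⁻¹ := by group
    _ = _ := by rw [← this]; group

theorem comm_mul_left (h : CC A B C) {a a' b : G} (ha : a ∈ A) (ha' : a' ∈ A) (hb : b ∈ B) :
    (a * a') * b * (a * a')⁻¹ * b⁻¹ = (a' * b * a'⁻¹ * b⁻¹) * (a * b * a⁻¹ * b⁻¹) := by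
  have := h.cA _ (h.mem ha' hb) a ha
  calc _ = (a * (a' * b * a'⁻¹ * b⁻¹)) * (b * a⁻¹ * b⁻¹) := by group
    _ = _ := by rw [← this]; group

end CC

theorem closure_comm_image_left {a : G} (hc : Comm ⁅A, B⁆ B) (ha : a ∈ A) {c : G}
    (h : c ∈ Subgroup.closure ((fun b : G => a * b * a⁻¹ * b⁻¹) '' (B : Set G))) :
    ∃ b ∈ B, c = a * b * a⁻¹ * b⁻¹ := by
  have hm : ∀ b ∈ B, a * b * a⁻¹ * b⁻¹ ∈ ⁅A, B⁆ := fun b hb =>
    Subgroup.commutator_mem_commutator ha hb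
  induction h using Subgroup.closure_induction with
  | mem x hx => obtain ⟨b, hb, rfl⟩ := hx; exact ⟨b, hb, rfl⟩
  | one => exact ⟨1, B.one_mem, by simp⟩
  | mul x y _ _ hx hy =>
    obtain ⟨b, hb, rfl⟩ := hx
    obtain ⟨b', hb', rfl⟩ := hy
    refine ⟨b * b', B.mul_mem hb hb', ?_⟩
    have := hc _ (hm b' hb') b hb
    calc _ = a * b * a⁻¹ * b⁻¹ * (a * b' * a⁻¹ * b'⁻¹ * b) * b⁻¹ := by group
      _ = _ := by rw [this]; group
  | inv x _ hx =>
    obtain ⟨b, hb, rfl⟩ := hx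
    refine ⟨b⁻¹, B.inv_mem hb, ?_⟩
    have := hc _ (Subgroup.inv_mem _ (hm b hb)) b⁻¹ (B.inv_mem hb)
    calc _ = ((a * b * a⁻¹ * b⁻¹)⁻¹ * b⁻¹) * b := by group
      _ = _ := by rw [this]; group

theorem closure_comm_image_right {b : G} (hc : Comm ⁅A, B⁆ A) (hb : b ∈ B) {c : G}
    (h : c ∈ Subgroup.closure ((fun a : G => a * b * a⁻¹ * b⁻¹) '' (A : Set G))) :
    ∃ a ∈ A, c = a * b * a⁻¹ * b⁻¹ := by
  have h' : c⁻¹ ∈ Subgroup.closure ((fun a : G => b * a * b⁻¹ * a⁻¹) '' (A : Set G)) := by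
    refine Subgroup.inv_mem _ ((Subgroup.closure_le _).2 ?_ h)
    rintro _ ⟨a, ha, rfl⟩
    have : a * b * a⁻¹ * b⁻¹ = (b * a * b⁻¹ * a⁻¹)⁻¹ := by group
    simp only [this]
    exact Subgroup.inv_mem _ (Subgroup.subset_closure ⟨a, ha, rfl⟩)
  obtain ⟨a, ha, e⟩ := closure_comm_image_left (A := B) (B := A)
    (by rwa [Subgroup.commutator_comm]) hb h'
  exact ⟨a, ha, by rw [← inv_inv c, e]; group⟩

theorem rootCommutatorCase_iff : RootCommutatorCase S A B ↔ ⁅A, B⁆ ∈ S ∧ CC A B ⁅A, B⁆ := by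
  refine and_congr_right fun _ => ⟨?_, fun h => ⟨?_, ?_, ?_⟩⟩
  · rintro ⟨h1, h2, h3⟩
    have cA : Comm ⁅A, B⁆ A := fun c hc a ha => h1 c hc a (Subgroup.mem_sup_left ha)
    have cB : Comm ⁅A, B⁆ B := fun c hc a ha => h1 c hc a (Subgroup.mem_sup_right ha)
    exact ⟨rfl, cA, cB, fun a ha ha1 c hc => closure_comm_image_left cB ha (h2 a ha ha1 ▸ hc),
      fun b hb hb1 c hc => closure_comm_image_right cA hb (h3 b hb hb1 ▸ hc)⟩
  · exact fun c hc => comm_sup_elem (h.cA c hc) (h.cB c hc)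
  · intro a ha ha1
    apply le_antisymm
    · rw [Subgroup.closure_le]; rintro _ ⟨b, hb, rfl⟩; exact h.mem ha hb
    · intro c hc
      obtain ⟨b, hb, rfl⟩ := h.surjL a ha ha1 c hc
      exact Subgroup.subset_closure ⟨b, hb, rfl⟩
  · intro b hb hb1
    apply le_antisymm
    · rw [Subgroup.closure_le]; rintro _ ⟨a, ha, rfl⟩; exact h.mem ha hb
    · intro c hc
      obtain ⟨a, ha, rfl⟩ := h.surjR b hb hb1 c hc
      exact Subgroup.subset_closure ⟨a, ha, rfl⟩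

/-- The axioms for a set of abstract root subgroups of the subgroup it generates. -/
structure RS (S : Set (Subgroup G)) : Prop where
  comm : ∀ A ∈ S, Comm A A
  ne_bot : ∀ A ∈ S, A ≠ ⊥
  conj_mem : ∀ A ∈ S, ∀ B ∈ S, ∀ b ∈ B, conjBy A b ∈ S
  pair : ∀ A ∈ S, ∀ B ∈ S, Comm A B ∨ IsRankOnePair A B ∨ ∃ C ∈ S, CC A B C

theorem rs_of (h : IsRootSubgroupSet S) : RS S where
  comm A hA := comm_self_iff.2 (h.commutative A hA)
  ne_bot := h.ne_bot
  conj_mem A hA _ _ b _ := h.conj_mem A hA b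
  pair A hA B hB := by
    rcases h.pair A hA B hB with e | e | e
    · exact Or.inl (comm_iff.1 e)
    · exact Or.inr (Or.inl e)
    · exact Or.inr (Or.inr ⟨_, rootCommutatorCase_iff.1 e⟩)

/-- `A` is not isolated in the graph of rank one pairs. -/
def NI (S : Set (Subgroup G)) (A : Subgroup G) : Prop := ∃ B ∈ S, IsRankOnePair A B

theorem ni_iff (hA : A ∈ S) : ¬ IsIsolatedIn (FAdj S) S A ↔ NI S A := by
  constructor
  · intro h
    by_contra hn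
    exact h ⟨hA, fun B => ⟨fun h => hn ⟨B, h.2.1, h.2.2⟩, fun h => hn ⟨B, h.1, R1.symm h.2.2⟩⟩⟩
  · rintro ⟨B, hB, h⟩ hi
    exact (hi.2 B).1 ⟨hA, hB, h⟩

namespace RS

theorem exists_ne_one (h : RS S) (hA : A ∈ S) : ∃ a ∈ A, a ≠ 1 := by
  obtain ⟨⟨a, ha⟩, ha1⟩ := Subgroup.ne_bot_iff_exists_ne_one.1 (h.ne_bot A hA)
  exact ⟨a, ha, fun e => ha1 (Subtype.ext e)⟩

theorem conj_mem_iSup (h : RS S) (hA : A ∈ S) {g : G} (hg : g ∈ ⨆ B ∈ S, B) : conjBy A g ∈ S :=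
  conjBy_mem_of_iSup (fun B hB b hb C hC => h.conj_mem C hC B hB b hb) g hg A hA

theorem conj_mem_sup (h : RS S) (hE : E ∈ S) (hA : A ∈ S) (hB : B ∈ S) {g : G} (hg : g ∈ A ⊔ B) :
    conjBy E g ∈ S :=
  conjBy_mem_of_sup (fun a ha C hC => h.conj_mem C hC A hA a ha)
    (fun a ha C hC => h.conj_mem C hC B hB a ha) g hg E hE

theorem ni_conj (h : RS S) (hA : NI S A) {g : G} (hg : g ∈ ⨆ B ∈ S, B) : NI S (conjBy A g) := by
  obtain ⟨B, hB, hr⟩ := hA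
  exact ⟨_, h.conj_mem_iSup hB hg, R1.conj hr g⟩

theorem ni_conj' (h : RS S) (hA : NI S A) (hE : E ∈ S) {g : G} (hg : g ∈ E) : NI S (conjBy A g) := by
  obtain ⟨B, hB, hr⟩ := hA
  exact ⟨_, h.conj_mem B hB E hE g hg, R1.conj hr g⟩

theorem not_cc (h : RS S) (hB : B ∈ S) (hr : IsRankOnePair A B) : ¬ CC A B C :=
  fun hc => hc.not_rankOne (h.comm B hB) hr

theorem not_comm_of_cc (h : RS S) (hA : A ∈ S) (hC : C ∈ S) (hc : CC A B C) : ¬ Comm A B :=
  hc.not_comm (h.ne_bot A hA) (h.ne_bot C hC)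

/-- If `e ∈ E` moves `B` to a subgroup not commuting with `B`, then `E`, `B` is a rank one pair. -/
theorem rankOne_of_not_comm_conj (h : RS S) (hE : E ∈ S) (hB : B ∈ S) {e : G} (he : e ∈ E)
    (hn : ¬ Comm B (conjBy B e)) : IsRankOnePair E B := by
  rcases h.pair E hE B hB with hc | hc | ⟨C, -, hc⟩
  · exact absurd (by rw [hc.conjBy_eq he]; exact h.comm B hB) hn
  · exact hc
  · exact absurd (hc.comm_conj (h.comm B hB) he).symm hn

/-- The basic lemma: if `z` centralizes the rank one group `⟨A, B⟩` and `z a` is a root element for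
some `1 ≠ a ∈ A`, then `z = 1`. -/
theorem eq_of_mul_mem (h : RS S) (hA : A ∈ S) (hB : B ∈ S) (hr : IsRankOnePair A B) (hE : E ∈ S)
    {z a : G} (hzA : ∀ x ∈ A, z * x = x * z) (hzB : ∀ x ∈ B, z * x = x * z) (ha : a ∈ A)
    (ha1 : a ≠ 1) (hm : z * a ∈ E) : E = A ∧ z = 1 := by
  have e1 : conjBy B (z * a) = conjBy B a := by
    rw [hzA a ha, conjBy_mul_of_eq _ (conjBy_eq_of_comm hzB)]
  have hp := R1.pair_conj_left hr ha ha1
  have hEB := h.rankOne_of_not_comm_conj hE hB hm (e1 ▸ R1.not_comm hp.1)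
  have hza : z * a ≠ 1 := by
    intro e; rw [e, conjBy_one] at e1; exact hp.1.ne e1
  have e2 : E ⊔ B = A ⊔ B := by rw [← (R1.pair_conj_left hEB hm hza).2, e1, hp.2]
  have hEm : E ∈ unipotentSubgroups A B := by
    obtain ⟨x, hx, e⟩ := R1.exists_conj_eq (R1.symm hEB)
    rw [← e]
    exact R1.conj_mem_unip (R1.right_mem_unip hr) (by rwa [← e2, sup_comm])
  have hEA : E = A := by
    refine R1.eq_of_norm hr hEm R1.left_mem_unip hm hza ?_
    rw [conjBy_mul_of_mem _ ha, conjBy_eq_of_comm hzA]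
  subst hEA
  refine ⟨rfl, R1.eq_one_left hr ?_ (conjBy_eq_of_comm hzB)⟩
  simpa using E.mul_mem hm (E.inv_mem ha)

/-- A non-isolated root subgroup meets the other root subgroups trivially. -/
theorem ti (h : RS S) (hA : A ∈ S) (hn : NI S A) (hE : E ∈ S) {x : G} (hxA : x ∈ A) (hxE : x ∈ E)
    (hx : x ≠ 1) : E = A := by
  obtain ⟨B, hB, hr⟩ := hn
  exact (h.eq_of_mul_mem hA hB hr hE (z := 1) (by simp) (by simp) hxA hx (by simpa)).1

theorem cc_of_mem (h : RS S) (hA : A ∈ S) (hB : B ∈ S) (hC : ⁅A, B⁆ ∈ S) : CC A B ⁅A, B⁆ := by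
  rcases h.pair A hA B hB with hc | hr | ⟨C, -, hc⟩
  · exact absurd (comm_iff.2 hc) (h.ne_bot _ hC)
  · exfalso
    have hn : ∀ x ∈ A ⊔ B, conjBy ⁅A, B⁆ x = ⁅A, B⁆ := fun x hx =>
      conjBy_eq_iff_mem_normalizer.2 ((sup_le (Subgroup.normalizer_commutator_ge_left A B)
        (Subgroup.normalizer_commutator_ge_right A B)) hx)
    obtain ⟨a, ha, ha1⟩ := R1.exists_left hr
    have hp := R1.pair_conj_left hr ha ha1
    have hle : conjBy B a ≤ B ⊔ ⁅A, B⁆ := by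
      rw [conjBy_le_iff]
      intro b hb
      have : a * b * a⁻¹ = a * b * a⁻¹ * b⁻¹ * b := by group
      rw [this]
      exact Subgroup.mul_mem _ (Subgroup.mem_sup_right (Subgroup.commutator_mem_commutator ha hb))
        (Subgroup.mem_sup_left hb)
    rcases h.pair _ hC B hB with hc | hr' | ⟨F, -, hc⟩
    · exact R1.not_comm hp.1 ((Comm.sup_left (h.comm B hB) hc).mono hle le_rfl).symm
    · obtain ⟨b, hb, hb1⟩ := R1.exists_right hr
      exact hb1 (R1.eq_one_right hr' hb (hn b (Subgroup.mem_sup_right hb)))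
    · -- `⟨A, B⟩ = B ⁅A, B⁆` would have class two
      have hle2 : A ≤ B ⊔ ⁅A, B⁆ := le_trans le_sup_left (hp.2 ▸ sup_le le_sup_left hle)
      obtain ⟨b, hb, c, hc', e⟩ := (mem_sup_of_norm_left
        (fun b hb => hn b (Subgroup.mem_sup_right hb))).1 (hle2 ha)
      apply R1.not_comm hp.1
      rw [← e, ← conjBy_conjBy, ← comm_conj_iff (g := b⁻¹), conjBy_conjBy, conjBy_conjBy,
        conjBy_of_mem (B.inv_mem hb), inv_mul_cancel, one_mul]
      exact (hc.comm_conj (h.comm B hB) hc').symm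
  · exact hc.eq ▸ hc

/-- In the commutator case with `A` not isolated no non-identity elements commute. -/
theorem cc_not_mul_comm (h : RS S) (hA : A ∈ S) (hn : NI S A) (hB : B ∈ S) (hC : C ∈ S)
    (hc : CC A B C) {a b : G} (ha : a ∈ A) (ha1 : a ≠ 1) (hb : b ∈ B) (hb1 : b ≠ 1) :
    a * b ≠ b * a := by
  intro e
  have h1 : conjBy A b = A := by
    refine h.ti hA hn (h.conj_mem A hA B hB b hb) ha ?_ ha1
    rw [mem_conjBy, mul_assoc, e, inv_mul_cancel_left]; exact ha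
  have h2 : C ≤ A := by
    intro c hc'
    obtain ⟨a', ha', rfl⟩ := hc.surjR b hb hb1 c hc'
    have : b * a'⁻¹ * b⁻¹ ∈ A := by rw [← h1]; exact conj_mem_conjBy b (A.inv_mem ha')
    simpa [mul_assoc] using A.mul_mem ha' this
  obtain ⟨c, hc', hc1⟩ := h.exists_ne_one hC
  have h3 : C = A := h.ti hA hn hC (h2 hc') hc' hc1
  exact h.not_comm_of_cc hA hC hc (h3 ▸ hc.cB)

theorem cc_inf (h : RS S) (hA : A ∈ S) (hn : NI S A) (hB : B ∈ S) (hC : C ∈ S) (hc : CC A B C)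
    {x : G} (hxA : x ∈ A) (hxC : x ∈ C) : x = 1 := by
  by_contra hx
  obtain ⟨b, hb, hb1⟩ := h.exists_ne_one hB
  exact h.cc_not_mul_comm hA hn hB hC hc hxA hx hb hb1 (hc.cB x hxC b hb)

theorem cc_inf' (h : RS S) (hA : A ∈ S) (hB : B ∈ S) (hn : NI S B) (hC : C ∈ S) (hc : CC A B C)
    {x : G} (hxA : x ∈ A) (hxC : x ∈ C) : x = 1 := by
  by_contra hx
  obtain ⟨b, hb, hb1⟩ := h.exists_ne_one hB
  exact h.cc_not_mul_comm hB hn hA hC hc.symm hb hb1 hxA hx (hc.cB x hxC b hb).symm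

/-- The triangle lemma: `⟨A, B⟩` a rank one group, `C` commutes with `A` and `⁅B, C⁆ = D ∈ S`. -/
theorem triangle (h : RS S) (hA : A ∈ S) (hB : B ∈ S) (hr : IsRankOnePair A B) (hC : C ∈ S)
    (hD : D ∈ S) (hCA : Comm C A) (hc : CC B C D) :
    ∃ F ∈ S, CC A D F ∧ Comm F C ∧ ∀ a ∈ A, ∀ b ∈ B, conjBy A b = conjBy B a → ∀ c ∈ C,
      ∀ y ∈ B, c * (a⁻¹ * (b * c * b⁻¹ * c⁻¹) * a * (b * c * b⁻¹ * c⁻¹)⁻¹) * y =
        y * (c * (a⁻¹ * (b * c * b⁻¹ * c⁻¹) * a * (b * c * b⁻¹ * c⁻¹)⁻¹)) := by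
  obtain ⟨b, hb, hb1⟩ := R1.exists_right hr
  obtain ⟨a, ha, ha1⟩ := R1.exists_left hr
  have h1 : ∀ a ∈ A, a ≠ 1 → ∀ d ∈ D, d ≠ 1 → a * d ≠ d * a := by
    intro a ha ha1 d hd hd1 e
    obtain ⟨c, hc', rfl⟩ := hc.surjL b hb hb1 d hd
    have e1 : c * (b⁻¹ * a * b) = b⁻¹ * a * b * c := by
      have := hCA c hc' a ha
      calc c * (b⁻¹ * a * b) = b⁻¹ * (b * c * b⁻¹ * c⁻¹) * (c * a) * b := by group
        _ = b⁻¹ * ((b * c * b⁻¹ * c⁻¹) * a) * c * b := by rw [this]; group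
        _ = _ := by rw [← e]; group
    have hm : b⁻¹ * a * b ∈ conjBy A b⁻¹ := by simpa using conj_mem_conjBy b⁻¹ ha
    have hp := R1.pair_conj_right hr (B.inv_mem hb) (inv_ne_one.2 hb1)
    have := R1.comm_of_comm_conj hp.1 hm (by
        intro e; apply ha1
        calc a = b * (b⁻¹ * a * b) * b⁻¹ := by group
          _ = 1 := by rw [e]; group) (z := c) (hCA c hc') (by
        intro x hx
        obtain ⟨a', ha', rfl⟩ := mem_conjBy'.1 hx
        have e2 : Commute c (b⁻¹ * a * b) := e1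
        have e3 : Commute c a' := hCA c hc' a' ha'
        exact ((e2.mul_right e3).mul_right e2.inv_right)) b (hp.2 ▸ Subgroup.mem_sup_right hb)
    apply hd1; rw [← this]; group
  obtain ⟨d₀, hd₀, hd₀1⟩ := h.exists_ne_one hD
  obtain ⟨c₀, hc₀, e₀⟩ := hc.surjL b hb hb1 d₀ hd₀
  have hC' : conjBy C b ∈ S := h.conj_mem C hC B hB b hb
  have hm₀ : d₀ * c₀ ∈ conjBy C b := by rw [e₀]; simpa using conj_mem_conjBy b hc₀
  rcases h.pair A hA D hD with hAD | hAD | ⟨F, hF, hAD⟩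
  · exact absurd (hAD a ha d₀ hd₀) (h1 a ha ha1 d₀ hd₀ hd₀1)
  · exfalso
    have := (h.eq_of_mul_mem hD hA (R1.symm hAD) hC' (z := c₀)
      (fun x hx => (hc.cB x hx c₀ hc₀).symm) (hCA c₀ hc₀) hd₀ hd₀1
      (by rwa [← hc.cB d₀ hd₀ c₀ hc₀])).2
    apply hd₀1; rw [e₀, this]; group
  refine ⟨F, hF, hAD, ?_, ?_⟩
  · rcases h.pair A hA _ hC' with h2 | h2 | ⟨F', -, h2⟩
    · exfalso
      apply h1 a ha ha1 d₀ hd₀ hd₀1
      have := h2 a ha _ hm₀
      rw [mul_assoc, hCA c₀ hc₀ a ha, ← mul_assoc, ← mul_assoc] at this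
      exact mul_right_cancel this
    · exfalso
      have hne : d₀ * c₀ ≠ 1 := by
        intro e
        apply h1 a ha ha1 d₀ hd₀ hd₀1
        rw [eq_inv_of_mul_eq_one_left e]
        exact (show Commute c₀ a from hCA c₀ hc₀ a ha).inv_left.symm
      apply R1.not_comm (R1.pair_conj_right h2 hm₀ hne).1
      rw [conjBy_mul_of_eq _ (hCA.conjBy_eq hc₀)]
      exact (hAD.symm.comm_conj (h.comm A hA) hd₀).symm
    · intro f hf c hc'
      obtain ⟨d, hd, rfl⟩ := hAD.surjL a ha ha1 f hf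
      obtain ⟨c₁, hc₁, e₁⟩ := hc.surjL b hb hb1 d hd
      have hm₁ : d * c₁ ∈ conjBy C b := by rw [e₁]; simpa using conj_mem_conjBy b hc₁
      have hf' : a * d * a⁻¹ * d⁻¹ ∈ F' := by
        have := h2.mem ha hm₁
        have e2 := hCA c₁ hc₁ a⁻¹ (A.inv_mem ha)
        convert this using 1
        calc a * d * a⁻¹ * d⁻¹ = a * d * (a⁻¹ * c₁) * c₁⁻¹ * d⁻¹ := by group
          _ = _ := by rw [← e2]; group
      have e3 : Commute (a * d * a⁻¹ * d⁻¹) (b * c * b⁻¹) := h2.cB _ hf' _ (conj_mem_conjBy b hc')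
      have e4 : Commute (a * d * a⁻¹ * d⁻¹) (b * c * b⁻¹ * c⁻¹) := hAD.cB _ hf _ (hc.mem hb hc')
      have := e4.inv_right.mul_right e3
      have e5 : (b * c * b⁻¹ * c⁻¹)⁻¹ * (b * c * b⁻¹) = c := by
        have := hc.cB _ (hc.mem hb hc') c hc'
        calc _ = (b * c * b⁻¹ * c⁻¹)⁻¹ * (b * c * b⁻¹ * c⁻¹ * c) := by group
          _ = _ := by group
      rwa [e5] at this
  · intro a ha b hb e c hc' y hy
    have e1 : conjBy A (a⁻¹ * b) = B := conjBy_eq_conjBy_iff.1 e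
    have h2 : Comm (conjBy C (a⁻¹ * b)) B := e1 ▸ hCA.conj _
    have h3 : Commute (a⁻¹ * b * c * (a⁻¹ * b)⁻¹) y := h2 _ (conj_mem_conjBy _ hc') y hy
    set d := b * c * b⁻¹ * c⁻¹ with hd
    have hdD : d ∈ D := hc.mem hb hc'
    have h4 : Commute d y := hc.cA d hdD y hy
    have h5 : Commute c a := hCA c hc' a ha
    have h6 : Commute d c := hc.cB d hdD c hc'
    have e2 : c * (a⁻¹ * d * a * d⁻¹) = c * (a⁻¹ * b * c * (a⁻¹ * b)⁻¹) * c⁻¹ * d⁻¹ := by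
      calc c * (a⁻¹ * d * a * d⁻¹) = c * a⁻¹ * (b * c * b⁻¹) * (c⁻¹ * a) * d⁻¹ := by
            rw [hd]; group
        _ = _ := by rw [h5.inv_left.eq]; group
    have e3 : c * (a⁻¹ * b * c * (a⁻¹ * b)⁻¹) = (a⁻¹ * b * c * (a⁻¹ * b)⁻¹) * c := by
      have : a⁻¹ * b * c * (a⁻¹ * b)⁻¹ = a⁻¹ * (d * c) * a := by rw [hd]; group
      rw [this]
      exact ((h5.inv_right.mul_right (h6.symm.mul_right (Commute.refl c))).mul_right h5)
    rw [e2, e3, mul_inv_cancel_right]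
    exact (h3.mul_left h4.inv_left)

end RS

end Cfsg.Agent.Root
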