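import Cfsg.Agent.Root.Ext3
import Cfsg.Agent.Root.Un2

/-! Extension field subgroups of odd prime degree in unitary groups (`TU`, `isMaximalIn_extU`, `ext_su`). -/

set_option autoImplicit false

namespace Cfsg.Agent.Root.Mx

open Cfsg.Agent.Geom Cfsg.Agent.AutCl Module

variable {F K : Type*} [Field F] [Field K] [Algebra F K] {V : Type*} [AddCommGroup V] [Module F V]
  [Module K V] [IsScalarTower F K V] {σ : F →+* F} {τ : K →+* K} {Φ : Formed σ V} {Ψ : Formed τ V} {L : Dual F K}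
  {X : Subgroup (V ≃ₗ[F] V)} {g : V ≃ₗ[F] V} {u w : V}

local notation "f" => algebraMap F K

theorem HD.exists_unit' [Finite K] [FiniteDimensional K V] (h : HD Ψ) (hτ : τ ≠ RingHom.id K) {W : Submodule K V}
    (hW : (Ψ.restrict W).Nondeg) (h1 : 1 ≤ finrank K W) : ∃ b ∈ W, Ψ.B b b = 1 := by
  obtain ⟨b, hb⟩ := hW.exists_orthonormal hτ h.ε rfl
  exact ⟨_, (b ⟨0, h1⟩).2, by simpa using hb ⟨0, h1⟩ ⟨0, h1⟩⟩

theorem not_norm (pr : (finrank F K).Prime) (h3 : 3 ≤ finrank F K) {N : End F K} (h0 : N ≠ 0) (h2 : N * N = 0) :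
    ∃ k, ∀ k', (1 + N) * LinearMap.mul F K k ≠ LinearMap.mul F K k' * (1 + N) := by
  haveI : FiniteDimensional F K := .of_finrank_pos pr.pos
  by_contra! H
  choose ρ hρ using H
  obtain ⟨y, hy⟩ : ∃ y, N y ≠ 0 := by by_contra! hc; exact h0 (LinearMap.ext hc)
  have nn : ∀ x, N (N x) = 0 := fun x => LinearMap.congr_fun h2 x
  have e : ∀ k, ∃ c : F, ∀ b, N b = 0 → N (k * b) = c • b := fun k => by
    have e1 : ∀ b, N b = 0 → N (k * b) = (ρ k - k) * b := fun b hb => by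
      have := LinearMap.congr_fun (hρ k) b
      simp [hb] at this; linear_combination this
    obtain ⟨c, hc⟩ := mem_range_of_stab pr (B := LinearMap.ker N) ((Submodule.ne_bot_iff _).2 ⟨_, nn y, hy⟩)
      (by simpa [LinearMap.ker_eq_top]) (κ := ρ k - k) fun b hb => by rw [LinearMap.mem_ker, ← e1 b hb, nn]
    exact ⟨c, fun b hb => by rw [e1 b hb, ← hc, Algebra.smul_def]⟩
  have r : LinearMap.range N ≤ F ∙ N y := by
    rintro _ ⟨x, rfl⟩
    obtain ⟨c, hc⟩ := e (x / N y)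
    exact Submodule.mem_span_singleton.2 ⟨c, by rw [← hc _ (nn y), div_mul_cancel₀ _ hy]⟩
  obtain ⟨c, hc⟩ := e (y / N y)
  have c0 : c ≠ 0 := by rintro rfl; simpa [hy] using hc _ (nn y)
  have : LinearMap.ker N ≤ F ∙ N y := fun b hb => (Submodule.smul_mem_iff _ c0).1 (hc b hb ▸ r ⟨_, rfl⟩)
  have := Submodule.finrank_mono this
  have := Submodule.finrank_mono r
  have := N.finrank_range_add_finrank_ker
  have := finrank_span_one (F := F) (N y)
  omega

/-- `Φ` is the trace of the Hermitian form `Ψ`, and `X` contains the isometries of `Ψ` of determinant one. -/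
structure TU (Φ : Formed σ V) (Ψ : Formed τ V) (L : Dual F K) (X : Subgroup (V ≃ₗ[F] V)) : Prop where
  h : HD Φ
  h' : HD Ψ
  ne : σ ≠ RingHom.id F
  hτ : ∀ c, τ (algebraMap F K c) = algebraMap F K (σ c)
  hB : ∀ x y, Φ.B x y = L (Ψ.B x y)
  L1 : L 1 = 1
  pr : (finrank F K).Prime
  three : 3 ≤ finrank F K
  two : 2 ≤ finrank K V
  ex : 3 ≤ finrank K V ∨ ∃ η : K, η * τ η = 1 ∧ Algebra.norm F η = 1 ∧ ∀ c, algebraMap F K c ≠ η
  hi : X ≤ Φ.isom
  hI : ∀ s ∈ Ψ.isom, Algebra.norm F (LinearMap.det (s : V →ₗ[K] V)) = 1 → s.restrictScalars F ∈ X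

/-- `X` induces a quadratic unipotent map on the point `K u`. -/
def Pr (K : Type*) [Field K] [Algebra F K] [Module K V] (X : Subgroup (V ≃ₗ[F] V)) (u : V) : Prop :=
  ∃ s ∈ X, ∃ N : End F K, N ≠ 0 ∧ N * N = 0 ∧ ∀ k : K, s (k • u) = (1 + N) k • u

/-- The map `v ↦ v + θ(v) u` lies in `X`. -/
def Zv (X : Subgroup (V ≃ₗ[F] V)) (u : V) (θ : V →ₗ[F] K) : Prop := ∃ t ∈ X, ∀ v, t v = v + θ v • u

/-- All Eichler maps of `Φ` with data in `K u` lie in `X`. -/
def BigU (K : Type*) [Field K] [Module K V] (Φ : Formed σ V) (X : Subgroup (V ≃ₗ[F] V)) (u : V) : Prop :=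
  ∀ a b : K, HasE Φ X (a • u) (b • u) 0

namespace TU
variable (T : TU Φ Ψ L X)
include T

theorem L0 : L ≠ 0 := by rintro rfl; simpa using T.L1

theorem exists_θ : ∃ θ : F, σ θ ≠ θ := DFunLike.ne_iff.1 T.ne

theorem ne' : τ ≠ RingHom.id K := fun e => let ⟨θ, h⟩ := T.exists_θ; h ((f).injective (by rw [← T.hτ, e]; rfl))

theorem dec : ∃ θ : F, ∀ k : K, ∃ a b, τ a = a ∧ τ b = b ∧ k = a + f θ * b := by
  obtain ⟨θ, h⟩ := T.exists_θ
  have : f θ - f (σ θ) ≠ 0 := by rw [← map_sub]; simpa [sub_eq_zero] using h.symm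
  have h' : f (σ θ) - f θ ≠ 0 := by rwa [← neg_ne_zero, neg_sub]
  exact ⟨θ, fun k => ⟨k - f θ * ((k - τ k) / (f θ - f (σ θ))), (k - τ k) / (f θ - f (σ θ)),
    by simp [T.hτ, Ψ.σσ, Φ.σσ]; field_simp; ring, by simp [T.hτ, Ψ.σσ, Φ.σσ]; field_simp; ring, by ring⟩⟩

theorem perp {v : V} (h : ∀ k : K, Φ.B (k • u) v = 0) : Ψ.B u v = 0 :=
  eq_zero_of_dual T.L0 fun k => by simpa [T.hB, Ψ.σσ] using h (τ k)

theorem sing (us : Ψ.Sing u) (k : K) : Φ.Sing (k • u) := ⟨T.h.Q _, by simp [T.hB, us.2]⟩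

variable [Finite K]

theorem exists_skew {A : Submodule F K} (h : finrank F K < 2 * finrank F A) (β : K →ₗ[F] K) (c : K) :
    ∃ a ∈ A, a ≠ 0 ∧ β a * τ c + τ (β a) * c = 0 := by
  haveI : FiniteDimensional F K := .of_finrank_pos T.pr.pos
  haveI := Finite.of_injective _ (f).injective
  by_contra! H
  obtain ⟨θ, hθ⟩ := T.exists_θ
  have z : ∀ a b : A, β a * τ c + τ (β a) * c = β b * τ c + τ (β b) * c → a = b := fun a b e =>
    Subtype.ext (sub_eq_zero.1 (by_contra fun e0 => H _ (sub_mem a.2 b.2) e0 (by simp; linear_combination e)))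
  have := Nat.card_le_card_of_injective (fun x : A × A => β x.1 * τ c + τ (β x.1) * c + f θ * (β x.2 * τ c + τ (β x.2) * c))
    fun x y e => by
      have e' := congrArg τ e
      simp only [map_add, map_mul, T.hτ, Ψ.σσ] at e e'
      have := z x.2 y.2 (mul_left_cancel₀ (show f θ - f (σ θ) ≠ 0 by rw [← map_sub]; simpa [sub_eq_zero] using hθ.symm)
        (by linear_combination e - e'))
      exact Prod.ext (z _ _ (by rw [this] at e; linear_combination e)) this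
  rw [Nat.card_prod, natCard_eq_pow_finrank (K := F) (V := K), natCard_eq_pow_finrank (K := F) (V := A), ← pow_add,
    Nat.pow_le_pow_iff_right Finite.one_lt_card] at this
  omega

variable [FiniteDimensional K V]

omit [FiniteDimensional K V] in
theorem hE {p a : V} {d : K} {s : V ≃ₗ[K] V} (hs : IsE Ψ p a d s) : s.restrictScalars F ∈ X :=
  T.hI s hs.mem_isom (by rw [mem_SLg.1 (EG_le_SLg (IsE_mem_EG hs)), map_one])

theorem tv (us : Ψ.Sing u) {d : K} (hd : τ d = -d) : ∃ t ∈ X, ∀ v, t v = v + (d * Ψ.B u v) • u := by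
  obtain ⟨t, ht⟩ := exists_isE T.h'.nd us (a := 0) (d := -d) (by simp) (by simp [T.h'.τ, T.h'.Q]) (by simp [T.h'.ε, hd])
  exact ⟨_, T.hE ht, fun v => by simp [ht.app]⟩

omit [Finite K] [FiniteDimensional K V] in
theorem exists_d : ∃ d : F, d ≠ 0 ∧ σ d = -d := let ⟨d, a, _, b⟩ := exists_TP T.ne T.h.τ T.h.ε
  ⟨d, a, by rw [T.h.ε] at b; linear_combination b⟩

theorem unip (hg : g ∈ X) (u0 : u ≠ 0) (us : Ψ.Sing u) (w0 : w ≠ 0) (ws : Ψ.Sing w) (h1 : Ak K g u w ≠ ⊤)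
    (h0 : Ak K g u w ≠ ⊥) : ∃ u, u ≠ 0 ∧ Ψ.Sing u ∧ Pr K X u := by
  haveI : FiniteDimensional F K := .of_finrank_pos T.pr.pos
  obtain ⟨_, ⟨g, hg, u, w, u0, us, w0, ws, rfl, h1, h0⟩, hmax⟩ := set_has_maximal_iff_noetherian.2 inferInstance
    {A : Submodule F K | ∃ g ∈ X, ∃ u w, u ≠ 0 ∧ Ψ.Sing u ∧ w ≠ 0 ∧ Ψ.Sing w ∧ A = Ak K g u w ∧ A ≠ ⊤ ∧ A ≠ ⊥}
    ⟨_, g, hg, u, w, u0, us, w0, ws, rfl, h1, h0⟩
  refine ⟨u, u0, us, ?_⟩
  obtain ⟨φ, f1, -⟩ := exists_fun (S := (⊥ : Submodule K V)) (w := u) (by simpa)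
  obtain ⟨ψ, f2, -⟩ := exists_fun (S := (⊥ : Submodule K V)) (w := w) (by simpa)
  have fin : ∀ t ∈ X, (∀ c : K, t (c • w) = c • w) → (∀ k : K, ∃ c : K, t (g (k • u)) = g (k • u) + c • w) →
      ∀ x ∉ Ak K g u w, ∀ a : K, t (g (x • u)) = g (x • u) + g (a • u) → (∃ k : K, t (g (k • u)) ≠ g (k • u)) →
      Pr K X u := fun t ht e1 e2 x hx a e3 ⟨k, hk⟩ => by
    have hs := mul_mem (mul_mem (inv_mem hg) ht) hg
    have lt := SetLike.lt_iff_le_and_exists.2 ⟨MT.le_conj e1, x, mem_Ak.2 ⟨x + a, by simp [e3, add_smul]⟩, hx⟩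
    have top : Ak K (g⁻¹ * t * g) u u = ⊤ := by_contra fun hc =>
      hmax _ ⟨_, hs, u, u, u0, us, u0, us, rfl, hc, (bot_le.trans_lt lt).ne'⟩ lt
    obtain ⟨N, hN⟩ : ∃ N : End F K, ∀ k : K, (g⁻¹ * t * g) (k • u) = (1 + N) k • u := by
      generalize g⁻¹ * t * g = s at top
      refine ⟨φ.restrictScalars F ∘ₗ s.toLinearMap ∘ₗ kv F K u - 1, fun k => ?_⟩
      obtain ⟨c, hc⟩ := mem_Ak.1 (top ▸ Submodule.mem_top : k ∈ _)
      simp [← hc, f1]
    have hN' : ∀ k : K, t (g (k • u)) = g (k • u) + g (N k • u) := fun k => by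
      simpa [add_smul, LinearEquiv.symm_apply_eq] using hN k
    refine ⟨_, hs, N, fun e0 => hk (by simp [hN', e0]), LinearMap.ext fun k => ?_, hN⟩
    obtain ⟨c, hc⟩ := e2 k
    have := hN' (N k)
    rw [add_left_cancel ((hN' k).symm.trans hc), e1] at this
    simpa [u0] using this
  obtain ⟨a₀, ha, a0⟩ := (Submodule.ne_bot_iff _).1 h0
  let β : K →ₗ[F] K := ψ.restrictScalars F ∘ₗ g.toLinearMap ∘ₗ kv F K u
  have hβ : ∀ a ∈ Ak K g u w, g (a • u) = β a • w := fun a ha => by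
    obtain ⟨c, hc⟩ := mem_Ak.1 ha; simp [β, ← hc, f2]
  have β0 : ∀ a ∈ Ak K g u w, a ≠ 0 → β a ≠ 0 := fun a ha a0 e0 => by simpa [e0, a0, u0] using hβ a ha
  let ξ : K →ₗ[F] K := (Ψ.B w).restrictScalars F ∘ₗ g.toLinearMap ∘ₗ kv F K u
  have hξ : ∀ k, Ψ.B w (g (k • u)) = ξ k := fun _ => rfl
  by_cases all : ∀ k, ξ k = 0
  · obtain ⟨x, hx⟩ : ∃ x, x ∉ Ak K g u w := by by_contra! hc; exact h1 (eq_top_iff.2 fun x _ => hc x)
    obtain ⟨α, a1, a2⟩ := T.h'.nd.exists_perp_eq_one (show g (x • u) ∉ K ∙ w from hx)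
    obtain ⟨d, t, ht⟩ := exists_isE' T.h'.nd ws (a := τ (β a₀) • α) (by simp [Ψ.mem_perp_span_singleton.1 a1])
    have e : t (g (x • u)) = g (x • u) + g (a₀ • u) := by
      simp [ht.apply_perp (x := g (x • u)) (all x), a2, Ψ.σσ, hβ _ ha]
    exact fin _ (T.hE ht) (fun c => by simp [ht.apply_p]) (fun k => ⟨_, ht.apply_perp (all k)⟩) x hx a₀ e
      ⟨x, by simp [e, a0, u0]⟩
  obtain ⟨k₀, hk⟩ := not_forall.1 all
  obtain ⟨x, hx, a, ha, d, d0, d1, e⟩ : ∃ x ∉ Ak K g u w, ∃ a ∈ Ak K g u w, ∃ d, d ≠ 0 ∧ τ d = -d ∧ d * ξ x = β a := by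
    by_cases hc : ∃ x ∉ Ak K g u w, ξ x = 0
    · obtain ⟨x, hx, e⟩ := hc
      obtain ⟨d, d0, d1⟩ := T.exists_d
      exact ⟨x, hx, 0, zero_mem _, f d, by simpa, by simp [T.hτ, d1], by simp [e]⟩
    have ker : ∀ x, x ∈ Ak K g u w ↔ ξ x = 0 := fun x =>
      ⟨fun h => by simp [← hξ, hβ x h, ws.2], fun h => by_contra fun e => hc ⟨x, e, h⟩⟩
    obtain ⟨x, hx, a, ha, a0, e⟩ : ∃ x, ξ x ≠ 0 ∧ ∃ a ∈ Ak K g u w, a ≠ 0 ∧ β a * τ (ξ x) + τ (β a) * ξ x = 0 := by
      by_cases h : finrank F K < 2 * finrank F (Ak K g u w)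
      · exact ⟨k₀, hk, T.exists_skew h β _⟩
      have := ξ.finrank_range_add_finrank_ker
      rw [← show Ak K g u w = LinearMap.ker ξ from SetLike.ext ker] at this
      obtain ⟨_, ⟨x, rfl⟩, b, c⟩ := T.exists_skew (A := LinearMap.range ξ) (by
        have := T.three; have := T.pr.eq_two_or_odd; omega) LinearMap.id (β a₀)
      exact ⟨x, b, a₀, ha, a0, by simp at c; linear_combination c⟩
    have := (map_ne_zero τ).2 hx
    exact ⟨x, mt (ker x).1 hx, a, ha, β a / ξ x, div_ne_zero (β0 a ha a0) hx, by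
      rw [map_div₀]; field_simp; linear_combination e, div_mul_cancel₀ _ hx⟩
  obtain ⟨t, ht, et⟩ := T.tv ws d1
  exact fin t ht (fun c => by simp [et, ws.2]) (fun k => ⟨_, et _⟩) x hx a (by rw [et, hξ, e, hβ a ha])
    ⟨k₀, by simp [et, hξ, d0, hk, w0]⟩

theorem tor {u' : V} (hp : Ψ.IsPair u u') {κ : K} (k0 : κ ≠ 0)
    (h : Algebra.norm F (κ * (τ κ)⁻¹) = 1 ∨ 3 ≤ finrank K V) :
    ∃ s ∈ Ψ.isom, s.restrictScalars F ∈ X ∧ s u = κ • u := by
  rcases h with h | h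
  · exact ⟨_, (hp.torus (Units.mk0 κ k0)).2, T.hI _ (hp.torus _).2 (by rwa [hp.det_torus]), hp.torus_left _⟩
  obtain ⟨z, hz, z1⟩ := T.h'.exists_unit' T.ne' (hp.nondeg_pairPerp T.h'.nd) (by
    have := hp.finrank_pairPerp T.h'.nd; omega)
  have := (map_ne_zero τ).2 k0
  obtain ⟨r, hr⟩ := T.h'.exists_isQ (a := z) (c := τ κ * κ⁻¹ - 1) (by simp [z1, Ψ.σσ]; field_simp; ring)
  have i := mul_mem (hp.torus (Units.mk0 κ k0)).2 hr.iso
  exact ⟨_, i, T.hI _ i (by
    rw [LinearEquiv.coe_toLinearMap_mul, map_mul, hp.det_torus, hr.det, z1, ← map_one (Algebra.norm F (S := K))]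
    congr 1; simp; field_simp), by
      simp [hr.perp (Ψ.B_eq_zero_symm (Ψ.mem_pairPerp.1 hz).1), hp.torus_left]⟩

omit [FiniteDimensional K V] [Finite K] in
theorem exists_κ : ∃ κ : K, κ ≠ 0 ∧ (Algebra.norm F (κ * (τ κ)⁻¹) = 1 ∨ 3 ≤ finrank K V) ∧ ∀ c, f c ≠ κ * (τ κ)⁻¹ := by
  haveI : FiniteDimensional F K := .of_finrank_pos T.pr.pos
  rcases T.ex with h | ⟨η, a, b, c⟩
  swap
  · obtain ⟨κ, k0, e⟩ := exists_hilb T.ne' Ψ.σσ a
    have e' : κ * (τ κ)⁻¹ = η := by nth_rw 1 [e]; simp [k0]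
    exact ⟨κ, k0, .inl (e' ▸ b), e' ▸ c⟩
  by_contra! H
  have key : ∀ κ : K, κ ∉ F ∙ (1 : K) → τ κ = κ := fun κ hk => by
    have k0 : κ ≠ 0 := by rintro rfl; simp at hk
    have k1 : κ + 1 ≠ 0 := fun e => hk (by simp [eq_neg_of_add_eq_zero_left e])
    obtain ⟨c, hc⟩ := H κ k0 (.inr h)
    obtain ⟨c', hc'⟩ := H _ k1 (.inr h)
    rw [eq_mul_inv_iff_mul_eq₀ (by simpa)] at hc
    rw [eq_mul_inv_iff_mul_eq₀ ((map_ne_zero τ).2 k1), map_add, map_one] at hc'
    by_cases e : c = c'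
    · subst e; linear_combination (1 + τ κ) * hc - τ κ * hc'
    · have : f c - f c' ≠ 0 := by rw [← map_sub]; simpa [sub_eq_zero]
      exact absurd (Submodule.mem_span_singleton.2 ⟨c * (c' - 1) / (c - c'), by
        simp [Algebra.smul_def]; field_simp; linear_combination f c * hc' - f c' * hc⟩) hk
  obtain ⟨κ, -, hk⟩ := exists_notMem_of_lt (F := F) (U := ⊤) (R := F ∙ (1 : K)) (by
    have := finrank_span_one (F := F) (1 : K); have := T.three; rw [finrank_top]; omega)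
  obtain ⟨θ, hθ⟩ := T.exists_θ
  have := key (θ • κ) (mt (Submodule.smul_mem_iff _ (by rintro rfl; simp at hθ)).1 hk)
  simp [Algebra.smul_def, T.hτ, key κ hk, hθ, show κ ≠ 0 by rintro rfl; simp at hk] at this

theorem big (u0 : u ≠ 0) (us : Ψ.Sing u) (h : Pr K X u) : BigU K Φ X u := by
  haveI : FiniteDimensional F K := .of_finrank_pos T.pr.pos
  obtain ⟨u', hp⟩ := T.h'.nd.exists_isPair u0 us
  let R : (V →ₗ[F] K) → (V →ₗ[F] K) → Prop := fun x y => ∀ v v', Φ.B (x v • u) v' + Φ.B v (y v' • u) = 0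
  have z1 : ∀ {x y}, R x y → ∀ v, Ψ.B u v = 0 → x v = 0 ∧ y v = 0 := fun {x y} h v hv => by
    have : ∀ k : K, Φ.B (k • u) v = 0 := fun k => by simp [T.hB, hv]
    exact ⟨by simpa [u0] using T.h.nd (x v • u) fun v' => by simpa [Φ.B_eq_zero_symm (this _)] using h v v',
      by simpa [u0] using T.h.nd (y v • u) fun v' => Φ.B_eq_zero_symm (by simpa [this] using h v' v)⟩
  let G : Submodule F (V →ₗ[F] K) :=
    { carrier := {x | ∃ y, R x y ∧ ∀ c : F, Zv X u (c • x + σ c • y)}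
      zero_mem' := ⟨0, by simp [R], fun c => ⟨1, one_mem _, by simp⟩⟩
      add_mem' := fun {x x'} ⟨y, a, b⟩ ⟨y', a', b'⟩ => ⟨y + y', fun v v' => by
        simp [add_smul]; linear_combination a v v' + a' v v', fun c => by
          obtain ⟨t, ht, e⟩ := b c
          obtain ⟨t', ht', e'⟩ := b' c
          refine ⟨_, mul_mem ht ht', fun v => ?_⟩
          have := fun k : K => z1 a (k • u) (by simp [us.2])
          simp [e, e', this, add_smul]; abel⟩
      smul_mem' := fun c x ⟨y, a, b⟩ => ⟨σ c • y, fun v v' => by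
        simp; linear_combination σ c * a v v', fun c' => by simpa [smul_smul] using b (c' * c)⟩ }
  have cj : ∀ s ∈ X, ∀ S : End F K, (∀ k : K, s (k • u) = S k • u) → ∀ x ∈ G, S ∘ₗ x ∘ₗ s.symm.toLinearMap ∈ G :=
    fun s hs S e x ⟨y, a, b⟩ => ⟨S ∘ₗ y ∘ₗ s.symm.toLinearMap, fun v v' => by
      have i1 : ∀ x y, Φ.B x (s.symm y) = Φ.B (s x) y := fun x y => by rw [← (T.hi hs).1]; simp
      have i2 : ∀ x y, Φ.B (s.symm x) y = Φ.B x (s y) := fun x y => by rw [← (T.hi hs).1]; simp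
      simpa [i1 (x _ • u), i2 _ (y _ • u), e] using a (s.symm v) (s.symm v'), fun c => by
        obtain ⟨t, ht, e'⟩ := b c
        exact ⟨_, mul_mem (mul_mem hs ht) (inv_mem hs), fun v => by simp [e', ← e, add_smul]⟩⟩
  let lr : K → K → (V →ₗ[F] K) → V →ₗ[F] K := fun a b x => LinearMap.mul F K a ∘ₗ x ∘ₗ Algebra.lsmul F F V b
  have c1 : ∀ κ, (Algebra.norm F (κ * (τ κ)⁻¹) = 1 ∨ 3 ≤ finrank K V) → ∀ x ∈ G, lr κ (τ κ) x ∈ G := fun κ h x hx => by
    rcases eq_or_ne κ 0 with rfl | k0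
    · convert G.zero_mem; ext; simp [lr]
    obtain ⟨s, s1, s2, s3⟩ := T.tor hp k0 h
    convert cj _ s2 (LinearMap.mul F K κ) (fun k => by simp [s3, smul_smul, mul_comm]) x hx using 1
    ext v
    obtain ⟨y, a, -⟩ := hx
    have := (z1 a (τ κ • v - s.symm v) (by simp [← s1.1 u (s.symm v), s3])).1
    simp [sub_eq_zero] at this
    simp [lr, this]
  have c2 : ∀ a, τ a = a → ∀ x ∈ G, lr a a x ∈ G := fun a h x hx => by
    rcases eq_or_ne a 0 with rfl | k0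
    · convert G.zero_mem; ext; simp [lr]
    simpa [h] using c1 a (.inl (by simp [h, k0])) x hx
  have c3 : ∀ k, ∀ x ∈ G, lr k k x ∈ G := fun k x hx => by
    obtain ⟨θ, H⟩ := T.dec
    obtain ⟨a, b, h1, h2, rfl⟩ := H k
    convert add_mem (add_mem (c2 a h1 x hx) (G.smul_mem (θ * θ) (c2 b h2 x hx))) (G.smul_mem θ (sub_mem (sub_mem
      (c2 (a + b) (by simp [h1, h2]) x hx) (c2 a h1 x hx)) (c2 b h2 x hx))) using 1
    ext v
    simp [lr, add_smul, mul_smul, Algebra.smul_def]; ring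
  have c4 : ∀ k, ∀ x ∈ G, lr 1 k x ∈ G := by
    let A : Submodule F K :=
      { carrier := {k | ∀ x ∈ G, lr 1 k x ∈ G}
        zero_mem' := fun x _ => by convert G.zero_mem; ext; simp [lr]
        add_mem' := fun a b x hx => by convert add_mem (a x hx) (b x hx) using 1; ext; simp [lr, add_smul]
        smul_mem' := fun c _ a x hx => by convert G.smul_mem c (a x hx) using 1; ext; simp [lr] }
    obtain ⟨κ, k0, k1, k2⟩ := T.exists_κ
    refine fun k => (show A = ⊤ from by_contra fun H => ?_).ge trivial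
    obtain ⟨c, hc⟩ := mem_range_of_stab T.pr ((Submodule.ne_bot_iff _).2 ⟨1, fun x hx => by
      convert hx; ext; simp [lr], one_ne_zero⟩) H (κ := τ κ * κ⁻¹) fun b hb x hx => by
        convert hb _ (c3 κ⁻¹ _ (c1 κ k1 x hx)) using 1; ext; simp [lr, smul_smul, k0, mul_assoc]
    exact k2 c⁻¹ (by simp [hc])
  have c5 : ∀ a b, ∀ x ∈ G, lr a b x ∈ G := fun a b x hx => by
    rcases eq_or_ne a 0 with rfl | k0
    · convert G.zero_mem; ext; simp [lr]
    convert c4 (b / a) _ (c3 a x hx) using 1; ext; simp [lr, smul_smul, mul_div_cancel₀ _ k0]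
  let M : Subring (End F K) :=
    { carrier := {ρ | ∀ x ∈ G, ρ ∘ₗ x ∈ G}
      mul_mem' := fun ha hb θ h => ha _ (hb θ h)
      add_mem' := fun ha hb θ h => by rw [LinearMap.add_comp]; exact add_mem (ha θ h) (hb θ h)
      one_mem' := fun θ h => h
      zero_mem' := fun θ h => by simp
      neg_mem' := fun ha θ h => by rw [LinearMap.neg_comp]; exact neg_mem (ha θ h) }
  have hK : ∀ k, LinearMap.mul F K k ∈ M := fun k x hx => by convert c5 k 1 x hx using 1; ext; simp [lr]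
  obtain ⟨s, hs, N, n0, n2, e⟩ := h
  obtain ⟨k₀, hk⟩ := not_norm T.pr T.three n0 n2
  have nn : ∀ x, N (N x) = 0 := fun x => LinearMap.congr_fun n2 x
  obtain ⟨b, μ, b0, μ0, h1⟩ := exists_rk1_of_subring T.pr M hK (ρ := (1 + N) * LinearMap.mul F K k₀ * (1 - N))
    (fun x hx => by
      convert cj s hs _ e _ (hK k₀ _ (cj _ (inv_mem hs) (1 - N) (fun k => s.symm_apply_eq.2 (by simp [e, nn])) x hx))
        using 1
      ext; simp [show s⁻¹.symm = s from rfl]) fun k' e => hk k' (by rw [← e]; ext; simp [nn])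
  obtain ⟨d, d0, d1⟩ := T.exists_d
  have g0 : f d • (Ψ.B u).restrictScalars F ∈ G := ⟨f d • (Ψ.B u).restrictScalars F, fun v v' => by
    simp [T.hB, d1, T.h'.symm, ← map_add, mul_comm, mul_left_comm], fun c => by
      obtain ⟨t, ht, e⟩ := T.tv us (d := f (c + σ c) * f d) (by simp [T.hτ, d1, Φ.σσ, add_comm])
      exact ⟨t, ht, fun v => by simp [e, Algebra.smul_def, add_mul, mul_assoc]⟩⟩
  obtain ⟨φ, hφ⟩ := exists_dualK (V := K) T.L0 μ
  obtain ⟨m, hm⟩ : ∃ m, ∀ k, μ k = L (m * k) :=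
    ⟨φ 1, fun k => by rw [← hφ, mul_comm, ← smul_eq_mul, ← map_smul, smul_eq_mul, mul_one]⟩
  have m0 : m ≠ 0 := fun e => μ0 (LinearMap.ext fun k => by simp [hm, e])
  intro a a'
  obtain ⟨y, r, z⟩ := c5 (a / b) (τ a' / (m * f d)) _ (h1 _ g0)
  have e1 : ∀ v, lr (a / b) (τ a' / (m * f d)) (rk1 b μ ∘ₗ (f d • (Ψ.B u).restrictScalars F)) v = Φ.B (a' • u) v • a :=
    fun v => by
      simp [lr, hm, T.hB, b0, -algebraMap_smul]; congr 2; have := (map_ne_zero f).2 d0; field_simp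
  generalize lr _ _ _ = x at r z e1
  obtain ⟨t, ht, et⟩ := z 1
  refine ⟨t, ht, T.sing us _, by simp [T.hB, us.2], by simp [T.h.Q], by simp [T.hB, us.2], fun v => ?_⟩
  have : y v • u = -(Φ.B (a • u) v • a' • u) := T.h.nd.ext_right fun v' => by
    have := r v' v
    rw [e1, smul_assoc] at this
    simp [T.h.symm] at this ⊢
    linear_combination this
  simp [et, e1, add_smul, this, T.h.ε, sub_eq_add_neg, add_assoc]

theorem EG_le [Finite F] [FiniteDimensional F V] (u0 : u ≠ 0) (us : Ψ.Sing u) (h : BigU K Φ X u) : EG Φ ≤ X := by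
  obtain ⟨u', hp⟩ := T.h'.nd.exists_isPair u0 us
  obtain ⟨d, d0, d1⟩ := T.exists_d
  obtain ⟨t, ht⟩ := exists_isE T.h'.nd hp.sf (a := 0) (d := f d) (by simp) (by simp [T.h'.τ, T.h'.Q])
    (by simp [T.h'.ε, T.hτ, d1])
  have e1 : Ψ.B u (t u) = -f d := by simp [ht.app, us.2, hp.ef, hp.fe, T.h'.ε, -algebraMap_smul]
  have mp : ∀ {x p a d} {s : V ≃ₗ[K] V}, IsE Ψ p a d s → BigU K Φ X x → BigU K Φ X (s x) := fun hs h a b => by
    simpa using (h a b).conj (T.hE hs) (T.hi (T.hE hs))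
  have sm : ∀ {x} (c : K), BigU K Φ X x → BigU K Φ X (c • x) := fun c h a b => by simpa [smul_smul] using h (a * c) (b * c)
  have all : ∀ x, Ψ.Sing x → Ψ.B u x ≠ 0 → BigU K Φ X x := fun x xs e => by
    obtain ⟨_, -, _, s, hs, e2⟩ := exists_isE_apply T.h'.nd (isPair_smul us (z := t u) ⟨T.h'.Q _, by
      rw [ht.mem_isom.1, us.2]⟩ (by simpa [e1])) (isPair_smul us xs e)
    simpa [e2, e, -map_smul] using sm (Ψ.B u x) (mp hs (sm (Ψ.B u (t u))⁻¹ (mp ht h)))
  have us' : Φ.Sing u := by simpa using T.sing us 1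
  have hd := finrank_mul_finrank F K V
  refine EG_le_of_full' T.h.nd (full_of_AE' T.h.nd (by have := T.three; have := T.two; nlinarith) (notSp2_of_ne T.ne)
    u0 us' fun v hv => ?_) (T.hE ht) (T.hi (T.hE ht)) (by
      simp [T.hB, e1, Algebra.algebraMap_eq_smul_one d, T.L1, d0])
  have k1 : ∀ a : K, a • u ∈ AE Φ X us' := fun a => ⟨0, by simpa using h 1 a⟩
  have k2 : ∀ v, Φ.B u v = 0 → Ψ.B u v ≠ 0 → v ∈ AE Φ X us' := fun v hv e => by
    obtain ⟨c, hc⟩ := exists_adjust us e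
    have e2 : Ψ.B u (v + c • u) = Ψ.B u v := by simp [us.2]
    have e3 : Φ.B (v + c • u) u = 0 := Φ.B_eq_zero_symm (by rw [T.hB, e2, ← T.hB, hv])
    refine (add_sub_cancel_right v (c • u) ▸ sub_mem ?_ (k1 c) :)
    generalize v + c • u = x at hc e2 e3
    obtain ⟨θ, hθ⟩ := T.exists_θ
    obtain ⟨s, hs, es⟩ := all x hc (e2 ▸ e) 1 (f θ)
    have x0 : Ψ.B x u ≠ 0 := fun e0 => e (e2 ▸ Ψ.B_eq_zero_symm e0)
    have := sub_mem (map_mem_AE hs (T.hi hs) (by simp [es.app, e3]) (k1 (f (σ θ - θ)⁻¹ / Ψ.B x u)))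
      (k1 (f (σ θ - θ)⁻¹ / Ψ.B x u))
    have e4 : Φ.B x ((f (σ θ - θ)⁻¹ / Ψ.B x u) • u) = (σ θ - θ)⁻¹ := by
      rw [T.hB, map_smul, smul_eq_mul, div_mul_cancel₀ _ x0, Algebra.algebraMap_eq_smul_one, map_smul, T.L1]; simp
    convert this using 1
    rw [es.app]
    simp only [one_smul, algebraMap_smul, Φ.B_smul_left, e4, T.h.ε]
    have := mul_inv_cancel₀ (sub_ne_zero.2 hθ)
    linear_combination (norm := module) (-this) • x
  by_cases e : Ψ.B u v = 0
  · obtain ⟨c, c0, c1⟩ := exists_kerL (F := F) (by have := T.three; omega) L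
    simpa using sub_mem (k2 (v + c • u') (by simp [hv, T.hB u (c • u'), hp.ef, c1]) (by simpa [e, hp.ef]))
      (k2 (c • u') (by simp [T.hB, hp.ef, c1]) (by simpa [hp.ef]))
  · exact k2 v hv e

theorem mem_normG [Finite V] (hg : g ∈ X)
    (H : ∀ g ∈ X, ∀ u w, u ≠ 0 → Ψ.Sing u → w ≠ 0 → Ψ.Sing w → Ak K g u w ≠ ⊥ → Ak K g u w = ⊤) :
    g ∈ normG (scal F K V) := by
  haveI : FiniteDimensional F K := .of_finrank_pos T.pr.pos
  have one : ∀ {g : V ≃ₗ[F] V} {u w}, g u = w → Ak K g u w ≠ ⊥ := fun e =>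
    (Submodule.ne_bot_iff _).2 ⟨1, mem_Ak.2 ⟨1, by simp [e]⟩, one_ne_zero⟩
  obtain ⟨d, d0, d1⟩ := T.exists_d
  have d2 : τ (f d) = -f d := by simp [T.hτ, d1]
  have sg : ∀ u, u ≠ 0 → Ψ.Sing u → Ψ.Sing (g u) := fun u u0 us => ⟨T.h'.Q _, by_contra fun h0 => by
    have h1 := T.h'.nd.restrict_perp (Ψ.nondeg_span_singleton h0)
    have h2 := T.h'.nd.finrank_add_finrank_perp (K ∙ g u)
    rw [finrank_span_singleton (by simpa)] at h2
    have st : ∀ s ∈ X, s (g u) = g u → ∀ k : K, ∃ c : K, g (c • u) = s (g (k • u)) := fun s hs e k => by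
      obtain ⟨c, hc⟩ := mem_Ak.1 (H _ (mul_mem (mul_mem (inv_mem hg) hs) hg) u u u0 us u0 us (one (by simp [e])) ▸
        Submodule.mem_top : k ∈ _)
      exact ⟨c, by simp [hc]⟩
    have hy : ∀ k : K, ∀ z ∈ Ψ.perp (K ∙ g u), Ψ.B z (g (k • u)) = 0 := fun k => by
      by_cases h3 : 3 ≤ finrank K V
      · obtain ⟨a, ha, a0, as⟩ := exists_sing_herm T.ne' T.h'.ε T.h'.Q (T := Ψ.perp (K ∙ g u)) (by omega)
        obtain ⟨b, hb, hp⟩ := exists_pair_mem T.h'.nd h1 ha a0 as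
        refine fun z hz => Ψ.B_eq_zero_symm (sing_ind ha hb hp (LinearMap.ker (Ψ.B (g (k • u)))).toAddSubgroup
          (fun z hz zs => Ψ.B_eq_zero_symm (by_contra fun e => ?_)) z hz)
        have z0 : z ≠ 0 := by rintro rfl; simp at e
        have e1 := Ψ.B_eq_zero_symm (Ψ.mem_perp_span_singleton.1 hz)
        obtain ⟨t, ht, et⟩ := T.tv zs d2
        obtain ⟨c, hc⟩ := st t ht (by simp [et, e1]) k
        obtain ⟨c, hc⟩ := mem_Ak.1 (H g hg u z u0 us z0 zs ((Submodule.ne_bot_iff _).2 ⟨c - k, mem_Ak.2 ⟨f d * Ψ.B z (g (k • u)), by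
          rw [sub_smul c, map_sub g, hc, et, add_sub_cancel_left]⟩, fun e0 => by
            simp [et, ← sub_eq_zero.1 e0, d0, z0] at hc; exact e (sub_eq_zero.1 e0 ▸ hc)⟩) ▸ Submodule.mem_top : (1 : K) ∈ _)
        rw [one_smul] at hc
        simp [← hc, zs.2] at h0
      obtain ⟨η, a1, a2, a3⟩ := T.ex.resolve_left h3
      obtain ⟨z, hz, z1⟩ := T.h'.exists_unit' T.ne' h1 (by have := T.two; omega)
      have z0 : z ≠ 0 := by rintro rfl; simp at z1
      have e1 := Ψ.B_eq_zero_symm (Ψ.mem_perp_span_singleton.1 hz)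
      rw [← Submodule.eq_of_le_of_finrank_le ((Submodule.span_singleton_le_iff_mem _ _).2 hz) (by
        rw [finrank_span_singleton z0]; omega)]
      suffices Ψ.B z (g (k • u)) = 0 from fun _ h => by
        obtain ⟨c, rfl⟩ := Submodule.mem_span_singleton.1 h; simp [this]
      obtain ⟨r, hr⟩ := T.h'.exists_qr z1 a1
      replace st := st _ (T.hI r hr.iso (by simpa [hr.det, z1])) (hr.perp e1)
      by_contra e
      refine (mem_range_of_stab T.pr (B := Ak K g⁻¹ z u) ?_ (fun e0 => ?_) fun b hb => ?_).elim a3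
      · obtain ⟨c, hc⟩ := st k
        exact (Submodule.ne_bot_iff _).2 ⟨_, mem_Ak.2 ⟨c - k, g.injective (by simp [sub_smul, hc, hr.app]; rfl)⟩,
          mul_ne_zero (sub_ne_zero.2 fun e0 => a3 1 (by simp [e0])) e⟩
      · obtain ⟨c, hc⟩ := mem_Ak.1 (Ak_eq_top z0 e0 ▸ Submodule.mem_top : (1 : K) ∈ _)
        rw [one_smul] at hc
        simp [← hc, show c = 0 by simpa [← hc, z1] using e1] at h0
      · obtain ⟨c, hc⟩ := mem_Ak.1 hb
        obtain ⟨c', hc'⟩ := st c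
        exact mem_Ak.2 ⟨c', g.injective (by simp [hc', hc, hr.app, z1]; module)⟩
    have := Ak_eq_top (g := g⁻¹) (u := g u) u0 (eq_top_iff.2 fun k _ =>
      show _ ∈ K ∙ g u from T.h'.nd.perp_perp (K ∙ g u) ▸ hy k)
    refine h0 (T.perp fun k => ?_)
    obtain ⟨c, e⟩ := mem_Ak.1 (this ▸ Submodule.mem_top : k ∈ _)
    have := (T.hi hg).1 (c • u) u
    rw [T.hB (c • u), Ψ.B_smul_left, us.2, e] at this
    simpa using this⟩
  refine (inv_mem_iff.1 (mem_normG_scal.2 fun k => ?_))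
  have : ∀ u, ∃ c : K, Ψ.Sing u → g⁻¹ (k • g u) = c • u := fun u => by
    by_cases us : Ψ.Sing u
    · rcases eq_or_ne u 0 with rfl | u0
      · exact ⟨0, by simp⟩
      obtain ⟨c, e⟩ := mem_Ak.1 (H _ (inv_mem hg) (g u) u (by simpa) (sg u u0 us) u0 us (one (by simp)) ▸
        Submodule.mem_top : k ∈ _)
      exact ⟨c, fun _ => e.symm⟩
    · exact ⟨0, fun h => absurd h us⟩
  choose c hc using this
  have key : ∀ a b, Ψ.Sing a → Ψ.Sing b → Ψ.B a b ≠ 0 → τ (Ψ.B a b) = -Ψ.B a b → c a = c b := fun a b as bs e e' => by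
    have := hc (a + b) ⟨T.h'.Q _, by simp [as.2, bs.2, ← T.h'.symm a b, e']⟩
    simp only [map_add, smul_add, hc a as, hc b bs] at this
    have := eq_of_indep (F := K) (by rintro rfl; simp at e) (by rintro ⟨_, rfl⟩; simp [as.2] at e) this
    exact this.1.trans this.2.symm
  have k1 : ∀ a b, Ψ.Sing a → Ψ.Sing b → Ψ.B a b = f d → ∀ κ : K, g⁻¹ (k • g (κ • a)) = c b • κ • a := fun a b as bs e κ => by
    have : ∀ x : K, τ x = x → g⁻¹ (k • g (x • a)) = c b • x • a := fun x hx => by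
      rcases eq_or_ne x 0 with rfl | x0
      · simp
      rw [hc _ (as.smul x), key _ b (as.smul x) bs (by simp [*]) (by simp [*])]
    obtain ⟨θ, H⟩ := T.dec
    obtain ⟨x, y, h1, h2, rfl⟩ := H κ
    simp only [add_smul, mul_smul, algebraMap_smul, map_add, map_smul, smul_add, smul_comm k θ, this x h1, this y h2,
      smul_comm (c b) θ]
  obtain ⟨u, -, u0, us⟩ := exists_sing_herm T.ne' T.h'.ε T.h'.Q (T := ⊤) (by simpa using T.two)
  obtain ⟨u', hp⟩ := T.h'.nd.exists_isPair u0 us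
  have k2 : ∀ v, Ψ.B u v ≠ 0 → g⁻¹ (k • g v) = c u • v := fun v e => by
    obtain ⟨x, hx⟩ := exists_adjust us e
    have e' := (map_ne_zero τ).2 e
    have a1 := k1 u ((f d / Ψ.B u v) • (v + x • u)) us (hx.smul _) (by simp [us.2, e])
    have a2 := k1 ((-f d / Ψ.B u v) • (v + x • u)) u (hx.smul _) us (by
      simp [us.2, ← T.h'.symm u v, d2, e']) (Ψ.B u v / -f d)
    have a3 := a1 1
    rw [one_smul, hc u us] at a3
    replace a1 := a1 x
    rw [← smul_left_injective K u0 a3] at a1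
    rw [smul_smul, show Ψ.B u v / -f d * (-f d / Ψ.B u v) = 1 by have := (map_ne_zero f).2 d0; field_simp, one_smul] at a2
    simpa [a1, -LinearEquiv.coe_inv] using a2
  refine ⟨c u, fun v => ?_⟩
  obtain ⟨v, rfl⟩ := g.surjective v
  by_cases e : Ψ.B u v = 0
  · simpa [show g.symm _ = _ from k2 u' (by simp [hp.ef])] using k2 (v + u') (by simp [e, hp.ef])
  · simpa using k2 v e

end TU

theorem exists_herm_trace [FiniteDimensional F K] [Nontrivial V] (h : HD Φ) (hσ : σ ≠ RingHom.id F)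
    (hadj : ∀ k : K, ∃ k' : K, ∀ u v, Φ.B (k • u) v = Φ.B u (k' • v)) :
    ∃ (τ : K →+* K) (Ψ : Formed τ V) (L : Dual F K), HD Ψ ∧ (∀ c, τ (f c) = f (σ c)) ∧ (∀ x y, Φ.B x y = L (Ψ.B x y)) ∧
      L 1 = 1 := by
  choose t ht using hadj
  have ext : ∀ a b : K, (∀ u v, Φ.B u (a • v) = Φ.B u (b • v)) → a = b := fun a b e => by
    obtain ⟨v, hv⟩ := exists_ne (0 : V)
    exact smul_left_injective K hv (h.nd.ext_right fun u => e u v)
  let τ : K →+* K :=
    { toFun := t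
      map_one' := ext _ _ fun u v => by rw [← ht]; simp
      map_mul' := fun a b => ext _ _ fun u v => by rw [← ht, mul_smul, ht, ht, smul_smul, mul_comm]
      map_zero' := ext _ _ fun u v => by rw [← ht]; simp
      map_add' := fun a b => ext _ _ fun u v => by rw [← ht]; simp [add_smul, ht] }
  have hτ : ∀ k u v, Φ.B (k • u) v = Φ.B u (τ k • v) := ht
  have hττ : ∀ a, τ (τ a) = a := fun a => ext _ _ fun u v => by rw [← hτ, ← h.symm, ← hτ, h.symm]
  have hτf : ∀ c, τ (f c) = f (σ c) := fun c => ext _ _ fun u v => by rw [← hτ]; simp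
  have hτ1 : τ ≠ RingHom.id K := fun e => hσ (RingHom.ext fun c => (f).injective (by rw [← hτf, e]; rfl))
  obtain ⟨ω, hω⟩ := exists_trace_one hσ Φ.σσ
  obtain ⟨l, hl, -⟩ := exists_fun (S := (⊥ : Submodule F K)) (w := 1) (by simp)
  let L : Dual F K :=
    { toFun := fun k => ω * l k + σ (ω * l (τ k))
      map_add' := fun a b => by simp; ring
      map_smul' := fun c k => by
        rw [show τ (c • k) = σ c • τ k by simp [Algebra.smul_def, hτf]]; simp [Φ.σσ]; ring }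
  have hL1 : L 1 = 1 := by simpa [L, hl] using hω
  have hLτ : ∀ k, L (τ k) = σ (L k) := fun k => by simp [L, hττ, Φ.σσ, add_comm]
  have L0 : L ≠ 0 := by rintro e; simp [e] at hL1
  have ex : ∀ x y : V, ∃ a : K, ∀ k, L (a * k) = Φ.B x (k • y) := fun x y => by
    obtain ⟨φ, e⟩ := exists_dualK (V := K) L0 (Φ.B x ∘ₗ kv F K y)
    exact ⟨φ 1, fun k => by rw [mul_comm, ← smul_eq_mul, ← map_smul, e]; simp⟩
  choose b hb using ex
  have ext' : ∀ a a' : K, (∀ k, L (a * k) = L (a' * k)) → a = a' := fun a a' h =>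
    sub_eq_zero.1 (eq_zero_of_dual L0 fun k => by simp [sub_mul, mul_comm k, h])
  let B : V →ₛₗ[τ] V →ₗ[K] K := LinearMap.mk₂'ₛₗ τ (RingHom.id K) b
    (fun x y z => ext' _ _ fun k => by simp [add_mul, hb])
    (fun c x y => ext' _ _ fun k => by rw [hb, hτ, smul_smul, ← hb, smul_eq_mul]; ring_nf)
    (fun x y z => ext' _ _ fun k => by simp [add_mul, hb])
    (fun c x y => ext' _ _ fun k => by rw [hb, smul_smul, ← hb, smul_eq_mul, RingHom.id_apply]; ring_nf)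
  have hS : B.IsSymm := ⟨fun x y => ext' _ _ fun k => by
    change L (τ (b x y) * k) = L (b y x * k)
    rw [← hττ k, ← map_mul, hLτ, hb, hb, ← hτ, hττ, h.symm]⟩
  have hB : ∀ x y, Φ.B x y = L (b x y) := fun x y => by simpa using (hb x y 1).symm
  exact ⟨τ, Formed.ofHerm hτ1 hττ B hS, L, ⟨fun x hx => h.nd x fun y => by
    rw [hB, show b x y = 0 from hx y, map_zero], rfl, fun _ => rfl, rfl⟩, hτf, hB, hL1⟩

theorem exists_eta [Fintype F] [Finite K] {q : ℕ} (hσ : ∀ x, σ x = x ^ q) (hF : Fintype.card F = q ^ 2)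
    (hτ : ∀ c, τ (f c) = f (σ c)) (h1 : τ ≠ RingHom.id K) (h2 : ∀ a, τ (τ a) = a)
    (h : finrank F K * (q + 1) ≤ q ^ finrank F K) : ∃ η : K, η * τ η = 1 ∧ Algebra.norm F η = 1 ∧ ∀ c, f c ≠ η := by
  classical
  haveI := Fintype.ofFinite K
  by_contra! H
  have a1 := card_mu h1 h2
  have a2 : (Finset.univ.filter fun x : K => x * τ x = 1).card ≤ finrank F K * (q + 1) := by
    have h0 : 0 < finrank F K * (q + 1) := Nat.mul_pos finrank_pos (by omega)
    refine le_trans (Finset.card_le_card fun x hx => ?_) ((Multiset.toFinset_card_le _).trans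
      (Polynomial.card_nthRoots (finrank F K * (q + 1)) (1 : K)))
    replace hx := (Finset.mem_filter.1 hx).2
    have e : Algebra.norm F (x ^ (q + 1)) = 1 := (f).injective (by
      rw [map_pow, pow_succ, ← hσ, map_mul, ← hτ, FiniteField.algebraMap_norm_eq_pow, map_pow, ← mul_pow, mul_comm, hx]
      simp)
    obtain ⟨c, hc⟩ := H (x ^ (q + 1)) (by rw [map_pow, ← mul_pow, hx, one_pow]) e
    rw [← hc, Algebra.norm_algebraMap] at e
    rw [Multiset.mem_toFinset, Polynomial.mem_nthRoots h0, mul_comm, pow_mul, ← hc, ← map_pow, e, map_one]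
  obtain ⟨θ, hθ⟩ := DFunLike.ne_iff.1 h1
  have a3 := Nat.card_le_card_of_injective (fun k : K => ((⟨k + τ k, by simp [h2, add_comm]⟩, ⟨θ * k + τ (θ * k), by
    simp [h2, add_comm]⟩) : {x : K // τ x = x} × {x : K // τ x = x})) fun x y e => by
      simp only [Prod.mk.injEq, Subtype.mk.injEq, map_mul] at e
      exact mul_left_cancel₀ (sub_ne_zero.2 hθ) (by rw [RingHom.id_apply]; linear_combination τ θ * e.1 - e.2)
  rw [Nat.card_prod, natCard_eq_pow_finrank (K := F) (V := K), Nat.card_eq_fintype_card, hF, ← pow_mul, mul_comm 2, pow_mul,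
    ← sq, Nat.pow_le_pow_iff_left two_ne_zero, Nat.card_eq_fintype_card, Fintype.card_subtype] at a3
  omega

theorem isMaximalIn_extU [Finite F] [Finite V] (h : HD Φ) (hs : SEG Φ) (h' : HD Ψ) (hσ : σ ≠ RingHom.id F)
    (hτ : ∀ c, τ (f c) = f (σ c)) (hB : ∀ x y, Φ.B x y = L (Ψ.B x y)) (L1 : L 1 = 1) (pr : (finrank F K).Prime)
    (h3 : 3 ≤ finrank F K) (h2 : 2 ≤ finrank K V)
    (ex : 3 ≤ finrank K V ∨ ∃ η : K, η * τ η = 1 ∧ Algebra.norm F η = 1 ∧ ∀ c, f c ≠ η) :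
    Geo.IsMaximalIn (EG Φ) (normG (scal F K V) ⊓ EG Φ) := by
  haveI : FiniteDimensional F K := .of_finrank_pos pr.pos
  haveI : FiniteDimensional K V := .of_finrank_pos (by omega)
  haveI := FiniteDimensional.trans F K V
  haveI : Finite K := Module.finite_of_finite F
  have T : ∀ X, normG (scal F K V) ⊓ EG Φ ≤ X → X ≤ EG Φ → TU Φ Ψ L X := fun X hX hX' =>
    ⟨h, h', hσ, hτ, hB, L1, pr, h3, h2, ex, hX'.trans EG_le_isom, fun s a b => hX
      ⟨mem_normG_scal.2 fun k => ⟨k, fun v => by simp⟩, hs ⟨⟨fun x y => by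
        rw [hB, hB x]; exact congrArg L (a.1 x y), fun x => by rw [h.Q, h.Q]⟩,
          mem_SLg.2 (by rw [← b, ← LinearMap.det_restrictScalars]; rfl)⟩⟩⟩
  refine max_crit inf_le_right ?_ fun X hX hX' g hg hg' => ?_
  · replace T := T _ le_rfl inf_le_right
    obtain ⟨u, -, u0, us⟩ := exists_sing_herm T.ne' h'.ε h'.Q (T := ⊤) (by simpa)
    obtain ⟨w, hp⟩ := h'.nd.exists_isPair u0 us
    obtain ⟨d, hd⟩ := exists_TP hσ h.τ h.ε
    obtain ⟨t, ht⟩ := isE_T h.nd (u := u) (by simpa using T.sing us 1) hd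
    refine ⟨t, IsE_mem_EG ht, fun hc => ?_⟩
    obtain ⟨c, c0, c1⟩ := exists_kerL pr.two_le L
    obtain ⟨k, e⟩ := mem_normG_scal.1 hc.1 c⁻¹
    replace e := congrArg (Ψ.B w) (e (c • w))
    rw [inv_smul_smul₀ c0, ht.app, ht.app, hB u, hB u, map_smul (Ψ.B u), hp.ef, smul_eq_mul, mul_one, c1, L1] at e
    simp only [map_sub, map_add, map_smul, ← algebraMap_smul K (_ : F), hp.sf.2, hp.fe] at e
    simp [h'.ε, hd.1] at e
  replace T := T X hX hX'
  by_contra hc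
  refine hg' ⟨T.mem_normG hg fun g hg u w u0 us w0 ws h0 => by_contra fun h1 => hc ?_, hX' hg⟩
  obtain ⟨u, u0, us, h⟩ := T.unip hg u0 us w0 ws h1 h0
  exact T.EG_le u0 us (T.big u0 us h)

theorem ext_su [Fintype F] {n q r : ℕ} (hF : Fintype.card F = q ^ 2) (hr : r.Prime) (h3 : 3 ≤ r) (hn : r < n)
    (hex : 2 * r < n ∨ r * (q + 1) ≤ q ^ r) (S : Subalgebra F (Matrix (Fin n) (Fin n) F)) (hK : Geo.IsFieldSubalgebra r S)
    (hac : Geo.IsAdjointClosedFor (hermForm n F q) S) : Geo.IsMaximalIn (GU n F q ⊓ Geo.specialLinear (Fin n) F)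
      (Geo.subalgebraNormalizer S ⊓ (GU n F q ⊓ Geo.specialLinear (Fin n) F)) := by
  haveI : Nonempty (Fin n) := ⟨⟨0, by omega⟩⟩
  refine with_field hK fun K _ _ _ _ h2 h4 h5 h6 => ?_
  haveI : FiniteDimensional F K := .of_finrank_pos (by omega)
  haveI : Finite K := Module.finite_of_finite F
  have hd := finrank_mul_finrank F K (Fin n → F)
  have h : HD (hermFormed hF n) := ⟨hermFormed_nondeg hF n, rfl, fun _ => rfl, rfl⟩
  obtain ⟨τ, Ψ, L, a1, a2, a3, a4⟩ := exists_herm_trace (K := K) h (frobq_ne_id hF) fun k => by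
    obtain ⟨a, ha, e⟩ := h5 k
    obtain ⟨b, hb, e'⟩ := hac a ha
    obtain ⟨k', e''⟩ := (h4 b).1 hb
    exact ⟨k', fun u v => by rw [← h.symm, ← h.symm (k' • v), ← e, ← e'']; exact congrArg _ (e' u v)⟩
  simp only [h2, finrank_fintype_fun_eq_card, Fintype.card_fin] at hd
  exact isMaximalIn_inf (glEquiv _ F) (isMaximalIn_extU h (EG_herm hF (by omega)).ge a1 (frobq_ne_id hF) a2 a3 a4
    (h2 ▸ hr) (by omega) (by by_contra! H; nlinarith) (hex.imp (fun e => by by_contra! H; nlinarith) fun e =>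
      exists_eta (frobq_apply hF) hF a2 (fun e => frobq_ne_id hF (RingHom.ext fun c =>
        (algebraMap F K).injective (by rw [← a2, e]; rfl))) Ψ.σσ (h2 ▸ e))) (fun g => mem_suGL hF (by omega)) h6

end Cfsg.Agent.Root.Mx
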