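import Cfsg.Agent.Root.Ten4
import Cfsg.Agent.PLocal.Stable
import Cfsg.Agent.Invol.StrongEmb

/-! Two quadratic unipotent maps in odd characteristic generate a `p`-group or a group with a central involution
(`quad_pair`); the resulting criterion `quad_engine` for an overgroup `X` to lie in `H`. -/

set_option autoImplicit false

namespace Cfsg.Agent.Root.Mx

open Cfsg.Agent.Geom Module Polynomial

theorem quad_trace {A : Type*} [Ring A] {G : Type*} [Group G] (f : G →* A) {s d : G} (hs : (f s - 1) * (f s - 1) = 0)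
    (hd : (f d - 1) * (f d - 1) = 0) {g : G} (hg : g ∈ Subgroup.closure {s, d}) :
    Commute (f s) (f g + f g⁻¹) ∧ Commute (f d) (f g + f g⁻¹) := by
  have inv : ∀ {s : G}, (f s - 1) * (f s - 1) = 0 → f s⁻¹ = 1 - (f s - 1) := fun {s} hs => by
    have : f s⁻¹ * f s = 1 := by rw [← map_mul]; simp
    linear_combination (norm := noncomm_ring) f s⁻¹ * hs - this * (f s - 2)
  have e1 := inv hs
  have e2 := inv hd
  obtain ⟨a, ha⟩ : ∃ a, f s = 1 + a := ⟨f s - 1, by simp⟩
  obtain ⟨b, hb⟩ : ∃ b, f d = 1 + b := ⟨f d - 1, by simp⟩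
  simp only [ha, hb, add_sub_cancel_left] at hs hd e1 e2
  let C := Subring.centralizer ({a, b} : Set A)
  have hγ : a * b + b * a ∈ C := by
    rintro _ (rfl | rfl)
    · linear_combination (norm := noncomm_ring) hs * b - b * hs
    · linear_combination (norm := noncomm_ring) hd * a - a * hd
  let P : A → A → Prop := fun x y => Commute (a * b + b * a) x ∧ x + y ∈ C ∧ x * a - a * y ∈ C ∧ x * b - b * y ∈ C ∧
    x * a * b + b * a * y ∈ C
  have z : ∀ {x : A}, x = 0 → x ∈ C := fun e => e ▸ zero_mem C
  have pa : ∀ x y, P x y → P (x * a) (-(a * y)) := fun x y ⟨h1, _, h3, _, h5⟩ =>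
    ⟨h1.mul_right (hγ a (by simp)).symm, by simpa [sub_eq_add_neg] using h3,
      z (by linear_combination (norm := noncomm_ring) x * hs + hs * y), by simpa [mul_assoc] using h5,
      z (by linear_combination (norm := noncomm_ring) x * hs * b - b * hs * y)⟩
  have pb : ∀ x y, P x y → P (x * b) (-(b * y)) := fun x y ⟨h1, h2, _, h4, h5⟩ =>
    ⟨h1.mul_right (hγ b (by simp)).symm, by simpa [sub_eq_add_neg] using h4, by
      convert sub_mem (mul_mem hγ h2) h5 using 1
      linear_combination (norm := noncomm_ring) -h1.eq,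
      z (by linear_combination (norm := noncomm_ring) x * hd + hd * y), by
      convert mul_mem hγ h4 using 1
      linear_combination (norm := noncomm_ring) -h1.eq * b - x * a * hd + a * hd * y⟩
  have add : ∀ {x y x' y'}, P x y → P x' y' → P (x + x') (y + y') := fun ⟨h1, h2, h3, h4, h5⟩ ⟨k1, k2, k3, k4, k5⟩ =>
    ⟨h1.add_right k1, by convert add_mem h2 k2 using 1; abel, by convert add_mem h3 k3 using 1; noncomm_ring,
      by convert add_mem h4 k4 using 1; noncomm_ring, by convert add_mem h5 k5 using 1; noncomm_ring⟩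
  have neg : ∀ {x y}, P x y → P (-x) (-y) := fun ⟨h1, h2, h3, h4, h5⟩ =>
    ⟨h1.neg_right, by convert neg_mem h2 using 1; abel, by convert neg_mem h3 using 1; noncomm_ring,
      by convert neg_mem h4 using 1; noncomm_ring, by convert neg_mem h5 using 1; noncomm_ring⟩
  have key : P (f g) (f g⁻¹) := by
    induction hg using Subgroup.closure_induction_right with
    | one => exact ⟨by simp, by simpa using add_mem (one_mem C) (one_mem C), by simp, by simp, by simpa using hγ⟩
    | mul_right x _ y hy ih =>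
      rcases hy with rfl | rfl
      · simpa [ha, e1, mul_add, sub_mul, sub_eq_add_neg, add_mul] using add ih (pa _ _ ih)
      · simpa [hb, e2, mul_add, sub_mul, sub_eq_add_neg, add_mul] using add ih (pb _ _ ih)
    | mul_inv_cancel x _ y hy ih =>
      rcases hy with rfl | rfl
      · simpa [ha, e1, mul_add, sub_eq_add_neg, add_mul] using add ih (neg (pa _ _ ih))
      · simpa [hb, e2, mul_add, sub_eq_add_neg, add_mul] using add ih (neg (pb _ _ ih))
  exact ⟨ha ▸ (Commute.one_left _).add_left (key.2.1 a (by simp)), hb ▸ (Commute.one_left _).add_left (key.2.1 b (by simp))⟩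

variable {F : Type*} [Field F] {V : Type*} [AddCommGroup V] [Module F V] [Finite F] [FiniteDimensional F V]

theorem quad_pair (h2 : (2 : F) ≠ 0) {s d : V ≃ₗ[F] V} (hs : ∀ x, s (s x - x) = s x - x) (hd : ∀ x, d (d x - x) = d x - x) :
    IsPGroup (ringChar F) (Subgroup.closure {s, d}) ∨
      ∃ z ∈ Subgroup.closure {s, d}, z ≠ 1 ∧ z * z = 1 ∧ Commute z s ∧ Commute z d := by
  have : Finite V := Module.finite_of_finite F
  have : Finite (V ≃ₗ[F] V) := Finite.of_injective _ DFunLike.coe_injective
  have : Fact (ringChar F).Prime := ⟨CharP.char_is_prime F _⟩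
  let f : (V ≃ₗ[F] V) →* End F V := LinearEquiv.automorphismGroup.toLinearMapMonoidHom
  have q : ∀ {s : V ≃ₗ[F] V}, (∀ x, s (s x - x) = s x - x) → (f s - 1) * (f s - 1) = 0 := fun h =>
    LinearMap.ext fun x => sub_eq_zero.2 (h x)
  rcases Nat.even_or_odd (Nat.card (Subgroup.closure {s, d})) with e | e
  · obtain ⟨z, hz, z2⟩ := Invol.exists_invol_mem_of_even e
    have z1 := Invol.mul_self_of z2
    have := quad_trace f (q hs) (q hd) hz
    rw [inv_eq_of_mul_eq_one_right z1, ← two_smul F] at this
    have c : ∀ {s}, Commute (f s) ((2 : F) • f z) → Commute z s := fun h => LinearEquiv.toLinearMap_injective (by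
      have := h.eq
      rw [mul_smul_comm, smul_mul_assoc] at this
      exact (smul_right_injective _ h2 this).symm)
    exact .inr ⟨z, hz, Invol.ne_one_of z2, z1, c this.1, c this.2⟩
  refine .inl (by_contra fun hp => ?_)
  set L := Subgroup.closure {s, d} with hL
  have ha' : s ∈ L := Subgroup.subset_closure (by simp)
  have hb' : d ∈ L := Subgroup.subset_closure (by simp)
  let K := SplittingField (X ^ Nat.card L - 1 : F[X])
  have : Finite K := Module.finite_of_finite F
  have : CharP K (ringChar F) := charP_of_injective_algebraMap (algebraMap F K).injective _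
  have hsp : (X ^ Nat.card L - 1 : K[X]).Splits := by
    have := SplittingField.splits (X ^ Nat.card L - 1 : F[X])
    rwa [Polynomial.map_sub, Polynomial.map_pow, map_X, Polynomial.map_one] at this
  let ρ : Representation F L V := f.comp L.subtype
  obtain ⟨φ, R, h1, h3⟩ := PLocal.exists_SL2_of_rep (p := ringChar F) (PLocal.closure_pair_eq_top hL ha' hb')
    Nat.card_pos.ne' pow_card_eq_one' hsp _ (TensorProduct F K V) rfl (PLocal.bcRep K ρ)
    (PLocal.bcRep_quad K (by rw [sq]; exact q hs)) (PLocal.bcRep_quad K (by rw [sq]; exact q hd)) fun h => hp fun g => by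
      obtain ⟨k, hk⟩ := h g
      refine ⟨k, Subtype.ext (LinearEquiv.toLinearMap_injective ?_)⟩
      apply LinearMap.baseChangeHom_injective F _ K
      exact hk.trans (map_one (Module.End.baseChangeHom F K _)).symm
  rw [PLocal.range_eq_closure_pair hL ha' hb'] at h1
  refine h1 (PLocal.sl2_isPGroup_of_abelian_two (ringChar_ne_two h2) ?_ fun Q hQ hQ2 => ?_)
  · rintro _ (rfl | rfl)
    exacts [PLocal.Unip.pow_eq_one (h3.poly.2 (PLocal.bcRep_quad K (by rw [sq]; exact q hs))),
      PLocal.Unip.pow_eq_one (h3.poly.2 (PLocal.bcRep_quad K (by rw [sq]; exact q hd)))]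
  rw [← PLocal.range_eq_closure_pair hL ha' hb'] at hQ
  obtain ⟨k, hk⟩ := hQ2.exists_card_eq
  have := ((Subgroup.card_dvd_of_le hQ).trans (Subgroup.card_range_dvd φ))
  rw [hk] at this
  obtain rfl : k = 0 := by
    by_contra k0
    exact Nat.not_even_iff_odd.2 e (even_iff_two_dvd.2 ((dvd_pow_self 2 k0).trans this))
  rw [Subgroup.card_eq_one.1 hk]
  infer_instance

theorem quad_engine (h2 : (2 : F) ≠ 0) {X H : Subgroup (V ≃ₗ[F] V)} {s : V ≃ₗ[F] V} (hX : s ∈ X) (hH : s ∈ H)
    (hs : ∀ x, s (s x - x) = s x - x) (rc : ∀ c ∈ X, c⁻¹ * s * c ∈ H → c ∈ H)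
    (hz : ∀ c ∈ X, ∀ z ∈ Subgroup.closure {s, c⁻¹ * s * c}, z ≠ 1 → z * z = 1 → Commute z s → Commute z (c⁻¹ * s * c) →
      c⁻¹ * s * c ∈ H) : X ≤ H := fun c hc => rc c hc <| by
  have : Finite V := Module.finite_of_finite F
  have : Finite (V ≃ₗ[F] V) := Finite.of_injective _ DFunLike.coe_injective
  have : Fact (ringChar F).Prime := ⟨CharP.char_is_prime F _⟩
  rcases quad_pair h2 hs (d := c⁻¹ * s * c) (fun x => by
    simpa using congrArg c.symm (hs (c x))) with h | ⟨z, a1, a2⟩
  swap
  · exact hz c hc z a1 a2.1 a2.2.1 a2.2.2.1 a2.2.2.2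
  have le : Subgroup.closure {s, c⁻¹ * s * c} ≤ X := (Subgroup.closure_le _).2 (by
    rintro _ (rfl | rfl); exacts [hX, mul_mem (mul_mem (inv_mem hc) hX) hc])
  by_contra hd
  obtain ⟨r, a1, a2, a3⟩ := Invol.exists_mem_normalizer_of_lt h (X := Subgroup.closure {s, c⁻¹ * s * c} ⊓ H)
    (lt_of_le_of_ne inf_le_left fun e => hd (e.ge (Subgroup.subset_closure (by simp))).2)
  exact a2 ⟨a1, rc r (le a1) (by
    simpa using ((Subgroup.mem_normalizer_iff.1 (inv_mem a3) s).1 ⟨Subgroup.subset_closure (by simp), hH⟩).2)⟩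

end Cfsg.Agent.Root.Mx
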