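import Cfsg.Agent.Root.Tq1
import Cfsg.Agent.Root.Qp

/-! Maximality of tensor stabilisers whose first factor (dimension `≥ 4`) has transvections (`isMaximalIn_FZ`);
`SU₃ ⊗ SU₄` (`isMaximalIn_tensor_su4`), `Sp₄ ⊗ O` (`isMaximalIn_tensor_sp4_o`). -/

set_option autoImplicit false

namespace Cfsg.Agent.Root.Mx

open Cfsg.Agent.Geom Cfsg.Agent.AutCl Module TensorProduct

variable {F : Type*} [Field F] {σ : F →+* F} {W U : Type*} [AddCommGroup W] [Module F W] [AddCommGroup U] [Module F U]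
  {Φ₁ : Formed σ W} {Φ₂ : Formed σ U} {Φ : Formed σ (W ⊗[F] U)} {X : Subgroup (W ⊗[F] U ≃ₗ[F] W ⊗[F] U)}
  {G : Subgroup (U ≃ₗ[F] U)}

theorem comm_of_mvS [FiniteDimensional F W] (hn : Φ₁.Nondeg) {M : Submodule F W} (hM : ∀ x ∈ M, ∀ y ∈ M, Φ₁.B x y = 0)
    {a b : W ≃ₗ[F] W} (ha : a ∈ Φ₁.isom) (hb : b ∈ Φ₁.isom) (ha' : a ∈ mvS M) (hb' : b ∈ mvS M) : a * b = b * a := by
  ext x
  have e1 := fix_of_mvS hn ha ha' (hM _ (hb' x))
  have e2 := fix_of_mvS hn hb hb' (hM _ (ha' x))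
  simp only [map_sub, LinearEquiv.mul_apply] at e1 e2 ⊢
  linear_combination (norm := module) e1 - e2

theorem lT_inj [Nontrivial U] {a b : W ≃ₗ[F] W} (h : lT U a = lT U b) : a = b := LinearEquiv.ext fun x => by
  obtain ⟨u, u0⟩ := exists_ne (0 : U)
  obtain ⟨μ, m⟩ := exists_fun0 (F := F) u0
  simpa [m] using congrArg (TensorProduct.rid F W ∘ μ.lTensor W) (LinearEquiv.congr_fun h (x ⊗ₜ u))

theorem lT_one : lT U (1 : W ≃ₗ[F] W) = 1 := TensorProduct.congr_refl_refl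

theorem eq_lT_of_scal [Nontrivial U] {g : W ⊗[F] U ≃ₗ[F] W ⊗[F] U} {a : W ≃ₗ[F] W} {b : U ≃ₗ[F] U}
    (e : ∀ w u, g (w ⊗ₜ u) = a w ⊗ₜ b u) {k : F} (hk : ∀ u, b u = k • u) : ∃ a', g = lT U a' := by
  obtain ⟨u, u0⟩ := exists_ne (0 : U)
  have k0 : k ≠ 0 := by rintro rfl; exact u0 (by simpa using hk u)
  exact ⟨.smulOfNeZero F W k k0 * a, LinearEquiv.toLinearMap_injective (TensorProduct.ext' fun w u => by
    simp [e, hk, smul_tmul])⟩

theorem conj_lT_of_mem [Nontrivial U] {c : W ⊗[F] U ≃ₗ[F] W ⊗[F] U} (hc : c ∈ tstab F W U) (a : W ≃ₗ[F] W) :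
    ∃ p : W ≃ₗ[F] W, c⁻¹ * lT U a * c = lT U (p⁻¹ * a * p) := by
  obtain ⟨p, b, e⟩ := hc
  refine ⟨p, LinearEquiv.toLinearMap_injective (TensorProduct.ext' fun w u => c.symm_apply_eq.2 ?_)⟩
  simp [e]

/-- No element `1 ⊗ b` looks like a transvection of the first factor. -/
def NoFus (Φ : Formed σ (W ⊗[F] U)) : Prop := ∀ b : U ≃ₗ[F] U, TensorProduct.congr (.refl F W) b ∈ Φ.isom →
  (∀ u, b (b u - u) = b u - u) → finrank F W * finrank F (mov b) ≠ finrank F U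

namespace FZ

variable [Finite F] [FiniteDimensional F W] [FiniteDimensional F U] (h : FZ Φ₁ Φ₂ Φ X G)
include h

theorem sim {g : W ⊗[F] U ≃ₗ[F] W ⊗[F] U} (hg : g ∈ X) {a : W ≃ₗ[F] W} {b : U ≃ₗ[F] U}
    (e : ∀ w u, g (w ⊗ₜ u) = a w ⊗ₜ b u) : ∃ μ ≠ 0, ∀ x y, Φ₁.B (a x) (a y) = μ * Φ₁.B x y := by
  obtain ⟨u, v, hu⟩ := h.ok.ex
  obtain ⟨w, r, hw⟩ := h.exists_pair₁
  have s : ∀ x y, Φ₁.B (a x) (a y) = Φ₂.B (b.symm u) (b.symm v) * Φ₁.B x y := fun x y => by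
    simpa [e, h.B, hu.ef, mul_comm] using (h.iso hg).1 (x ⊗ₜ b.symm u) (y ⊗ₜ b.symm v)
  exact ⟨_, fun e => by simpa [e, hw.ef] using s (a.symm w) (a.symm r), s⟩

theorem isom_of_lT {a : W ≃ₗ[F] W} (ha : lT U a ∈ X) (x y : W) : Φ₁.B (a x) (a y) = Φ₁.B x y := by
  obtain ⟨u, v, hu⟩ := h.ok.ex
  simpa [h.B, hu.ef] using (h.iso ha).1 (x ⊗ₜ u) (y ⊗ₜ v)

variable (hS : ¬ EG Φ ≤ X)
include hS

theorem fin2 {g : W ⊗[F] U ≃ₗ[F] W ⊗[F] U} (hg : g ∈ X) {Y Y' : Submodule F (W ⊗[F] U)} (hY : g ∈ mvS Y)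
    (h1 : finrank F Y ≤ finrank F U) (h2 : finrank F Y' ≤ finrank F U) {a : W ≃ₗ[F] W} (ha : lT U a ∈ mvS (Y ⊔ Y'))
    (hr : ∀ p, ¬ ∀ x, a x - x ∈ F ∙ p) : g ∈ tstab F W U := by
  obtain ⟨x, hx⟩ := not_forall.1 (hr 0)
  obtain ⟨y, hy⟩ := not_forall.1 (hr (a x - x))
  obtain ⟨φ, p1, p2⟩ := exists_fun1 hy
  let j := (TensorProduct.mk F W U (a x - x)).coprod (TensorProduct.mk F W U (a y - y))
  have inj : Function.Injective j := (injective_iff_map_eq_zero _).2 fun ⟨u, v⟩ e => by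
    obtain rfl : v = 0 := by simpa only [j, LinearMap.coprod_apply, mk_apply, map_add, cL_tmul, p1, p2, zero_smul,
      one_smul, zero_add, map_zero] using congrArg (cL φ) e
    simpa using tmul_inj (F := F) (w := a x - x) (u' := 0) (fun e => hx (by simp [e])) (by
      simpa only [j, LinearMap.coprod_apply, mk_apply, tmul_zero, add_zero] using e)
  have e : LinearMap.range j = Y ⊔ Y' := Submodule.eq_of_le_of_finrank_le (by
    rintro _ ⟨⟨u, v⟩, rfl⟩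
    simpa [j, sub_tmul] using add_mem (ha (x ⊗ₜ u)) (ha (y ⊗ₜ v))) (by
    have := Submodule.finrank_add_le_finrank_add_finrank Y Y'
    rw [LinearMap.finrank_range_of_inj inj, finrank_prod]; omega)
  obtain ⟨w, w0, hw, e1, e2⟩ := h.sing_perp2 (a x - x) (a y - y)
  refine h.par hS hg hw w0 fun u => ⟨u, fix_of_mvS h.nondeg (h.iso hg) hY fun z hz => ?_⟩
  obtain ⟨⟨u, v⟩, rfl⟩ := e.ge (Submodule.mem_sup_left hz)
  simp only [j, LinearMap.coprod_apply, mk_apply, map_add, h.B, Φ₁.B_eq_zero_symm e1, Φ₁.B_eq_zero_symm e2, zero_mul,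
    add_zero]

variable (hex : NoFus Φ)
include hex

theorem recT {v : W} (v0 : v ≠ 0) {t : F} (t0 : t ≠ 0) {r : W ≃ₗ[F] W} (hr : IsE Φ₁ v 0 t r)
    {c : W ⊗[F] U ≃ₗ[F] W ⊗[F] U} (hc : c ∈ X) (H : c⁻¹ * lT U r * c ∈ tstab F W U) : c ∈ tstab F W U := by
  have := h.nontriv
  have e : ∀ x, r x = x + (-t * Φ₁.B v x) • v := fun x => by simp [hr.app]
  have hκ := neg_ne_zero.2 t0
  have m := mul_mem (mul_mem (inv_mem hc) (h.l _ _ _ _ hr)) hc
  obtain ⟨a, b, e1⟩ := H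
  obtain ⟨a', e2⟩ : ∃ a', c⁻¹ * lT U r * c = lT U a' := by
    by_cases hk : ∀ k : F, a.toLinearMap ≠ k • 1
    · obtain ⟨p, hp⟩ := exists_notMem_of_not_scalar hk
      obtain ⟨φ, p1, p2⟩ := exists_fun1 (notMem_symm hp (by rintro rfl; simp at hp))
      exact (scalar_of_mv e1 (conj_mem_mvS e c) ![p] ![φ] (by simpa) (by simpa) (by
        have := finrank_ptc c v; have := h.four; omega)).imp fun _ => And.left
    obtain ⟨k, hk⟩ := not_forall.1 hk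
    replace hk : ∀ w, a w = k • w := LinearMap.congr_fun (not_not.1 hk)
    have k0 : k ≠ 0 := by rintro rfl; exact v0 (by simpa using hk v)
    have e2 : c⁻¹ * lT U r * c = TensorProduct.congr (.refl F W) (.smulOfNeZero F U k k0 * b) :=
      LinearEquiv.toLinearMap_injective (TensorProduct.ext' fun w u => (e1 w u).trans (by simp [hk, smul_tmul]))
    refine (hex _ (e2 ▸ h.iso m) (fun u => tmul_inj (F := F) v0 ?_) ?_).elim
    · have : ∀ z, (c⁻¹ * lT U r * c) ((c⁻¹ * lT U r * c) z - z) = (c⁻¹ * lT U r * c) z - z := fun z => by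
        simp [-TensorProduct.congr_tmul, lT_rk1 e, hr.sp.2]
      simpa only [e2, TensorProduct.congr_tmul, LinearEquiv.refl_apply, ← tmul_sub] using this (v ⊗ₜ u)
    obtain ⟨x, hx⟩ := h.nd.exists_eq_one v0
    rw [← finrank_mov_rT, ← e2, show mov (c⁻¹ * lT U r * c) = ptc c v from le_antisymm ?_ ?_]
    · exact LinearMap.finrank_range_of_inj fun u u' e => tmul_inj v0 (c.symm.injective e)
    · rintro _ ⟨z, rfl⟩
      exact neg_mem_iff.1 (by convert conj_mem_mvS e c z using 1; exact neg_sub _ _)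
    · rintro _ ⟨u, rfl⟩
      exact ⟨c.symm (x ⊗ₜ (t⁻¹ • u)), by simp [e, hx, t0, add_tmul, ← smul_tmul', smul_smul, neg_tmul]⟩
  obtain ⟨x, -, -, e4⟩ := rec1 h.nd v0 hκ e e2
  exact inv_mem_iff.1 (h.par hS (inv_mem hc) hr.sp v0 e4)

/-- The engine in odd characteristic. -/
theorem le_odd (h2 : (2 : F) ≠ 0) : X ≤ tstab F W U := by
  have := h.nontriv
  obtain ⟨v, v', hp⟩ := h.exists_pair₁
  have v0 := hp.left_ne_zero
  obtain ⟨t, ht⟩ := h.tp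
  obtain ⟨r, hr⟩ := isE_T h.nd hp.1 ht
  have e : ∀ x, r x = x + (-t * Φ₁.B v x) • v := fun x => by simp [hr.app]
  have m := h.l _ _ _ _ hr
  refine quad_engine h2 m (lT_mem r) (fun z => by simp [-TensorProduct.congr_tmul, lT_rk1 e, hr.sp.2])
    (fun c => h.recT hS hex v0 ht.1 hr) fun c hc z hz z1 z2 z3 z4 => ?_
  have md := mul_mem (mul_mem (inv_mem hc) m) hc
  have zX : z ∈ X := (Subgroup.closure_le _).2 (by rintro _ (rfl | rfl); exacts [m, md]) hz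
  have zm : z ∈ mvS (ptc c v ⊔ ptc 1 v) := (Subgroup.closure_le _).2 (by
    rintro _ (rfl | rfl)
    exacts [mvS_mono le_sup_right (by simpa using conj_mem_mvS e 1), mvS_mono le_sup_left (conj_mem_mvS e c)]) hz
  obtain ⟨a, b, e1⟩ := h.recT hS hex v0 ht.1 hr zX (by rw [mul_assoc, ← z3.eq, inv_mul_cancel_left]; exact lT_mem r)
  have iso := (h.iso zX).1
  have zz : ∀ x, z (z x) = x := LinearEquiv.congr_fun z2
  have adj : ∀ x y, Φ.B (z x) y = Φ.B x (z y) := fun x y => by rw [← iso, zz]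
  have k1 : ∀ x, cL (Φ₁.B v) x = 0 → ∃ τ ∈ ptc c v, ∃ u, z x - x = τ + v ⊗ₜ u ∧ cL (Φ₁.B v) τ = 0 := fun x hx => by
    obtain ⟨τ, hτ, _, ⟨u, rfl⟩, e2⟩ := Submodule.mem_sup.1 (zm x)
    refine ⟨τ, hτ, u, e2.symm, h.ok.nd.ext_right fun y => ?_⟩
    obtain ⟨y', e3⟩ := comm_pt h.nd v0 (neg_ne_zero.2 ht.1) e e z3.eq y
    have := congrArg (Φ.B (v ⊗ₜ y)) (show τ + v ⊗ₜ u = z x - x from e2)
    rw [map_sub, ← adj, e3] at this
    simpa [hp.1.2, h.Bl, hx] using this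
  have k2 : ∀ x y, cL (Φ₁.B v) x = 0 → cL (Φ₁.B v) y = 0 → Φ.B x (z y) = Φ.B x y := fun x y hx hy => by
    obtain ⟨_, ⟨p, rfl⟩, u, a1, a2⟩ := k1 x hx
    obtain ⟨_, ⟨q, rfl⟩, u', b1, b2⟩ := k1 y hy
    have : Φ.B (z x - x) (z y - y) = 0 := by
      rw [a1, b1]
      simp only [map_add, LinearMap.add_apply, h.Bl _ u, h.Br _ u', a2, b2, LinearMap.comp_apply, mk_apply,
        LinearEquiv.coe_coe] at a2 b2 ⊢
      rw [← (h.iso hc).1]
      simp [h.B, hp.1.2]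
    simp only [map_sub, LinearMap.sub_apply, iso, adj x y] at this
    exact mul_left_cancel₀ h2 (by linear_combination -this)
  obtain ⟨x, y, x1, y1, e2⟩ := h.perp_two hp.1 v0
  obtain ⟨a, rfl⟩ := eq_lT_of_scal e1 (k := (Φ₁.B x (a y))⁻¹) fun u => by
    have s : Φ₁.B x (a y) • b u = u := h.ok.nd.ext_right fun u' => by
      simpa [e1, h.B, e2] using k2 (x ⊗ₜ u') (y ⊗ₜ u) (by simp [x1]) (by simp [y1])
    by_cases e3 : Φ₁.B x (a y) = 0
    · simp [show u = 0 by simpa [e3] using s.symm]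
    · rw [eq_inv_smul_iff₀ e3, s]
  refine h.fin2 hS md (conj_mem_mvS e c) (finrank_ptc c v) (finrank_ptc 1 v) zm fun p hp' => z1 ?_
  obtain ⟨u₁, u₂, hu⟩ := h.ok.ex
  have aa : ∀ x, a (a x) = x := LinearEquiv.congr_fun (lT_inj (U := U) (a := a * a) (b := 1) (by rw [lT_mul, z2, lT_one]))
  have ad : ∀ x y, Φ₁.B (a x) y = Φ₁.B x (a y) := fun x y => by rw [← h.isom_of_lT zX, aa]
  have k3 : ∀ x, Φ₁.B v x = 0 → a x - x ∈ F ∙ v := fun x hx => mem_span_of_perp h.nd fun y hy => by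
    simpa [h.B, hu.ef, ad, sub_eq_zero] using k2 (x ⊗ₜ u₁) (y ⊗ₜ u₂) (by simp [hx]) (by simp [hy])
  rw [show a = 1 from LinearEquiv.ext fun x => by_contra fun x0 => ?_, lT_one]
  replace x0 : a x - x ≠ 0 := sub_ne_zero.2 x0
  have k4 : ∀ y, a y - y ∈ F ∙ (a x - x) := fun y => by
    obtain ⟨k, e3⟩ := Submodule.mem_span_singleton.1 (hp' x)
    rw [← e3, Submodule.span_singleton_smul_eq (by rintro rfl; simp [e3.symm] at x0 : k ≠ 0).isUnit]
    exact hp' y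
  have k5 : a x - x ∈ F ∙ v := by_contra fun e3 => e3 (mem_span_of_perp h.nd fun y hy => by
    obtain ⟨k, e4⟩ := Submodule.mem_span_singleton.1 (k4 y)
    obtain rfl := eq_zero_of_smul_mem e3 (e4 ▸ k3 y hy)
    simp [ad, sub_eq_zero.1 (e4.symm.trans (zero_smul _ _))])
  obtain ⟨k, e3⟩ := Submodule.mem_span_singleton.1 k5
  obtain ⟨y, e4⟩ := h.nd.exists_eq_one x0
  obtain ⟨l, e5⟩ := Submodule.mem_span_singleton.1 (k4 y)
  have e6 : Φ₁.B (a x - x) (a y - y) = 0 := by simp [← e5, ← e3, hp.1.2]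
  rw [map_sub, ← ad, map_sub, aa, ← neg_sub (a x), map_neg, LinearMap.neg_apply, e4] at e6
  exact h2 (by linear_combination -e6)

theorem recI (h2 : (2 : F) = 0) {a : W ≃ₗ[F] W} (ha : lT U a ∈ X) (a1 : a * a = 1) (a0 : a ≠ 1)
    {c : W ⊗[F] U ≃ₗ[F] W ⊗[F] U} (hc : c ∈ X) (H : c⁻¹ * lT U a * c ∈ tstab F W U) : c ∈ tstab F W U := by
  have := h.nontriv
  obtain ⟨t, ht⟩ := h.tp
  have sq : ∀ x : W, -x = x := fun x => by rw [neg_eq_iff_add_eq_zero, ← two_smul F, h2, zero_smul]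
  have sq' : ∀ x : W ⊗[F] U, -x = x := fun x => by rw [neg_eq_iff_add_eq_zero, ← two_smul F, h2, zero_smul]
  have sg : ∀ a : W ≃ₗ[F] W, (∀ x, a (a x) = x) → (∀ x y, Φ₁.B (a x) (a y) = Φ₁.B x y) → ∀ x y,
      a (a x - x) = a x - x ∧ Φ₁.B (a x - x) (a y - y) = 0 := fun a aa ai x y => by
    have e : a (a x - x) = a x - x := by rw [map_sub, aa, ← neg_sub, sq]
    exact ⟨e, by rw [map_sub, ← e, ai, e, sub_self]⟩
  obtain ⟨x₁, x1⟩ : ∃ x, a x - x ≠ 0 := by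
    by_contra! hc; exact a0 (LinearEquiv.ext fun x => sub_eq_zero.1 (hc x))
  have s1 := sg a (LinearEquiv.congr_fun a1) (h.isom_of_lT ha)
  obtain ⟨r₁, hr₁⟩ := isE_T h.nd (u := a x₁ - x₁) ⟨h.Q₁ _, (s1 _ _).2⟩ ht
  set f := c⁻¹ * lT U a * c with hf
  have fX : f ∈ X := mul_mem (mul_mem (inv_mem hc) ha) hc
  have ff : ∀ x, f (f x) = x := LinearEquiv.congr_fun (show f * f = 1 by
    rw [hf, show c⁻¹ * lT U a * c * (c⁻¹ * lT U a * c) = c⁻¹ * (lT U a * lT U a) * c by group, ← lT_mul, a1, lT_one]; simp)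
  obtain ⟨p, b, e1, pp⟩ : ∃ (p : W ≃ₗ[F] W) (b : U ≃ₗ[F] U), (∀ w u, f (w ⊗ₜ u) = p w ⊗ₜ b u) ∧ ∀ x, p (p x) = x := by
    obtain ⟨p, b, e1⟩ := H
    obtain ⟨u, u0⟩ := exists_ne (0 : U)
    obtain ⟨μ, m⟩ := exists_fun0 (F := F) u0
    have e2 : ∀ x, μ (b (b u)) • p (p x) = x := fun x => by
      simpa [e1, m] using congrArg (TensorProduct.rid F W ∘ μ.lTensor W) (ff (x ⊗ₜ u))
    have := Fintype.ofFinite F
    obtain ⟨l, hl⟩ := FiniteField.isSquare_of_char_two (ringChar.eq_iff.2 (CharTwo.of_one_ne_zero_of_two_eq_zero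
      one_ne_zero h2)) (μ (b (b u)))
    have l0 : l ≠ 0 := by rintro rfl; exact x1 (by simpa [hl] using (e2 (a x₁ - x₁)).symm)
    exact ⟨.smulOfNeZero F W l l0 * p, .smulOfNeZero F U _ (inv_ne_zero l0) * b, fun w u => by
      simp [e1, smul_tmul, l0], fun x => by simpa [hl, smul_smul] using e2 x⟩
  obtain ⟨μ, -, pi⟩ := h.sim fX e1
  obtain ⟨w₀, r₀, hp⟩ := h.exists_pair₁
  obtain rfl : μ = 1 := by
    have := pi (p w₀) (p r₀)
    rw [pp, pp, pi, hp.ef] at this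
    exact eq_of_sub_eq_zero (pow_eq_zero_iff two_ne_zero |>.1 (by linear_combination (1 - μ) * h2 - this))
  simp only [one_mul] at pi
  obtain ⟨w, w0, hw, e2⟩ : ∃ w, w ≠ 0 ∧ Φ₁.Sing w ∧ p w = w := by
    by_cases e : p w₀ - w₀ = 0
    · exact ⟨w₀, hp.left_ne_zero, hp.1, sub_eq_zero.1 e⟩
    · exact ⟨_, e, ⟨h.Q₁ _, (sg p pp pi _ _).2⟩, (sg p pp pi _ w₀).1⟩
  obtain ⟨r, hr⟩ := isE_T h.nd hw ht
  have m := h.l _ _ _ _ hr
  have m₁ := h.l _ _ _ _ hr₁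
  have cm : lT U r * f = f * lT U r := LinearEquiv.toLinearMap_injective (TensorProduct.ext' fun x u => by
    have := pi w x
    rw [e2] at this
    simp [e1, hr.app, this, e2])
  have hM : ∀ x ∈ mov f, ∀ y ∈ mov f, Φ.B x y = 0 := by
    rintro _ ⟨x, rfl⟩ _ ⟨y, rfl⟩
    have e : f (x - f x) = x - f x := by rw [map_sub, ff, ← neg_sub, sq']
    change Φ.B (x - f x) (y - f y) = 0
    rw [map_sub, ← e, (h.iso fX).1, e, sub_self]
  have d1 : c⁻¹ * lT U r₁ * c ∈ mvS (mov f) := mvS_mono (by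
    rintro _ ⟨u, rfl⟩
    exact ⟨-c.symm (x₁ ⊗ₜ u), by simp [hf, sub_tmul]; abel⟩)
    (conj_mem_mvS (Φ₁ := Φ₁) (v := a x₁ - x₁) (κ := -t) (fun x => by simp [hr₁.app]) c)
  have dX := mul_mem (mul_mem (inv_mem hc) m₁) hc
  have gX := mul_mem (mul_mem m dX) (inv_mem m)
  have e3 := comm_of_mvS h.nondeg hM (h.iso dX) (h.iso gX) d1 fun x => by
    obtain ⟨y, e⟩ := d1 ((lT U r)⁻¹ x)
    refine ⟨lT U r y, ?_⟩
    have := congrArg (lT U r) e
    simp only [LinearMap.sub_apply, LinearMap.id_apply, LinearEquiv.coe_coe, map_sub] at this ⊢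
    rw [← LinearEquiv.mul_apply f, ← cm]
    exact this.trans (congrArg _ ((lT U r).apply_symm_apply x))
  have e4 := h.recT hS hex x1 ht.1 hr₁ (mul_mem (mul_mem hc gX) (inv_mem hc)) (by
    rw [show ∀ g, (c * g * c⁻¹)⁻¹ * lT U r₁ * (c * g * c⁻¹) = c * (g⁻¹ * (c⁻¹ * lT U r₁ * c * g)) * c⁻¹ from
      fun g => by group, e3]
    simpa [mul_assoc] using lT_mem (U := U) r₁)
  have e5 := h.recT hS hex x1 ht.1 hr₁ (mul_mem (mul_mem hc (inv_mem m)) (inv_mem hc)) (by simpa [mul_assoc] using e4)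
  exact inv_mem_iff.1 (h.recT hS hex w0 ht.1 hr (inv_mem hc) (by simpa [mul_assoc] using inv_mem e5))

/-- The engine in characteristic two. -/
theorem le_even (h2 : (2 : F) = 0) : X ≤ tstab F W U := fun c hc => by_contra fun hc' => by
  have := h.nontriv
  have : Finite (W ⊗[F] U) := Module.finite_of_finite F
  have : Finite (W ⊗[F] U ≃ₗ[F] W ⊗[F] U) := Finite.of_injective _ DFunLike.coe_injective
  obtain ⟨v, v', hp⟩ := h.exists_pair₁
  have v0 := hp.left_ne_zero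
  obtain ⟨x, x1, hx, e⟩ := h.sing_perp v
  obtain ⟨t, ht⟩ := h.tp
  obtain ⟨r, hr⟩ := isE_T h.nd hp.1 ht
  obtain ⟨r', hr'⟩ := isE_T h.nd hx ht
  have e' := Φ₁.B_eq_zero_symm e
  have m := h.l _ _ _ _ hr
  have m' : lT U (r * r') ∈ X := lT_mul (U := U) r r' ▸ mul_mem m (h.l _ _ _ _ hr')
  have f1 : ∀ y, (r * r') y = y - (t * Φ₁.B v y) • v - (t * Φ₁.B x y) • x := fun y => by
    simp [hr.app, hr'.app, e]; module
  have r1 : r * r = 1 := LinearEquiv.ext fun y => by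
    simp [hr.app, hp.1.2]
    linear_combination (norm := module) (-(t * Φ₁.B v y) * h2) • v
  have r2 : r * r' * (r * r') = 1 := LinearEquiv.ext fun y => by
    rw [LinearEquiv.mul_apply, f1, f1]
    simp [hp.1.2, hx.2, e, e']
    linear_combination (norm := module) (-(t * Φ₁.B v y) * h2) • v + (-(t * Φ₁.B x y) * h2) • x
  obtain ⟨y, -, y1, y2⟩ := sep h.nd (nondeg_top h.nd) le_top trivial x1
  obtain ⟨y', -, y3, y4⟩ := sep h.nd (nondeg_top h.nd) le_top trivial (notMem_symm x1 v0)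
  rw [Formed.mem_perp_span_singleton] at y1 y3
  have r3 : r ≠ 1 := fun e => by simpa [e, y4, ht.1, v0] using hr.app y'
  have r4 : r * r' ≠ 1 := fun e => by simpa [e, y3, y4, ht.1, v0, sub_eq_add_neg] using f1 y'
  have s1 : lT U (r * r') * lT U (r * r') = 1 := by rw [← lT_mul, r2, lT_one]
  have s2 : c⁻¹ * lT U r * c * (c⁻¹ * lT U r * c) = 1 := by
    rw [show c⁻¹ * lT U r * c * (c⁻¹ * lT U r * c) = c⁻¹ * (lT U r * lT U r) * c by group, ← lT_mul, r1, lT_one]; simp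
  have dX := mul_mem (mul_mem (inv_mem hc) m) hc
  rcases Nat.even_or_odd (orderOf (lT U (r * r') * (c⁻¹ * lT U r * c))) with o | o
  · obtain ⟨z1, z2, z3⟩ := Invol.half_pow_spec s1 s2 o
    obtain ⟨j, hj⟩ := dih s1 s2 (orderOf (lT U (r * r') * (c⁻¹ * lT U r * c)) / 2)
    have zX := pow_mem (mul_mem m' dX) (orderOf (lT U (r * r') * (c⁻¹ * lT U r * c)) / 2)
    have gX := pow_mem (mul_mem m' dX) j
    generalize (lT U (r * r') * (c⁻¹ * lT U r * c)) ^ (_ / 2) = z at *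
    generalize (lT U (r * r') * (c⁻¹ * lT U r * c)) ^ j = g at *
    have z4 : lT U (r * r') * z ∈ tstab F W U := mul_mem (lT_mem _) (h.recI hS hex h2 m' r2 r4 zX (by
      rw [mul_assoc, ← z2.eq, inv_mul_cancel_left]; exact lT_mem _))
    obtain ⟨a, ha⟩ : ∃ a, lT U (r * r') * z = lT U a := by
      rcases hj with hj | hj
      · exact ⟨_, hj.trans (conj_lT_of_mem (h.recI hS hex h2 m' r2 r4 gX (hj ▸ z4)) _).choose_spec⟩
      · replace hj : lT U (r * r') * z = (c * g)⁻¹ * lT U r * (c * g) := by rw [hj]; group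
        exact ⟨_, hj.trans (conj_lT_of_mem (h.recI hS hex h2 m r1 r3 (mul_mem hc gX) (hj ▸ z4)) _).choose_spec⟩
    obtain rfl : z = lT U (r * r' * a) := by rw [lT_mul, ← ha, ← mul_assoc, s1, one_mul]
    refine hc' (inv_mem_iff.1 (h.recI hS hex h2 zX (lT_inj (U := U) (by rw [lT_mul, Invol.mul_self_of z1, lT_one]))
      (fun e => Invol.ne_one_of z1 (by rw [e, lT_one])) (inv_mem hc) (h.recI hS hex h2 m r1 r3
        (mul_mem (mul_mem (inv_mem (inv_mem hc)) zX) (inv_mem hc)) ?_)))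
    rw [show ∀ z, (c⁻¹⁻¹ * z * c⁻¹)⁻¹ * lT U r * (c⁻¹⁻¹ * z * c⁻¹) = c * (z⁻¹ * (c⁻¹ * lT U r * c * z)) * c⁻¹ from
      fun z => by group, ← z3.eq]
    simpa [mul_assoc] using lT_mem (U := U) r
  obtain ⟨j, hj⟩ := odd_swap s1 s2 o
  have gX := mul_mem (mul_mem (pow_mem (mul_mem m' dX) j) m') (inv_mem (pow_mem (mul_mem m' dX) j))
  generalize _ ^ j * lT U (r * r') * _ = g at hj gX
  replace hj : (c * g)⁻¹⁻¹ * lT U (r * r') * (c * g)⁻¹ = lT U r := by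
    rw [show lT U r = c * (c⁻¹ * lT U r * c) * c⁻¹ by group, ← hj]; group
  obtain ⟨p, e1⟩ := conj_lT_of_mem (h.recI hS hex h2 m' r2 r4 (inv_mem (mul_mem hc gX)) (hj ▸ lT_mem r)) (r * r')
  have e2 : ∀ z, (r * r') (p z) - p z ∈ F ∙ p v := fun z => by
    have := p.symm_apply_eq.1 (LinearEquiv.congr_fun (lT_inj (e1.symm.trans hj)) z)
    rw [show (r * r') (p z) = p (r z) from this]
    simp [hr.app, Submodule.smul_mem]
  have e3 := e2 (p.symm y)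
  have e4 := e2 (p.symm y')
  simp only [p.apply_symm_apply, f1, y1, y2, y3, y4, mul_zero, mul_one, zero_smul, sub_zero, sub_sub_cancel_left,
    neg_mem_iff, Submodule.smul_mem_iff _ ht.1] at e3 e4
  obtain ⟨k, e5⟩ := Submodule.mem_span_singleton.1 e4
  exact x1 (by rwa [← e5, Submodule.span_singleton_smul_eq (by rintro rfl; exact v0 (by simpa using e5.symm) : k ≠ 0).isUnit])

end FZ

variable [Finite F] [FiniteDimensional F W] [FiniteDimensional F U]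

theorem isMaximalIn_FZ (h : FZ Φ₁ Φ₂ Φ (tstab F W U ⊓ EG Φ) G) (hex : NoFus Φ) :
    Geo.IsMaximalIn (EG Φ) (tstab F W U ⊓ EG Φ) := by
  refine max_crit inf_le_right ?_ fun X a1 a2 g hg hg' => by_contra fun hS => hg' ⟨?_, a2 hg⟩
  swap
  · have hX : FZ Φ₁ Φ₂ Φ X G :=
      { h with iso := a2.trans EG_le_isom, l := fun p x d g e => a1 (h.l p x d g e), r := fun g e => a1 (h.r g e) }
    by_cases h2 : (2 : F) = 0
    exacts [hX.le_even hS hex h2 hg, hX.le_odd hS hex h2 hg]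
  obtain ⟨w, r, hp⟩ := h.exists_pair₁
  obtain ⟨u, y, hu⟩ := h.ok.ex
  obtain ⟨v, v1, hv, e⟩ := h.sing_perp w
  obtain ⟨g, hg⟩ := exists_isE0 h.nondeg (h.sing hp.1 u) (h.sing hv u) (by simp [h.B, e])
  refine ⟨g, IsE_mem_EG hg, fun ⟨⟨a, b, e1⟩, _⟩ => ?_⟩
  obtain ⟨a, rfl, -⟩ := scalar_of_mv e1 (Y := (F ∙ w ⊗ₜ u) ⊔ F ∙ v ⊗ₜ u) (fun x => by
      rw [hg.app, add_sub_assoc, add_sub_cancel_left]
      exact sub_mem (Submodule.mem_sup_left (Submodule.smul_mem _ _ (Submodule.mem_span_singleton_self _)))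
        (Submodule.smul_mem _ _ (mem_sup_self _ _))) (k := 0) ![] ![] (by simp) (by simp) (by
      have := finrank_sup_one (F ∙ w ⊗ₜ[F] u) (v ⊗ₜ u); have := finrank_span_one (F := F) (w ⊗ₜ[F] u)
      have := h.four; omega)
  obtain ⟨φ, p1, p2⟩ := exists_fun1 v1
  have := congrArg (Φ₂.B y ∘ cL φ) (hg.app (r ⊗ₜ y))
  simp [h.B, hp.ef, hu.ef, hu.fe, hu.sf.2, p1, p2, Φ.ε_ne_zero, Φ₂.ε_ne_zero] at this

omit [Finite F] in
theorem algOK_herm (hσ : σ ≠ RingHom.id F) (ok : UOK Φ₂ G) (ε : F) : AlgOK ε Φ₂ G := fun R h1 hc hm ρ hρ hs => by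
  refine ok.rk1_mem R h1 (fun b hb a ha => ?_) hc hρ hs
  obtain ⟨b', e⟩ := exists_isAdj ok.nd b
  obtain ⟨k, hk⟩ := DFunLike.ne_iff.1 hσ
  have s := fun k => hm 1 h1 b hb 1 b' (fun _ _ => rfl) e k a ha
  refine (R.smul_mem_iff (sub_ne_zero.2 (Ne.symm hk))).1 ?_
  convert sub_mem (s k) (R.smul_mem (σ k) (s 1)) using 1
  ext x; simp; module

omit [Finite F] in
theorem algOK_O {Ψ : Formed (RingHom.id F) U} (h : HD Ψ) (h2 : (2 : F) ≠ 0) (h3 : 3 ≤ finrank F U)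
    (ok : UOK Ψ Ψ.isom) : AlgOK (-1) Ψ Ψ.isom := fun R h1 hc hm ρ hρ hs y φ => by
  let R₀ : Submodule F (End F U) :=
    { carrier := {a | ∀ ρ ∈ R, a * ρ ∈ R}
      zero_mem' := fun _ _ => by simp
      add_mem' := fun ha hb ρ hρ => by rw [add_mul]; exact add_mem (ha ρ hρ) (hb ρ hρ)
      smul_mem' := fun k a ha ρ hρ => by rw [smul_mul_assoc]; exact R.smul_mem _ (ha ρ hρ) }
  have s : ∀ a ∈ R, ∀ b ∈ R, ∀ a' b', IsAdj Ψ a a' → IsAdj Ψ b b' → a' * b + b' * a ∈ R₀ :=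
    fun a ha b hb a' b' e e' ρ hρ => by simpa using hm a ha b hb a' b' e e' 1 ρ hρ
  obtain ⟨ζ, z1, z2⟩ : ∃ ζ ∈ R₀, ∀ c : F, ζ ≠ c • 1 := by
    by_contra! hn
    obtain ⟨ρ', e⟩ := exists_isAdj h.nd ρ
    obtain ⟨k, hk⟩ := hn _ (s 1 h1 ρ hρ 1 ρ' (fun _ _ => rfl) e)
    set η := ρ - (k / 2) • 1 with hη
    have sy : ∀ a b, Ψ.B a b = Ψ.B b a := fun a b => by simp [Ψ.symm a b, h.ε]
    have e1 : ∀ a b, Ψ.B a (η b) = -Ψ.B (η a) b := fun a b => by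
      have := congrArg (Ψ.B · b) (LinearMap.congr_fun hk a)
      simp [e a b] at this
      simp [hη]; field_simp; linear_combination 2 * this
    have e2 : η ∈ R := sub_mem hρ (R.smul_mem _ h1)
    obtain ⟨v, -, v1, v0⟩ := exists_aniso h2 h.ε (nondeg_top h.nd) (R := LinearMap.ker η) fun e =>
      hs (k / 2) (sub_eq_zero.1 (LinearMap.ker_eq_top.1 (top_le_iff.1 e)))
    clear_value η
    have e3 : Ψ.B v (η v) = 0 := mul_left_cancel₀ h2 (by linear_combination e1 v v - sy (η v) v)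
    have hq : RingHom.id F (-2 / Ψ.B v v) + Ψ.ε * (-2 / Ψ.B v v) + RingHom.id F (-2 / Ψ.B v v) * (-2 / Ψ.B v v) *
        Ψ.B v v = 0 := by simp [h.ε]; field_simp; ring
    have e4 := sub_mem e2 (hc _ (Formed.qrefl_mem h.nd v _ hq (by simp [h.τ, h.Q])) η e2)
    have e5 : ∀ x, (Formed.qrefl h.nd v _ hq).symm x = Formed.qrefl h.nd v _ hq x := fun x =>
      (LinearEquiv.symm_apply_eq _).2 (by simp; match_scalars <;> field_simp; ring)
    replace e4 : rk1 v (Ψ.B v ∘ₗ η) + rk1 (η v) (Ψ.B v) ∈ R := by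
      convert R.smul_mem (Ψ.B v v / 2) e4 using 1
      ext x; simp [e5, e3]; match_scalars <;> field_simp <;> ring
    set ξ := rk1 v (Ψ.B v ∘ₗ η) + rk1 (η v) (Ψ.B v) with hξ
    have e6 : IsAdj Ψ ξ (-ξ) := fun a b => by simp [hξ, e1 v, sy a]; ring
    obtain ⟨l, hl⟩ := hn _ (s ξ e4 ξ e4 _ _ e6 e6)
    replace hl := LinearMap.congr_fun hl
    have := finrank_pf (Φ := Ψ) ![v, η v] ⊤
    obtain ⟨x, hx, x0⟩ := exists_notMem_of_lt (U := ⊤ ⊓ pf Ψ ![v, η v]) (R := ⊥) (by simp at this ⊢; omega)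
    obtain rfl : l = 0 := by
      simpa [hξ, e1 v, show Ψ.B v x = 0 from mem_pf.1 hx.2 0, show Ψ.B (η v) x = 0 from mem_pf.1 hx.2 1,
        show x ≠ 0 from x0] using (hl x).symm
    obtain ⟨z, -, z1, z2⟩ := sep h.nd (nondeg_top h.nd) le_top trivial (show η v ∉ F ∙ v from fun e => by
      obtain ⟨c, e⟩ := Submodule.mem_span_singleton.1 e
      simp [← e, v0] at e3
      simp [← e, e3] at v1)
    have := hl z
    simp [hξ, e1 v z, z2, Ψ.mem_perp_span_singleton.1 z1, e3, ← two_smul F, h2, v0] at this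
    exact v1 this
  simpa using ok.rk1_mem R₀ (fun ρ hρ => by simpa) (fun a ha b hb ρ hρ => by rw [mul_assoc]; exact ha _ (hb ρ hρ))
    (fun g hg a ha ρ hρ => by
      convert hc g hg _ (ha _ (hc g⁻¹ (inv_mem hg) ρ hρ)) using 1
      ext x; exact congrArg (fun z => g (a (g.symm (ρ z)))) (g.apply_symm_apply x).symm) z1 z2 y φ 1 h1

theorem max_su4 (hσ : σ ≠ RingHom.id F) (hB : ∀ w u w' u', Φ.B (w ⊗ₜ u) (w' ⊗ₜ u') = Φ₁.B w w' * Φ₂.B u u')
    (h₁ : HD Φ₁) (h₂ : HD Φ₂) (hτ : Φ.τ = 0) (hQ : ∀ x, Φ.Q x = 0) (hE : SEG Φ) (h2 : 2 ≤ finrank F U)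
    (hlt : finrank F U < finrank F W) (h4 : 4 ≤ finrank F W)
    (h3 : 3 ≤ finrank F U ∨ ∃ θ : F, θ ≠ 0 ∧ θ ≠ 1 ∧ σ θ = θ) : Geo.IsMaximalIn (EG Φ) (tstab F W U ⊓ EG Φ) := by
  have s := fun a b => congr_mem_isom hB (.inr fun _ _ => hQ _) (a := a) (b := b)
  have ok := h₂.uok hσ h2 h3
  refine isMaximalIn_FZ (G := EG Φ₂) ⟨hB, fun _ _ _ => hQ _, h₁.τ, h₁.Q, h₁.nd, h4, fun T R e => ?_,
    exists_TP hσ h₁.τ h₁.ε, ok, algOK_herm hσ ok _, inf_le_right.trans EG_le_isom, fun p a d g hg =>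
    ⟨lT_mem _, hE.ueg _ (s _ _ hg.mem_isom (one_mem _)) 2 (by
      rw [congr_pow, hg.pow_char (ringChar F)]; exact (congrArg _ (one_pow _)).trans TensorProduct.congr_refl_refl)
      (.inr (.inl hτ))⟩, fun g hg => EG_le (X := rTS W (tstab F W U ⊓ EG Φ)) (fun p a d g hg =>
      ⟨⟨1, g, fun _ _ => rfl⟩, hE.ueg _ (s _ _ (one_mem _) hg.mem_isom) 2 (by
      erw [congr_pow, hg.pow_char (ringChar F), one_pow]; exact TensorProduct.congr_refl_refl) (.inr (.inl hτ))⟩) hg,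
    notSp2_of_ne hσ⟩ fun b _ _ => hex_of_not_dvd (Nat.not_dvd_of_pos_of_lt (by omega) hlt) _
  obtain ⟨C, hC⟩ := R.exists_isCompl
  have := Submodule.finrank_add_eq_of_isCompl hC
  have := Submodule.finrank_sup_add_finrank_inf_eq T C
  have := (T ⊔ C).finrank_le
  obtain ⟨x, hx, x0, hs⟩ := exists_sing_herm hσ h₁.ε h₁.Q (T := T ⊓ C) (by omega)
  exact ⟨x, hx.1, fun e => x0 (Submodule.disjoint_def.1 hC.disjoint x e hx.2), hs⟩

theorem max_sp4_o {Φ₁ : Formed (RingHom.id F) W} {Φ₂ : Formed (RingHom.id F) U} {Φ : Formed (RingHom.id F) (W ⊗[F] U)}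
    (hB : ∀ w u w' u', Φ.B (w ⊗ₜ u) (w' ⊗ₜ u') = Φ₁.B w w' * Φ₂.B u u') (h2 : (2 : F) ≠ 0) (h₁ : HD Φ₁) (nd : Φ₂.Nondeg)
    (hτ : Φ₂.τ = 0) (hQ : ∀ x, Φ₂.Q x = 0) (hε : Φ₂.ε = -1) (hA : ∀ x, Φ₂.B x x = 0) (hE : Φ.isom ≤ EG Φ)
    (hΦ : ∀ x, Φ.Q x = 0) (h3 : 3 ≤ finrank F W) (hd : finrank F W ≤ finrank F U) (h4 : 4 ≤ finrank F U)
    (h5 : 4 ≤ finrank F W ∨ ∃ θ : F, θ ≠ 0 ∧ θ * θ ≠ 1) : Geo.IsMaximalIn (EG Φ) (tstab F W U ⊓ EG Φ) := by
  have hB' : ∀ u w u' w', (Φ.comap (TensorProduct.comm F U W).toLinearMap).B (u ⊗ₜ w) (u' ⊗ₜ w') =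
      Φ₂.B u u' * Φ₁.B w w' := fun u w u' w' => by simp [hB, mul_comm]
  have s := fun a b ha hb => (mem_EG_comap (TensorProduct.comm F U W)).2 (hE (mem_isom_comap _
    (congr_mem_isom hB' (.inl h2) (a := a) (b := b) ha hb)))
  have ok := uok_O' h₁ h2 h3 h5
  refine isMaximalIn_comm (isMaximalIn_FZ (G := Φ₁.isom) ⟨hB', fun _ _ _ => hΦ _, hτ, hQ, nd, h4, fun T R e => ?_,
    ⟨1, one_ne_zero, by simp [hτ], by simp [hε]⟩, ok, hε ▸ algOK_O h₁ h2 h3 ok,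
    inf_le_right.trans EG_le_isom, fun p a d g hg => ⟨lT_mem _, s _ _ hg.mem_isom (one_mem _)⟩,
    fun g hg => ⟨⟨1, g, fun _ _ => rfl⟩, s _ _ (one_mem _) hg⟩, notSp2_of_two h2⟩ fun b hb e e1 => ?_)
  · obtain ⟨v, hv, v0⟩ := exists_notMem_of_lt (U := T) (R := R) (by omega)
    exact ⟨v, hv, v0, hQ v, hA v⟩
  obtain ⟨w, -, r, -, hp⟩ := exists_pair nd (nondeg_top nd) (by simp; omega)
  have hb : ∀ x y, Φ₁.B (b x) (b y) = Φ₁.B x y := fun x y => by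
    simpa only [hB', hp.ef, one_mul, TensorProduct.congr_tmul, LinearEquiv.refl_apply] using hb.1 (w ⊗ₜ x) (r ⊗ₜ y)
  obtain ⟨⟨_, x, rfl⟩, x0, hx⟩ := finrank_eq_one_iff'.1 (show finrank F (mov b) = 1 by
    rcases e2 : finrank F (mov b) with _ | _ | n <;> rw [e2] at e1 <;> first | rfl | nlinarith | omega)
  replace x0 : x - b x ≠ 0 := fun e => x0 (Subtype.ext e)
  replace hx : ∀ y, ∃ c : F, b y = y - c • (x - b x) := fun y => (hx ⟨_, y, rfl⟩).imp fun c e => by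
    rw [show c • (x - b x) = y - b y from congrArg Subtype.val e, sub_sub_cancel]
  have e2 : b (x - b x) = x - b x := by rw [← neg_sub, map_neg, e]
  have e3 : ∀ y, Φ₁.B (x - b x) (y - b y) = 0 := fun y => by rw [map_sub, ← e2, hb, e2, sub_self]
  have e4 : ∀ y, Φ₁.B (x - b x) y ≠ 0 → b y = y := fun y hy => by
    obtain ⟨c, e⟩ := hx y
    have := hb y y
    rw [e] at this ⊢
    simp only [map_sub (Φ₁.B _) y, map_sub Φ₁.B y, LinearMap.sub_apply, map_smul, LinearMap.smul_apply, e3,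
      Φ₁.symm (x - b x) y, h₁.ε, smul_eq_mul, RingHom.id_apply] at this
    rw [show c = 0 from mul_right_cancel₀ (mul_ne_zero h2 hy) (by linear_combination -this), zero_smul, sub_zero]
  obtain ⟨y, hy⟩ := h₁.nd.exists_eq_one x0
  by_cases e5 : Φ₁.B (x - b x) x = 0
  · have := e4 (x + y) (by rw [map_add, e5, hy]; simp)
    rw [map_add, e4 y (by simp only [hy]; simp), add_left_inj] at this
    simp [this] at x0
  · simp [e4 x e5] at x0

section Mat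

omit [Finite F] in
theorem isMaximalIn_tensor_su4 [Fintype F] {n q : ℕ} (hF : Fintype.card F = q ^ 2) {k m : ℕ} (hk : 2 ≤ k) (hkm : k < m)
    (h5 : 4 ≤ m) (hex : ¬ (k = 2 ∧ q = 2)) {e : Fin n ≃ Fin k × Fin m} {P : GL (Fin n) F}
    {f₁ : (Fin k → F) → (Fin k → F) → F} {f₂ : (Fin m → F) → (Fin m → F) → F} (hf₁ : Geo.IsUnitaryFormPow q f₁)
    (hf₂ : Geo.IsUnitaryFormPow q f₂) (hT : Geo.IsTensorFormStructure (fun x : F => x ^ q) (hermForm n F q) f₁ f₂ e P) :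
    Geo.IsMaximalIn (GU n F q ⊓ Geo.specialLinear (Fin n) F)
      (Geo.tensorProductSubgroup k m e P ⊓ (GU n F q ⊓ Geo.specialLinear (Fin n) F)) := by
  obtain ⟨Φ₂, b1, b2⟩ := exists_herm' hF hf₁ one_ne_zero (one_pow q)
  obtain ⟨Ψ, a1, a2⟩ := exists_herm' hF hf₂ one_ne_zero (one_pow q)
  obtain ⟨c, hc, e1⟩ := tensor_eq (σ := frobq hF) hT (formOfGram_B Φ₂.B fun u v => by simp [b2])
    (formOfGram_B Ψ.B fun u v => by simp [a2])
  have hn : 4 ≤ n := by have := Fintype.card_congr e; simp at this; nlinarith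
  have hc' : c ^ q = c := by
    obtain ⟨w, -, w0⟩ := exists_notMem_of_lt (U := (⊤ : Submodule F (Fin m → F))) (R := ⊥) (by simp; omega)
    obtain ⟨u, -, u0⟩ := exists_notMem_of_lt (U := (⊤ : Submodule F (Fin k → F))) (R := ⊥) (by simp; omega)
    obtain ⟨w', hw⟩ := a1.nd.exists_eq_one w0
    obtain ⟨u', hu⟩ := b1.nd.exists_eq_one u0
    rw [a2, one_mul] at hw
    rw [b2, one_mul] at hu
    have := hermForm_pow hF n (((kE F _ _).trans (Asch.tv e P)) (w ⊗ₜ u)) (((kE F _ _).trans (Asch.tv e P)) (w' ⊗ₜ u'))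
    rw [e1, e1] at this
    simpa [hf₁.herm u, hf₂.herm w, hw, hu] using this
  obtain ⟨Φ₁, a1, a2⟩ := exists_herm' hF hf₂ hc hc'
  refine isMaximalIn_tensorF (fun g => mem_suGL hF hn) (max_su4 (frobq_ne_id hF) (fun w u w' u' => by
    rw [a2, b2, one_mul]; exact e1 w' u' w u) a1 b1 rfl (fun _ => rfl) (SEG.comap (EG_herm hF hn).ge _) (by simpa)
    (by simpa) (by simpa) ?_)
  by_contra! h
  have hq := two_le_of_card_eq_sq hF
  have := (FiniteField.forall_pow_eq_one_iff F (q + 1)).1 fun x => Units.ext (by_contra fun e => h.2 (x ^ (q + 1))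
    (by simp) e (by rw [pow_succ, map_mul, frobq_apply, frobq_apply, pow_q_pow_q hF, mul_comm]))
  have := Nat.le_of_dvd (by omega) this
  simp at h
  rw [hF] at this
  have : 3 ≤ q := by omega
  have : q + 2 < q ^ 2 := by nlinarith
  omega

omit [Finite F] in
theorem isMaximalIn_tensor_sp4_o [Fintype F] (h2 : (2 : F) ≠ 0) {n k m : ℕ} (h3 : 3 ≤ m) (hk : m ≤ k) (h4 : 4 ≤ k)
    (h : ¬ (Fintype.card F = 3 ∧ m = 3))
    {e : (Fin n ⊕ Fin n) ≃ Fin k × Fin m} {P : GL (Fin n ⊕ Fin n) F} {f₁ : (Fin k → F) → (Fin k → F) → F}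
    {f₂ : (Fin m → F) → (Fin m → F) → F} (hf₁ : Geo.IsSymplecticForm f₁) (hf₂ : Geo.IsSymmetricForm f₂)
    (hT : Geo.IsTensorFormStructure id (sympForm n F) f₁ f₂ e P) :
    Geo.IsMaximalIn (spGL n F) (Geo.tensorProductSubgroup k m e P ⊓ spGL n F) := by
  obtain ⟨c, hc, e1⟩ := tensor_eq (σ := RingHom.id F) hT (formOfGram_bilin hf₁.bilinear) (formOfGram_bilin hf₂.bilinear)
  obtain ⟨Φ₁, a1, a2⟩ := exists_symm' h2 hf₂ hc
  obtain ⟨Φ₂, b1, b2, b3, b4, b5, b6⟩ := exists_symp' hf₁ one_ne_zero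
  exact isMaximalIn_tensorF (fun g => mem_spGL) (max_sp4_o (fun w u w' u' => by
    rw [a2, b2, one_mul, ← e1]; exact sympFormed_B _ _ _ _) h2 a1 b1 b3 b4 b5 b6
    (fun g hg => (mem_EG_comap _).2 ((EG_symp n).ge (mem_isom_comap _ hg))) (fun _ => rfl) (by simpa) (by simpa)
    (by simpa) (or_iff_not_imp_left.2 fun e => exists_sq_ne_one h2 (by simp at e; omega)))

end Mat

end Cfsg.Agent.Root.Mx
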