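import Cfsg.Agent.Root.Max6
import Cfsg.Agent.Root.Un3
import Cfsg.Agent.Root.Ext5
import Cfsg.Agent.Root.Tq2
import Cfsg.Agent.Root.Sub11

/-! Subspace stabilisers in `SU_n(q)`, `n ≥ 10` (`su_ts`, `su_nd`, `su_pair`), in matrix form. -/

set_option autoImplicit false

namespace Cfsg.Agent.Root.Mx

open Cfsg Cfsg.Agent.Geom

theorem su_ts {F : Type*} [Field F] [Fintype F] {n q : ℕ} (hF : Fintype.card F = q ^ 2) (hn : 10 ≤ n) (W : Submodule
    F (Fin n → F)) (hW0 : W ≠ ⊥) (hW : Geo.IsTotallySingularFor (hermForm n F q) W) : Geo.IsMaximalIn (GU n F q ⊓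
    Geo.specialLinear (Fin n) F) (Geo.subspaceStabilizer W ⊓ (GU n F q ⊓ Geo.specialLinear (Fin n) F)) := by
  obtain ⟨c, hc0, hc⟩ := exists_hilb (frobq_ne_id hF) (frobq_frobq hF) (z := -1)
    (by rw [map_neg, map_one]; ring)
  exact isMaximalIn_inf (glEquiv _ F) (isMaximalIn_stab_ts' (hermFormed_nondeg hF n) (by simp; omega) hW0
    ⟨fun x hx y hy => hW y hy x hx, fun _ _ => rfl⟩ hc0 (zero_mul _)
    (by change 1 * _ + _ = _; linear_combination hc)) (fun g => mem_suGL hF (by omega))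
    fun g => Iff.rfl

theorem su_nd {F : Type*} [Field F] [Fintype F] {n q : ℕ} (hF : Fintype.card F = q ^ 2) (hn : 10 ≤ n) (W : Submodule
    F (Fin n → F)) (hW0 : W ≠ ⊥) (hW : Geo.IsNondegenerateOn (hermForm n F q) W) (hdim : 2 * Module.finrank F W < n)
    : Geo.IsMaximalIn (GU n F q ⊓ Geo.specialLinear (Fin n) F) (Geo.subspaceStabilizer W ⊓ (GU n F q ⊓
    Geo.specialLinear (Fin n) F)) := by
  have h1 := hermFormed_nondeg hF n
  have h2 := nondeg_of_on (Φ := hermFormed hF n) hW fun _ _ => Formed.B_eq_zero_comm _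
  exact isMaximalIn_inf (glEquiv _ F) (isMaximalIn_stab_nd' h1 (by simp; omega) h2 hW0
    (by rintro rfl; simp at hdim; omega) (plane_herm (frobq_ne_id hF) rfl h2)
    (plane_herm (frobq_ne_id hF) rfl (h1.restrict_perp h2))
    (fun U hU h => adj_herm hF (by omega) hU (by omega)) (fun h => by simp at h; omega))
    (fun g => mem_suGL hF (by omega)) fun g => Iff.rfl

theorem su_pair {F : Type*} [Field F] [Fintype F] {n q : ℕ} (hF : Fintype.card F = q ^ 2) (hn : 10 ≤ n) (k : ℕ) (hk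
    : 2 * k = n) (D : Fin 2 → Submodule F (Fin n → F)) (hD : Geo.IsMDecomposition k D) (hts : ∀ i,
    Geo.IsTotallySingularFor (hermForm n F q) (D i)) : Geo.IsMaximalIn (GU n F q ⊓ Geo.specialLinear (Fin n) F)
    (Geo.decompositionStabilizer D ⊓ (GU n F q ⊓ Geo.specialLinear (Fin n) F)) := by
  have ht : ∀ i, (hermFormed hF n).TotSing (D i) := fun i =>
    ⟨fun x hx y hy => hts i y hy x hx, fun _ _ => rfl⟩
  refine isMaximalIn_inf (glEquiv _ F)
    (isMaximalIn_tsPair (hermFormed_nondeg hF n) (notSp2_of_ne (frobq_ne_id hF))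
      (by simp; omega) (dec_of hD) ht ?_) (fun g => mem_suGL hF (by omega)) fun g => Iff.rfl
  rw [EG_herm hF (by omega)]
  obtain ⟨⟨s, hs, s0, s1⟩, e, he, f, hf, hp⟩ := exists_swap (hermFormed_nondeg hF n) (dec_of hD) ht
  obtain ⟨c, hc0, hc⟩ := exists_hilb (frobq_ne_id hF) (frobq_frobq hF) (det_herm hF hs)
  have := torus_mem (ht 0) (ht 1) he hf hp (Units.mk0 c hc0)⁻¹
  refine ⟨(hp.torus (Units.mk0 c hc0)⁻¹).1 * s, ⟨Subgroup.mul_mem _ (hp.torus _).2 hs, mem_SLg.2 ?_⟩,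
    fun x hx => this.2 _ (s0 x hx), fun x hx => this.1 _ (s1 x hx)⟩
  rw [LinearEquiv.coe_toLinearMap_mul, map_mul, hp.det_torus]
  simp only [Units.val_inv_eq_inv_val, Units.val_mk0, map_inv₀, inv_inv]
  field_simp
  linear_combination -hc

end Cfsg.Agent.Root.Mx
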