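import Cfsg.Agent.Root.Quad2

/-! The basic dichotomy for a minimal quadratic element `α` and any quadratic element `β`: `αβα = 0`, or
`k[zz α β]` acts on the relevant part as a field whose scalar multiples of `α`, `β` are quadratic
(`Min.dichotomy`). -/

namespace Cfsg.Agent.Root
open Cfsg Polynomial Cfsg.Agent.Classical Matrix
open scoped MatrixGroups

variable {k : Type*} [Field k] {M : Type*} [AddCommGroup M] [Module k M] [FiniteDimensional k M]
variable {G : Subgroup (GLM k M)} {α β : Module.End k M}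

theorem exists_irreducible_of_not_nilpotent {z : Module.End k M} (h : ∀ n, z ^ n ≠ 0) :
    ∃ p : k[X], Irreducible p ∧ p.coeff 0 ≠ 0 ∧ ∃ v, v ≠ 0 ∧ aeval z p v = 0 := by
  have hi : IsIntegral k z := Algebra.IsIntegral.isIntegral z
  obtain ⟨q, e, hq⟩ := exists_eq_pow_rootMultiplicity_mul_and_not_dvd _ (minpoly.ne_zero hi) 0
  rw [C_0, sub_zero] at e hq
  have hu : ¬ IsUnit q := fun hu => by
    have := minpoly.aeval k z
    rw [e, map_mul, (hu.map (aeval z)).mul_left_eq_zero, map_pow, aeval_X] at this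
    exact h _ this
  obtain ⟨p, hp, r, rfl⟩ := WfDvdMonoid.exists_irreducible_factor hu (fun e => hq (e ▸ dvd_zero _))
  refine ⟨p, hp, fun h0 => hq ((X_dvd_iff.2 h0).mul_right r), ?_⟩
  by_contra hcon
  push Not at hcon
  have h1 : aeval z (X ^ rootMultiplicity 0 (minpoly k z) * r) = 0 := LinearMap.ext fun v => by
    by_contra h0
    refine hcon _ h0 ?_
    rw [← Module.End.mul_apply, ← map_mul, mul_left_comm, ← e, minpoly.aeval, LinearMap.zero_apply]
  have h2 := minpoly.dvd k z h1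
  have h3 : X ^ rootMultiplicity 0 (minpoly k z) * r ≠ 0 := fun h0 =>
    minpoly.ne_zero hi (by rw [e, mul_left_comm, h0, mul_zero])
  generalize (X : k[X]) ^ rootMultiplicity 0 (minpoly k z) = w at *
  rw [e, mul_left_comm, mul_comm] at h2
  exact hp.not_isUnit (isUnit_of_dvd_one ((mul_dvd_mul_iff_left h3).1 (by simpa using h2)))

omit [FiniteDimensional k M] in
theorem aeval_eq_zero_of_coprime {z : Module.End k M} {p q : k[X]} (hp : Irreducible p) (h : ¬ p ∣ q)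
    {v : M} (h1 : aeval z p v = 0) (h2 : aeval z q v = 0) : v = 0 := by
  obtain ⟨a, b, e⟩ := hp.coprime_iff_not_dvd.2 h
  have := LinearMap.congr_fun (congrArg (aeval z) e) v
  simpa [h1, h2] using this.symm

omit [FiniteDimensional k M] in
theorem left_ne_zero_of_root (hα : α * α = 0) (hβ : β * β = 0) {p : k[X]} (hp : Irreducible p)
    (h0 : p.coeff 0 ≠ 0) {v : M} (hv : v ≠ 0) (h : ev α β p v = 0) :
    ∃ w, ev α β p w = 0 ∧ α w ≠ 0 := by
  by_contra hcon
  push Not at hcon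
  refine hv (aeval_eq_zero_of_coprime hp (root_ne_zero hp h0) h ?_)
  have : ev α β p (β v) = 0 := by
    rw [← Module.End.mul_apply, ev_right hβ, Module.End.mul_apply, h, map_zero]
  simp [zz, hcon v h, hcon _ this]

theorem pow_apply_eq_zero {z : Module.End k M} {n : ℕ} {v : M} (h : (z ^ n) v = 0) :
    (z ^ Module.finrank k M) v = 0 := Module.End.ker_pow_le_ker_pow_finrank z n h

theorem exists_diag (h2 : (2 : k) ≠ 0) (h3 : Nat.card k ≠ 3) (hα : Qd G α) (hβ : Qd G β) {p : k[X]}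
    [hp : Fact (Irreducible p)] (h0 : p.coeff 0 ≠ 0) (n : ℕ) {τ : AdjoinRoot p} (hτ : τ ≠ 0) :
    ∃ g, ∃ h ∈ G, ∃ a b c d, Rep α β g h a b c d ∧ X ^ n ∣ c ∧ p ∣ c ∧
      AdjoinRoot.mk p (1 + a * X) = τ := by
  obtain ⟨g, h, hh, a, b, c, d, r, hc, e⟩ := PP_surj h2 h3 hα hβ h0 n (dSL (Units.mk0 τ hτ))
  have e' : ∀ i j, AdjoinRoot.mk p ((g : Matrix (Fin 2) (Fin 2) k[X]) i j) =
      (dSL (Units.mk0 τ hτ)).1 i j := fun i j => by rw [← e]; rfl
  refine ⟨g, h, hh, a, b, c, d, r, hc, ?_, by simpa [r.1] using e' 0 0⟩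
  have := e' 1 0
  rw [r.1] at this
  exact (hp.out.prime.dvd_or_dvd (AdjoinRoot.mk_eq_zero.1 this)).resolve_right (root_ne_zero hp.out h0)

theorem Min.weak_dichotomy (h2 : (2 : k) ≠ 0) (h3 : Nat.card k ≠ 3) (hα : Min G α) (hβ : Qd G β) :
    α * β * α = 0 ∨ ∀ u, zz α β (α u) = 0 → α u = 0 := by
  generalize hm : rk (zz α β ^ Module.finrank k M) = m
  induction m using Nat.strong_induction_on generalizing β with | _ m ih =>
  by_cases hn : ∃ n, zz α β ^ n = 0
  · obtain ⟨n, hn⟩ := hn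
    exact Or.inl (hα.of_nilpotent h2 n hβ (by rw [hn, zero_mul]))
  push Not at hn
  obtain ⟨p, hp, h0, v, hv, hpv⟩ := exists_irreducible_of_not_nilpotent hn
  obtain ⟨w, hw, hw'⟩ := left_ne_zero_of_root hα.qd.sq hβ.sq hp h0 hv hpv
  have := Fact.mk hp
  obtain ⟨τ, hτ, hτ2⟩ := exists_sq_ne_one (three_lt_card_adjoinRoot (three_lt_card h2 h3) p)
  obtain ⟨g, h, hh, a, b, c, d, r, ⟨q, hq⟩, hc, e⟩ :=
    exists_diag h2 h3 hα.qd hβ h0 (Module.finrank k M) hτ
  have hcw : ∀ {w}, ev α β p w = 0 → ev α β c w = 0 := fun {w} hw => by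
    obtain ⟨s, rfl⟩ := hc
    rw [mul_comm, map_mul, Module.End.mul_apply, hw, map_zero]
  have hlt : rk (zz α (cj h α) ^ Module.finrank k M) < m := by
    set D := Module.finrank k M with hD
    have hD0 : D ≠ 0 := fun e => hv (by
      have := Module.finrank_zero_iff.1 e; exact Subsingleton.elim _ _)
    obtain ⟨D', hD'⟩ := Nat.exists_eq_succ_of_ne_zero hD0
    have e0 : zz α β ^ D = ev α β (X ^ D) := by rw [map_pow, aeval_X]
    have e1 : zz α (cj h α) ^ D = ev α β ((-(c ^ 2 * X)) ^ D' * (-(c * X)) * c) * zz α β ^ D := by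
      rw [r.zz_cj hα.qd.sq hβ.sq, ← map_pow, e0, ← map_mul, hD',
        show -(c * X) ^ 2 = -(c ^ 2 * X) * X by ring, mul_pow, pow_succ (-(c ^ 2 * X))]
      congr 1; ring
    have hle : LinearMap.ker (zz α β ^ D) ≤ LinearMap.ker (zz α (cj h α) ^ D) := e1 ▸ ker_le_ker_mul _ _
    have hlt' := Submodule.finrank_lt_finrank_of_lt (lt_of_le_of_ne hle fun e2 => ?_)
    · have := rk_add_ker (zz α β ^ D); have := rk_add_ker (zz α (cj h α) ^ D); omega
    have h4 : v ∈ LinearMap.ker (zz α (cj h α) ^ D) := by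
      rw [LinearMap.mem_ker, e1, e0, ← map_mul, mul_right_comm, map_mul, Module.End.mul_apply, hcw hpv, map_zero]
    rw [← e2, LinearMap.mem_ker, e0] at h4
    exact hv (aeval_eq_zero_of_coprime hp (fun h => root_ne_zero hp h0 (hp.prime.dvd_of_dvd_pow h)) hpv h4)
  obtain ⟨-, e2⟩ := PP_stab h2 hα hβ.sq hh r (hcw hw) hw' (ih _ hlt (hα.qd.conj hh) rfl) (by
    intro t ht
    refine LinearMap.ext fun u => ?_
    have := LinearMap.congr_fun ht u
    rw [hq, show X ^ Module.finrank k M * q * t * X = X ^ (Module.finrank k M + 1) * (q * t) by ring,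
      map_mul, map_pow, aeval_X, mul_assoc, Module.End.mul_apply] at this
    rw [hq, mul_assoc, map_mul, map_pow, aeval_X, mul_assoc, Module.End.mul_apply]
    exact pow_apply_eq_zero this)
  have aa : ∀ t, α * (ev α β t * α) = 0 := fun t => by
    rw [← mul_assoc, ← ev_left hα.qd.sq, mul_assoc, hα.qd.sq, mul_zero]
  have q1 := (e2 ▸ hα.qd.conj hh).sub hα.qd (by rw [mul_assoc, hα.qd.sq, mul_zero]) (aa _)
  have e3 : ev α β ((1 + a * X) ^ 2) * α - α = ev α β ((1 + a * X) ^ 2 - 1) * α := by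
    rw [map_sub, map_one, sub_mul, one_mul]
  rw [e3] at q1
  refine Or.inr fun u hu => hα.cancel_apply q1 (fun h4 => hw' ?_) ?_
  · refine aeval_eq_zero_of_coprime hp (fun h5 => hτ2 ?_) ?_ (LinearMap.congr_fun h4 w)
    · rw [← AdjoinRoot.mk_eq_zero, map_sub, map_pow, e, map_one] at h5
      exact sub_eq_zero.1 h5
    · rw [← Module.End.mul_apply, ev_left hα.qd.sq, Module.End.mul_apply, hw, map_zero]
  · rw [show (1 + a * X) ^ 2 - 1 = (2 * a + a ^ 2 * X) * X by ring, map_mul, aeval_X,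
      Module.End.mul_apply, hu, map_zero]

/-- The polynomials `t` with `t(z) α` quadratic. -/
def quadPolys (hα : α * α = 0) (G : Subgroup (GLM k M)) (β : Module.End k M) : Submodule k k[X] where
  carrier := {t | Qd G (ev α β t * α)}
  zero_mem' := by simpa using Qd.zero
  add_mem' := fun {s t} hs ht => by
    have aa : ∀ s t, ev α β s * α * (ev α β t * α) = 0 := fun s t => by
      rw [mul_assoc, ← mul_assoc α, ← ev_left hα, mul_assoc, hα, mul_zero, mul_zero]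
    simpa [add_mul] using Qd.add hs ht (aa _ _) (aa _ _)
  smul_mem' := fun c t ht => by simpa using Qd.smul ht c

theorem Min.dichotomy (h2 : (2 : k) ≠ 0) (h3 : Nat.card k ≠ 3) (hα : Min G α) (hβ : Qd G β) :
    α * β * α = 0 ∨ ∃ p : k[X], Irreducible p ∧ p.coeff 0 ≠ 0 ∧ ev α β p * α = 0 ∧
      (∀ t, Qd G (ev α β t * α)) ∧ ∀ t, ∃ h ∈ G, cj h (ev α β t * α) = ev α β (-(t * X)) * β := by
  have sq := hα.qd.sq
  refine (hα.weak_dichotomy h2 h3 hβ).imp_right fun inj => ?_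
  have hn : ∀ n, zz α β ^ n ≠ 0 := fun n hn => hα.ne <| LinearMap.ext fun u =>
    inj u (by
      rw [← Module.End.mul_apply, zz_mul_left sq, hα.of_nilpotent h2 n hβ (by rw [hn, zero_mul])]; rfl)
  obtain ⟨p, hp, h0, v, hv, hpv⟩ := exists_irreducible_of_not_nilpotent hn
  obtain ⟨w, hw, hw'⟩ := left_ne_zero_of_root hα.qd.sq hβ.sq hp h0 hv hpv
  have := Fact.mk hp
  have hcw : ∀ {c}, p ∣ c → ev α β c w = 0 := by
    rintro _ ⟨s, rfl⟩
    rw [mul_comm, map_mul, Module.End.mul_apply, hw, map_zero]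
  have stab : ∀ {g h a b c d}, h ∈ G → Rep α β g h a b c d → p ∣ c →
      ev α β c * α = 0 ∧ cj h α = ev α β ((1 + a * X) ^ 2) * α := fun hh r hc =>
    PP_stab h2 hα hβ.sq hh r (hcw hc) hw' (hα.weak_dichotomy h2 h3 (hα.qd.conj hh)) fun t ht => by
      refine LinearMap.ext fun u => ?_
      rw [ev_left sq, Module.End.mul_apply]
      refine inj _ ?_
      rw [mul_comm _ X, map_mul, aeval_X, mul_assoc, ev_left sq] at ht
      exact LinearMap.congr_fun ht u
  set J := quadPolys sq G β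
  have J1 : ∀ t ∈ J, p ∣ t → ev α β t * α = 0 := fun t ht hd => by
    by_contra h4
    refine hw' (hα.cancel_apply ht h4 ?_)
    rw [← Module.End.mul_apply, ev_left sq, Module.End.mul_apply, hcw hd, map_zero]
  have hone : (1 : k[X]) ∈ J := by simpa [J, quadPolys] using hα.qd
  let J₁ : Subalgebra k k[X] := (J / J).toSubalgebra
    (Submodule.mem_div_iff_forall_mul_mem.2 fun t ht => by rwa [one_mul]) fun s t hs ht =>
      Submodule.mem_div_iff_forall_mul_mem.2 fun u hu => by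
        rw [mul_assoc]
        exact Submodule.mem_div_iff_forall_mul_mem.1 hs _ (Submodule.mem_div_iff_forall_mul_mem.1 ht _ hu)
  have mJ : ∀ {t}, t ∈ J₁ ↔ ∀ u ∈ J, t * u ∈ J := Submodule.mem_div_iff_forall_mul_mem
  have hJ : ∀ {t}, t ∈ J₁ → t ∈ J := fun ht => by simpa using mJ.1 ht 1 hone
  have hsq : ∀ τ : AdjoinRoot p, ∃ t ∈ J₁, AdjoinRoot.mk p t = τ ^ 2 := by
    intro τ
    by_cases hτ : τ = 0
    · exact ⟨0, J₁.zero_mem, by simp [hτ]⟩
    obtain ⟨g, h, hh, a, b, c, d, r, -, hc, e⟩ := exists_diag h2 h3 hα.qd hβ h0 0 hτ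
    refine ⟨(1 + a * X) ^ 2, mJ.2 fun u hu => ?_, by rw [map_pow, e]⟩
    have := Qd.conj hu hh
    rwa [r.cj_ev sq hβ.sq, (stab hh r hc).2, ← mul_assoc, ← map_mul, mul_comm u] at this
  have h2' : (2 : AdjoinRoot p) ≠ 0 := by
    have := (_root_.map_ne_zero (algebraMap k (AdjoinRoot p))).2 h2
    rwa [map_ofNat] at this
  have hsurj : ∀ κ : AdjoinRoot p, ∃ t ∈ J₁, AdjoinRoot.mk p t = κ := by
    intro κ
    obtain ⟨s, hs, e⟩ := hsq ((κ + 1) / 2)
    obtain ⟨t, ht, e'⟩ := hsq ((κ - 1) / 2)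
    exact ⟨s - t, J₁.sub_mem hs ht, by rw [map_sub, e, e']; field_simp; ring⟩
  have hlam : AdjoinRoot.mk p X ≠ 0 := fun e => root_ne_zero hp h0 (AdjoinRoot.mk_eq_zero.1 e)
  have rl : ∀ s : k, ∃ h ∈ G, Rep α β (lP (C s * X)) h 0 0 (C s) 0 := fun s => by
    obtain ⟨h, hh, e⟩ := hβ.mem s
    exact ⟨h, hh, rep_l (by simp [e, Algebra.smul_def])⟩
  have ru : ∀ t ∈ J, ∃ h ∈ G, Rep α β (uP t) h 0 t 0 0 := fun t ht =>
    ⟨_, Qd.unitOf_mem ht, rep_u rfl⟩
  have hX : X ∈ J₁ := by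
    obtain ⟨t, ht, e⟩ := hsurj (-2 / AdjoinRoot.mk p X)
    obtain ⟨t', ht', e'⟩ := hsurj (AdjoinRoot.mk p X)
    obtain ⟨h₁, hh₁, r₁⟩ := rl 1
    obtain ⟨h₂, hh₂, r₂⟩ := ru t (hJ ht)
    have e1 := (stab (G.mul_mem (G.mul_mem hh₁ hh₂) hh₁) ((r₁.mul sq hβ.sq r₂).mul sq hβ.sq r₁) (by
      rw [← AdjoinRoot.mk_eq_zero]
      simp only [map_add, map_mul, map_one, map_zero, e]
      field_simp; ring)).1
    have e2 := J1 (t * t' + 2) (hJ (J₁.add_mem (J₁.mul_mem ht ht') (natCast_mem J₁ 2))) (by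
      rw [← AdjoinRoot.mk_eq_zero]
      simp only [map_add, map_mul, map_ofNat, e, e']
      field_simp; ring)
    have e3 : ev α β (X - t') * α = 0 := by
      have h4 : (C 2⁻¹ * 2 : k[X]) = 1 := by
        rw [← map_ofNat C 2, ← map_mul, inv_mul_cancel₀ h2, map_one]
      have : X - t' = (2 + t * X) * (C 2⁻¹ * (-t')) + (t * t' + 2) * (C 2⁻¹ * X) := by
        linear_combination (t' - X) * h4
      rw [this, map_add, add_mul, ev_mul_eq_zero e2 (dvd_mul_right _ _),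
        ev_mul_eq_zero e1 (Dvd.dvd.mul_right ⟨1, by simp; ring⟩ _), add_zero]
    refine mJ.2 fun u hu => ?_
    have h5 : Qd G (ev α β (t' * u) * α) := mJ.1 ht' u hu
    have h6 := ev_mul_eq_zero e3 (dvd_mul_right _ u)
    rw [sub_mul, map_sub, sub_mul, sub_eq_zero] at h6
    rwa [← h6] at h5
  have hall : ∀ t, t ∈ J := fun t => hJ (by
    have : Algebra.adjoin k {X} ≤ J₁ := Algebra.adjoin_le (by simpa using hX)
    rw [Polynomial.adjoin_X] at this
    exact this Algebra.mem_top)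
  refine ⟨p, hp, h0, J1 p (hall p) dvd_rfl, hall, fun s => ?_⟩
  obtain ⟨t, -, e⟩ := hsurj (1 / AdjoinRoot.mk p X)
  obtain ⟨h₁, hh₁, r₁⟩ := rl (-1)
  obtain ⟨h₂, hh₂, r₂⟩ := ru t (hall t)
  have r := (r₂.mul sq hβ.sq r₁).mul sq hβ.sq r₂
  have e1 := J1 (1 - t * X) (hall _) (by
    rw [← AdjoinRoot.mk_eq_zero]
    simp only [map_sub, map_mul, map_one, e]
    field_simp; ring)
  refine ⟨_, G.mul_mem (G.mul_mem hh₂ hh₁) hh₂, ?_⟩
  have key : ∀ a b c d : k[X], 1 - t * X ∣ a → 1 - t * X ∣ b → 1 - t * X ∣ d →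
      Tm α β 0 a b c d = ev α β c * β := by
    intro a b c d h1 h2 h3
    rw [Tm, ← mul_assoc, ev_mul_eq_zero e1 h1, ← mul_assoc, ev_right hβ.sq d, mul_assoc β,
      ev_mul_eq_zero e1 h2, ev_mul_eq_zero e1 h3]
    simp
  rw [r.cj_ev sq hβ.sq, r.cj_eq sq hβ.sq, key _ _ _ _ ⟨1, by simp; ring⟩ ⟨1 - t * X, by simp; ring⟩
    ⟨-1, by simp; ring⟩, ← mul_assoc, ← map_mul]
  simp

end Cfsg.Agent.Root
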