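import Cfsg.Agent.Root.Quad3

/-! Quadratic pairs: the classes `cl G α` and root subgroups `EE G α`, identification with the Prelude notions,
splitting of a quadratic element (`Min.split`), `sl₂`-partners (`Min.exists_partner`), rank one pairs
(`Min.special`). -/

namespace Cfsg.Agent.Root
open Cfsg Polynomial

variable {k : Type*} [Field k] {M : Type*} [AddCommGroup M] [Module k M]
variable {G : Subgroup (GLM k M)} {α β γ δ α' β' x y : Module.End k M}

/-- Quadratic elements killing `K` with image in `I ⊓ K`. -/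
def cls (G : Subgroup (GLM k M)) (K I : Submodule k M) : Submodule k (Module.End k M) where
  carrier := {β | Qd G β ∧ K ≤ LinearMap.ker β ∧ LinearMap.range β ≤ I ∧ LinearMap.range β ≤ K}
  zero_mem' := ⟨Qd.zero, by simp, by simp, by simp⟩
  add_mem' := by
    rintro a b ⟨h1, h2, h3, h4⟩ ⟨h1', h2', h3', h4'⟩
    refine ⟨h1.add h1' (mul_eq_zero_iff_range_le_ker.2 (h4'.trans h2))
      (mul_eq_zero_iff_range_le_ker.2 (h4.trans h2')), fun v hv => ?_, ?_, ?_⟩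
    · rw [LinearMap.mem_ker, LinearMap.add_apply, h2 hv, h2' hv, add_zero]
    · exact (LinearMap.range_add_le _ _).trans (sup_le h3 h3')
    · exact (LinearMap.range_add_le _ _).trans (sup_le h4 h4')
  smul_mem' := by
    rintro c a ⟨h1, h2, h3, h4⟩
    exact ⟨h1.smul c, h2.trans (LinearMap.ker_le_ker_smul _ _), (LinearMap.range_smul_le_range _ _).trans h3,
      (LinearMap.range_smul_le_range _ _).trans h4⟩

/-- The class of a quadratic element. -/
def cl (G : Subgroup (GLM k M)) (α : Module.End k M) : Submodule k (Module.End k M) :=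
  cls G (LinearMap.ker α) (LinearMap.range α)

theorem mem_cl (h : α * α = 0) : β ∈ cl G α ↔
    Qd G β ∧ LinearMap.ker α ≤ LinearMap.ker β ∧ LinearMap.range β ≤ LinearMap.range α :=
  ⟨fun h => ⟨h.1, h.2.1, h.2.2.1⟩, fun h' => ⟨h'.1, h'.2.1, h'.2.2,
    h'.2.2.trans (mul_eq_zero_iff_range_le_ker.1 h)⟩⟩

theorem Qd.mem_cl (h : Qd G α) : α ∈ cl G α := (Root.mem_cl h.sq).2 ⟨h, le_rfl, le_rfl⟩

theorem cl_mul (h : β ∈ cl G α) (h' : γ ∈ cl G α) : β * γ = 0 :=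
  mul_eq_zero_iff_range_le_ker.2 (h'.2.2.2.trans h.2.1)

theorem cl_congr (h1 : LinearMap.ker α = LinearMap.ker β) (h2 : LinearMap.range α = LinearMap.range β) :
    cl G α = cl G β := by rw [cl, cl, h1, h2]

theorem cl_neg : cl G (-α) = cl G α := cl_congr (LinearMap.ker_neg α) (LinearMap.range_neg α)

theorem cl_left (h : α' ∈ cl G α) (e : α * y = 0) : α' * y = 0 := mul_eq_zero_of_ker h.2.1 e

theorem cl_right (h : α' ∈ cl G α) (e : x * α = 0) : x * α' = 0 := mul_eq_zero_of_range h.2.2.1 e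

theorem cj_mem_cl {g : GLM k M} (hg : conjBy G g = G) (h : β ∈ cl G α) : cj g β ∈ cl G (cj g α) := by
  have hk : ∀ {α β : Module.End k M}, LinearMap.range β ≤ LinearMap.range α →
      LinearMap.range (cj g β) ≤ LinearMap.range (cj g α) := by
    rintro α β h _ ⟨v, rfl⟩
    obtain ⟨w, hw⟩ := h ⟨(g⁻¹).val v, rfl⟩
    refine ⟨g.val w, ?_⟩
    rw [← Module.End.mul_apply, cj, Units.inv_mul_cancel_right, cj, Module.End.mul_apply, hw]
    rfl
  refine ⟨h.1.conj' hg.le, fun v hv => ?_, hk h.2.2.1, ?_⟩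
  · have : α ((g⁻¹).val v) = 0 := by
      have := congrArg (g⁻¹).val (LinearMap.mem_ker.1 hv)
      simpa [cj, ← Module.End.mul_apply, ← mul_assoc] using this
    simp [cj, show β ((g⁻¹).val v) = 0 from h.2.1 this]
  · rw [← mul_eq_zero_iff_range_le_ker, ← cj_mul, mul_eq_zero_iff_range_le_ker.2 h.2.2.2, cj_zero]

/-- The root subgroup of a quadratic element. -/
def EE (G : Subgroup (GLM k M)) (α : Module.End k M) : Subgroup (GLM k M) where
  carrier := {g | g.val - 1 ∈ cl G α}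
  one_mem' := by simp
  mul_mem' := fun {a b} (ha : a.val - 1 ∈ cl G α) (hb : b.val - 1 ∈ cl G α) => by
    show (a * b).val - 1 ∈ cl G α
    rw [Units.val_mul, show a.val * b.val - 1 = (a.val - 1) * (b.val - 1) + (a.val - 1 + (b.val - 1)) by
      noncomm_ring, cl_mul ha hb, zero_add]
    exact add_mem ha hb
  inv_mem' := fun {a} (ha : a.val - 1 ∈ cl G α) => by
    show (a⁻¹).val - 1 ∈ cl G α
    rw [val_inv_of_sq (cl_mul ha ha) (by simp : a.val = 1 + (a.val - 1)), sub_sub_cancel_left]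
    exact neg_mem ha

theorem mem_EE {g : GLM k M} : g ∈ EE G α ↔ g.val - 1 ∈ cl G α := Iff.rfl

theorem unitOf_mem_EE (h : β ∈ cl G α) (h' : β * β = 0) : unitOf β h' ∈ EE G α := by
  simpa [mem_EE] using h

theorem exists_of_mem_EE {g : GLM k M} (h : g ∈ EE G α) : ∃ β, ∃ hβ : β ∈ cl G α, g = unitOf β hβ.1.sq :=
  ⟨_, h, Units.ext (by simp)⟩

@[simp] theorem unitOf_eq_one {h : α * α = 0} : unitOf α h = 1 ↔ α = 0 := by
  simp [Units.ext_iff]

theorem EE_le : EE G α ≤ G := fun _ h => h.1.mem_of_eq (by simp)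

theorem EE_congr (h : cl G α = cl G β) : EE G α = EE G β := by ext; rw [mem_EE, mem_EE, h]

theorem aug_EE : aug (EE G α) = cl G α :=
  le_antisymm (aug_le_iff.2 fun _ h => h) fun β h => by
    simpa using mem_aug (unitOf_mem_EE h h.1.sq)

theorem cl_eq_of_EE (h : EE G α = EE G β) : cl G α = cl G β := by rw [← aug_EE, h, aug_EE]

theorem comm_EE_iff : Comm (EE G α) (EE G β) ↔ ∀ x ∈ cl G α, ∀ y ∈ cl G β, x * y = y * x := by
  constructor
  · intro h x hx y hy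
    have := congrArg Units.val (h _ (unitOf_mem_EE hx hx.1.sq) _ (unitOf_mem_EE hy hy.1.sq))
    simp only [Units.val_mul, unitOf_val] at this
    linear_combination (norm := noncomm_ring) this
  · intro h a ha b hb
    have := h _ ha _ hb
    exact Units.ext (by simp only [Units.val_mul]; linear_combination (norm := noncomm_ring) this)

theorem EE_comm : Comm (EE G α) (EE G α) := comm_EE_iff.2 fun x hx y hy => by
  rw [cl_mul hx hy, cl_mul hy hx]

theorem conjBy_EE {g : GLM k M} (hg : conjBy G g = G) : conjBy (EE G α) g = EE G (cj g α) := by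
  have key : ∀ {g : GLM k M} {α}, conjBy G g = G → conjBy (EE G α) g ≤ EE G (cj g α) := fun hg =>
    conjBy_le_iff.2 fun a ha => by
      have := cj_mem_cl hg ha
      rwa [cj_sub, cj_val, cj_one] at this
  refine le_antisymm (key hg) ?_
  have := conjBy_mono g (key (α := cj g α) (conjBy_inv_of_eq hg))
  simpa using this

theorem mem_quadraticElements {σ : GLM k M} :
    σ ∈ quadraticElements G ↔ Qd G (σ.val - 1) ∧ σ.val - 1 ≠ 0 := by
  constructor
  · rintro ⟨-, h, h'⟩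
    exact ⟨⟨h.1, fun c => ⟨unitOf _ (smul_sq h.1 c), h' ⟨c, rfl⟩, rfl⟩⟩, h.2⟩
  · rintro ⟨h, h0⟩
    exact ⟨h.mem_of_eq (by simp), ⟨h.sq, h0⟩, fun τ ⟨c, hc⟩ => (h.smul c).mem_of_eq hc⟩

theorem mem_minimal {σ : GLM k M} : σ ∈ minimalQuadraticElements G ↔ Min G (σ.val - 1) := by
  constructor
  · rintro ⟨h, h'⟩
    obtain ⟨h1, h2⟩ := mem_quadraticElements.1 h
    refine ⟨h1, h2, fun γ hγ h0 => ?_⟩
    have := h' (unitOf γ hγ.sq) (mem_quadraticElements.2 (by simpa using ⟨hγ, h0⟩))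
    have e : (unitOf γ hγ.sq).val - 1 = γ := by simp
    rwa [commutatorRank, commutatorRank, e] at this
  · intro h
    refine ⟨mem_quadraticElements.2 ⟨h.qd, h.ne⟩, fun τ hτ => ?_⟩
    obtain ⟨h1, h2⟩ := mem_quadraticElements.1 hτ
    exact h.min _ h1 h2

variable [FiniteDimensional k M]

theorem Min.of_cl (h : Min G α) (hβ : β ∈ cl G α) (h0 : β ≠ 0) : Min G β := h.of_ker hβ.1 h0 hβ.2.1

theorem Min.ker_cl (h : Min G α) (hβ : β ∈ cl G α) (h0 : β ≠ 0) : LinearMap.ker β = LinearMap.ker α :=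
  h.ker_eq hβ.1 h0 hβ.2.1

theorem Min.range_cl (h : Min G α) (hβ : β ∈ cl G α) (h0 : β ≠ 0) :
    LinearMap.range β = LinearMap.range α := h.range_eq hβ.1 h0 hβ.2.2.1

theorem Min.cl_eq (h : Min G α) (hβ : β ∈ cl G α) (h0 : β ≠ 0) : cl G β = cl G α :=
  cl_congr (h.ker_cl hβ h0) (h.range_cl hβ h0)

theorem sameActionClass_eq {σ : GLM k M} (h : Min G (σ.val - 1)) :
    sameActionClass G σ ∪ {1} = EE G (σ.val - 1) := by
  ext τ
  constructor
  · rintro (⟨h1, h2, h3⟩ | rfl)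
    · exact (mem_cl h.qd.sq).2 ⟨(mem_minimal.1 h1).qd, h2.ge, h3.le⟩
    · exact one_mem _
  · intro hτ
    by_cases h1 : τ = 1
    · exact Or.inr h1
    have h0 : τ.val - 1 ≠ 0 := fun e => h1 (Units.ext (sub_eq_zero.1 e))
    exact Or.inl ⟨mem_minimal.2 (h.of_cl hτ h0), h.ker_cl hτ h0, h.range_cl hτ h0⟩

theorem sameActionSubgroup_eq {σ : GLM k M} (h : Min G (σ.val - 1)) :
    sameActionSubgroup G σ = EE G (σ.val - 1) := by
  rw [sameActionSubgroup, ← Subgroup.closure_union_one, sameActionClass_eq h, Subgroup.closure_eq]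

theorem mem_quadraticRootSubgroups {A : Subgroup (GLM k M)} :
    A ∈ quadraticRootSubgroups G ↔ ∃ α, Min G α ∧ A = EE G α := by
  constructor
  · rintro ⟨σ, h, rfl⟩
    exact ⟨_, mem_minimal.1 h, sameActionSubgroup_eq (mem_minimal.1 h)⟩
  · rintro ⟨α, h, rfl⟩
    have h' : Min G ((unitOf α h.qd.sq).val - 1) := by simpa using h
    exact ⟨_, mem_minimal.2 h', by rw [sameActionSubgroup_eq h']; simp⟩

theorem Min.split_aux (h2 : (2 : k) ≠ 0) (h3 : Nat.card k ≠ 3) (hα : Min G α) (hβ : Qd G β)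
    (h : α * β * α ≠ 0) : ∃ p u : k[X], Irreducible p ∧ p.coeff 0 ≠ 0 ∧ ev α β p * α = 0 ∧
      ev α β (u * X) * α = α ∧ (∀ t, Qd G (ev α β t * α)) ∧ (∀ t, Qd G (ev α β (t * X) * β)) ∧
      Min G (ev α β (u * X) * β) ∧ Qd G (β - ev α β (u * X) * β) ∧
      rk (β - ev α β (u * X) * β) < rk β := by
  obtain ⟨p, hp, h0, e, q1, q2⟩ := (hα.dichotomy h2 h3 hβ).resolve_left h
  have q3 : ∀ t, Qd G (ev α β (t * X) * β) := fun t => by
    obtain ⟨g, hg, e⟩ := q2 (-t)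
    have := (q1 (-t)).conj hg
    rwa [e, neg_mul, neg_neg] at this
  have eu : ev α β (-(C (p.coeff 0)⁻¹ * p.divX) * X) * α = α := by
    have h4 : -(C (p.coeff 0)⁻¹ * p.divX) * X = 1 - p * C (p.coeff 0)⁻¹ := by
      have h5 : C (p.coeff 0)⁻¹ * C (p.coeff 0) = 1 := by rw [← map_mul, inv_mul_cancel₀ h0, map_one]
      linear_combination (-C (p.coeff 0)⁻¹) * divX_mul_X_add p + h5
    rw [h4, map_sub, sub_mul, ev_mul_eq_zero e (dvd_mul_right _ _), map_one, one_mul, sub_zero]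
  generalize -(C (p.coeff 0)⁻¹ * p.divX) = u at eu
  have bb : ∀ t, β * (ev α β t * β) = 0 := fun t => by
    rw [← mul_assoc, ← ev_right hβ.sq, mul_assoc, hβ.sq, mul_zero]
  refine ⟨p, u, hp, h0, e, eu, q1, q3, ?_, hβ.sub (q3 u) (bb _) (by rw [mul_assoc, hβ.sq, mul_zero]), ?_⟩
  · obtain ⟨g, hg, e⟩ := q2 (-u)
    have := (hα.of_ker (q1 (-u)) (fun e => hα.ne ?_) (ker_le_ker_mul _ _)).conj hg
    · rwa [e, neg_mul, neg_neg] at this
    · rw [← eu, ev_mul_eq_zero e ⟨-X, by ring⟩]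
  · have e1 : β - ev α β (u * X) * β = (1 - ev α β (u * X)) * β := by rw [sub_mul, one_mul]
    have hle : LinearMap.ker β ≤ LinearMap.ker (β - ev α β (u * X) * β) := e1 ▸ ker_le_ker_mul _ _
    have hlt := Submodule.finrank_lt_finrank_of_lt (lt_of_le_of_ne hle fun e2 => h ?_)
    · have := rk_add_ker β; have := rk_add_ker (β - ev α β (u * X) * β); omega
    rw [mul_assoc, mul_eq_zero_of_ker e2.ge, mul_zero]
    rw [sub_mul, ev_right hβ.sq, mul_assoc, eu, sub_self]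

theorem Min.split (h2 : (2 : k) ≠ 0) (h3 : Nat.card k ≠ 3) (hα : Min G α) (hβ : Qd G β)
    (h : α * β * α ≠ 0) : ∃ β₁ β₀, β = β₁ + β₀ ∧ Min G β₁ ∧ Qd G β₀ ∧ β₁ * β₀ = 0 ∧ rk β₀ < rk β := by
  obtain ⟨p, u, -, -, -, -, -, -, h4, h5, h6⟩ := hα.split_aux h2 h3 hβ h
  refine ⟨_, _, by abel, h4, h5, ?_, h6⟩
  rw [mul_sub, h4.qd.sq, mul_assoc, hβ.sq, mul_zero, sub_zero]

theorem Min.pair (h2 : (2 : k) ≠ 0) (h3 : Nat.card k ≠ 3) (hα : Min G α) (hβ : Min G β)
    (h : α * β * α ≠ 0) : ∃ p u : k[X], Irreducible p ∧ p.coeff 0 ≠ 0 ∧ ev α β p * α = 0 ∧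
      ev α β (u * X) * α = α ∧ ev α β (u * X) * β = β ∧ (∀ t, Qd G (ev α β t * α)) ∧
      (∀ t, Qd G (ev α β t * β)) := by
  obtain ⟨p, u, h4, h5, h6, h7, h8, h9, -, h10, h11⟩ := hα.split_aux h2 h3 hβ.qd h
  have e : ev α β (u * X) * β = β := by
    by_contra h0
    exact absurd (hβ.min _ h10 fun e => h0 (sub_eq_zero.1 e).symm) (not_le.2 h11)
  refine ⟨p, u, h4, h5, h6, h7, e, h8, fun t => ?_⟩
  have := h9 (t * u)
  rwa [mul_assoc, map_mul, mul_assoc, e] at this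

omit [FiniteDimensional k M] in
theorem ev_mul_mem_cl_left (h : Qd G α) {t : k[X]} (ht : Qd G (ev α β t * α)) : ev α β t * α ∈ cl G α :=
  (mem_cl h.sq).2 ⟨ht, ker_le_ker_mul _ _, by rw [ev_left h.sq]; exact range_mul_le _ _⟩

omit [FiniteDimensional k M] in
theorem ev_mul_mem_cl_right (h : Qd G β) {t : k[X]} (ht : Qd G (ev α β t * β)) : ev α β t * β ∈ cl G β :=
  (mem_cl h.sq).2 ⟨ht, ker_le_ker_mul _ _, by rw [ev_right h.sq]; exact range_mul_le _ _⟩

theorem Min.exists_partner (h2 : (2 : k) ≠ 0) (h3 : Nat.card k ≠ 3) (hα : Min G α) (hβ : Min G β)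
    (h : α * β * α ≠ 0) : ∃ f ∈ cl G β, α * f * α = α ∧ f * α * f = f := by
  obtain ⟨p, u, -, -, -, e1, e2, -, q⟩ := hα.pair h2 h3 hβ h
  rw [map_mul, aeval_X, mul_assoc] at e1 e2
  rw [zz_mul_left hα.qd.sq] at e1
  rw [zz_mul_right hβ.qd.sq] at e2
  refine ⟨_, ev_mul_mem_cl_right hβ.qd (q u), ?_, ?_⟩
  · rw [← mul_assoc, ← ev_left hα.qd.sq, mul_assoc, mul_assoc, ← mul_assoc α, e1]
  · rw [mul_assoc, mul_assoc, ← mul_assoc α, ← ev_left hα.qd.sq, ← mul_assoc β, ← mul_assoc β,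
      ← ev_right hβ.qd.sq, mul_assoc (ev α β u) β, mul_assoc (ev α β u), e2]

theorem Min.opp_iff (h2 : (2 : k) ≠ 0) (h3 : Nat.card k ≠ 3) (hα : Min G α) (hβ : Min G β) :
    α * β * α ≠ 0 ↔ Disjoint (LinearMap.range α) (LinearMap.ker β) ∧
      Disjoint (LinearMap.range β) (LinearMap.ker α) := by
  simp only [Submodule.disjoint_def]
  constructor
  · intro h
    obtain ⟨f, hf, e1, e2⟩ := hα.exists_partner h2 h3 hβ h
    have f0 : f ≠ 0 := fun e => hα.ne (by rw [← e1, e, mul_zero, zero_mul])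
    rw [← hβ.ker_cl hf f0, ← hβ.range_cl hf f0]
    constructor
    · rintro _ ⟨v, rfl⟩ hv
      rw [← e1, Module.End.mul_apply, Module.End.mul_apply, LinearMap.mem_ker.1 hv, map_zero]
    · rintro _ ⟨v, rfl⟩ hv
      rw [← e2, Module.End.mul_apply, Module.End.mul_apply, LinearMap.mem_ker.1 hv, map_zero]
  · rintro ⟨h4, h5⟩ e
    exact hα.ne (LinearMap.ext fun v => h4 _ ⟨v, rfl⟩ (h5 _ ⟨_, rfl⟩ (LinearMap.congr_fun e v)))

theorem Min.nil_symm (h2 : (2 : k) ≠ 0) (h3 : Nat.card k ≠ 3) (hα : Min G α) (hβ : Min G β)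
    (h : α * β * α = 0) : β * α * β = 0 := by
  by_contra h0
  exact (hα.opp_iff h2 h3 hβ).2 ((hβ.opp_iff h2 h3 hα).1 h0).symm h

theorem Min.opp_cl (h2 : (2 : k) ≠ 0) (h3 : Nat.card k ≠ 3) (hα : Min G α) (hβ : Min G β)
    (h : α * β * α ≠ 0) (ha : α' ∈ cl G α) (ha0 : α' ≠ 0) (hb : β' ∈ cl G β) (hb0 : β' ≠ 0) :
    α' * β' * α' ≠ 0 := by
  rw [(hα.of_cl ha ha0).opp_iff h2 h3 (hβ.of_cl hb hb0), hα.ker_cl ha ha0, hα.range_cl ha ha0,
    hβ.ker_cl hb hb0, hβ.range_cl hb hb0]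
  exact (hα.opp_iff h2 h3 hβ).1 h

theorem Min.nil_cl (h2 : (2 : k) ≠ 0) (h3 : Nat.card k ≠ 3) (hα : Min G α) (hβ : Min G β)
    (h : α * β * α = 0) (ha : α' ∈ cl G α) (hb : β' ∈ cl G β) (hc : γ ∈ cl G α) : α' * β' * γ = 0 := by
  by_cases hb0 : β' = 0
  · simp [hb0]
  have : α * β' * α = 0 := by
    by_contra h0
    exact hα.opp_cl h2 h3 (hβ.of_cl hb hb0) h0 hα.qd.mem_cl hα.ne (hβ.cl_eq hb hb0 ▸ hβ.qd.mem_cl) hβ.ne h
  rw [mul_assoc] at this
  exact cl_right hc (by rw [mul_assoc]; exact cl_left ha this)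

omit [FiniteDimensional k M] in
theorem partner_braid {f : Module.End k M} (ha : α * α = 0) (hf : f * f = 0) (e1 : α * f * α = α)
    (e2 : f * α * f = f) :
    unitOf α ha * (unitOf f hf)⁻¹ * unitOf α ha = (unitOf f hf)⁻¹ * unitOf α ha * (unitOf f hf)⁻¹ := by
  apply Units.ext
  simp only [Units.val_mul, unitOf_val, val_inv_of_sq hf (unitOf_val hf)]
  linear_combination (norm := noncomm_ring) ha - hf - e1 - e2

theorem Min.rel_partner (hα : Min G α) (hβ : Min G β) (ha : α' ∈ cl G α) (ha0 : α' ≠ 0)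
    {f : Module.End k M} (hf : f ∈ cl G β) (e1 : α' * f * α' = α') (e2 : f * α' * f = f) :
    Rel (EE G α) (EE G β) (unitOf α' ha.1.sq) (unitOf f hf.1.sq) := by
  have f0 : f ≠ 0 := fun e => ha0 (by rw [← e1, e, mul_zero, zero_mul])
  refine ⟨unitOf_mem_EE ha _, by simpa using ha0, unitOf_mem_EE hf _, by simpa using f0, ?_⟩
  rw [← EE_congr (hα.cl_eq ha ha0), ← EE_congr (hβ.cl_eq hf f0), conjBy_EE (conjBy_of_mem hf.1.unitOf_mem),
    conjBy_EE (conjBy_of_mem ha.1.unitOf_mem), ← EE_congr cl_neg, cj_unitOf, cj_unitOf]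
  congr 1
  linear_combination (norm := noncomm_ring) e1 + e2

theorem Min.exists_rel (h2 : (2 : k) ≠ 0) (h3 : Nat.card k ≠ 3) (hα : Min G α) (hβ : Min G β)
    (h : α * β * α ≠ 0) {a : GLM k M} (ha : a ∈ EE G α) (ha1 : a ≠ 1) :
    ∃ b, Rel (EE G α) (EE G β) a b ∧ a * b⁻¹ * a = b⁻¹ * a * b⁻¹ := by
  obtain ⟨α', ha', rfl⟩ := exists_of_mem_EE ha
  have ha0 : α' ≠ 0 := by simpa using ha1
  obtain ⟨f, hf, e1, e2⟩ := (hα.of_cl ha' ha0).exists_partner h2 h3 hβ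
    (hα.opp_cl h2 h3 hβ h ha' ha0 hβ.qd.mem_cl hβ.ne)
  exact ⟨_, hα.rel_partner hβ ha' ha0 hf e1 e2, partner_braid _ _ e1 e2⟩

theorem Min.special (h2 : (2 : k) ≠ 0) (h3 : Nat.card k ≠ 3) (hα : Min G α) (hβ : Min G β)
    (h : α * β * α ≠ 0) : IsSpecialRankOnePair (EE G α) (EE G β) := by
  have hr : IsRankOnePair (EE G α) (EE G β) := by
    refine R1.mk' (fun e => h ?_) (isNilpotent_of_isMulCommutative (comm_self_iff.1 EE_comm))
      (isNilpotent_of_isMulCommutative (comm_self_iff.1 EE_comm)) (fun a ha ha1 => ?_) fun b hb hb1 => ?_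
    · rw [cl_mul hα.qd.mem_cl (cl_eq_of_EE e ▸ hβ.qd.mem_cl), zero_mul]
    · obtain ⟨b, r, -⟩ := hα.exists_rel h2 h3 hβ h ha ha1
      exact ⟨b, r.mb, r.nb, r.eq⟩
    · obtain ⟨a, r, -⟩ := hβ.exists_rel h2 h3 hα (fun e => h (hβ.nil_symm h2 h3 hα e)) hb hb1
      exact ⟨a, r.mb, r.nb, r.eq.symm⟩
  refine isSpecial_iff.2 ⟨hr, fun a b r => ?_⟩
  obtain ⟨b', r', e⟩ := hα.exists_rel h2 h3 hβ h r.ma r.na
  rwa [R1.rel_unique_right hr r r']

end Cfsg.Agent.Root
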