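import Cfsg.Agent.Root.Basic
import Cfsg.Agent.Frob.Zipper
import Cfsg.Agent.Sig.Quasi

/-! Root involutions (Timmesfeld): the relations `Od` (odd product) and `Fo` (product of order four), the key
lemmas `RI.eq_one` and `RI.od_or_od`, invariance of the components of the odd graph, the triangle lemma
`RI.exists_fo`, comparison of commuting members and odd partners (`RI.comm_iff_of_od`). -/

namespace Cfsg.Agent.Root
open Cfsg

variable {G : Type*} [Group G] {D : Set G} {a b c d e x y z : G}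

/-- Different elements whose product has odd order. -/
def Od (a b : G) : Prop := a ≠ b ∧ Odd (orderOf (a * b))

/-- Non-commuting elements with `(a b)⁴ = 1`. -/
def Fo (a b : G) : Prop := ¬ Commute a b ∧ (a * b) ^ 4 = 1

theorem orderOf_conj' (g a : G) : orderOf (g * a * g⁻¹) = orderOf a :=
  (MulAut.conj g).orderOf_eq a

theorem orderOf_swap (a b : G) : orderOf (b * a) = orderOf (a * b) := by
  rw [← orderOf_conj' a, ← mul_assoc, mul_inv_cancel_right]

theorem Od.symm (h : Od a b) : Od b a := ⟨h.1.symm, orderOf_swap a b ▸ h.2⟩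

theorem Od.conj (h : Od a b) (g : G) : Od (g * a * g⁻¹) (g * b * g⁻¹) :=
  ⟨fun e => h.1 (by simpa using e), by
    rw [show g * a * g⁻¹ * (g * b * g⁻¹) = g * (a * b) * g⁻¹ by group,
      orderOf_conj']; exact h.2⟩

theorem od_conj_iff (g : G) : Od (g * a * g⁻¹) (g * b * g⁻¹) ↔ Od a b :=
  ⟨fun h => by simpa [mul_assoc] using h.conj g⁻¹, fun h => h.conj g⟩

theorem Fo.symm (h : Fo a b) : Fo b a :=
  ⟨fun e => h.1 e.symm, by rw [← orderOf_dvd_iff_pow_eq_one, orderOf_swap, orderOf_dvd_iff_pow_eq_one, h.2]⟩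

theorem eq_one_of_odd {n k : ℕ} (hn : Odd n) (h1 : x ^ n = 1) (h2 : x ^ 2 ^ k = 1) : x = 1 :=
  by have := pow_gcd_eq_one.2 ⟨h1, h2⟩; rwa [(hn.coprime_two_right.pow_right k).gcd_eq_one, pow_one] at this

theorem Od.not_pow (h : Od a b) (hb : b * b = 1) {k : ℕ} : (a * b) ^ 2 ^ k ≠ 1 := fun e =>
  h.1 (by rw [eq_inv_of_mul_eq_one_left (eq_one_of_odd h.2 (pow_orderOf_eq_one _) e),
    inv_eq_of_mul_eq_one_left hb])

theorem Od.not_fo (h : Od a b) (hb : b * b = 1) : ¬ Fo a b := fun e => h.not_pow hb (k := 2) e.2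

theorem Od.not_comm (h : Od a b) (ha : a * a = 1) (hb : b * b = 1) : ¬ Commute a b := fun e =>
  h.not_pow hb (k := 1) (by rw [pow_one, e.mul_pow, sq, sq, ha, hb, one_mul])

theorem Od.exists_conj (h : Od a b) (ha : a * a = 1) (hb : b * b = 1) :
    ∃ m : ℕ, (a * b) ^ m * a * ((a * b) ^ m)⁻¹ = b := by
  obtain ⟨m, hm⟩ := h.2
  have h1 : a * (a * b)⁻¹ * a⁻¹ = a * b := by
    rw [mul_inv_rev, inv_eq_of_mul_eq_one_left ha, inv_eq_of_mul_eq_one_left hb, mul_assoc, mul_assoc, ha,
      mul_one]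
  refine ⟨m, ?_⟩
  have h2 : a * ((a * b) ^ m)⁻¹ = (a * b) ^ m * a := by
    rw [← inv_pow, ← mul_inv_eq_iff_eq_mul, ← conj_pow, h1]
  rw [mul_assoc, h2, ← mul_assoc, ← pow_add, ← mul_left_inj b, hb, mul_assoc, ← pow_succ, ← two_mul, ← hm,
    pow_orderOf_eq_one]

theorem Od.commute (h : Od a b) (ha : a * a = 1) (h1 : Commute z a) (h2 : Commute z (b * a * b)) :
    Commute z b := by
  obtain ⟨m, hm⟩ := h.2
  have h3 : Commute z ((a * b) ^ (2 * (m + 1))) := by
    rw [pow_mul, sq, show a * b * (a * b) = a * (b * a * b) by group]; exact (h1.mul_right h2).pow_right _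
  rw [show 2 * (m + 1) = 2 * m + 1 + 1 by ring, pow_succ, ← hm, pow_orderOf_eq_one, one_mul] at h3
  simpa [← mul_assoc, ha] using h1.mul_right h3

theorem Fo.swap (h : Fo a b) (ha : a * a = 1) (hb : b * b = 1) : a * b * a * b = b * a * b * a := by
  rw [← mul_inv_eq_one, ← h.2]
  simp only [mul_inv_rev, inv_eq_of_mul_eq_one_left ha, inv_eq_of_mul_eq_one_left hb, pow_succ, pow_zero,
    one_mul, mul_assoc]

theorem Fo.comm_left (h : Fo a b) (ha : a * a = 1) (hb : b * b = 1) : Commute (a * b * a * b) a := by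
  change _ = _
  conv_lhs => rw [h.swap ha hb, mul_assoc, ha, mul_one]
  rw [← mul_assoc, ← mul_assoc, ← mul_assoc, ha, one_mul]

theorem Fo.comm_right (h : Fo a b) (ha : a * a = 1) (hb : b * b = 1) : Commute (a * b * a * b) b :=
  h.swap ha hb ▸ h.symm.comm_left hb ha

theorem Fo.comm_conj (h : Fo a b) (ha : a * a = 1) (hb : b * b = 1) : Commute a (b * a * b) := by
  change _ = _
  rw [← h.swap ha hb, mul_assoc, mul_assoc, mul_assoc]

theorem isPGroup_closure_pair (ha : a * a = 1) (hb : b * b = 1) (h : (a * b) ^ 4 = 1) :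
    IsPGroup 2 (Subgroup.closure {a, b}) := by
  have h1 : ∀ i : ℤ, a * (a * b) ^ i = (a * b) ^ (-i) * a := fun i => by
    rw [← mul_inv_eq_iff_eq_mul, ← conj_zpow, zpow_neg, ← inv_zpow, mul_inv_rev, inv_eq_of_mul_eq_one_left ha,
      inv_eq_of_mul_eq_one_left hb, ← mul_assoc, ha, one_mul]
  have key : ∀ g ∈ Subgroup.closure {a, b}, ∃ i : ℤ, g = (a * b) ^ i ∨ g = (a * b) ^ i * a := by
    intro g hg
    induction hg using Subgroup.closure_induction'' with
    | mem x hx =>
      rcases hx with rfl | rfl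
      · exact ⟨0, Or.inr (by simp)⟩
      · exact ⟨-1, Or.inr (by rw [← h1, zpow_one, ← mul_assoc, ha, one_mul])⟩
    | inv_mem x hx =>
      rcases hx with rfl | rfl
      · exact ⟨0, Or.inr (by simp [inv_eq_of_mul_eq_one_left ha])⟩
      · exact ⟨-1, Or.inr (by simp)⟩
    | one => exact ⟨0, Or.inl (by simp)⟩
    | mul x y _ _ hx hy =>
      obtain ⟨i, rfl | rfl⟩ := hx <;> obtain ⟨j, rfl | rfl⟩ := hy
      · exact ⟨i + j, Or.inl (by rw [zpow_add])⟩
      · exact ⟨i + j, Or.inr (by rw [zpow_add, mul_assoc])⟩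
      · exact ⟨i + -j, Or.inr (by rw [zpow_add, mul_assoc, h1, mul_assoc])⟩
      · exact ⟨i + -j, Or.inl (by rw [zpow_add, mul_assoc, ← mul_assoc a, h1, mul_assoc, ha, mul_one])⟩
  rintro ⟨g, hg⟩
  refine ⟨2, Subtype.ext ?_⟩
  obtain ⟨i, rfl | rfl⟩ := key g hg
  · change ((a * b) ^ i) ^ 4 = 1
    rw [← zpow_natCast, ← zpow_mul, mul_comm, zpow_mul, zpow_natCast, h, one_zpow]
  · change ((a * b) ^ i * a) ^ (2 * 2) = 1
    rw [pow_mul, sq (_ * a), mul_assoc, ← mul_assoc a, h1, mul_assoc, ha]; simp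

theorem isPGroup_closure_of_four [Finite G] {F : Set G} (h1 : ∀ x ∈ F, x * x = 1)
    (h2 : ∀ x ∈ F, ∀ y ∈ F, y * x * y ∈ F) (h4 : ∀ x ∈ F, ∀ y ∈ F, (x * y) ^ 4 = 1) :
    IsPGroup 2 (Subgroup.closure F) := by
  have hc : ∀ g ∈ Subgroup.closure F, ∀ x ∈ F, g * x * g⁻¹ ∈ F := by
    intro g hg
    induction hg using Subgroup.closure_induction'' with
    | mem y hy => exact fun x hx => by rw [inv_eq_of_mul_eq_one_left (h1 y hy)]; exact h2 x hx y hy
    | inv_mem y hy => intro x hx; rw [inv_inv, inv_eq_of_mul_eq_one_left (h1 y hy)]; exact h2 x hx y hy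
    | one => simp
    | mul g g' _ _ hg hg' => exact fun x hx => by simpa [mul_assoc] using hg _ (hg' x hx)
  rw [← Solv.pCore_eq_top_iff, eq_top_iff, ← Subgroup.closure_closure_coe_preimage, Subgroup.closure_le]
  rintro ⟨x, hx'⟩ hx
  exact Frob.mem_pCore_of_forall_conj fun g => isPGroup_closure_pair (Subtype.ext (h1 x hx))
    (Subtype.ext (h1 _ (hc g g.2 x hx))) (Subtype.ext (h4 x hx _ (hc g g.2 x hx)))

namespace RI
variable (h : IsRootInvolutionSet D)
include h

theorem sq (ha : a ∈ D) : a * a = 1 := by rw [← _root_.sq, ← h.orderOf_eq a ha, pow_orderOf_eq_one]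

theorem inv (ha : a ∈ D) : a⁻¹ = a := inv_eq_of_mul_eq_one_left (sq h ha)

theorem ne_one (ha : a ∈ D) : a ≠ 1 := fun e => by simpa [e] using h.orderOf_eq a ha

theorem conj (ha : a ∈ D) (hb : b ∈ D) : b * a * b ∈ D := by simpa [inv h hb] using h.conj_mem a ha b

theorem od_conj (hc : c ∈ D) (k : Od a b) : Od (c * a * c) (c * b * c) := by simpa [inv h hc] using k.conj c

theorem fo_iff (ha : a ∈ D) (hb : b ∈ D) : orderOf (a * b) = 4 ↔ Fo a b := by
  constructor
  · intro e
    refine ⟨fun k => ?_, e ▸ pow_orderOf_eq_one _⟩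
    have : (a * b) ^ 2 = 1 := by rw [k.mul_pow, _root_.sq, _root_.sq, sq h ha, sq h hb, one_mul]
    have := orderOf_dvd_of_pow_eq_one this
    rw [e] at this; omega
  · intro k
    refine orderOf_eq_prime_pow (p := 2) (n := 1) (fun e => k.1 ?_) k.2
    rw [pow_one, _root_.sq] at e
    change _ = _
    rw [eq_inv_of_mul_eq_one_left e, mul_inv_rev, inv h ha, inv h hb]

theorem pair (ha : a ∈ D) (hb : b ∈ D) : Commute a b ∨ Od a b ∨ Fo a b := by
  by_cases e : a = b
  · exact Or.inl (e ▸ Commute.refl a)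
  rcases h.pair a ha b hb with k | k | k
  · exact Or.inl k
  · exact Or.inr (Or.inl ⟨e, k⟩)
  · exact Or.inr (Or.inr ((fo_iff h ha hb).1 k.1))

theorem fo_mem (ha : a ∈ D) (hb : b ∈ D) (k : Fo a b) : a * b * a * b ∈ D := by
  rcases h.pair a ha b hb with k' | k' | k'
  · exact absurd k' k.1
  · rw [(fo_iff h ha hb).2 k] at k'; exact absurd k' (by decide)
  · simpa only [_root_.sq, ← mul_assoc] using k'.2

theorem pow_four (ha : a ∈ D) (hb : b ∈ D) (k : ¬ Od a b) : (a * b) ^ 4 = 1 := by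
  rcases pair h ha hb with k' | k' | k'
  · rw [k'.mul_pow, show 4 = 2 * 2 from rfl, pow_mul, pow_mul, _root_.sq a, _root_.sq b, sq h ha, sq h hb]
    simp
  · exact absurd k' k
  · exact k'.2

theorem eq_one (ha : a ∈ D) (hx : x ∈ D) (k : Od a x) (hz : z * z = 1) (h1 : Commute z a)
    (h2 : Commute z x) (hm : a * z ∈ D) : z = 1 := by
  have e : a * z * x = z * (a * x) := by rw [← h1.eq, mul_assoc]
  have hc := h1.mul_right h2
  rcases pair h hm hx with k' | k' | k'
  · refine absurd ?_ (k.not_comm (sq h ha) (sq h hx))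
    simpa [mul_assoc, hz] using k'.mul_left h2
  · refine eq_one_of_odd (k := 1) (k'.2.mul k.2) ?_ (by rw [pow_one, _root_.sq, hz])
    have := pow_orderOf_eq_one (a * z * x)
    rw [← one_pow (orderOf (a * x)), ← this, ← pow_mul]
    conv_rhs => rw [e, hc.mul_pow, ← e, mul_comm (orderOf _), pow_mul (a * x), pow_orderOf_eq_one, one_pow,
      mul_one, mul_comm (orderOf _)]
  · refine absurd ?_ (k.not_pow (sq h hx) (k := 2))
    have := k'.2
    rwa [e, hc.mul_pow, show 4 = 2 * 2 from rfl, pow_mul, _root_.sq z, hz, one_pow, one_mul] at this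

theorem not_comm (ha : a ∈ D) (hx : x ∈ D) (k : Od a x) (he : e ∈ D) (hc : Commute a e) (hm : a * e ∈ D) :
    ¬ Commute e x := fun k' => ne_one h he (eq_one h ha hx k (sq h he) hc.symm k' hm)

theorem fo_of_not_od (ha : a ∈ D) (hx : x ∈ D) (k : Od a x) (he : e ∈ D) (hc : Commute a e)
    (hm : a * e ∈ D) (hn : ¬ Od e x) : Fo e x :=
  ((pair h he hx).resolve_left (not_comm h ha hx k he hc hm)).resolve_left hn

theorem od_or_od (ha : a ∈ D) (hx : x ∈ D) (k : Od a x) (he : e ∈ D) (hc : Commute a e) (hm : a * e ∈ D) :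
    Od e x ∨ Od (a * e) x := by
  by_contra hn
  push Not at hn
  have k1 := fo_of_not_od h ha hx k he hc hm hn.1
  have k2 := fo_of_not_od h ha hx k hm ((Commute.refl a).mul_right hc)
    (by rwa [← mul_assoc, sq h ha, one_mul]) hn.2
  have c1 := k1.symm.comm_conj (sq h hx) (sq h he)
  have c2 := (k2.symm.comm_conj (sq h hx) (sq h hm)).conj e
  have e1 : e * (a * e * x * (a * e)) * e⁻¹ = a * x * a := by
    simp only [← mul_assoc]
    rw [← hc.eq, mul_assoc a e e, sq h he]; group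
  rw [e1, inv h he] at c2
  have c3 := (k.symm.commute (sq h hx) c1.symm c2).conj e
  rw [← hc.eq, mul_inv_cancel_right, inv h he] at c3
  refine k.not_comm (sq h ha) (sq h hx) (Commute.symm ?_)
  simpa only [← mul_assoc, sq h he, one_mul, mul_assoc _ e e, mul_one] using c3

theorem mul_fo (ha : a ∈ D) (b : G) : a * (a * b * a * b) = b * a * b := by
  simp only [← mul_assoc, sq h ha, one_mul]

end RI

/-- Connectedness in the odd graph. -/
abbrev OConn (D : Set G) (a b : G) : Prop := Relation.ReflTransGen (OddAdj D) a b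

theorem OConn.of_od (ha : a ∈ D) (hb : b ∈ D) (k : Od a b) : OConn D a b := .single ⟨ha, hb, k⟩

theorem OConn.symm (k : OConn D a b) : OConn D b a := by
  induction k with
  | refl => exact .refl
  | tail _ k ih => exact .head ⟨k.2.1, k.1, Od.symm k.2.2⟩ ih

theorem OConn.exists_od (k : OConn D a b) (hne : b ≠ a) : ∃ x ∈ D, Od a x := by
  rcases k.cases_head with e | ⟨x, hx, -⟩
  · exact absurd e.symm hne
  · exact ⟨x, hx.2.1, hx.2.2⟩

theorem isolated_iff (ha : a ∈ D) : IsIsolatedElem (OddAdj D) D a ↔ ∀ x ∈ D, ¬ Od a x :=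
  ⟨fun k x hx o => (k.2 x).1 ⟨ha, hx, o⟩, fun k => ⟨ha, fun x =>
    ⟨fun o => k x o.2.1 o.2.2, fun o => k x o.1 (Od.symm o.2.2)⟩⟩⟩

namespace RI
variable (h : IsRootInvolutionSet D)
include h

theorem oconn_isConj (k : OConn D a b) : IsConj a b := by
  induction k with
  | refl => exact IsConj.refl _
  | tail _ k ih =>
    obtain ⟨m, e⟩ := Od.exists_conj k.2.2 (sq h k.1) (sq h k.2.1)
    exact ih.trans (isConj_iff.2 ⟨_, e⟩)

theorem oconn_of_prod (ha : a ∈ D) (hx : x ∈ D) (k : Od a x) (he : e ∈ D) (hc : Commute a e)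
    (hm : a * e ∈ D) (hy : y ∈ D) (k' : Od e y) : OConn D a e := by
  rcases od_or_od h ha hx k he hc hm with k1 | k1
  · exact (OConn.of_od ha hx k).trans (OConn.of_od hx he k1.symm)
  rcases od_or_od h he hy k' ha hc.symm (hc.eq ▸ hm) with k2 | k2
  · exact (OConn.of_od ha hy k2).trans (OConn.of_od hy he k'.symm)
  · exact (((OConn.of_od ha hx k).trans (OConn.of_od hx hm k1.symm)).trans (OConn.of_od hm hy (hc.eq ▸ k2))).trans
      (OConn.of_od hy he k'.symm)

/-- The triangle lemma. -/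
theorem triangle (ha : a ∈ D) (hx : x ∈ D) (k : Od a x) (hb : b ∈ D) (hc : Commute b a) (hf : Fo b x) :
    Fo (b * x * b * x) a := by
  have hy := fo_mem h hb hx hf
  have c1 := hf.comm_left (sq h hb) (sq h hx)
  have c2 := hf.comm_right (sq h hb) (sq h hx)
  rcases pair h hy ha with k' | k' | k'
  · refine absurd (eq_one h hx ha k.symm (sq h hy) c2 k' ?_) (ne_one h hy)
    rw [hf.swap (sq h hb) (sq h hx), mul_fo h hx]; exact conj h hx hb
  · refine absurd (eq_one h hy ha k' (sq h hb) c1.symm hc ?_) (ne_one h hb)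
    rw [c1.eq, mul_fo h hb]; exact conj h hb hx
  · exact k'

theorem exists_fo [Finite G] (ha : a ∈ D) (hx : x ∈ D) (k : Od a x) (hb : b ∈ D) (hc : Commute b a)
    (hm : a * b ∈ D) (hf : Fo b x) : ∃ y ∈ D, Commute y x ∧ Fo y a ∧ y * a * y * a = b := by
  let T : G × G × G → Prop := fun s => s.1 ∈ D ∧ s.2.1 ∈ D ∧ Od s.1 s.2.1 ∧ s.2.2 ∈ D ∧
    Commute s.2.2 s.1 ∧ Fo s.2.2 s.2.1
  let σ : G × G × G → G × G × G := fun s => (s.2.1, s.1, s.2.2 * s.2.1 * s.2.2 * s.2.1)
  have hσ : ∀ s, T s → T (σ s) := fun s ⟨h1, h2, h3, h4, h5, h6⟩ =>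
    ⟨h2, h1, h3.symm, fo_mem h h4 h2 h6, h6.comm_right (sq h h4) (sq h h2), triangle h h1 h2 h3 h4 h5 h6⟩
  have hit : ∀ n s, T s → T (σ^[n] s) := fun n s hs => Function.Iterate.rec T hs hσ n
  have hpos : ∀ n s, ((σ^[n] s).1 = s.1 ∧ (σ^[n] s).2.1 = s.2.1) ∨
      ((σ^[n] s).1 = s.2.1 ∧ (σ^[n] s).2.1 = s.1) := fun n s => by
    induction n with
    | zero => exact Or.inl ⟨rfl, rfl⟩
    | succ n ih => rw [Function.iterate_succ_apply']; exact ih.symm.imp And.symm And.symm
  have hcm : ∀ n s, T s → Commute s.2.2 (σ^[n] s).2.2 := by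
    intro n
    induction n using Nat.twoStepInduction with
    | zero => exact fun s _ => Commute.refl _
    | one => exact fun s ⟨_, h2, _, h4, _, h6⟩ => (h6.comm_left (sq h h4) (sq h h2)).symm
    | more n ih1 ih2 =>
      intro s hs
      have c1 := ih2 s hs
      have c2 := ih1 _ (hσ s hs)
      rw [← Function.iterate_succ_apply] at c2
      rw [Function.iterate_succ_apply']
      obtain ⟨h1, h2, h3, h4, h5, h6⟩ := hs
      generalize hu : (σ^[n + 1] s).2.2 = u at c1 c2
      rcases hpos (n + 1) s with ⟨-, e⟩ | ⟨-, e⟩ <;> simp only [σ, hu, e]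
      · have c3 := h6.comm_right (sq h h4) (sq h h2)
        have e1 : s.2.2 * s.2.1 = s.2.1 * (s.2.2 * s.2.1 * s.2.2 * s.2.1) * s.2.2 := by
          rw [h6.swap (sq h h4) (sq h h2), mul_fo h h2, mul_assoc, sq h h4, mul_one]
        have e2 := sq h (fo_mem h h4 h2 h6)
        have c4 := h6.comm_left (sq h h4) (sq h h2)
        simp only [σ] at c2
        generalize s.2.2 * s.2.1 * s.2.2 * s.2.1 = y at *
        change _ = _
        calc _ = (s.2.2 * u) * s.2.1 * u * s.2.1 := by group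
          _ = u * (s.2.2 * s.2.1) * u * s.2.1 := by rw [c1.eq]; group
          _ = u * s.2.1 * y * (s.2.2 * u) * s.2.1 := by rw [e1]; group
          _ = u * s.2.1 * (y * u) * (s.2.2 * s.2.1) := by rw [c1.eq]; group
          _ = u * s.2.1 * u * (y * s.2.1) * y * s.2.2 := by rw [c2.eq, e1]; group
          _ = u * s.2.1 * u * s.2.1 * (y * y) * s.2.2 := by rw [c3.eq]; group
          _ = _ := by rw [e2, mul_one]
      · exact ((c1.mul_right h5).mul_right c1).mul_right h5
  have hinj : ∀ s u, T s → T (s.1, s.2.1, u) → Commute s.2.2 u → s.1 * s.2.2 ∈ D → s.1 * u ∈ D →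
      (σ s).2.2 = (σ (s.1, s.2.1, u)).2.2 → s.2.2 = u := by
    rintro ⟨a, x, b⟩ u ⟨h1, h2, h3, h4, h5, h6⟩ ⟨-, -, -, h4', h5', -⟩ c m1 m2 e
    dsimp only [σ] at *
    have k1 := (od_or_od h h1 h2 h3 h4 h5.symm m1).resolve_left fun o => o.not_fo (sq h h2) h6
    have c1 : Commute (b * u) x := by
      have e' : b * x * b = u * x * u := mul_right_cancel e
      change _ = _
      calc _ = b * (u * x * u) * u := by simp only [mul_assoc, sq h h4', mul_one]
        _ = _ := by rw [← e']; simp only [← mul_assoc, sq h h4, one_mul]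
    have := eq_one h m1 h2 k1 (z := b * u) (by rw [mul_assoc, ← mul_assoc u, ← c.eq, mul_assoc, sq h h4',
      mul_one, sq h h4]) ((h5.mul_left h5').mul_right ((Commute.refl b).mul_left c.symm)) c1
      (by rwa [mul_assoc, ← mul_assoc b, sq h h4, one_mul])
    rw [eq_inv_of_mul_eq_one_left this, inv h h4']
  have hT : T (a, x, b) := ⟨ha, hx, k, hb, hc, hf⟩
  have hX : ∀ n, (σ^[n] (a, x, b)).1 * (σ^[n] (a, x, b)).2.2 ∈ D := fun n => by
    cases n with
    | zero => exact hm
    | succ n =>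
      obtain ⟨h1, h2, h3, h4, h5, h6⟩ := hit n _ hT
      rw [Function.iterate_succ_apply']
      dsimp only [σ]
      rw [h6.swap (sq h h4) (sq h h2), mul_fo h h2]; exact conj h h2 h4
  have key : ∀ i d, σ^[i] (a, x, b) = σ^[i + d] (a, x, b) → (a, x, b) = σ^[d] (a, x, b) := by
    intro i d
    induction i with
    | zero => simp
    | succ i ih =>
      intro e
      rw [Nat.add_right_comm, Function.iterate_succ_apply', Function.iterate_succ_apply'] at e
      have e1 : (σ^[i] (a, x, b)).2.1 = (σ^[i + d] (a, x, b)).2.1 := congrArg (·.1) e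
      have e2 : (σ^[i] (a, x, b)).1 = (σ^[i + d] (a, x, b)).1 := congrArg (·.2.1) e
      refine ih (Prod.ext e2 (Prod.ext e1 (hinj _ _ (hit i _ hT) ?_ ?_ (hX i) (e2 ▸ hX (i + d)) ?_)))
      · rw [e1, e2]; exact hit _ _ hT
      · rw [add_comm, Function.iterate_add_apply]; exact hcm d _ (hit i _ hT)
      · rw [e, e1, e2]
  obtain ⟨i, j, hij, e⟩ := Finite.exists_ne_map_eq_of_infinite fun n : ℕ => σ^[n] (a, x, b)
  wlog hlt : i < j generalizing i j
  · exact this j i hij.symm e.symm (by omega)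
  obtain ⟨d, rfl⟩ := Nat.exists_eq_add_of_lt hlt
  have := key i (d + 1) e
  rw [Function.iterate_succ_apply'] at this
  have hd := hit d _ hT
  generalize σ^[d] (a, x, b) = s at this hd
  obtain ⟨h1, h2, h3, h4, h5, h6⟩ := hd
  simp only [σ, Prod.mk.injEq] at this
  obtain ⟨rfl, rfl, rfl⟩ := this
  exact ⟨_, h4, h5, h6, rfl⟩

theorem od_iff_of_le [Finite G] (hab : IsConj a b) (hle : ∀ x ∈ D, Od a x → Od b x) :
    ∀ x ∈ D, Od a x ↔ Od b x := by
  obtain ⟨g, rfl⟩ := isConj_iff.1 hab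
  have : {x | x ∈ D ∧ Od a x} = {x | x ∈ D ∧ Od (g * a * g⁻¹) x} := by
    refine Set.eq_of_subset_of_ncard_le (fun x hx => ⟨hx.1, hle x hx.1 hx.2⟩) ?_
    refine Set.ncard_le_ncard_of_injOn (fun x => g⁻¹ * x * g⁻¹⁻¹) (fun x hx => ⟨h.conj_mem x hx.1 _, ?_⟩)
      fun x _ y _ e => by simpa using e
    simpa [mul_assoc] using hx.2.conj g⁻¹
  exact fun x hx => ⟨hle x hx, fun k => (this.ge ⟨hx, k⟩).2⟩

theorem od_of_comm (hd : d ∈ D) (he : e ∈ D) (hc : ∀ c ∈ D, Commute c e → Commute c d)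
    (hx : x ∈ D) (k : Od d x) : Od e x := by
  rcases pair h he hx with k' | k' | k'
  · exact absurd (hc x hx k'.symm).symm (k.not_comm (sq h hd) (sq h hx))
  · exact k'
  · have hu := fo_mem h he hx k'
    refine absurd (eq_one h hx hd k.symm (sq h hu) (k'.comm_right (sq h he) (sq h hx))
      (hc _ hu (k'.comm_left (sq h he) (sq h hx))) ?_) (ne_one h hu)
    rw [k'.swap (sq h he) (sq h hx), mul_fo h hx]; exact conj h hx he

theorem od_conj_left (hc : c ∈ D) (hx : x ∈ D) : Od (c * a * c) x ↔ Od a (c * x * c) := by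
  rw [← od_conj_iff c, inv h hc]
  simp only [← mul_assoc, sq h hc, one_mul, mul_assoc _ c c, mul_one]

theorem comm_of_od [Finite G] (hcl : ∀ a ∈ D, ∀ b ∈ D, IsConj a b)
    (hd : d ∈ D) (he : e ∈ D) (ho : ∀ x ∈ D, Od d x ↔ Od e x) (hc : c ∈ D) (k : Commute c d) :
    Commute c e := by
  rcases pair h hc he with k' | k' | k'
  · exact k'
  · exact absurd k (((ho c hc).2 k'.symm).symm.not_comm (sq h hc) (sq h hd))
  exfalso
  have hu := fo_mem h hc he k'
  have cc := k'.comm_left (sq h hc) (sq h he)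
  have ce := k'.comm_right (sq h hc) (sq h he)
  have e1 : e * (c * e * c * e) = c * e * c := by rw [k'.swap (sq h hc) (sq h he), mul_fo h he]
  have e2 := mul_fo h hc e
  have e3 : c * e = e * c * (c * e * c * e) := by rw [mul_assoc, e2, ← mul_assoc, ← mul_assoc, sq h he, one_mul]
  have e0 : c * e * c * e = c * e * c⁻¹ * e⁻¹ := by rw [inv h hc, inv h he]
  generalize c * e * c * e = u at *
  have m1 : e * u ∈ D := e1 ▸ conj h he hc
  have m2 : c * u ∈ D := e2 ▸ conj h hc he
  have o1 : ∀ x ∈ D, Od (e * u) x ↔ Od e x := fun x hx => by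
    rw [e1, od_conj_left h hc hx, ← ho _ (conj h hx hc), ← od_conj_left h hc hx, k.eq, mul_assoc, sq h hc,
      mul_one, ho x hx]
  have o2 := od_iff_of_le h (hcl u hu e he) fun x hx o =>
    (od_or_od h hu hx o he ce (ce.eq ▸ m1)).elim id fun o => (o1 x hx).1 (ce.eq ▸ o)
  have o3 := od_iff_of_le h (hcl u hu c hc) fun y hy o => by
    by_contra hn
    obtain ⟨w, hw, -, f1, e4⟩ := exists_fo h hu hy o hc cc.symm (cc.eq ▸ m2)
      (fo_of_not_od h hu hy o hc cc (cc.eq ▸ m2) hn)
    have n1 : ¬ Od u w := fun o => o.not_fo (sq h hw) f1.symm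
    have key : ∀ f ∈ D, Commute f u → ¬ Commute c f → ¬ Od f w → Commute f (w * f * w) := by
      intro f hf c1 c2 n
      rcases pair h hf hw with k | k | k
      · exact absurd (e4 ▸ ((k.mul_right c1).mul_right k).mul_right c1).symm c2
      · exact absurd k n
      · exact k.comm_conj (sq h hf) (sq h hw)
    have c1 := key e he ce.symm k'.1 (fun o => n1 ((o2 w hw).2 o))
    have c2 := key _ m1 (ce.symm.mul_left (Commute.refl u)) (fun k => k'.1 (by
      simpa [mul_assoc, sq h hu] using k.mul_right cc.symm)) fun o => n1 ((o2 w hw).2 ((o1 w hw).1 o))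
    have e5 : w * u * w = c * u := by rw [← e4, mul_assoc _ u u, sq h hu, mul_one]
    have e6 : w * (e * u) * w = w * e * w * (c * u) := by
      rw [← e5]; simp only [mul_assoc, ← mul_assoc w w, sq h hw, one_mul]
    have cw : Commute c w := e4 ▸ f1.comm_left (sq h hw) (sq h hu)
    have e7 : u * (w * e * w) = w * e * w * c := by
      calc _ = c * (c * u) * (w * e * w) := by rw [← mul_assoc c c, sq h hc, one_mul]
        _ = (c * w) * u * (w * w) * e * w := by rw [← e5]; group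
        _ = w * (c * u) * e * w := by rw [cw.eq, sq h hw]; group
        _ = w * e * (c * w) := by rw [e2, mul_assoc w, mul_assoc _ e e, sq h he]; group
        _ = _ := by rw [cw.eq]; group
    rw [e6] at c2
    generalize w * e * w = e' at *
    have : e' * e * u = e' * e * c * u := by
      calc _ = e * e' * (c * c) * u := by rw [sq h hc, mul_one, c1.eq]
        _ = e * u * (e' * (c * u)) := by rw [← mul_assoc, ← mul_assoc, ← mul_assoc, mul_assoc e u, e7]; group
        _ = e' * c * (u * e) * u := by rw [c2.eq]; group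
        _ = e' * (c * e) * (u * u) := by rw [ce.eq]; group
        _ = _ := by rw [e3, sq h hu]; group
    exact ne_one h hc (by simpa using this)
  let F := {f | f ∈ D ∧ ∀ x ∈ D, Od f x ↔ Od e x}
  have hp : IsPGroup 2 (Subgroup.closure F) := isPGroup_closure_of_four (fun x hx => sq h hx.1)
    (fun x hx y hy => ⟨conj h hx.1 hy.1, fun z hz => by
      rw [od_conj_left h hy.1 hz, hx.2 _ (conj h hz hy.1), ← hy.2 _ (conj h hz hy.1), ← od_conj_left h hy.1 hz,
        sq h hy.1, one_mul, hy.2 z hz]⟩)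
    fun x hx y hy => pow_four h hx.1 hy.1 fun o => ((hy.2 y hy.1).2 ((hx.2 y hy.1).1 o)).1 rfl
  haveI := hp.isNilpotent
  refine Sig.not_isSolvable_of_perfect (L := Subgroup.closure F) (le_antisymm
    ((Subgroup.commutator_le_sup _ _).trans (sup_idem _).le)
    ((Subgroup.closure_le _).2 fun f hf => ?_)) (fun e' => ne_one h he ?_) inferInstance
  · obtain ⟨g, rfl⟩ := isConj_iff.1 (hcl u hu f hf.1)
    have key : ∀ c ∈ D, (∀ x ∈ D, Od u x ↔ Od c x) → g * c * g⁻¹ ∈ Subgroup.closure F := fun c hc o =>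
      Subgroup.subset_closure ⟨h.conj_mem c hc g, fun x hx => by
        have := o _ (h.conj_mem x hx g⁻¹)
        rw [← od_conj_iff g, ← od_conj_iff (a := c) g] at this
        simp only [inv_inv, ← mul_assoc, mul_inv_cancel, one_mul, mul_inv_cancel_right] at this
        rw [← this, hf.2 x hx]⟩
    have := Subgroup.commutator_mem_commutator (key c hc o3) (key e he o2)
    rwa [commutatorElement_def, show g * c * g⁻¹ * (g * e * g⁻¹) * (g * c * g⁻¹)⁻¹ * (g * e * g⁻¹)⁻¹ =
      g * u * g⁻¹ by rw [e0]; group] at this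
  · exact Subgroup.mem_bot.1 (e' ▸ Subgroup.subset_closure ⟨he, fun _ _ => Iff.rfl⟩)

end RI

end Cfsg.Agent.Root
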