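import Cfsg.Agent.MinD.Fn

/-! Minimal degree of `Ω₆⁻(q)`, part 1: Witt's theorem, invariant subgroups, bounds for `cnt`. -/

set_option autoImplicit false
set_option linter.unusedSectionVars false

namespace Cfsg.Agent.Root.MinO6

open Cfsg.Agent.Geom Cfsg.Agent.Geom.Formed Cfsg.Agent.Root.Mx Cfsg.Agent.MinD QuadraticMap Module
open scoped Pointwise

variable {F : Type*} [Field F] {V : Type*} [AddCommGroup V] [Module F V] {Q : QuadraticForm F V}
  [Finite F] [FiniteDimensional F V] [Finite V]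

theorem dc_w {α β : Type*} [Finite α] [Finite β] (r : α → β → Prop) {S S' : Set α} (T : Set β)
    (hd : Disjoint S S') (k k' l : ℕ) (hk : ∀ a ∈ S, k ≤ {b ∈ T | r a b}.ncard)
    (hk' : ∀ a ∈ S', k' ≤ {b ∈ T | r a b}.ncard) (hl : ∀ b ∈ T, {a ∈ S ∪ S' | r a b}.ncard ≤ l) :
    S.ncard * k + S'.ncard * k' ≤ T.ncard * l := by
  classical
  have := Fintype.ofFinite α
  have := Fintype.ofFinite β
  have e1 : ∀ a, {b ∈ T | r a b}.ncard = (T.toFinset.bipartiteAbove r a).card := fun a => by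
    rw [Set.ncard_eq_toFinset_card']; congr 1; ext; simp [Finset.bipartiteAbove]
  have e2 : ∀ b, {a ∈ S ∪ S' | r a b}.ncard = ((S.toFinset ∪ S'.toFinset).bipartiteBelow r b).card :=
    fun b => by rw [Set.ncard_eq_toFinset_card']; congr 1; ext; simp [Finset.bipartiteBelow, or_and_right]
  have h := Finset.sum_card_bipartiteAbove_eq_sum_card_bipartiteBelow (r := r)
    (s := S.toFinset ∪ S'.toFinset) (t := T.toFinset)
  rw [Finset.sum_union (by simpa using hd)] at h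
  rw [Set.ncard_eq_toFinset_card' S, Set.ncard_eq_toFinset_card' S', Set.ncard_eq_toFinset_card' T]
  refine le_trans (add_le_add ?_ ?_) (h.le.trans ?_)
  · exact Finset.card_nsmul_le_sum _ _ _ fun a ha => e1 a ▸ hk a (by simpa using ha)
  · exact Finset.card_nsmul_le_sum _ _ _ fun a ha => e1 a ▸ hk' a (by simpa using ha)
  · exact Finset.sum_le_card_nsmul _ _ _ fun b hb => e2 b ▸ hl b (by simpa using hb)

theorem partner (hn : (ofQuad Q).Nondeg) {p w : V} (hp0 : p ≠ 0) (hp : Q p = 0) (hw : polar Q p w = 0)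
    (hw0 : w ∉ F ∙ p) : ∃ r, (ofQuad Q).IsPair p r ∧ polar Q r w = 0 := by
  obtain ⟨r, hr, h1, h2, h3⟩ := hn.exists_hyperbolic_partner (H := F ∙ w) (p := p) (fun h => by
    obtain ⟨c, rfl⟩ := Submodule.mem_span_singleton.1 h
    have hc : c ≠ 0 := by rintro rfl; simp at hp0
    exact hw0 (Submodule.mem_span_singleton.2 ⟨c⁻¹, inv_smul_smul₀ hc w⟩))
    (mem_pp.2 (by rwa [polar_comm])) hp (polar_self_of_sing hp)
  exact ⟨r, ⟨sing_ofQuad.2 hp, ⟨h1, h2⟩, h3⟩, by rw [polar_comm]; exact mem_pp.1 hr⟩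

theorem pair_symm {x y : V} (h : (ofQuad Q).IsPair x y) : (ofQuad Q).IsPair y x :=
  ⟨h.2, h.1, h.polar_eq'⟩

theorem plane {U : Submodule F V} (hU : ((ofQuad Q).restrict U).Nondeg) (h2 : finrank F U = 2) {w u : V}
    (hw : w ∈ U) (hu : u ∈ U) (hw0 : w ≠ 0) (h1 : polar Q w w = 0) (h : polar Q w u = 0) : u ∈ F ∙ w := by
  by_contra hc
  have e : (F ∙ w) ⊔ F ∙ u = U := Submodule.eq_of_le_of_finrank_le
    (sup_le ((Submodule.span_singleton_le_iff_mem _ _).2 hw) ((Submodule.span_singleton_le_iff_mem _ _).2 hu))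
    (by rw [finrank_sup_span hc, finrank_span_singleton hw0, h2])
  refine hw0 ((ofQuad Q).restrict_nondeg_iff'.1 hU w hw fun v hv => ?_)
  rw [← e, ← Submodule.span_insert] at hv
  obtain ⟨a, b, rfl⟩ := Submodule.mem_span_pair.1 hv
  simp [ofQuad_B_apply, h1, h]

variable (hn : (ofQuad Q).Nondeg) (h6 : finrank F V = 6)
include hn h6

theorem pair_perp {p r w : V} (hpr : (ofQuad Q).IsPair p r) (hw : polar Q p w = 0) (hw' : polar Q r w = 0)
    (hQ : Q w ≠ 0) : ∃ x y, (ofQuad Q).IsPair x y ∧ x ∈ pf (ofQuad Q) ![p, r, w] ∧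
      y ∈ pf (ofQuad Q) ![p, r, w] := by
  obtain ⟨x, -, hx0, hxs, hx⟩ := exists_sing_pf (ofQuad Q) ![p, r, w] (U := ⊤) (R := ⊥)
    (by rw [finrank_top, finrank_bot]; omega)
  have hx : x ∈ pf (ofQuad Q) ![p, r, w] := mem_pf.2 hx
  obtain ⟨x1, x2, x3⟩ := mem_pf3.1 hx
  obtain ⟨y, hy, h1, h2, h3⟩ := hn.exists_hyperbolic_partner (H := Submodule.span F {p, r, w}) (p := x)
    (fun h => by
      obtain ⟨a, b, c, e⟩ := Submodule.mem_span_triple.1 h
      rw [← e] at x1 x2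
      simp [polar_self_of_sing hpr.Q_left, polar_self_of_sing hpr.Q_right, hpr.polar_eq, hpr.polar_eq',
        hw, hw'] at x1 x2
      rw [x1, x2, zero_smul, zero_smul, zero_add, zero_add] at e
      have := hxs.1
      rw [← e] at this hx0
      have : c ^ 2 * Q w = 0 := (quad_smul Q c w).symm.trans this
      rw [mul_eq_zero, or_iff_left hQ, pow_eq_zero_iff two_ne_zero] at this
      simp [this] at hx0)
    ((ofQuad Q).mem_perp_span.2 (by rintro v (rfl | rfl | rfl) <;> assumption)) hxs.1 hxs.2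
  rw [mem_perp_span] at hy
  exact ⟨x, y, ⟨hxs, ⟨h1, h2⟩, h3⟩, hx, mem_pf3.2 ⟨hy p (by simp), hy r (by simp), hy w (by simp)⟩⟩

theorem plane2 {p r x y : V} (hpr : (ofQuad Q).IsPair p r) (hxy : (ofQuad Q).IsPair x y)
    (hx : x ∈ (ofQuad Q).pairPerp p r) (hy : y ∈ (ofQuad Q).pairPerp p r) :
    ((ofQuad Q).restrict (pf (ofQuad Q) ![p, r, x, y])).Nondeg ∧
      finrank F (pf (ofQuad Q) ![p, r, x, y]) = 2 := by
  obtain ⟨h1, h2⟩ := pair_step hn (hpr.nondeg_pairPerp hn) hx hy hxy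
  have := hpr.finrank_pairPerp hn
  have e : (ofQuad Q).pairPerp p r ⊓ (ofQuad Q).pairPerp x y = pf (ofQuad Q) ![p, r, x, y] := by
    ext v; simp only [Submodule.mem_inf, mem_pairPerp_quad, mem_pf4, and_assoc]
  rw [e] at h1 h2
  exact ⟨h1, by omega⟩

theorem rep {p w : V} (hp0 : p ≠ 0) (hp : Q p = 0) (hw : polar Q p w = 0) (hw0 : w ∉ F ∙ p) (c : F) :
    ∃ v, polar Q p v = 0 ∧ polar Q w v = 0 ∧ Q v = c := by
  obtain ⟨r, hpr, hr⟩ := partner hn hp0 hp hw hw0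
  by_cases hQ : Q w = 0
  · have hwE := mem_pairPerp_quad.2 ⟨hw, hr⟩
    obtain ⟨s, hs, hws⟩ := exists_isPair_mem (hpr.nondeg_pairPerp hn) hwE
      (by rintro rfl; exact hw0 (Submodule.zero_mem _)) hQ
    obtain ⟨h1, h2⟩ := plane2 hn h6 hpr hws hwE hs
    obtain ⟨v, hv, e⟩ := exists_Q_eq Q _ h1 h2.ge c
    exact ⟨v, (mem_pf4.1 hv).1, (mem_pf4.1 hv).2.2.1, e⟩
  · obtain ⟨x, y, hxy, hx, hy⟩ := pair_perp hn h6 hpr hw hr hQ
    rw [mem_pf3] at hx hy
    exact ⟨x + c • y, by simp [hx, hy], by simp [hx, hy], hxy.quad_add_smul c⟩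

theorem witt2 {p w p' w' : V} (hp0 : p ≠ 0) (hp : Q p = 0) (hw : polar Q p w = 0) (hw0 : w ∉ F ∙ p)
    (hp0' : p' ≠ 0) (hp' : Q p' = 0) (hw' : polar Q p' w' = 0) (hw0' : w' ∉ F ∙ p') (hQ : Q w' = Q w) :
    ∃ g : eichGroup Q, g.1.1 p = p' ∧ g.1.1 w = w' := by
  obtain ⟨g, hg, h⟩ := hn.witt_family (u := ![p, w]) (v := ![p', w']) (li_pair hp0 hw0) (li_pair hp0' hw0')
    (by
      have h1 : polar Q w p = 0 := by rw [polar_comm, hw]
      have h2 : polar Q w' p' = 0 := by rw [polar_comm, hw']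
      simp [Fin.forall_fin_two, ofQuad_B_apply, polar_self', hQ, hp, hp', hw, hw', h1, h2])
    (by simp [Fin.forall_fin_two, ofQuad, hQ, hp, hp'])
  have hx : NotExc Q := notExc_of_finrank (by omega)
  obtain ⟨l, hl, h3, h4⟩ := exists_dick_spin_eq hn hx
    (S := (fix (Submodule.span F {p, w})).subgroupOf (OG Q)) (fun v hv => by
      obtain ⟨u, u1, u2, e⟩ := rep hn h6 hp0 hp hw hw0 (Q v)
      have hu : Q u ≠ 0 := by rwa [e]
      exact ⟨refl Q u, refl_mem_fix ((ofQuad Q).mem_perp_span.2 (by rintro v (rfl | rfl) <;> assumption)),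
        dick_refl hn hu, by rw [spin_refl hn hu, e]⟩) ⟨g, hg⟩
  have key : ∀ v ∈ ({p, w} : Set V), (l⁻¹).1 v = v := fun v hv =>
    mem_fix.1 (inv_mem hl :) _ (Submodule.subset_span hv)
  exact ⟨⟨_, (G_eq hn (by omega)) ▸ mul_inv_mem_commutator hn hx h3 h4⟩,
    (congrArg g (key p (by simp))).trans (h 0), (congrArg g (key w (by simp))).trans (h 1)⟩

theorem cnt_eq6 {p w w' : V} (hp0 : p ≠ 0) (hp : Q p = 0) (hw : polar Q p w = 0) (hw0 : w ∉ F ∙ p)
    (hw' : polar Q p w' = 0) (hw0' : w' ∉ F ∙ p) {s : F} (hs : s ≠ 0) (hQ : Q w' = s ^ 2 * Q w)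
    (A : AddSubgroup V) : cnt Q p A w' = cnt Q p A w := by
  obtain ⟨g, g1, g2⟩ := witt2 hn h6 hp0 hp hw hw0 (p' := s⁻¹ • p) (w' := s⁻¹ • w')
    (smul_ne_zero (inv_ne_zero hs) hp0) (by rw [quad_smul, hp, mul_zero]) (by simp [hw']) (by
      rw [Submodule.span_singleton_smul_eq (inv_ne_zero hs).isUnit,
        Submodule.smul_mem_iff _ (inv_ne_zero hs)]
      exact hw0') (by rw [quad_smul, hQ]; field_simp)
  have := cnt_map (Q := Q) (p := p) A (φ := g.1.1.trans (LinearEquiv.smulOfNeZero F V s hs))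
    ⟨g, s⁻¹, inv_ne_zero hs, g1, fun x => by simp [hs]⟩ w
  rw [← this]
  simp [g2, hs]

theorem cnt_Tc6 {p w : V} (hp0 : p ≠ 0) (hp : Q p = 0) (hw : polar Q p w = 0) (hw0 : Q w ≠ 0)
    (A : AddSubgroup V) : ∀ w' ∈ Tc Q p (Q w), cnt Q p A w' = cnt Q p A w := fun _ hw' =>
  let ⟨_, hs, e⟩ := hw'.2
  cnt_eq6 hn h6 hp0 hp hw (notMem_of_Q hp hw0) hw'.1 (Tc_notMem hp hw0 _ hw') hs e A

theorem cnt_T16 {p w : V} (hp0 : p ≠ 0) (hp : Q p = 0) (hw : w ∈ T1 Q p) (A : AddSubgroup V) :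
    ∀ w' ∈ T1 Q p, cnt Q p A w' = cnt Q p A w := fun _ hw' =>
  cnt_eq6 hn h6 hp0 hp hw.1 hw.2.2 hw'.1 hw'.2.2 one_ne_zero (by rw [hw.2.1, hw'.2.1, mul_zero]) A

omit hn h6 in
variable (Q) in
/-- Invariance under the Eichler maps fixing `p` and `w`. -/
def Inv (p w : V) (A : AddSubgroup V) : Prop :=
  ∀ x y, Q x = 0 → polar Q x p = 0 → polar Q x w = 0 → polar Q x y = 0 → polar Q p y = 0 →
    polar Q w y = 0 → ∀ b ∈ A, (E Q x y).1.1 b ∈ A

omit hn h6 in
theorem inv_of_cnt {p w : V} {A : AddSubgroup V} (hw : w ∈ A) (hc : cnt Q p A w < ringChar F) :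
    Inv Q p w A := by
  intro x y h1 h2 h3 h4 h5 h6 b hb
  by_cases h : ImgS Q p w x A = ⊤
  · have : (⟨y, mem_pf3.2 ⟨h4, h5, h6⟩⟩ : pf (ofQuad Q) ![x, p, w]) ∈ ImgS Q p w x A := by
      rw [h]; trivial
    have : (E Q x y).1.1 • A = A := this
    rw [← this]
    exact mem_smul_iff.2 hb
  · exact absurd ((char_le_Img h).trans (Set.ncard_le_ncard (Img_sub h1 h2 h3 hw))) hc.not_ge

theorem inv_odd (h2 : (2 : F) ≠ 0) {p w a : V} (hp0 : p ≠ 0) (hp : Q p = 0) (hw : polar Q p w = 0)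
    (hQ : Q w ≠ 0) {A : AddSubgroup V} (hpA : ∀ t : F, t • p ∈ A) (ha : a ∈ A) (hpa : polar Q p a = 0)
    (ha0 : a ∉ Submodule.span F {p, w}) (hA : Inv Q p w A) :
    ∀ v, polar Q p v = 0 → polar Q w v = 0 → v ∈ A := by
  obtain ⟨r, hpr, hr⟩ := partner hn hp0 hp hw (notMem_of_Q hp hQ)
  have hww : polar Q w w ≠ 0 := by rw [polar_self']; exact mul_ne_zero h2 hQ
  have hdec : ∀ v, v - polar Q r v • p - polar Q p v • r - (polar Q w v / polar Q w w) • w ∈
      pf (ofQuad Q) ![p, r, w] := fun v => by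
    simp [mem_pf3, polar_self_of_sing hp, polar_self_of_sing hpr.Q_right, hpr.polar_eq, hpr.polar_eq', hw,
      hr, polar_comm Q w p, polar_comm Q w r, hww, -polar_self]
  have hUn : ((ofQuad Q).restrict (pf (ofQuad Q) ![p, r, w])).Nondeg :=
    (ofQuad Q).restrict_nondeg_iff'.2 fun u hu h => by
      obtain ⟨e1, e2, e3⟩ := mem_pf3.1 hu
      refine hn _ fun v => ?_
      simpa [ofQuad_B_apply, polar_comm Q u p, polar_comm Q u r, polar_comm Q u w, e1, e2, e3] using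
        h _ (hdec v)
  have hUA := le_of_inv hn hUn (by have := finrank_pf_top (Q := Q) ![p, r, w]; omega) A
    (fun x hx y hy d g hg b hb => by
      obtain ⟨e1, -, e3⟩ := mem_pf3.1 hx
      rw [IsE_eq_eich hg]
      exact hA x y hg.sp.1 (by rwa [polar_comm]) (by rwa [polar_comm]) hg.pa (mem_pf3.1 hy).1
        (mem_pf3.1 hy).2.2 b hb) ha (by
      by_contra! h
      have h0 := (ofQuad Q).restrict_nondeg_iff'.1 hUn _ (hdec a) fun u hu => by
        obtain ⟨e1, e2, e3⟩ := mem_pf3.1 hu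
        have := h u hu
        rw [ofQuad_B_apply, polar_comm] at this
        simp [ofQuad_B_apply, e1, e2, e3, this]
      rw [hpa, zero_smul, sub_zero, sub_sub, sub_eq_zero] at h0
      exact ha0 (Submodule.mem_span_pair.2 ⟨_, _, h0.symm⟩))
  intro v v1 v2
  simpa [v1, v2] using A.add_mem (hUA _ (hdec v)) (hpA (polar Q r v))

omit hn h6 in
theorem even_step (h2 : (2 : F) = 0) {p w x y b : V} (hQ : Q w ≠ 0) (hw : polar Q p w = 0)
    (hxy : (ofQuad Q).IsPair x y) (xp : polar Q p x = 0) (yp : polar Q p y = 0) (xw : polar Q w x = 0)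
    (yw : polar Q w y = 0) {A : AddSubgroup V} (hwA : w ∈ A) (hA : Inv Q p w A) (hb : b ∈ A)
    (b1 : polar Q w b = 0) (b2 : polar Q x b ≠ 0) :
    ∀ c : F, c • w ∈ A ∧ c • x ∈ A ∧ c • y ∈ A := by
  have hww : polar Q w w = 0 := by rw [polar_self', h2, zero_mul]
  have D : ∀ z, Q z = 0 → polar Q p z = 0 → polar Q w z = 0 → ∀ t : F, ∀ b ∈ A, polar Q w b = 0 →
      (t ^ 2 * Q w * polar Q z b) • z + (t * polar Q z b) • w ∈ A := fun z z0 z1 z2 t b hb b1 => by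
    have z3 : polar Q z w = 0 := by rwa [polar_comm]
    have := A.sub_mem hb (hA z (t • w) z0 (by rwa [polar_comm]) z3 (by simp [z3]) (by simp [hw])
      (by simp [hww, -polar_self]) b hb)
    rw [E_apply z0 (by simp [z3]), quad_smul, polar_smul_left, b1] at this
    convert this using 1
    module
  have D1 := fun t => D x hxy.Q_left xp xw t b hb b1
  have D2 := fun s t => D y hxy.Q_right yp yw s _ (D1 t) (by simp [xw, hww, -polar_self])
  simp only [polar_add_right, polar_smul_right, hxy.polar_eq', polar_comm Q y w, yw, smul_eq_mul, mul_one,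
    mul_zero, add_zero] at D2
  have hW : ∀ c : F, c • w ∈ A := fun c => by
    by_cases h : ∃ θ : F, θ ≠ 0 ∧ θ ≠ 1
    · obtain ⟨θ, t0, t1⟩ := h
      have t2 : 1 - θ ≠ 0 := sub_ne_zero.2 t1.symm
      set s := c / ((1 - θ) * Q w * polar Q x b)
      have := A.sub_mem (D2 s 1) (D2 (s / θ) θ)
      convert this using 1
      match_scalars
      · simp only [s]; field_simp
      · field_simp; ring
    · push Not at h
      rcases eq_or_ne c 0 with rfl | hc
      · simp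
      · rwa [h c hc, one_smul]
  have hsq : ∀ c d : F, d ≠ 0 → ∃ t, c = t ^ 2 * d := fun c d hd => by
    rcases eq_or_ne c 0 with rfl | hc
    · exact ⟨0, by simp⟩
    · obtain ⟨t, -, e⟩ := exists_sq_mul_of_sqSign_eq hc hd
        (by rw [sqSign_of_two_eq_zero h2, sqSign_of_two_eq_zero h2])
      exact ⟨t, e⟩
  refine fun c => ⟨hW c, ?_, ?_⟩
  · obtain ⟨t, rfl⟩ := hsq c _ (mul_ne_zero hQ b2)
    simpa [mul_assoc] using A.sub_mem (D1 t) (hW (t * polar Q x b))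
  · obtain ⟨t, rfl⟩ := hsq c _ (mul_ne_zero hQ (mul_ne_zero hQ b2))
    convert A.sub_mem (D2 t 1) (hW (t * (1 ^ 2 * Q w * polar Q x b))) using 1
    module

variable (hw2 : ∀ U, (ofQuad Q).TotSing U → finrank F U ≤ 2)
include hw2

omit hn h6 in
theorem no3 {p x y : V} (hp0 : p ≠ 0) (hp : Q p = 0) (hx : Q x = 0) (hy : Q y = 0) (h1 : polar Q p x = 0)
    (h2 : polar Q p y = 0) (h3 : polar Q x y = 0) (hx0 : x ∉ F ∙ p) : y ∈ Submodule.span F {p, x} := by
  by_contra hc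
  have e1 := finrank_sup_span hc
  rw [Submodule.span_insert, finrank_sup_span hx0, finrank_span_singleton hp0] at e1
  have := hw2 (((F ∙ p) ⊔ F ∙ x) ⊔ F ∙ y) (totSing_ofQuad.2 fun v hv => by
    rw [sup_assoc, ← Submodule.span_insert, ← Submodule.span_insert] at hv
    obtain ⟨a, b, c, rfl⟩ := Submodule.mem_span_triple.1 hv
    simp [quad_add, quad_smul, hp, hx, hy, h1, h2, h3])
  omega

theorem inv_even (h2 : (2 : F) = 0) {p w a : V} (hp0 : p ≠ 0) (hp : Q p = 0) (hw : polar Q p w = 0)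
    (hQ : Q w ≠ 0) {A : AddSubgroup V} (hpA : ∀ t : F, t • p ∈ A) (hwA : w ∈ A) (ha : a ∈ A)
    (hpa : polar Q p a = 0) (ha0 : a ∉ Submodule.span F {p, w}) (hA : Inv Q p w A) :
    (∀ v, polar Q p v = 0 → polar Q w v = 0 → v ∈ A) ∨
      (Nat.card F = 2 ∧ polar Q w a ≠ 0 ∧ Q a = 0) := by
  obtain ⟨r, hpr, hr⟩ := partner hn hp0 hp hw (notMem_of_Q hp hQ)
  obtain ⟨x, y, hxy, hx, hy⟩ := pair_perp hn h6 hpr hw hr hQ
  obtain ⟨x1, x2, x3⟩ := mem_pf3.1 hx
  obtain ⟨y1, y2, y3⟩ := mem_pf3.1 hy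
  obtain ⟨n1, n2⟩ := plane2 hn h6 hpr hxy (mem_pairPerp_quad.2 ⟨x1, x2⟩) (mem_pairPerp_quad.2 ⟨y1, y2⟩)
  have hself : ∀ v, polar Q v v = 0 := fun v => by rw [polar_self', h2, zero_mul]
  have hw0 : w ≠ 0 := by rintro rfl; simp at hQ
  have hwU : w ∈ pf (ofQuad Q) ![p, r, x, y] :=
    mem_pf4.2 ⟨hw, hr, by rwa [polar_comm], by rwa [polar_comm]⟩
  have hdec : ∀ v, polar Q p v = 0 →
      v - polar Q r v • p - polar Q y v • x - polar Q x v • y ∈ pf (ofQuad Q) ![p, r, x, y] := fun v hv => by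
    simp [mem_pf4, hself, hpr.polar_eq', hxy.polar_eq, hxy.polar_eq', hv, x1, x2, y1, y2,
      polar_comm Q x p, polar_comm Q y p, -polar_self]
  have hB : ∀ v, polar Q w (v - polar Q r v • p - polar Q y v • x - polar Q x v • y) = polar Q w v :=
    fun v => by simp [x3, y3, polar_comm Q w p, hw]
  have fin : (∃ b ∈ A, polar Q w b = 0 ∧ (polar Q x b ≠ 0 ∨ polar Q y b ≠ 0)) →
      ∀ v, polar Q p v = 0 → polar Q w v = 0 → v ∈ A := by
    rintro ⟨b, hb, b1, b2⟩ v v1 v2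
    have key : ∀ c : F, c • w ∈ A ∧ c • x ∈ A ∧ c • y ∈ A := by
      rcases b2 with h | h
      · exact even_step h2 hQ hw hxy x1 y1 x3 y3 hwA hA hb b1 h
      · exact fun c => (even_step h2 hQ hw (pair_symm hxy) y1 x1 y3 x3 hwA hA hb b1 h c).imp_right And.symm
    obtain ⟨c, hc⟩ := Submodule.mem_span_singleton.1 (plane n1 n2 hwU (hdec v v1) hw0 (hself w)
      ((hB v).trans v2))
    have := A.add_mem (A.add_mem (A.add_mem (key c).1 (key (polar Q x v)).2.2) (key (polar Q y v)).2.1)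
      (hpA (polar Q r v))
    rw [hc] at this
    simpa using this
  by_cases hδ : polar Q w a = 0
  · refine Or.inl (fin ⟨a, ha, hδ, ?_⟩)
    by_contra! h
    obtain ⟨c, hc⟩ := Submodule.mem_span_singleton.1 (plane n1 n2 hwU (hdec a hpa) hw0 (hself w)
      ((hB a).trans hδ))
    rw [h.1, h.2, zero_smul, zero_smul, sub_zero, sub_zero, eq_sub_iff_add_eq'] at hc
    exact ha0 (Submodule.mem_span_pair.2 ⟨_, _, hc⟩)
  have D : ∀ z z', (ofQuad Q).IsPair z z' → polar Q p z = 0 → polar Q w z = 0 → polar Q w z' = 0 → ∀ t : F,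
      t ≠ 0 → t * Q w * polar Q z a ≠ polar Q w a → ∃ b ∈ A, polar Q w b = 0 ∧ polar Q z' b ≠ 0 :=
    fun z z' hz z1 z2 z4 t t0 t1 => by
      have z3 : polar Q z w = 0 := by rwa [polar_comm]
      refine ⟨_, A.sub_mem (hA z (t • w) hz.Q_left (by rwa [polar_comm]) z3 (by simp [z3]) (by simp [hw])
        (by simp [hself, -polar_self]) a ha) ha, ?_⟩
      rw [E_apply hz.Q_left (by simp [z3]), quad_smul, polar_smul_left]
      simp only [polar_sub_right, polar_add_right, polar_smul_right, z2, hself, hz.polar_eq',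
        polar_comm Q z' w, z4, smul_eq_mul]
      exact ⟨by ring, fun e => t1 (mul_left_cancel₀ t0 (by linear_combination -e))⟩
  by_cases hq : ∃ θ : F, θ ≠ 0 ∧ θ ≠ 1
  · obtain ⟨θ, t0, t1⟩ := hq
    obtain ⟨t, h0, h1⟩ : ∃ t : F, t ≠ 0 ∧ t * Q w * polar Q x a ≠ polar Q w a := by
      by_contra! h
      exact mul_ne_zero (sub_ne_zero.2 t1) hδ (by linear_combination h θ t0 - θ * h 1 one_ne_zero)
    obtain ⟨b, hb, b1, b2⟩ := D x y hxy x1 x3 y3 t h0 h1
    exact Or.inl (fin ⟨b, hb, b1, Or.inr b2⟩)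
  push Not at hq
  by_cases e1 : polar Q x a = 0
  · obtain ⟨b, hb, b1, b2⟩ := D x y hxy x1 x3 y3 1 one_ne_zero (by rw [e1, mul_zero]; exact Ne.symm hδ)
    exact Or.inl (fin ⟨b, hb, b1, Or.inr b2⟩)
  by_cases e2 : polar Q y a = 0
  · obtain ⟨b, hb, b1, b2⟩ := D y x (pair_symm hxy) y1 y3 x3 1 one_ne_zero
      (by rw [e2, mul_zero]; exact Ne.symm hδ)
    exact Or.inl (fin ⟨b, hb, b1, Or.inl b2⟩)
  refine Or.inr ⟨(Nat.card_eq_two_iff' (0 : F)).2 ⟨1, one_ne_zero, hq⟩, hδ, ?_⟩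
  obtain ⟨u1, u2, u3, u4⟩ := mem_pf4.1 (hdec a hpa)
  have u5 := hB a
  set u := a - polar Q r a • p - polar Q y a • x - polar Q x a • y with hu
  have hQu : Q u ≠ 0 := fun h => by
    obtain ⟨c, d, e⟩ := Submodule.mem_span_pair.1 (no3 hw2 hp0 hp hxy.Q_left h x1 u1 u3 fun h => by
      obtain ⟨c, e⟩ := Submodule.mem_span_singleton.1 h
      have := hxy.polar_eq'
      rw [← e] at this
      simp [polar_comm Q y p, y1] at this)
    rw [← e] at u5
    simp [polar_comm Q w p, hw, x3] at u5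
    exact hδ u5.symm
  have : a = u + polar Q r a • p + (x + (1 : F) • y) := by rw [hu, hq _ e1, hq _ e2]; module
  rw [this, quad_add, quad_add, hxy.quad_add_smul, hq _ hQu, quad_smul, hp]
  simp [polar_comm Q u, u1, u3, u4, x1, y1]
  linear_combination h2

/-- The lower bound for `cnt` at a nonsingular vector. -/
theorem char_le_cnt6 {p w a v : V} (hp0 : p ≠ 0) (hp : Q p = 0) (hQ : Q w ≠ 0) {A : AddSubgroup V}
    (hpA : ∀ t : F, t • p ∈ A) (hAp : ∀ b ∈ A, polar Q p b = 0) (hwA : w ∈ A) (ha : a ∈ A)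
    (ha0 : a ∉ Submodule.span F {p, w}) (hv : polar Q p v = 0) (hvA : v ∉ A) :
    ringChar F ≤ cnt Q p A w ∨ (Nat.card F = 2 ∧ polar Q w a ≠ 0 ∧ Q a = 0) := by
  by_contra! hc
  have inv : ∀ w a, Q w ≠ 0 → w ∈ A → a ∈ A → a ∉ Submodule.span F {p, w} → cnt Q p A w < ringChar F →
      (Nat.card F = 2 → polar Q w a ≠ 0 → Q a ≠ 0) → ∀ v, polar Q p v = 0 → polar Q w v = 0 → v ∈ A :=
    fun w a hQ hw ha ha0 hc hc' => by
      by_cases h2 : (2 : F) = 0
      · exact (inv_even hn h6 hw2 h2 hp0 hp (hAp w hw) hQ hpA hw ha (hAp a ha) ha0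
          (inv_of_cnt hw hc)).resolve_right fun h => hc' h.1 h.2.1 h.2.2
      · exact inv_odd hn h6 h2 hp0 hp (hAp w hw) hQ hpA ha (hAp a ha) ha0 (inv_of_cnt hw hc)
  have hw := hAp w hwA
  have h1 := inv w a hQ hwA ha ha0 hc.1 hc.2
  obtain ⟨r, hpr, hr⟩ := partner hn hp0 hp hw (notMem_of_Q hp hQ)
  obtain ⟨x, y, hxy, hx, hy⟩ := pair_perp hn h6 hpr hw hr hQ
  obtain ⟨x1, -, x2⟩ := mem_pf3.1 hx
  obtain ⟨y1, -, y2⟩ := mem_pf3.1 hy
  set w2 := x + Q w • y with hw2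
  have e1 : polar Q p w2 = 0 := by simp [hw2, x1, y1]
  have e2 : polar Q w w2 = 0 := by simp [hw2, x2, y2]
  have e3 : polar Q y w2 = 1 := by simp [hw2, hxy.polar_eq', polar_self_of_sing hxy.Q_right]
  have e4 : Q w2 = Q w := hxy.quad_add_smul _
  have e5 : w ∉ Submodule.span F {p, w2} := fun h => by
    obtain ⟨c, d, hc⟩ := Submodule.mem_span_pair.1 h
    have : polar Q y w = d := by
      rw [← hc, polar_add_right, polar_smul_right, polar_smul_right, e3, polar_comm, y1]; simp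
    rw [polar_comm, y2] at this
    subst this
    exact notMem_of_Q hp hQ (Submodule.mem_span_singleton.2 ⟨c, by simpa using hc⟩)
  have h2 := inv w2 w (e4 ▸ hQ) (h1 w2 e1 e2) hwA e5 (by
    rw [cnt_Tc6 hn h6 hp0 hp hw hQ A w2 ⟨e1, 1, one_ne_zero, by rw [e4]; ring⟩]; exact hc.1)
    (fun _ _ => hQ)
  obtain ⟨z, hz, hz1⟩ := hn.exists_perp_eq_one' e5
  rw [mem_perp_span] at hz
  have z1 : polar Q p z = 0 := hz p (by simp)
  have z2 : polar Q w2 z = 0 := hz w2 (by simp)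
  have z3 : polar Q w z = 1 := hz1
  refine hvA ?_
  have := A.add_mem (h1 (v - polar Q w v • z) (by simp [hv, z1]) (by simp [z3]))
    (h2 (polar Q w v • z) (by simp [z1]) (by simp [z2]))
  rwa [sub_add_cancel] at this

end Cfsg.Agent.Root.MinO6
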