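import Cfsg.Agent.Root.MinO6a

/-! Minimal degree of `Ω₆⁻(q)`, part 2: the radical of a point stabiliser is not regular. -/

set_option autoImplicit false
set_option linter.unusedSectionVars false

namespace Cfsg.Agent.Root.MinO6

open Cfsg.Agent.Geom Cfsg.Agent.Geom.Formed Cfsg.Agent.Root.Mx Cfsg.Agent.MinD QuadraticMap Module

variable {F : Type*} [Field F] {V : Type*} [AddCommGroup V] [Module F V] {Q : QuadraticForm F V}
  [Finite F] [FiniteDimensional F V] [Finite V] {Ω : Type*} [MulAction (eichGroup Q) Ω]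

variable (Q) in
/-- Elements of the radical of a line stabiliser. -/
noncomputable def M (p x a b : V) (α : F) : eichGroup Q := E Q p (a + α • x) * E Q x b

section
variable {p x : V} (hp : Q p = 0) (hx : Q x = 0) (px : polar Q p x = 0)
include hp hx px

theorem M_mul {a b a' b' : V} (α α' : F) (a1 : polar Q p a = 0) (b1 : polar Q p b = 0) (b2 : polar Q x b = 0)
    (c1 : polar Q p a' = 0) (c2 : polar Q x a' = 0) (d2 : polar Q x b' = 0) :
    M Q p x a b α * M Q p x a' b' α' = M Q p x (a + a') (b + b') (α + α' + polar Q b a') := by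
  have h := conj_E (E Q x b) p (a' + α' • x)
  have xx := polar_self_of_sing hx
  rw [E_apply_fix hx b2 (by rwa [polar_comm]) (by rwa [polar_comm]),
    E_apply_perp hx b2 (by simp [c2, xx, -polar_self]), mul_inv_eq_iff_eq_mul] at h
  rw [M, M, M, mul_assoc, ← mul_assoc (E Q x b), h, E_add b2 d2, ← mul_assoc, ← mul_assoc,
    ← E_add (by simp [a1, px]) (by simp [c1, px]), mul_assoc]
  congr 2
  rw [polar_add_right, polar_smul_right, polar_comm Q b x, b2]
  module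

theorem M_eq {a : V} (l m α γ : F) (a1 : polar Q p a = 0) (a2 : polar Q x a = 0) :
    E Q (m • x + l • p) (a + α • x + γ • p) =
      M Q p x (l • a) (m • a) (m * l * Q a + α * l - m * γ) := by
  have xx := polar_self_of_sing hx
  have pp := polar_self_of_sing hp
  have xp : polar Q x p = 0 := by rwa [polar_comm]
  have ap : polar Q a p = 0 := by rwa [polar_comm]
  have ax : polar Q a x = 0 := by rwa [polar_comm]
  refine Subtype.ext (OG.ext fun v => ?_)
  rw [M, G_mul_apply, E_apply hx (by simp [a2]), E_apply hp (by simp [a1, px]),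
    E_apply (by simp [quad_add, quad_smul, hp, hx, xp]) (by simp [a1, a2, xx, pp, px, xp, -polar_self])]
  simp only [quad_add, quad_smul, hp, hx, polar_add_left, polar_add_right, polar_sub_right, polar_smul_left,
    polar_smul_right, a1, a2, px, xp, ap, ax, xx, polar_self' Q a, smul_eq_mul]
  module

end

variable (Q) in
/-- The stabiliser of `ω` in the radical of a line stabiliser, modulo its centre. -/
def R (p x : V) (ω : Ω) (a b : V) : Prop := ∃ α, M Q p x a b α • ω = ω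

section
variable (hn : (ofQuad Q).Nondeg) (H : RegAll Q Ω) {p r x s : V} (hpr : (ofQuad Q).IsPair p r)
  (hxs : (ofQuad Q).IsPair x s) (px : polar Q p x = 0) (ps : polar Q p s = 0) (rx : polar Q r x = 0)
  (rs : polar Q r s = 0)
include hn H hpr hxs px ps rx rs

local notation "𝕌" => pf (ofQuad Q) ![p, r, x, s]

theorem R_add {ω : Ω} {a b a' b' : V} (ha : a ∈ 𝕌) (hb : b ∈ 𝕌) (ha' : a' ∈ 𝕌) (hb' : b' ∈ 𝕌)
    (h : R Q p x ω a b) (h' : R Q p x ω a' b') : R Q p x ω (a + a') (b + b') := by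
  obtain ⟨α, h⟩ := h
  obtain ⟨α', h'⟩ := h'
  rw [mem_pf4] at ha hb ha' hb'
  exact ⟨_, by rw [← M_mul hpr.Q_left hxs.Q_left px α α' ha.1 hb.1 hb.2.2.1 ha'.1 ha'.2.2.1 hb'.2.2.1,
    mul_smul, h', h]⟩

theorem zero_of {a : V} (ha : a ∈ 𝕌) {c d : F} (h : a = c • x + d • p) : a = 0 ∧ c = 0 := by
  obtain ⟨-, a2, -, a4⟩ := mem_pf4.1 ha
  rw [h] at a2 a4 ⊢
  simp [rx, hpr.polar_eq', hxs.polar_eq', polar_comm Q s p, ps] at a2 a4
  simp [a2, a4]

theorem R_uniq {ω : Ω} {a a' b : V} (ha : a ∈ 𝕌) (ha' : a' ∈ 𝕌) (h : R Q p x ω a b)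
    (h' : R Q p x ω a' b) : a = a' := by
  obtain ⟨α, h⟩ := h
  obtain ⟨α', h'⟩ := h'
  have := h.trans h'.symm
  rw [M, M, mul_smul, mul_smul, E_smul_eq_iff (by simp [(mem_pf4.1 ha).1, px])
    (by simp [(mem_pf4.1 ha').1, px])] at this
  obtain ⟨c, hc⟩ := Submodule.mem_span_singleton.1 ((H p hpr.left_ne_zero hpr.Q_left _).1.mem hn this)
  exact sub_eq_zero.1 (zero_of hn H hpr hxs px ps rx rs (Submodule.sub_mem _ ha ha') (c := α' - α) (d := c)
    (by rw [hc]; module)).1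

theorem R_eig {ω : Ω} {b : V} (hb : b ∈ 𝕌) {l : F} (h : R Q p x ω (l • b) b) : b = 0 := by
  obtain ⟨α, h⟩ := h
  obtain ⟨b1, -, b2, -⟩ := mem_pf4.1 hb
  have e := M_eq hpr.Q_left hxs.Q_left px l 1 0 (l * Q b - α) b1 b2
  rw [one_smul F b, show 1 * l * Q b + 0 * l - 1 * (l * Q b - α) = α by ring] at e
  rw [← e] at h
  have h0 : (1 : F) • x + l • p ≠ 0 := fun e => one_ne_zero
    (zero_of hn H hpr hxs px ps rx rs (Submodule.zero_mem _) e.symm).2
  obtain ⟨c, hc⟩ := Submodule.mem_span_singleton.1 ((H _ h0 (by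
    simp [quad_add, quad_smul, hpr.Q_left, hxs.Q_left, polar_comm Q x p, px]) ω).1.mem hn
    ⟨by simp [b1, b2, polar_comm Q x p, px, polar_self_of_sing hpr.Q_left, -polar_self], h⟩)
  exact (zero_of hn H hpr hxs px ps rx rs hb (c := c) (d := c * l - (l * Q b - α))
    (by linear_combination (norm := module) -hc)).1

theorem R_conj {ω : Ω} {a b : V} (ha : a ∈ 𝕌) (hb : b ∈ 𝕌) (h : R Q p x ω a b) (g : eichGroup Q)
    {l1 m1 l2 m2 : F} (g1 : g.1.1 p = m1 • x + l1 • p) (g2 : g.1.1 x = m2 • x + l2 • p)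
    (g3 : ∀ u ∈ 𝕌, g.1.1 u = u) : R Q p x (g • ω) (l1 • a + l2 • b) (m1 • a + m2 • b) := by
  obtain ⟨α, h⟩ := h
  obtain ⟨a1, -, a2, -⟩ := mem_pf4.1 ha
  obtain ⟨b1, -, b2, -⟩ := mem_pf4.1 hb
  have e := congrArg (g • ·) h
  simp only [M, mul_smul] at e
  rw [smul_E, smul_E, map_add, map_smul, g1, g2, g3 a ha, g3 b hb] at e
  have e1 := M_eq hpr.Q_left hxs.Q_left px l2 m2 0 0 b1 b2
  have e2 := M_eq hpr.Q_left hxs.Q_left px l1 m1 (α * m2) (α * l2) a1 a2
  rw [zero_smul, zero_smul, add_zero, add_zero] at e1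
  rw [e1, show a + α • (m2 • x + l2 • p) = a + (α * m2) • x + (α * l2) • p by module, e2, smul_smul,
    M_mul hpr.Q_left hxs.Q_left px _ _ (by simp [a1]) (by simp [a1]) (by simp [a2]) (by simp [b1])
      (by simp [b2]) (by simp [b2])] at e
  exact ⟨_, e⟩

omit hn H in
theorem proj_U {c : V} (c1 : polar Q p c = 0) :
    c - polar Q s c • x - polar Q r c • p - polar Q x c • s ∈ 𝕌 := by
  simp [mem_pf4, c1, px, ps, rx, rs, polar_comm Q x p, polar_comm Q s p, hpr.polar_eq', hxs.polar_eq,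
    hxs.polar_eq', polar_self_of_sing hpr.Q_left, polar_self_of_sing hxs.Q_left,
    polar_self_of_sing hxs.Q_right, -polar_self]

omit hn H in
theorem R_of {ω : Ω} {b c : V} (c1 : polar Q p c = 0) (c2 : polar Q x c = 0)
    (h : E Q p c • E Q x b • ω = ω) : ∃ a ∈ 𝕌, R Q p x ω a b := by
  have h1 := proj_U hpr hxs px ps rx rs c1
  refine ⟨_, h1, polar Q s c, ?_⟩
  rw [M, mul_smul]
  refine Eq.trans ?_ h
  rw [E_smul_eq_iff (by simp [(mem_pf4.1 h1).1, px]) c1]
  convert smul_mem_Stb hpr.Q_left _ (-polar Q r c) using 1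
  rw [c2]; module

theorem exists_c (ω : Ω) (b : V) : ∃ c, polar Q p c = 0 ∧ E Q p c • E Q x b • ω = ω :=
  mem_orb.1 ((H p hpr.left_ne_zero hpr.Q_left _).2 ω)

theorem S_add {ω : Ω} {b b' c c' : V} (hb : b ∈ 𝕌) (hb' : b' ∈ 𝕌) (c1 : polar Q p c = 0)
    (c2 : polar Q p c' = 0) (h : E Q p c • E Q x b • ω = ω) (h' : E Q p c' • E Q x b' • ω = ω) :
    ∃ d, polar Q p d = 0 ∧ polar Q x d = polar Q x c + polar Q x c' ∧
      E Q p d • E Q x (b + b') • ω = ω := by
  obtain ⟨b1, -, b2, -⟩ := mem_pf4.1 hb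
  have f1 := E_apply_fix hxs.Q_left b2 (x := p) (by rwa [polar_comm]) (by rwa [polar_comm])
  have f2 := E_apply_fix hxs.Q_left b2 (polar_self_of_sing hxs.Q_left) (by rwa [polar_comm])
  have e1 : polar Q p ((E Q x b).1.1 c') = 0 := by rw [← f1, OG.map_polar, c2]
  refine ⟨c + (E Q x b).1.1 c', by simp [c1, e1], ?_, ?_⟩
  · rw [polar_add_right]; congr 1; conv_lhs => rw [← f2]
    rw [f2]; conv_lhs => arg 2; rw [← f2]
    exact OG.map_polar _ _ _
  · rw [E_add c1 e1, E_add b2 (mem_pf4.1 hb').2.2.1, mul_smul, mul_smul]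
    conv_lhs => arg 2; arg 1; rw [← f1]
    rw [← smul_E, h', h]

theorem not_two (hq : Nat.card F = 2) (n1 : ((ofQuad Q).restrict 𝕌).Nondeg) (n2 : finrank F 𝕌 = 2)
    (ω : Ω) : False := by
  have h2 := two_eq_zero_of_card_two hq
  obtain ⟨b, hb, b0, a, ha, α, h⟩ : ∃ b ∈ 𝕌, b ≠ 0 ∧ ∃ a ∈ 𝕌, R Q p x ω a b := by
    obtain ⟨b, hb, b0⟩ := exists_notMem_of_lt (U := 𝕌) (R := ⊥) (by rw [finrank_bot]; omega)
    have b0 : b ≠ 0 := by simpa using b0
    obtain ⟨b', hb', b0'⟩ := exists_notMem_of_lt (U := 𝕌) (R := F ∙ b) (by rw [finrank_span_singleton b0]; omega)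
    obtain ⟨c, c1, hc⟩ := exists_c hn H hpr hxs px ps rx rs ω b
    obtain ⟨c', c1', hc'⟩ := exists_c hn H hpr hxs px ps rx rs ω b'
    by_cases e : polar Q x c = 0
    · exact ⟨b, hb, b0, R_of hpr hxs px ps rx rs c1 e hc⟩
    by_cases e' : polar Q x c' = 0
    · exact ⟨b', hb', by rintro rfl; exact b0' (Submodule.zero_mem _), R_of hpr hxs px ps rx rs c1' e' hc'⟩
    obtain ⟨d, d1, d2, hd⟩ := S_add hn H hpr hxs px ps rx rs hb hb' c1 c1' hc hc'
    refine ⟨_, Submodule.add_mem _ hb hb', fun e => b0' (Submodule.mem_span_singleton.2 ⟨-1, ?_⟩),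
      R_of hpr hxs px ps rx rs d1 ?_ hd⟩
    · rw [neg_one_smul, neg_eq_iff_add_eq_zero, e]
    · rw [d2, eq_one_of_card_two hq e, eq_one_of_card_two hq e', one_add_one_eq_two, h2]
  have hvv : ∀ v : V, v + v = 0 := fun v => by rw [← two_smul F, h2, zero_smul]
  obtain ⟨a1, -, a2, -⟩ := mem_pf4.1 ha
  obtain ⟨b1, -, b2, -⟩ := mem_pf4.1 hb
  have h3 : (M Q p x a b α * M Q p x a b α) • ω = ω := by rw [mul_smul, h, h]
  rw [M_mul hpr.Q_left hxs.Q_left px α α a1 b1 b2 a1 a2 b2, hvv, hvv, M, E_zero, mul_one] at h3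
  obtain ⟨c, hc⟩ := Submodule.mem_span_singleton.1 ((H p hpr.left_ne_zero hpr.Q_left ω).1.mem hn
    ⟨by simp [px], h3⟩)
  have h4 := (zero_of hn H hpr hxs px ps rx rs (Submodule.zero_mem _) (c := α + α + polar Q b a) (d := -c)
    (by rw [neg_smul, hc]; module)).2
  rw [← two_mul, h2, zero_mul, zero_add] at h4
  obtain ⟨l, rfl⟩ := Submodule.mem_span_singleton.1
    (plane n1 n2 hb ha b0 (by rw [polar_self', h2, zero_mul]) h4)
  exact b0 (R_eig hn H hpr hxs px ps rx rs hb ⟨α, h⟩)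

theorem not_odd (h2 : (2 : F) ≠ 0) (h5 : 5 ≤ finrank F V) (n2 : finrank F 𝕌 = 2) (ω : Ω) : False := by
  have hx : NotExc Q := notExc_of_two_ne_zero h2
  let t : eichGroup Q := ⟨hpr.torus (-1) * hxs.torus (-1), (mem_G_iff hn h5 _).2
    ⟨by rw [dick_mul hn hx, dick_torus hn, dick_torus hn, one_mul],
      by rw [spin_mul hn hx, spin_torus hn, spin_torus hn, Int.units_mul_self]⟩⟩
  have xp : polar Q x p = 0 := by rwa [polar_comm]
  have xr : polar Q x r = 0 := by rwa [polar_comm]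
  have sp : polar Q s p = 0 := by rwa [polar_comm]
  have sr : polar Q s r = 0 := by rwa [polar_comm]
  have pp := polar_self_of_sing hpr.Q_left
  have rr := polar_self_of_sing hpr.Q_right
  have xx := polar_self_of_sing hxs.Q_left
  have ss := polar_self_of_sing hxs.Q_right
  have ht : ∀ v, t.1.1 v = v - (2 * polar Q s v) • x - (2 * polar Q x v) • s - (2 * polar Q r v) • p -
      (2 * polar Q p v) • r := fun v => by
    show (hpr.torus _).1 ((hxs.torus _).1 v) = _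
    rw [hpr.torus_apply, hxs.torus_apply]
    simp [ofQuad, px, ps, rx, rs]
    module
  have tp : t.1.1 p = -p := by rw [ht]; simp [sp, xp, pp, hpr.polar_eq', -polar_self]; module
  have tx : t.1.1 x = -x := by rw [ht]; simp [px, rx, xx, hxs.polar_eq', -polar_self]; module
  have tr : t.1.1 r = -r := by rw [ht]; simp [sr, xr, rr, hpr.polar_eq, -polar_self]; module
  have tU : ∀ u ∈ 𝕌, t.1.1 u = u := fun u hu => by rw [ht]; simp [mem_pf4.1 hu]
  have tE : ∀ y a ω, t.1.1 y = -y → Q y = 0 → polar Q y a = 0 →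
      polar Q y (t.1.1 a) = 0 ∧ t • E Q y a • ω = E Q y (-t.1.1 a) • t • (ω : Ω) := fun y a ω h1 h3 h4 => by
    have : polar Q y (t.1.1 a) = 0 := by rw [← neg_neg y, ← h1, polar_neg_left, OG.map_polar, h4, neg_zero]
    exact ⟨this, by rw [smul_E, h1, ← neg_one_smul F y, E_smul_left h3 this, neg_one_smul]⟩
  have hS : ∀ ω c, c ∈ Stb Q p ω → c ∈ F ∙ p := fun (ω : Ω) c => (H p hpr.left_ne_zero hpr.Q_left ω).1.mem hn
  obtain ⟨ω, hω⟩ : ∃ ω : Ω, t • ω = ω := by
    obtain ⟨γ, hγ, e⟩ := mem_orb.1 ((H p hpr.left_ne_zero hpr.Q_left ω).2 (t • ω))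
    have h3 : t • t • ω = ω := by
      rw [smul_smul, show t * t = 1 from Subtype.ext (OG.ext fun v => ?_), one_smul]
      rw [G_mul_apply, ht, ht]
      simp [px, ps, rx, rs, xp, xr, sp, sr, pp, rr, xx, ss, hpr.polar_eq, hpr.polar_eq', hxs.polar_eq,
        hxs.polar_eq', -polar_self]
      module
    obtain ⟨e1, e2⟩ := tE p γ ω tp hpr.Q_left hγ
    rw [← e, e2, ← e, smul_smul, ← E_add (by simp [e1]) hγ] at h3
    obtain ⟨c, hc⟩ := Submodule.mem_span_singleton.1 (hS ω _ ⟨by simp [e1, hγ], h3⟩)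
    refine ⟨E Q p ((2 : F)⁻¹ • γ) • ω, ?_⟩
    rw [(tE p _ ω tp hpr.Q_left (by simp [hγ])).2, ← e, smul_smul, ← E_add (by simp [e1]) hγ,
      E_smul_eq_iff (by simp [e1, hγ]) (by simp [hγ])]
    convert smul_mem_Stb hpr.Q_left ω ((2 : F)⁻¹ * c) using 1
    rw [mul_smul, hc, map_smul]
    match_scalars <;> field_simp
    ring
  have ex : ∀ b ∈ 𝕌, ∃ a ∈ 𝕌, R Q p x ω a b := fun b hb => by
    obtain ⟨c, c1, hc⟩ := exists_c hn H hpr hxs px ps rx rs ω b
    refine R_of hpr hxs px ps rx rs c1 ?_ hc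
    have e := congrArg (t • ·) hc
    obtain ⟨e1, e2⟩ := tE p c (E Q x b • ω) tp hpr.Q_left c1
    simp only [e2, (tE x b ω tx hxs.Q_left (mem_pf4.1 hb).2.2.1).2, tU b hb, hω] at e
    obtain ⟨d, d1, d2, hd⟩ := S_add hn H hpr hxs px ps rx rs hb (Submodule.neg_mem _ hb) c1
      (by simp [e1]) hc e
    rw [add_neg_cancel, E_zero, one_smul] at hd
    obtain ⟨k, rfl⟩ := Submodule.mem_span_singleton.1 (hS ω d ⟨d1, hd⟩)
    rw [ht] at d2
    simp [xp, xr, xx, hxs.polar_eq, -polar_self] at d2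
    exact d2.resolve_left h2
  have key : ∀ κ : F, ∀ a ∈ 𝕌, ∀ b ∈ 𝕌, ∀ a' ∈ 𝕌, R Q p x ω a b → R Q p x ω a' (b + κ • a) →
      ∃ β : F, a = a' + β • (b + κ • a) := fun κ a ha b hb a' ha' h h' => by
    have k1 : polar Q x (κ • r) = 0 := by simp [xr]
    obtain ⟨c, c1, hc⟩ := mem_orb.1 ((H p hpr.left_ne_zero hpr.Q_left ω).2 (E Q x (κ • r) • ω))
    have e := (tE x _ ω tx hxs.Q_left k1).2
    rw [map_smul, tr, smul_neg, neg_neg, hω, ← hc, (tE p c ω tp hpr.Q_left c1).2, hω,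
      E_smul_eq_iff (by simp [(tE p c ω tp hpr.Q_left c1).1]) c1] at e
    obtain ⟨k, hk⟩ := Submodule.mem_span_singleton.1 (hS ω _ e)
    have cU : ∀ u ∈ 𝕌, polar Q c u = 0 := fun u hu => by
      obtain ⟨u1, u2, u3, u4⟩ := mem_pf4.1 hu
      have := congrArg (fun v => polar Q v u) hk
      simp [ht, u1, u2, u3, u4] at this
      exact (mul_eq_zero.1 (show 2 * polar Q c u = 0 by linear_combination this)).resolve_left h2
    have hb' : b + κ • a ∈ 𝕌 := Submodule.add_mem _ hb (Submodule.smul_mem _ _ ha)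
    have r1 := R_conj hn H hpr hxs px ps rx rs ha hb h (E Q x (κ • r)) (l1 := 1) (m1 := κ) (l2 := 0) (m2 := 1)
      (by rw [E_apply_perp hxs.Q_left k1 xp]; simp [hpr.polar_eq', add_comm])
      (by rw [E_apply_fix hxs.Q_left k1 xx (by simp [rx])]; simp)
      (fun u hu => E_apply_fix hxs.Q_left k1 (mem_pf4.1 hu).2.2.1 (by simp [(mem_pf4.1 hu).2.1]))
    have r2 := R_conj hn H hpr hxs px ps rx rs ha' hb' h' (E Q p c) (l1 := 1) (m1 := 0) (l2 := polar Q c x)
      (m2 := 1) (by rw [E_apply_fix hpr.Q_left c1 pp (by rwa [polar_comm])]; simp)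
      (by rw [E_apply_perp hpr.Q_left c1 px]; simp)
      (fun u hu => E_apply_fix hpr.Q_left c1 (mem_pf4.1 hu).1 (cU u hu))
    simp only [one_smul, zero_smul, add_zero, zero_add, hc, add_comm (κ • a)] at r1 r2
    exact ⟨_, R_uniq hn H hpr hxs px ps rx rs ha (Submodule.add_mem _ ha' (Submodule.smul_mem _ _ hb')) r1 r2⟩
  obtain ⟨b, hb, b0⟩ := exists_notMem_of_lt (U := 𝕌) (R := ⊥) (by rw [finrank_bot]; omega)
  obtain ⟨a1, h1, r1⟩ := ex b hb
  obtain ⟨a2, h3, r2⟩ := ex a1 h1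
  have r3 := R_conj hn H hpr hxs px ps rx rs h3 h1 r2 t (l1 := -1) (m1 := 0) (l2 := 0) (m2 := -1)
    (by simp [tp]) (by simp [tx]) tU
  rw [hω, zero_smul, zero_smul, add_zero, zero_add] at r3
  obtain ⟨β, e1⟩ := key 1 a1 h1 b hb _ (Submodule.add_mem _ h1 h3) r1
    (by rw [one_smul]; exact R_add hn H hpr hxs px ps rx rs h1 hb h3 h1 r1 r2)
  obtain ⟨β', e2⟩ := key (-1) a1 h1 b hb _ (Submodule.add_mem _ h1 (Submodule.smul_mem _ _ h3)) r1
    (R_add hn H hpr hxs px ps rx rs h1 hb (Submodule.smul_mem _ _ h3) (Submodule.smul_mem _ _ h1) r1 r3)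
  have b0 : b ≠ 0 := by simpa using b0
  classical
  refine b0 (R_eig hn H hpr hxs px ps rx rs hb (ω := ω) (l := if β = β' then 0 else (β + β') / (β' - β)) ?_)
  convert r1
  split_ifs with h
  · subst h
    have e3 : β = 0 := (mul_eq_zero.1 ((smul_eq_zero.1 (show (2 * β) • b = 0 by
      linear_combination (norm := module) -e1 - e2)).resolve_right b0)).resolve_left h2
    have e4 : a2 = (0 : F) • a1 := by rw [e3] at e1; linear_combination (norm := module) -e1
    rw [zero_smul, R_eig hn H hpr hxs px ps rx rs h1 (e4 ▸ r2)]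
  · have h' : β' - β ≠ 0 := sub_ne_zero.2 (Ne.symm h)
    rw [div_eq_inv_mul, mul_smul, inv_smul_eq_iff₀ h']
    linear_combination (norm := module) -e1 - e2

end

theorem not_regAll6 (hn : (ofQuad Q).Nondeg) (h6 : finrank F V = 6) (ω : Ω) : ¬ RegAll Q Ω := fun H => by
  obtain ⟨p, -, r, -, hpr⟩ := exists_pair hn (nondeg_top hn) (by rw [finrank_top]; omega)
  have hd := hpr.finrank_pairPerp hn
  obtain ⟨x, hx, s, hs, hxs⟩ := exists_pair hn (hpr.nondeg_pairPerp hn) (by omega)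
  obtain ⟨n1, n2⟩ := plane2 hn h6 hpr hxs hx hs
  rw [mem_pairPerp_quad] at hx hs
  rcases char_cases F with ⟨-, -, h | h⟩ | ⟨h, -⟩
  · exact not_two hn H hpr hxs hx.1 hs.1 hx.2 hs.2 h n1 n2 ω
  · exact not_regAll_four hn (by omega) h ω H
  · exact not_odd hn H hpr hxs hx.1 hs.1 hx.2 hs.2 h (by omega) n2 ω

end Cfsg.Agent.Root.MinO6
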