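import Cfsg.Agent.Root.MinO6b

/-! Minimal degree of `Ω₆⁻(q)`, part 3: the main case distinction. -/

set_option autoImplicit false
set_option linter.unusedSectionVars false

namespace Cfsg.Agent.Root.MinO6

open Cfsg.Agent.Geom Cfsg.Agent.Geom.Formed Cfsg.Agent.Root.Mx Cfsg.Agent.MinD QuadraticMap Module
open scoped Pointwise

variable {F : Type*} [Field F] {V : Type*} [AddCommGroup V] [Module F V] {Q : QuadraticForm F V}
  [Finite F] [FiniteDimensional F V] [Finite V] {Ω : Type*} [MulAction (eichGroup Q) Ω] [Finite Ω]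

theorem triv6 (hn : (ofQuad Q).Nondeg) (h5 : 5 ≤ finrank F V) {p : V} (hp0 : p ≠ 0)
    (hp : Q p = 0) (h : ∀ ω : Ω, Ful Q p ω ∨ Reg Q p ω) {ω : Ω} (hω : Ful Q p ω) (g : eichGroup Q) :
    g • ω = ω := by
  have h1 : ∀ x, x ≠ 0 → Q x = 0 → Ful Q x ω ∨ Reg Q x ω := fun x hx0 hx =>
    transfer hn h5 (I := fun p ω => Ful Q p ω ∨ Reg Q p ω)
      (fun g p ω h => h.imp (·.map g) (·.map g)) hp0 hp h hx0 hx ω
  have h2 : ∀ x y, x ≠ 0 → Q x = 0 → Q y = 0 → polar Q x y = 0 → y ≠ 0 →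
      Ful Q x ω → Ful Q y ω := fun x y hx0 hx hy hxy hy0 hf => by
    by_cases hxy' : x ∈ F ∙ y
    · obtain ⟨c, rfl⟩ := Submodule.mem_span_singleton.1 hxy'
      have hc : c ≠ 0 := by rintro rfl; simp at hx0
      simpa [hc] using hf.smul hx (inv_ne_zero hc)
    refine (h1 y hy0 hy).resolve_right fun hr => hxy' (hr.mem hn ⟨by rwa [polar_comm], ?_⟩)
    rw [E_swap hx hy hxy]
    exact (hf.mem hn (by simp [hxy])).2
  refine triv_of_siegel hn h5 (fun x a hx _ hxa hx0 _ => (Ful.mem hn ?_ hxa).2) g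
  obtain ⟨y, -, hy0, hys, hy⟩ := exists_sing_pf (ofQuad Q) ![p, x] (U := ⊤) (R := ⊥)
    (by rw [finrank_top, finrank_bot]; omega)
  have hy0 : y ≠ 0 := by simpa using hy0
  exact h2 y x hy0 hys.1 hx (by rw [polar_comm]; exact hy 1) hx0 (h2 p y hp0 hp hys.1 (hy 0) hy0 hω)

theorem fib_w (hn : (ofQuad Q).Nondeg) {p : V} (hp0 : p ≠ 0) (hp : Q p = 0) (ω : Ω) {T T' : Set V}
    (hd : Disjoint T T') (k k' : ℕ) (hT : ∀ w ∈ T, w ∉ F ∙ p) (hT' : ∀ w ∈ T', w ∉ F ∙ p)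
    (hk : ∀ w ∈ T, k ≤ cnt Q p (Wd Q p ω) w) (hk' : ∀ w ∈ T', k' ≤ cnt Q p (Wd Q p ω) w) :
    ∃ o b, Nat.card (Wd Q p ω) = Nat.card F + b ∧ T.ncard * k + T'.ncard * k' ≤ o * b ∧
      o * (Nat.card F + b) ≤ Nat.card F * Nat.card Ω ∧ ∀ w, cnt Q p (Wd Q p ω) w ≤ o := by
  obtain ⟨b, hb⟩ := Nat.exists_eq_add_of_le (q_le_card (Q := Q) hp0 ω)
  refine ⟨_, b, hb, dc_w (fun (w : V) (A : AddSubgroup V) => w ∈ A) (Orb Q p (Wd Q p ω)) hd k k' b hk hk'
    fun A hA => ?_, hb ▸ (orb_mul_le hn hp0 hp ω).trans (Nat.mul_le_mul_left _ (ncard_le_card _)),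
    fun w => Set.ncard_le_ncard fun A h => h.1⟩
  rw [← card_of_mem_Orb hA] at hb
  obtain ⟨ω', rfl⟩ := exists_of_mem_Orb hp hA
  have h1 : ((F ∙ p : Submodule F V) : Set V) ⊆ Wd Q p ω' := fun x hx => by
    obtain ⟨c, rfl⟩ := Submodule.mem_span_singleton.1 hx
    exact smul_mem_Wd p ω' c
  refine le_trans (Set.ncard_le_ncard (t := (Wd Q p ω' : Set V) \ (F ∙ p : Submodule F V))
    fun w hw => ⟨hw.2, hw.1.elim (hT w) (hT' w)⟩) (le_of_eq ?_)
  rw [Set.ncard_sdiff h1, card_span_p hp0]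
  exact Nat.sub_eq_of_eq_add' hb

theorem disj {p : V} {c : F} (hc : c ≠ 0) : Disjoint (Tc Q p c) (T1 Q p) :=
  Set.disjoint_left.2 fun _ h h' =>
    let ⟨_, hs, e⟩ := h.2
    mul_ne_zero (pow_ne_zero 2 hs) hc (e.symm.trans h'.2.1)

theorem three_cases (h3 : Nat.card F = 3) {a b : F} (ha : a ≠ 0) (hb : b ≠ 0) : b = a ∨ b = -a :=
  sq_eq_sq_iff_eq_or_eq_neg.1 (by rw [sq_eq_one_of_three h3 ha, sq_eq_one_of_three h3 hb])

theorem ar1 {t C : ℕ} (h : (t + 2) ^ 5 ≤ (t + 2) * ((t + 2) ^ 2 + 1) * (t + 1) + (t + 2) + C) :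
    (t + 2) ^ 2 * ((t + 2) ^ 2 + 1) * (t + 1) ≤ C := by nlinarith

theorem ar2 {t C N k : ℕ} (h : (t + 2) ^ 2 * ((t + 2) ^ 2 + 1) * (t + 1) * k ≤ C) (h' : C ≤ (t + 2) * N)
    (hk : (2 ≤ k ∧ 2 ≤ t)) : (t + 2 + 1) * ((t + 2) ^ 3 + 1) ≤ N := by
  obtain ⟨t, rfl⟩ := Nat.exists_eq_add_of_le' hk.2
  have := Nat.mul_le_mul_left ((t + 2 + 2) ^ 2 * ((t + 2 + 2) ^ 2 + 1) * (t + 2 + 1)) hk.1
  refine Nat.le_of_mul_le_mul_left (c := t + 2 + 2) ?_ (by omega)
  nlinarith [Nat.zero_le (t ^ 5), Nat.zero_le (t ^ 4), Nat.zero_le (t ^ 3), Nat.zero_le (t ^ 2)]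

theorem ar3 {t C N k : ℕ} (h : (t + 2) ^ 2 * ((t + 2) ^ 2 + 1) * (t + 1) ≤ C * 2)
    (h' : C * k ≤ (t + 2) * N) (hk : (3 ≤ k ∧ 3 ≤ t)) : (t + 2 + 1) * ((t + 2) ^ 3 + 1) ≤ N := by
  obtain ⟨t, rfl⟩ := Nat.exists_eq_add_of_le' hk.2
  have := Nat.mul_le_mul_left C hk.1
  refine Nat.le_of_mul_le_mul_left (c := 2 * (t + 3 + 2)) ?_ (by omega)
  nlinarith [Nat.zero_le (t ^ 5), Nat.zero_le (t ^ 4), Nat.zero_le (t ^ 3), Nat.zero_le (t ^ 2)]

theorem ar4 {t C N f : ℕ} (h : (t + 2) ^ 2 * ((t + 2) ^ 2 + 1) ≤ C) (h' : C * 1 + (t + 2) ≤ (t + 2) * f)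
    (h4 : (t + 2) ^ 4 + f ≤ N) : (t + 2 + 1) * ((t + 2) ^ 3 + 1) ≤ N := by
  have : (t + 2) ^ 3 + (t + 2) + 1 ≤ f := Nat.le_of_mul_le_mul_left (c := t + 2) (by nlinarith) (by omega)
  nlinarith

variable (hn : (ofQuad Q).Nondeg) (h6 : finrank F V = 6) (hw : (ofQuad Q).WittIndex 2)
include hn h6 hw

theorem nsing6 {t : ℕ} (ht : Nat.card F = t + 2) :
    (t + 2 + 1) * ((t + 2) ^ 3 + 1) * (Nat.card F - 1) + 1 = (ofQuad Q).nsing := by
  have := nsing_minus hn hw h6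
  rw [ht] at this ⊢
  rw [show t + 2 - 1 = t + 1 from rfl]
  refine Nat.add_right_cancel (m := (t + 2) ^ (2 + 1)) ?_
  rw [this]; ring

theorem T16 {t : ℕ} (ht : Nat.card F = t + 2) {p : V} (hp0 : p ≠ 0) (hp : Q p = 0) :
    (T1 Q p).ncard = (t + 2) * ((t + 2) ^ 2 + 1) * (t + 1) := by
  have h := ncard_T1 hn hp0 hp
  rw [← nsing6 hn h6 hw ht, h6, ht, show t + 2 - 1 = t + 1 from rfl, add_assoc,
    show 6 - 2 = 4 from rfl] at h
  refine Nat.add_right_cancel (h.trans ?_)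
  ring

theorem Tc6 {t : ℕ} (ht : Nat.card F = t + 2) {p : V} (hp0 : p ≠ 0) (hp : Q p = 0) {c : F} (hc : c ≠ 0) :
    (t + 2) ^ 2 * ((t + 2) ^ 2 + 1) * (t + 1) ≤ (Tc Q p c).ncard * 2 ∧
      ((2 : F) = 0 → (t + 2) ^ 2 * ((t + 2) ^ 2 + 1) * (t + 1) ≤ (Tc Q p c).ncard) := by
  have h1 : (2 : F) = 0 → (t + 2) ^ 2 * ((t + 2) ^ 2 + 1) * (t + 1) ≤ (Tc Q p c).ncard := fun h2 => by
    have := Tc_even hn h2 hp0 hp hc
    rw [h6, T16 hn h6 hw ht hp0 hp, ht, pow_succ'] at this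
    exact ar1 (Nat.le_of_mul_le_mul_left this (by omega))
  refine ⟨?_, h1⟩
  by_cases h2 : (2 : F) = 0
  · have := h1 h2; omega
  obtain ⟨U, hU, d, e⟩ := Tc_odd hn h2 hp0 hp hc
  rw [nsing_odd hU (wittIndex_odd hU (m := 2) (by omega)) (by omega), T16 hn h6 hw ht hp0 hp, ht,
    ← pow_succ'] at e
  exact ar1 e.le

theorem no_reg {t : ℕ} (ht : Nat.card F = t + 2) {p : V} (hp0 : p ≠ 0) (hp : Q p = 0) {ω : Ω}
    (hR : ¬ Reg Q p ω) (hl : 6 ≤ 2 * finrank F (Submodule.span F (Wd Q p ω : Set V))) :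
    (t + 2 + 1) * ((t + 2) ^ 3 + 1) ≤ Nat.card Ω := by
  obtain ⟨w, hwA, hQ⟩ : ∃ w ∈ Wd Q p ω, Q w ≠ 0 := by
    by_contra! h
    have := hw.2 _ (MinD.totSing_span h)
    omega
  have hAp : ∀ b ∈ Wd Q p ω, polar Q p b = 0 := fun b hb => perp_of_mem_Wd hp hb
  have ex : ∀ w, ∃ a ∈ Wd Q p ω, a ∉ Submodule.span F {p, w} := fun w => by
    by_contra! hc
    have := Submodule.finrank_mono (Submodule.span_le.2
      (show (Wd Q p ω : Set V) ⊆ Submodule.span F {p, w} from hc))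
    have := finrank_span_pair (F := F) p w
    omega
  rw [Reg] at hR
  push Not at hR
  obtain ⟨v, hv, hvA⟩ := hR
  have key : ∀ w ∈ Wd Q p ω, Q w ≠ 0 → (∀ w' ∈ Tc Q p (Q w), ringChar F ≤ cnt Q p (Wd Q p ω) w') ∨
      ∀ a ∈ Wd Q p ω, a ∉ Submodule.span F {p, w} → Nat.card F = 2 ∧ polar Q w a ≠ 0 ∧ Q a = 0 :=
    fun w hwA hQ => by
      by_cases h : ringChar F ≤ cnt Q p (Wd Q p ω) w
      · exact Or.inl fun w' h' => (cnt_Tc6 hn h6 hp0 hp (hAp w hwA) hQ _ w' h').symm ▸ h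
      · exact Or.inr fun a ha ha0 => (char_le_cnt6 hn h6 hw.2 hp0 hp hQ (smul_mem_Wd p ω) hAp hwA ha ha0 hv
          hvA).resolve_left h
  obtain ⟨c1, c2⟩ := Tc6 hn h6 hw ht hp0 hp hQ
  have hT := T16 hn h6 hw ht hp0 hp
  have one : ∀ w' ∈ Tc Q p (Q w), 1 ≤ cnt Q p (Wd Q p ω) w' := fun w' h' =>
    (cnt_Tc6 hn h6 hp0 hp (hAp w hwA) hQ _ w' h').symm ▸ one_le_cnt hwA
  obtain ⟨a, ha, ha0⟩ := ex w
  have w1 : w ∈ Tc Q p (Q w) := ⟨hAp w hwA, 1, one_ne_zero, by ring⟩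
  rcases key w hwA hQ with k1 | k1
  swap
  · obtain ⟨hq, e1, e2⟩ := k1 a ha ha0
    have h2 := two_eq_zero_of_card_two hq
    obtain rfl : t = 0 := by omega
    have hsub : ∀ b ∈ Wd Q p ω, b ∈ Submodule.span F {p, w} ⊔ F ∙ a := fun b hb => by
      by_cases h : b ∈ Submodule.span F {p, w}
      · exact Submodule.mem_sup_left h
      by_cases h' : b - a ∈ Submodule.span F {p, w}
      · simpa using Submodule.add_mem_sup h' (Submodule.mem_span_singleton_self a)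
      refine absurd ?_ (k1 _ ((Wd Q p ω).sub_mem hb ha) h').2.1
      rw [polar_sub_right, eq_one_of_card_two hq e1, eq_one_of_card_two hq (k1 b hb h).2.1, sub_self]
    have d3 : finrank F ↥(Submodule.span F {p, w} ⊔ F ∙ a) ≤ 3 := by
      rw [finrank_sup_span ha0]; have := finrank_span_pair (F := F) p w; omega
    have a1 : a ∈ T1 Q p := ⟨hAp a ha, e2, fun h => ha0 (Submodule.span_mono (by simp) h)⟩
    have k2 : ∀ a' ∈ T1 Q p, 2 ≤ cnt Q p (Wd Q p ω) a' := fun a' h' => by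
      rw [cnt_T16 hn h6 hp0 hp a1 _ a' h']
      by_contra! hc
      have hi := inv_of_cnt ha (hc.trans_le two_le_char)
      have : pf (ofQuad Q) ![p, a] ≤ Submodule.span F {p, w} ⊔ F ∙ a := fun y hy => by
        obtain ⟨y1, y2⟩ := mem_pf2.1 hy
        have := hi a y e2 (by rw [polar_comm]; exact a1.1) (polar_self_of_sing e2) y2 y1 y2 w hwA
        rw [E_apply e2 y2, polar_comm Q a w, eq_one_of_card_two hq e1, one_smul] at this
        simpa using Submodule.sub_mem _ (Submodule.add_mem_sup (Submodule.subset_span (show w ∈ _ by simp))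
          (Submodule.smul_mem _ (polar Q y w - Q y * 1) (Submodule.mem_span_singleton_self a))) (hsub _ this)
      have := Submodule.finrank_mono this
      have := finrank_pf_top (Q := Q) ![p, a]
      omega
    obtain ⟨o, b, f1, f2, f3, -⟩ := fib_w hn hp0 hp ω (disj hQ) 1 2 (Tc_notMem hp hQ) (fun _ h => h.2.2) one k2
    have f4 := card_le_of_le hsub d3
    have := c2 h2
    rw [hq] at f1 f3 f4
    have : o * b ≤ o * 6 := Nat.mul_le_mul_left _ (by omega)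
    rw [hT] at f2
    rw [mul_add] at f3
    omega
  have big := fib_bound hn hp0 hp ω _ _ (Tc_notMem hp hQ) k1
  have := Nat.mul_le_mul_left (Nat.card F) (ncard_le_card (Fib Q Ω p (Wd Q p ω)))
  have small : Nat.card F = ringChar F → (Nat.card F = 2 ∨ Nat.card F = 3) →
      (t + 2 + 1) * ((t + 2) ^ 3 + 1) ≤ Nat.card Ω := fun hq h23 => by
    by_cases hs : ∃ x ∈ Wd Q p ω, x ∈ T1 Q p
    · obtain ⟨x, hx, hx1⟩ := hs
      obtain ⟨o, b, -, f2, f3, f4⟩ := fib_w hn hp0 hp ω (disj hQ) _ 1 (Tc_notMem hp hQ) (fun _ h => h.2.2) k1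
        fun x' h' => (cnt_T16 hn h6 hp0 hp hx1 _ x' h').symm ▸ one_le_cnt hx
      have := (k1 w w1).trans (f4 w)
      rw [hT, ← hq] at f2
      rw [mul_add] at f3
      rw [← hq] at this
      rcases h23 with h | h
      · have := c2 (two_eq_zero_of_card_two h)
        obtain rfl : t = 0 := by omega
        rw [h] at f2 f3
        omega
      · obtain rfl : t = 1 := by omega
        rw [h] at f2 f3
        omega
    push Not at hs
    let U : Submodule F V :=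
      { (Wd Q p ω).toAddSubmonoid with smul_mem' := fun c a ha => smul_mem_of_prime hq ha c }
    rcases h23 with h | h
    · have d3 : finrank F U ≤ 3 := by
        by_contra! hc
        obtain ⟨x, hx, hx0, hxs⟩ := exists_sing_notMem (ofQuad Q) (U := U) (R := F ∙ p)
          (by rw [finrank_span_singleton hp0]; omega)
        exact hs x hx ⟨hAp x hx, hxs.1, hx0⟩
      obtain ⟨o, b, f1, f2, f3, -⟩ := fib_w hn hp0 hp ω (T' := ∅) (by simp) _ 1 (Tc_notMem hp hQ) (by simp) k1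
        (by simp)
      have f4 := card_le_of_le (A := Wd Q p ω) (U := U) (fun _ h => h) d3
      have := c2 (two_eq_zero_of_card_two h)
      obtain rfl : t = 0 := by omega
      rw [← hq] at f2
      rw [h] at f1 f2 f3 f4
      have : o * b ≤ o * 6 := Nat.mul_le_mul_left _ (by omega)
      rw [mul_add] at f3
      omega
    obtain rfl : t = 1 := by omega
    have ns : ∀ c : F, Q (a + c • w) ≠ 0 := fun c e => hs _ (U.add_mem ha (U.smul_mem c hwA))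
      ⟨by simp [hAp a ha, hAp w hwA], e, fun h => ha0 (by
        obtain ⟨d, hd⟩ := Submodule.mem_span_singleton.1 h
        exact Submodule.mem_span_pair.2 ⟨d, -c, by rw [hd]; module⟩)⟩
    have h2 : (2 : F) ≠ 0 := fun e => by have := ringChar_eq_two e; omega
    obtain ⟨c, hc⟩ : ∃ c : F, Q (a + c • w) = -Q w := by
      by_contra! hc
      have e := fun c => (three_cases h hQ (ns c)).resolve_right (hc c)
      have e0 := e 0
      have e1 := e 1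
      have e2 := e (-1)
      simp only [quad_add, quad_smul, polar_smul_right, smul_eq_mul] at e0 e1 e2
      exact mul_ne_zero h2 hQ (by linear_combination e1 + e2 - 2 * e0)
    have hw' : a + c • w ∈ Wd Q p ω := U.add_mem ha (U.smul_mem c hwA)
    obtain ⟨a', ha', ha0'⟩ := ex (a + c • w)
    obtain ⟨o, b, -, f2, f3, -⟩ := fib_w hn hp0 hp ω (T' := Tc Q p (Q (a + c • w))) (Set.disjoint_left.2 (by
      rintro x ⟨-, s, hs, e⟩ ⟨-, s', hs', e'⟩
      rw [sq_eq_one_of_three h hs] at e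
      rw [sq_eq_one_of_three h hs', hc] at e'
      exact mul_ne_zero h2 hQ (by linear_combination e' - e))) _ _ (Tc_notMem hp hQ) (Tc_notMem hp (ns c)) k1
      ((key _ hw' (ns c)).resolve_right fun k => by have := (k a' ha' ha0').1; omega)
    have := (Tc6 hn h6 hw ht hp0 hp (ns c)).1
    rw [← hq] at f2
    rw [h] at f2 f3
    rw [mul_add] at f3
    omega
  rw [ht] at big this
  rcases char_cases F with ⟨h2, hc, h | h⟩ | ⟨-, s, hs, h | h | h⟩
  · exact small (h.trans hc.symm) (Or.inl h)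
  · exact ar2 (Nat.mul_le_mul_right (ringChar F) (c2 h2)) (by omega) ⟨hc.ge, by omega⟩
  · exact small (by omega) (Or.inr (by omega))
  · exact ar3 c1 (k := ringChar F) (by omega) ⟨by omega, by omega⟩
  · exact ar3 c1 (k := ringChar F) (by omega) ⟨by omega, by omega⟩

theorem main6 [MulAction.IsPretransitive (eichGroup Q) Ω] (ω₀ : Ω)
    (hnt : ∀ ω : Ω, ∃ g : eichGroup Q, g • ω ≠ ω) {t : ℕ} (ht : Nat.card F = t + 2) :
    (t + 2 + 1) * ((t + 2) ^ 3 + 1) ≤ Nat.card Ω := by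
  obtain ⟨p, hp0, hp, hl⟩ := exists_large hn (by omega) (hnt ω₀)
  by_cases hR : ∃ ω : Ω, Reg Q p ω
  swap
  · exact no_reg hn h6 hw ht hp0 hp (fun h => hR ⟨_, h⟩) (h6 ▸ hl)
  obtain ⟨ω, hω⟩ := hR
  have h1 := hω.ncard_orb hn hp0 hp
  have hsub : orb Q p ω ⊆ {ω' | Reg Q p ω'} := fun ω' h v hv => Wd_of_mem_orb h ▸ hω v hv
  by_cases h2 : ∃ ω' : Ω, ¬ Reg Q p ω' ∧ ¬ Ful Q p ω'
  · obtain ⟨ω', h2, h3⟩ := h2
    have h4 := ncard_add_le (S := orb Q p ω) (T := Fib Q Ω p (Wd Q p ω'))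
      (Set.disjoint_left.2 fun x h h' => not_reg_of_mem_Fib h2 h' (hsub h))
    rw [h1, h6, ht, show 6 - 2 = 4 from rfl] at h4
    by_cases hQ : ∃ w ∈ Wd Q p ω', Q w ≠ 0
    · obtain ⟨w, hw', hQ⟩ := hQ
      have h5 := fib_bound hn hp0 hp ω' _ 1 (Tc_notMem hp hQ) fun w' h' =>
        (cnt_Tc6 hn h6 hp0 hp (perp_of_mem_Wd hp hw') hQ _ w' h').symm ▸ one_le_cnt hw'
      obtain ⟨c1, c2⟩ := Tc6 hn h6 hw ht hp0 hp hQ
      rw [ht] at h5
      refine ar4 ?_ h5 h4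
      rcases Nat.eq_zero_or_pos t with rfl | h
      · simpa using c2 (two_eq_zero_of_card_two ht)
      · exact Nat.le_of_mul_le_mul_right ((Nat.mul_le_mul_left _ (by omega)).trans c1) two_pos
    push Not at hQ
    rw [Ful] at h3
    push Not at h3
    obtain ⟨w, hw', hw0⟩ := h3
    have hpw := perp_of_mem_Wd hp hw'
    have h5 := fib_bound2 hn hp0 hp ω' (T1 Q p) 1 (fun _ h => h.2.2) (fun w' h' =>
      (cnt_T16 hn h6 hp0 hp ⟨hpw, hQ w hw', hw0⟩ _ w' h').symm ▸ one_le_cnt hw') (B := (t + 2) * (t + 1))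
      ((card_le_of_le (fun a ha => no3 hw.2 hp0 hp (hQ w hw') (hQ a ha) hpw (perp_of_mem_Wd hp ha) (by
        have := hQ _ ((Wd Q p ω').add_mem hw' ha)
        rwa [quad_add, hQ w hw', hQ a ha, zero_add, zero_add] at this) hw0)
        (finrank_span_pair p w)).trans (by rw [ht]; nlinarith))
    rw [T16 hn h6 hw ht hp0 hp, ht] at h5
    have h5 : (t + 2) * ((t + 2) ^ 2 + 1) ≤ (Fib Q Ω p (Wd Q p ω')).ncard :=
      Nat.le_of_mul_le_mul_left (c := (t + 2) * (t + 2) * (t + 1)) (by nlinarith) (by positivity)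
    by_contra! hlt
    have h7 := dc hn (by omega) (Reg Q) (fun g p ω h => h.map g) (fun c p ω hc hp h => h.smul hp hc)
      (nsing6 hn h6 hw ht) hp0 hp ω
    rw [show (t + 2 + 1) * ((t + 2) ^ 3 + 1) = Nat.card Ω + 1 by nlinarith, add_mul, one_mul,
      Nat.dvd_add_right (Dvd.intro _ rfl)] at h7
    have h8 := Nat.le_of_dvd ((Set.ncard_pos).2 ⟨ω, hω⟩) h7
    have h9 := ncard_add_le (S := {ω' | Reg Q p ω'}) (T := {ω'}) (by simpa using h2)
    rw [Set.ncard_singleton] at h9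
    omega
  push Not at h2
  have h3 : ∀ ω' : Ω, Reg Q p ω' := fun ω' => by
    by_contra h
    obtain ⟨g, hg⟩ := hnt ω'
    exact hg (triv6 hn (by omega) hp0 hp (fun x => (em (Reg Q p x)).symm.imp (h2 x) id) (h2 ω' h) g)
  by_cases h4 : ∀ ω', ω' ∈ orb Q p ω
  · exact absurd (regAll_of hn (by omega) hp0 hp h3 h4) (not_regAll6 hn h6 ω)
  push Not at h4
  obtain ⟨ω', h4⟩ := h4
  have := ncard_add_le (S := orb Q p ω) (T := orb Q p ω')
    (Set.disjoint_left.2 fun x a b => h4 (orb_trans a (orb_symm b)))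
  rw [h1, (h3 ω').ncard_orb hn hp0 hp, h6, ht, show 6 - 2 = 4 from rfl] at this
  nlinarith [Nat.zero_le (t ^ 4), Nat.zero_le (t ^ 3), Nat.zero_le (t ^ 2)]

end Cfsg.Agent.Root.MinO6
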