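import Cfsg.Agent.Root.Unip

/-! Quadratic elements of linear groups in additive form: `Qd G α` (`α² = 0`, `1 + k α ⊆ G`), minimal ones
`Min G α`, the commutator of a nilpotent pair, `zz α β = αβ + βα`, the nilpotent case `Min.of_nilpotent`. -/

namespace Cfsg.Agent.Root
open Cfsg

variable {k : Type*} [Field k] {M : Type*} [AddCommGroup M] [Module k M]
variable {G H : Subgroup (GLM k M)} {α β γ δ x y : Module.End k M}

/-- `1 + k α` is a family of quadratic elements of `G`. -/
structure Qd (G : Subgroup (GLM k M)) (α : Module.End k M) : Prop where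
  sq : α * α = 0
  mem : ∀ c : k, ∃ g ∈ G, (g : Module.End k M) = 1 + c • α

theorem val_inv_of_sq {g : GLM k M} (h : α * α = 0) (e : (g : Module.End k M) = 1 + α) :
    ((g⁻¹ : GLM k M) : Module.End k M) = 1 - α :=
  Units.inv_eq_of_mul_eq_one_right (by rw [e]; linear_combination (norm := noncomm_ring) -h)

theorem smul_sq (h : α * α = 0) (c : k) : (c • α) * (c • α) = 0 := by simp [h]

/-- The unit `1 + α`. -/
def unitOf (α : Module.End k M) (h : α * α = 0) : GLM k M :=
  ⟨1 + α, 1 - α, by linear_combination (norm := noncomm_ring) -h,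
    by linear_combination (norm := noncomm_ring) -h⟩

@[simp] theorem unitOf_val (h : α * α = 0) : (unitOf α h : Module.End k M) = 1 + α := rfl

/-- Conjugation of endomorphisms. -/
def cj (g : GLM k M) (α : Module.End k M) : Module.End k M := g.val * α * (g⁻¹).val

theorem cj_mul (g : GLM k M) (x y : Module.End k M) : cj g (x * y) = cj g x * cj g y := by
  simp [cj, mul_assoc]

theorem cj_add (g : GLM k M) (x y : Module.End k M) : cj g (x + y) = cj g x + cj g y := by
  simp [cj, mul_add, add_mul]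

theorem cj_sub (g : GLM k M) (x y : Module.End k M) : cj g (x - y) = cj g x - cj g y := by
  simp [cj, mul_sub, sub_mul]

theorem cj_neg (g : GLM k M) (x : Module.End k M) : cj g (-x) = -cj g x := by simp [cj]

theorem cj_smul (g : GLM k M) (c : k) (x : Module.End k M) : cj g (c • x) = c • cj g x := by simp [cj]

@[simp] theorem cj_cj (g h : GLM k M) (x : Module.End k M) : cj g (cj h x) = cj (g * h) x := by
  simp [cj, mul_assoc]

@[simp] theorem cj_one_left (x : Module.End k M) : cj 1 x = x := by simp [cj]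

@[simp] theorem cj_one (g : GLM k M) : cj g 1 = 1 := by simp [cj]

@[simp] theorem cj_zero (g : GLM k M) : cj g 0 = 0 := by simp [cj]

@[simp] theorem cj_eq_zero {g : GLM k M} : cj g x = 0 ↔ x = 0 := by simp [cj]

theorem cj_val (g h : GLM k M) : cj g h.val = (g * h * g⁻¹).val := by simp [cj]

theorem cj_unitOf (h : β * β = 0) : cj (unitOf β h) α = (1 + β) * α * (1 - β) := rfl

theorem cj_eq_iff {g : GLM k M} : cj g x = y ↔ g.val * x = y * g.val := by
  rw [cj, Units.mul_inv_eq_iff_eq_mul]

theorem cj_eq_self {g : GLM k M} (h : g.val * x = x * g.val) : cj g x = x := cj_eq_iff.2 h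

namespace Qd

theorem zero : Qd G (0 : Module.End k M) := ⟨by simp, fun c => ⟨1, G.one_mem, by simp⟩⟩

theorem smul (h : Qd G α) (c : k) : Qd G (c • α) :=
  ⟨smul_sq h.sq c, fun d => by rw [smul_smul]; exact h.mem _⟩

theorem neg (h : Qd G α) : Qd G (-α) := by simpa using h.smul (-1)

theorem add (h : Qd G α) (h' : Qd G β) (e : α * β = 0) (e' : β * α = 0) : Qd G (α + β) := by
  refine ⟨by rw [add_mul, mul_add, mul_add, h.sq, h'.sq, e, e']; simp, fun c => ?_⟩
  obtain ⟨g, hg, e1⟩ := h.mem c
  obtain ⟨g', hg', e2⟩ := h'.mem c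
  refine ⟨g * g', G.mul_mem hg hg', ?_⟩
  rw [Units.val_mul, e1, e2]
  simp [add_mul, mul_add, e, add_assoc, add_comm (c • β)]

theorem sub (h : Qd G α) (h' : Qd G β) (e : α * β = 0) (e' : β * α = 0) : Qd G (α - β) := by
  rw [sub_eq_add_neg]; exact h.add h'.neg (by simp [e]) (by simp [e'])

theorem mono (h : Qd H α) (hle : H ≤ G) : Qd G α :=
  ⟨h.sq, fun c => by obtain ⟨g, hg, e⟩ := h.mem c; exact ⟨g, hle hg, e⟩⟩

theorem mem_of_eq (h : Qd G α) {g : GLM k M} (e : (g : Module.End k M) = 1 + α) : g ∈ G := by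
  obtain ⟨g', hg, e'⟩ := h.mem 1
  rw [one_smul, ← e] at e'
  rwa [← Units.ext e']

theorem unitOf_mem (h : Qd G α) : unitOf α h.sq ∈ G := h.mem_of_eq rfl

theorem conj' (h : Qd H α) {g : GLM k M} (hg : conjBy H g ≤ G) :
    Qd G (cj g α) := by
  refine ⟨by rw [← cj_mul, h.sq, cj_zero], fun c => ?_⟩
  obtain ⟨u, hu, e⟩ := h.mem c
  exact ⟨g * u * g⁻¹, hg (conj_mem_conjBy g hu), by rw [← cj_val, e, cj_add, cj_smul, cj_one]⟩

theorem conj (h : Qd G α) {g : GLM k M} (hg : g ∈ G) :
    Qd G (cj g α) := h.conj' (conjBy_of_mem hg).le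

theorem conj_quad (h : Qd G α) (h' : Qd G β) : Qd G ((1 + β) * α * (1 - β)) :=
  h.conj h'.unitOf_mem

/-- The commutator of a nilpotent pair. -/
theorem bracket (h : Qd G α) (h' : Qd G β) (e : α * β * α = 0) (e' : β * α * β = 0) :
    Qd G (α * β - β * α) := by
  have aa : ∀ x, α * (α * x) = 0 := fun x => by rw [← mul_assoc, h.sq, zero_mul]
  have bb : ∀ x, β * (β * x) = 0 := fun x => by rw [← mul_assoc, h'.sq, zero_mul]
  have aba : ∀ x, α * (β * (α * x)) = 0 := fun x => by rw [← mul_assoc, ← mul_assoc, e, zero_mul]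
  have bab : ∀ x, β * (α * (β * x)) = 0 := fun x => by rw [← mul_assoc, ← mul_assoc, e', zero_mul]
  rw [mul_assoc] at e e'
  refine ⟨by simp only [mul_sub, sub_mul, mul_assoc, aa, bb, aba, bab, mul_zero, sub_self], fun c => ?_⟩
  have h1 := (h.smul c).unitOf_mem
  have h2 := h'.unitOf_mem
  refine ⟨_, G.mul_mem (G.mul_mem (G.mul_mem h1 h2) (G.inv_mem h1)) (G.inv_mem h2), ?_⟩
  simp only [Units.val_mul, unitOf_val, val_inv_of_sq (smul_sq h.sq c) (unitOf_val _),
    val_inv_of_sq h'.sq (unitOf_val _), mul_sub, sub_mul, mul_add, add_mul, mul_assoc, smul_mul_assoc,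
    mul_smul_comm, aa, bb, aba, bab, e, e', h.sq, h'.sq, mul_zero, smul_zero, mul_one, one_mul, smul_sub,
    smul_add]
  abel

end Qd

/-- The rank of an endomorphism. -/
noncomputable abbrev rk (α : Module.End k M) : ℕ := Module.finrank k (LinearMap.range α)

/-- A quadratic element of minimal rank. -/
structure Min (G : Subgroup (GLM k M)) (α : Module.End k M) : Prop where
  qd : Qd G α
  ne : α ≠ 0
  min : ∀ γ, Qd G γ → γ ≠ 0 → rk α ≤ rk γ

theorem ker_le_iff_mul : LinearMap.ker α ≤ LinearMap.ker γ ↔ ∀ v, α v = 0 → γ v = 0 := Iff.rfl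

theorem mul_eq_zero_of_ker (h : LinearMap.ker α ≤ LinearMap.ker γ) (e : α * y = 0) : γ * y = 0 :=
  LinearMap.ext fun v => h (LinearMap.congr_fun e v)

theorem mul_eq_zero_of_range (h : LinearMap.range γ ≤ LinearMap.range α) (e : x * α = 0) :
    x * γ = 0 := LinearMap.ext fun v => by
  obtain ⟨w, hw⟩ := h ⟨v, rfl⟩
  rw [Module.End.mul_apply, ← hw]; exact LinearMap.congr_fun e w

theorem mul_eq_zero_iff_range_le_ker : x * y = 0 ↔ LinearMap.range y ≤ LinearMap.ker x :=
  LinearMap.range_le_ker_iff.symm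

theorem ker_le_ker_mul (x α : Module.End k M) : LinearMap.ker α ≤ LinearMap.ker (x * α) :=
  LinearMap.ker_le_ker_comp α x

theorem range_mul_le (α x : Module.End k M) : LinearMap.range (α * x) ≤ LinearMap.range α :=
  LinearMap.range_comp_le_range x α

variable [FiniteDimensional k M]

theorem rk_add_ker (α : Module.End k M) :
    rk α + Module.finrank k (LinearMap.ker α) = Module.finrank k M :=
  LinearMap.finrank_range_add_finrank_ker α

theorem rk_le_of_ker (h : LinearMap.ker α ≤ LinearMap.ker γ) : rk γ ≤ rk α := by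
  have := rk_add_ker α; have := rk_add_ker γ; have := Submodule.finrank_mono h; omega

theorem rk_conj (g : GLM k M) (α : Module.End k M) : rk (cj g α) = rk α := by
  have key : ∀ (g : GLM k M) (α : Module.End k M), rk (cj g α) ≤ rk α := fun g α =>
    (Submodule.finrank_mono (range_mul_le (g.val * α) _)).trans (rk_le_of_ker (ker_le_ker_mul _ _))
  refine le_antisymm (key g α) ?_
  simpa using key g⁻¹ (cj g α)

namespace Min

omit [FiniteDimensional k M] in
theorem of_le (h : Min G α) (hγ : Qd G γ) (h0 : γ ≠ 0) (hle : rk γ ≤ rk α) : Min G γ :=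
  ⟨hγ, h0, fun δ hδ h1 => hle.trans (h.min δ hδ h1)⟩

omit [FiniteDimensional k M] in
theorem rk_eq (h : Min G α) (h' : Min G β) : rk α = rk β :=
  le_antisymm (h.min β h'.qd h'.ne) (h'.min α h.qd h.ne)

omit [FiniteDimensional k M] in
theorem mono (h : Min G α) (hle : H ≤ G) (h' : Qd H α) : Min H α :=
  ⟨h', h.ne, fun γ hγ => h.min γ (hγ.mono hle)⟩

theorem range_eq (h : Min G α) (hγ : Qd G γ) (h0 : γ ≠ 0) (hle : LinearMap.range γ ≤ LinearMap.range α) :
    LinearMap.range γ = LinearMap.range α :=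
  Submodule.eq_of_le_of_finrank_le hle (h.min γ hγ h0)

theorem ker_eq (h : Min G α) (hγ : Qd G γ) (h0 : γ ≠ 0) (hle : LinearMap.ker α ≤ LinearMap.ker γ) :
    LinearMap.ker γ = LinearMap.ker α := by
  refine (Submodule.eq_of_le_of_finrank_le hle ?_).symm
  have := rk_add_ker α; have := rk_add_ker γ; have := h.min γ hγ h0; omega

theorem of_ker (h : Min G α) (hγ : Qd G γ) (h0 : γ ≠ 0) (hle : LinearMap.ker α ≤ LinearMap.ker γ) :
    Min G γ := h.of_le hγ h0 (rk_le_of_ker hle)

theorem of_range (h : Min G α) (hγ : Qd G γ) (h0 : γ ≠ 0)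
    (hle : LinearMap.range γ ≤ LinearMap.range α) : Min G γ :=
  h.of_le hγ h0 (Submodule.finrank_mono hle)

theorem conj (h : Min G α) {g : GLM k M} (hg : g ∈ G) :
    Min G (cj g α) :=
  h.of_le (h.qd.conj hg) (by simpa using h.ne) (rk_conj g α).le

theorem conj_quad (h : Min G α) (h' : Qd G β) : Min G ((1 + β) * α * (1 - β)) :=
  h.conj h'.unitOf_mem

theorem cancel (h : Min G α) (hγ : Qd G (x * α)) (h0 : x * α ≠ 0) (e : x * α * y = 0) : α * y = 0 :=
  mul_eq_zero_of_ker (h.ker_eq hγ h0 (ker_le_ker_mul _ _)).le e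

theorem cancel_apply (h : Min G α) (hγ : Qd G (x * α)) (h0 : x * α ≠ 0) {v : M} (e : x (α v) = 0) :
    α v = 0 := (h.ker_eq hγ h0 (ker_le_ker_mul _ _)).le e

theorem of_five (h2 : (2 : k) ≠ 0) (h : Min G α) (h' : Qd G β) (e : α * β * α * β * α = 0) :
    α * β * α = 0 := by
  have aa : ∀ x, α * (α * x) = 0 := fun x => by rw [← mul_assoc, h.qd.sq, zero_mul]
  have bb : ∀ x, β * (β * x) = 0 := fun x => by rw [← mul_assoc, h'.sq, zero_mul]
  have e5 : ∀ x, α * (β * (α * (β * (α * x)))) = 0 := fun x => by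
    simpa only [mul_assoc, zero_mul] using congrArg (· * x) e
  have e5' : α * (β * (α * (β * α))) = 0 := by simpa only [mul_assoc] using e
  have q1 := h.qd.bracket (h.qd.conj_quad h')
    (by simp [mul_sub, sub_mul, mul_add, add_mul, mul_assoc, aa, bb, e5', h.qd.sq])
    (by simp [mul_sub, sub_mul, mul_add, add_mul, mul_assoc, aa, bb, e5', e5, h.qd.sq])
  have q2 := h.qd.bracket (h.qd.conj_quad h'.neg)
    (by simp [mul_sub, sub_mul, mul_add, add_mul, mul_assoc, aa, bb, e5', h.qd.sq])
    (by simp [mul_sub, sub_mul, mul_add, add_mul, mul_assoc, aa, bb, e5', e5, h.qd.sq])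
  have q3 := (q1.sub q2
    (by simp [mul_sub, sub_mul, mul_add, add_mul, mul_assoc, aa, bb, e5', e5, h.qd.sq])
    (by simp [mul_sub, sub_mul, mul_add, add_mul, mul_assoc, aa, bb, e5', e5, h.qd.sq])).smul
    (2 * 2 : k)⁻¹
  have q4 : Qd G (α * β * α) := by
    convert q3 using 1
    rw [eq_inv_smul_iff₀ (mul_ne_zero h2 h2)]
    simp only [mul_sub, sub_mul, mul_add, add_mul, mul_assoc, aa, bb, h.qd.sq, mul_neg, neg_mul,
      mul_one, one_mul, mul_zero]
    module
  by_contra h0
  exact h0 (by simpa only [mul_assoc] using h.cancel q4 h0 (y := β * α) (by rw [← mul_assoc, e]))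

end Min

omit [FiniteDimensional k M]

/-- The central element `αβ + βα` of the algebra generated by two elements of square zero. -/
def zz (α β : Module.End k M) : Module.End k M := α * β + β * α

theorem zz_comm (α β : Module.End k M) : zz α β = zz β α := add_comm _ _

theorem zz_mul_left (h : α * α = 0) : zz α β * α = α * β * α := by
  simp [zz, add_mul, mul_assoc, h]

theorem left_mul_zz (h : α * α = 0) : α * zz α β = α * β * α := by
  simp [zz, mul_add, ← mul_assoc, h]

theorem zz_mul_right (h : β * β = 0) : zz α β * β = β * α * β := by rw [zz_comm, zz_mul_left h]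

theorem right_mul_zz (h : β * β = 0) : β * zz α β = β * α * β := by rw [zz_comm, left_mul_zz h]

theorem commute_zz_left (h : α * α = 0) : Commute (zz α β) α :=
  (zz_mul_left h).trans (left_mul_zz h).symm

theorem commute_zz_right (h : β * β = 0) : Commute (zz α β) β := zz_comm α β ▸ commute_zz_left h

theorem zz_conj_quad (h : α * α = 0) (h' : β * β = 0) :
    zz α ((1 + β) * α * (1 - β)) = -zz α β ^ 2 := by
  have aa : ∀ x, α * (α * x) = 0 := fun x => by rw [← mul_assoc, h, zero_mul]
  have bb : ∀ x, β * (β * x) = 0 := fun x => by rw [← mul_assoc, h', zero_mul]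
  simp only [zz, pow_two, mul_sub, sub_mul, mul_add, add_mul, mul_assoc, aa, bb, h, mul_one, one_mul,
    mul_zero]
  abel

theorem Min.of_nilpotent [FiniteDimensional k M] (h2 : (2 : k) ≠ 0) (h : Min G α) (n : ℕ) :
    ∀ {β}, Qd G β → zz α β ^ n * α = 0 → α * β * α = 0 := by
  rcases n with _ | n
  · intro β _ e; exact absurd (by simpa using e) h.ne
  induction n with
  | zero => intro β _ e; rwa [zero_add, pow_one, zz_mul_left h.qd.sq] at e
  | succ n ih =>
    intro β hβ e
    have h1 := ih (h.qd.conj_quad hβ) (by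
      rw [zz_conj_quad h.qd.sq hβ.sq, neg_pow, ← pow_mul, show 2 * (n + 1) = n + (n + 1 + 1) by ring,
        pow_add (zz α β), mul_assoc, mul_assoc, e, mul_zero, mul_zero])
    refine h.of_five h2 hβ ?_
    have aa : ∀ x, α * (α * x) = 0 := fun x => by rw [← mul_assoc, h.qd.sq, zero_mul]
    simpa [mul_sub, sub_mul, mul_add, add_mul, mul_assoc, aa, h.qd.sq] using h1

end Cfsg.Agent.Root
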