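import Cfsg.Agent.Root.Quad1
import Cfsg.Agent.Root.Dickson

/-! The group generated by two quadratic families is parametrized by matrices over `k[X]` (`PP`); surjectivity
onto `SL₂(k[X]/p)`; the stabilizer lemma `PP_stab`. -/

namespace Cfsg.Agent.Root
open Cfsg Polynomial Cfsg.Agent.Classical Matrix
open scoped MatrixGroups commutatorElement

variable {k : Type*} [Field k] {M : Type*} [AddCommGroup M] [Module k M]
variable {G : Subgroup (GLM k M)} {α β : Module.End k M}

/-- Evaluation of a polynomial at `zz α β`. -/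
noncomputable abbrev ev (α β : Module.End k M) : k[X] →ₐ[k] Module.End k M := aeval (zz α β)

theorem commute_ev {x : Module.End k M} (h : Commute (zz α β) x) (t : k[X]) : Commute (ev α β t) x := by
  induction t using Polynomial.induction_on with
  | C a => rw [aeval_C]; exact Algebra.commutes a x
  | add p q hp hq => rw [map_add]; exact hp.add_left hq
  | monomial n a ih => rw [pow_succ, ← mul_assoc, map_mul, aeval_X]; exact ih.mul_left h

theorem ev_left (h : α * α = 0) (t : k[X]) : ev α β t * α = α * ev α β t :=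
  commute_ev (commute_zz_left h) t

theorem ev_right (h : β * β = 0) (t : k[X]) : ev α β t * β = β * ev α β t :=
  commute_ev (commute_zz_right h) t

theorem ev_mul_eq_zero {s t : k[X]} {x : Module.End k M} (h : ev α β s * x = 0) (hd : s ∣ t) :
    ev α β t * x = 0 := by
  obtain ⟨u, rfl⟩ := hd
  rw [mul_comm, map_mul, mul_assoc, h, mul_zero]

/-- Normal form of the elements of the algebra generated by `α` and `β`. -/
noncomputable def Tm (α β : Module.End k M) (s a b c d : k[X]) : Module.End k M :=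
  ev α β s + ev α β a * (α * β) + ev α β b * α + ev α β c * β + ev α β d * (β * α)

theorem Tm_mul (hα : α * α = 0) (hβ : β * β = 0) (s a b c d s' a' b' c' d' : k[X]) :
    Tm α β s a b c d * Tm α β s' a' b' c' d' = Tm α β (s * s') (s * a' + a * s' + a * a' * X + b * c')
      (s * b' + b * s' + a * b' * X + b * d' * X) (s * c' + c * s' + c * a' * X + d * c' * X)
      (s * d' + d * s' + d * d' * X + c * b') := by
  have ce : ∀ t x, α * (ev α β t * x) = ev α β t * (α * x) := fun t x => by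
    rw [← mul_assoc, ← ev_left hα, mul_assoc]
  have cf : ∀ t x, β * (ev α β t * x) = ev α β t * (β * x) := fun t x => by
    rw [← mul_assoc, ← ev_right hβ, mul_assoc]
  have aa : ∀ x, α * (α * x) = 0 := fun x => by rw [← mul_assoc, hα, zero_mul]
  have bb : ∀ x, β * (β * x) = 0 := fun x => by rw [← mul_assoc, hβ, zero_mul]
  have hX : ev α β X = α * β + β * α := aeval_X _
  have ce' := fun t => (ev_left (β := β) hα t).symm
  have cf' := fun t => (ev_right (α := α) hβ t).symm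
  unfold Tm
  generalize ev α β = φ at *
  simp only [map_add, map_mul, hX, add_mul, mul_add, mul_assoc, ce, cf, ce', cf', aa, bb, hα, hβ,
    mul_zero, add_zero, zero_add]
  abel

theorem Tm_one : Tm α β 1 0 0 0 0 = 1 := by simp [Tm]

theorem Tm_left (t : k[X]) : Tm α β 0 0 t 0 0 = ev α β t * α := by simp [Tm]

theorem commute_ev_Tm (hα : α * α = 0) (hβ : β * β = 0) (t s a b c d : k[X]) :
    Commute (ev α β t) (Tm α β s a b c d) := by
  have c1 : Commute (ev α β t) α := ev_left hα t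
  have c2 : Commute (ev α β t) β := ev_right hβ t
  have c3 : ∀ u, Commute (ev α β t) (ev α β u) := fun u => (Commute.all t u).map _
  exact (((((c3 _).add_right ((c3 _).mul_right (c1.mul_right c2))).add_right
    ((c3 _).mul_right c1)).add_right ((c3 _).mul_right c2))).add_right
    ((c3 _).mul_right (c2.mul_right c1))

/-- The matrix `g` over `k[X]` describes the element `h`. -/
def Rep (α β : Module.End k M) (g : SL(2, k[X])) (h : GLM k M) (a b c d : k[X]) : Prop :=
  (g : Matrix (Fin 2) (Fin 2) k[X]) = !![1 + a * X, b; c * X, 1 + d * X] ∧ h.val = Tm α β 1 a b c d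

theorem Rep.det {g h} {a b c d : k[X]} (r : Rep α β g h a b c d) : a + d + a * d * X - b * c = 0 := by
  have := g.det_coe
  rw [r.1, det_fin_two_of] at this
  apply mul_left_cancel₀ (X_ne_zero (R := k))
  linear_combination this

theorem Rep.inv (hα : α * α = 0) (hβ : β * β = 0) {g h} {a b c d : k[X]} (r : Rep α β g h a b c d) :
    Rep α β g⁻¹ h⁻¹ d (-b) (-c) a := by
  constructor
  · rw [Matrix.SpecialLinearGroup.coe_inv, r.1, adjugate_fin_two_of, neg_mul]
  · refine Units.inv_eq_of_mul_eq_one_right ?_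
    rw [r.2, Tm_mul hα hβ, ← Tm_one (α := α) (β := β)]
    congr 1
    · ring
    · linear_combination r.det
    · ring
    · ring
    · linear_combination r.det

theorem Rep.mul (hα : α * α = 0) (hβ : β * β = 0) {g h g' h'} {a b c d a' b' c' d' : k[X]}
    (r : Rep α β g h a b c d) (r' : Rep α β g' h' a' b' c' d') :
    Rep α β (g * g') (h * h') (a' + a + a * a' * X + b * c') (b' + b + a * b' * X + b * d' * X)
      (c' + c + c * a' * X + d * c' * X) (d' + d + d * d' * X + c * b') := by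
  constructor
  · rw [Matrix.SpecialLinearGroup.coe_mul, r.1, r'.1, mul_fin_two]
    congr! 3 <;> ring
  · rw [Units.val_mul, r.2, r'.2, Tm_mul hα hβ]; simp only [one_mul, mul_one]

theorem Rep.cj_eq (hα : α * α = 0) (hβ : β * β = 0) {g h} {a b c d : k[X]} (r : Rep α β g h a b c d) :
    cj h α = Tm α β 0 (-((1 + a * X) * c)) ((1 + a * X) ^ 2) (-(c ^ 2 * X)) ((1 + a * X) * c) := by
  have := Tm_left (α := α) (β := β) 1
  rw [map_one, one_mul] at this
  rw [cj, r.2, (r.inv hα hβ).2]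
  nth_rewrite 2 [← this]
  rw [Tm_mul hα hβ, Tm_mul hα hβ]
  congr 1 <;> ring

theorem Rep.cj_ev (hα : α * α = 0) (hβ : β * β = 0) {g h} {a b c d : k[X]} (r : Rep α β g h a b c d)
    (t : k[X]) (x : Module.End k M) : cj h (ev α β t * x) = ev α β t * cj h x := by
  rw [cj_mul, cj_eq_self]
  rw [r.2]; exact (commute_ev_Tm hα hβ _ _ _ _ _ _).symm

/-- Upper unitriangular matrices over `k[X]`. -/
noncomputable def uP (t : k[X]) : SL(2, k[X]) := ⟨!![1, t; 0, 1], by simp [det_fin_two]⟩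

/-- Lower unitriangular matrices over `k[X]`. -/
noncomputable def lP (t : k[X]) : SL(2, k[X]) := ⟨!![1, 0; t, 1], by simp [det_fin_two]⟩

@[simp] theorem uP_coe (t : k[X]) : (uP t : Matrix (Fin 2) (Fin 2) k[X]) = !![1, t; 0, 1] := rfl

@[simp] theorem lP_coe (t : k[X]) : (lP t : Matrix (Fin 2) (Fin 2) k[X]) = !![1, 0; t, 1] := rfl

theorem rep_u {t : k[X]} {h : GLM k M} (e : h.val = 1 + ev α β t * α) :
    Rep α β (uP t) h 0 t 0 0 := ⟨by simp, by simp [e, Tm]⟩

theorem rep_l {t : k[X]} {h : GLM k M} (e : h.val = 1 + ev α β t * β) :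
    Rep α β (lP (t * X)) h 0 0 t 0 := ⟨by simp, by simp [e, Tm]⟩

/-- The group of pairs (matrix over `k[X]`, element of `G` described by it). -/
def PP (G : Subgroup (GLM k M)) (hα : α * α = 0) (hβ : β * β = 0) : Subgroup (SL(2, k[X]) × GLM k M) where
  carrier := {x | x.2 ∈ G ∧ ∃ a b c d, Rep α β x.1 x.2 a b c d}
  one_mem' := ⟨G.one_mem, 0, 0, 0, 0, by simp [one_fin_two], by simp [Tm_one]⟩
  mul_mem' := by
    rintro x y ⟨hx, a, b, c, d, r⟩ ⟨hy, a', b', c', d', r'⟩
    exact ⟨G.mul_mem hx hy, _, _, _, _, r.mul hα hβ r'⟩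
  inv_mem' := by
    rintro x ⟨hx, a, b, c, d, r⟩
    exact ⟨G.inv_mem hx, _, _, _, _, r.inv hα hβ⟩

/-- Congruence subgroups. -/
noncomputable def Lv (k : Type*) [Field k] (n : ℕ) : Subgroup SL(2, k[X]) :=
  (SpecialLinearGroup.map (Ideal.Quotient.mk (Ideal.span {(X : k[X]) ^ n}))).ker

theorem mem_Lv {n : ℕ} {g : SL(2, k[X])} : g ∈ Lv k n ↔
    ∀ i j, X ^ n ∣ ((g : Matrix (Fin 2) (Fin 2) k[X]) - 1) i j := by
  rw [Lv, MonoidHom.mem_ker, Matrix.SpecialLinearGroup.ext_iff]
  refine forall_congr' fun i => forall_congr' fun j => ?_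
  rw [← Ideal.mem_span_singleton, Matrix.sub_apply, ← Ideal.Quotient.eq]
  simp [one_apply]

theorem commutator_mem_Lv {n : ℕ} {g h : SL(2, k[X])} (hg : g ∈ Lv k (n + 1)) (hh : h ∈ Lv k (n + 1)) :
    ⁅g, h⁆ ∈ Lv k (n + 2) := by
  rw [Lv, MonoidHom.mem_ker, map_commutatorElement, commutatorElement_eq_one_iff_commute]
  have key : ∀ {g h : SL(2, k[X])}, g ∈ Lv k (n + 1) → h ∈ Lv k (n + 1) →
      (((g : Matrix (Fin 2) (Fin 2) k[X]) - 1) * ((h : Matrix (Fin 2) (Fin 2) k[X]) - 1)).map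
        (Ideal.Quotient.mk (Ideal.span {(X : k[X]) ^ (n + 2)})) = 0 := by
    intro g h hg hh
    ext i j
    rw [map_apply, Matrix.zero_apply, Ideal.Quotient.eq_zero_iff_mem, Ideal.mem_span_singleton, mul_apply]
    refine Finset.dvd_sum fun l _ => dvd_trans ?_ (mul_dvd_mul (mem_Lv.1 hg i l) (mem_Lv.1 hh l j))
    rw [← pow_add]; exact pow_dvd_pow _ (by omega)
  apply Subtype.ext
  have h1 := key hg hh
  have h2 := key hh hg
  rw [← RingHom.mapMatrix_apply, map_mul, map_sub, map_sub, map_one] at h1 h2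
  change RingHom.mapMatrix _ g.1 * RingHom.mapMatrix _ h.1 = RingHom.mapMatrix _ h.1 * RingHom.mapMatrix _ g.1
  simp only [mul_sub, sub_mul, mul_one, one_mul] at h1 h2
  linear_combination (norm := abel) h1 - h2

theorem commutator_mem_Lv_one {g g' h h'} {a b c d a' b' c' d' : k[X]} (r : Rep α β g h a b c d)
    (r' : Rep α β g' h' a' b' c' d') : ⁅g, g'⁆ ∈ Lv k 1 := by
  rw [Lv, MonoidHom.mem_ker, map_commutatorElement, commutatorElement_eq_one_iff_commute]
  apply Subtype.ext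
  change RingHom.mapMatrix _ g.1 * RingHom.mapMatrix _ g'.1 = RingHom.mapMatrix _ g'.1 * RingHom.mapMatrix _ g.1
  have hX : Ideal.Quotient.mk (Ideal.span {(X : k[X]) ^ 1}) X = 0 := by
    rw [Ideal.Quotient.eq_zero_iff_mem, pow_one]; exact Ideal.mem_span_singleton_self _
  rw [r.1, r'.1]
  ext i j; fin_cases i <;> fin_cases j <;> simp [mul_apply, hX, add_comm]

theorem root_ne_zero {p : k[X]} (hp : Irreducible p) (h0 : p.coeff 0 ≠ 0) : ¬ p ∣ X := fun h =>
  h0 (X_dvd_iff.1 (hp.dvd_symm irreducible_X h))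

theorem three_lt_card_adjoinRoot (h3 : 3 < ENat.card k) (p : k[X]) [Fact (Irreducible p)] :
    3 < ENat.card (AdjoinRoot p) :=
  h3.trans_le (ENat.card_le_card_of_injective (algebraMap k (AdjoinRoot p)).injective)

theorem PP_surj (h2 : (2 : k) ≠ 0) (h3 : Nat.card k ≠ 3) (hα : Qd G α) (hβ : Qd G β) {p : k[X]}
    [hp : Fact (Irreducible p)] (h0 : p.coeff 0 ≠ 0) (n : ℕ) (y : SL(2, AdjoinRoot p)) :
    ∃ g, ∃ h ∈ G, ∃ a b c d, Rep α β g h a b c d ∧ X ^ n ∣ c ∧
      SpecialLinearGroup.map (AdjoinRoot.mk p) g = y := by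
  let ψ : SL(2, k[X]) × GLM k M →* SL(2, AdjoinRoot p) :=
    (SpecialLinearGroup.map (AdjoinRoot.mk p)).comp (MonoidHom.fst _ _)
  have step : ∀ Q Q' : Subgroup (SL(2, k[X]) × GLM k M), Q.map ψ = ⊤ → ⁅Q, Q⁆ ≤ Q' → Q'.map ψ = ⊤ := by
    intro Q Q' e h
    obtain ⟨a, ha, ha2⟩ := exists_sq_ne_one (three_lt_card_adjoinRoot (three_lt_card h2 h3) p)
    have := Subgroup.map_mono (f := ψ) h
    rw [Subgroup.map_commutator, e] at this
    exact top_le_iff.1 ((SL2.commutator_eq_top ha ha2).ge.trans this)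
  have base : (PP G hα.sq hβ.sq).map ψ = ⊤ := by
    refine dickson_core h2 h3 (α := AdjoinRoot.root p)
      (fun e => root_ne_zero hp.out h0 (AdjoinRoot.mk_eq_zero.1 e))
      (AdjoinRoot.isAlgebraic_root hp.out.ne_zero).isIntegral AdjoinRoot.adjoinRoot_eq_top
      (fun c => ?_) fun c => ?_
    · obtain ⟨h, hh, e⟩ := hα.mem c
      refine ⟨(uP (C c), h), ⟨hh, _, _, _, _, rep_u (t := C c) (by simp [e, Algebra.smul_def])⟩, ?_⟩
      ext i j; fin_cases i <;> fin_cases j <;> simp [ψ]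
    · obtain ⟨h, hh, e⟩ := hβ.mem c
      refine ⟨(lP (C c * X), h), ⟨hh, _, _, _, _, rep_l (t := C c) (by simp [e, Algebra.smul_def])⟩, ?_⟩
      ext i j; fin_cases i <;> fin_cases j <;> simp [ψ]
  have all : ∀ n, (PP G hα.sq hβ.sq ⊓ (Lv k (n + 1)).comap (MonoidHom.fst _ _)).map ψ = ⊤ := by
    intro n
    induction n with
    | zero =>
      refine step _ _ base (le_inf ((Subgroup.commutator_le_sup _ _).trans (sup_idem _).le)
        (Subgroup.commutator_le.2 ?_))
      rintro x ⟨-, _, _, _, _, r⟩ y ⟨-, _, _, _, _, r'⟩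
      exact commutator_mem_Lv_one r r'
    | succ n ih =>
      exact step _ _ ih (le_inf ((Subgroup.commutator_le_sup _ _).trans ((sup_idem _).le.trans
        inf_le_left)) (Subgroup.commutator_le.2 fun x hx y hy => commutator_mem_Lv hx.2 hy.2))
  obtain ⟨x, ⟨⟨hx, a, b, c, d, r⟩, hL⟩, e⟩ : y ∈ _ := all n ▸ Subgroup.mem_top y
  refine ⟨x.1, x.2, hx, a, b, c, d, r, ?_, e⟩
  have := mem_Lv.1 hL 1 0
  rw [MonoidHom.coe_fst, r.1, pow_succ] at this
  simpa [mul_dvd_mul_iff_right (X_ne_zero (R := k))] using this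

theorem Rep.zz_cj (hα : α * α = 0) (hβ : β * β = 0) {g h} {a b c d : k[X]} (r : Rep α β g h a b c d) :
    zz α (cj h α) = ev α β (-(c * X) ^ 2) := by
  have := Tm_left (α := α) (β := β) 1
  rw [map_one, one_mul] at this
  rw [zz, r.cj_eq hα hβ]
  nth_rewrite 1 [← this]
  nth_rewrite 4 [← this]
  rw [Tm_mul hα hβ, Tm_mul hα hβ]
  simp only [Tm, zero_mul, mul_zero, add_zero, zero_add, one_mul, mul_one, map_zero]
  rw [show -(c * X) ^ 2 = -(c ^ 2 * X) * X by ring, map_mul (ev α β) (-(c ^ 2 * X)) X, aeval_X, zz,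
    neg_mul ((1 + a * X) * c : k[X]) X, map_neg _ ((1 + a * X) * c * X), mul_add, neg_mul]
  abel

/-- The stabilizer lemma. -/
theorem PP_stab [FiniteDimensional k M] (h2 : (2 : k) ≠ 0) (hα : Min G α) (hβ : β * β = 0) {g h}
    (hh : h ∈ G) {a b c d : k[X]} (r : Rep α β g h a b c d) {v : M} (hv : ev α β c v = 0) (hv' : α v ≠ 0)
    (hD : α * cj h α * α = 0 ∨ ∀ u, zz α (cj h α) (α u) = 0 → α u = 0)
    (hc : ∀ t, ev α β (c * t * X) * α = 0 → ev α β (c * t) * α = 0) :
    ev α β c * α = 0 ∧ cj h α = ev α β ((1 + a * X) ^ 2) * α := by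
  have sq := hα.qd.sq
  have kill : ∀ t, c ∣ t → ev α β t (α v) = 0 := by
    rintro _ ⟨t, rfl⟩
    rw [← Module.End.mul_apply, ev_left sq, mul_comm c, map_mul, Module.End.mul_apply,
      Module.End.mul_apply, hv, map_zero, map_zero]
  have e1 : α * cj h α * α = 0 := hD.resolve_right fun H => hv' (H v (by
    rw [r.zz_cj sq hβ]; exact kill _ ⟨-(c * X ^ 2), by ring⟩))
  have e2 : ev α β (-(c * X) ^ 2) * α = 0 := by rw [← r.zz_cj sq hβ, zz_mul_left sq, e1]
  have e3 : ev α β (c * (c * X)) * α = 0 := hc _ (ev_mul_eq_zero e2 ⟨-1, by ring⟩)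
  have q := hα.qd.bracket (hα.qd.conj hh) e1 (by
    rw [← zz_mul_right (hα.qd.conj hh).sq, r.zz_cj sq hβ, ← r.cj_ev sq hβ, e2, cj_zero])
  have key : ∀ s a b c d : k[X], ev α β a * α = 0 → ev α β d * α = 0 →
      Tm α β s a b c d = ev α β s + ev α β b * α + ev α β c * β := by
    intro s a b c d h1 h2
    rw [Tm, ← mul_assoc, h1, ← mul_assoc, ev_right hβ d, mul_assoc β, h2]; simp
  have e4 : α * cj h α - cj h α * α = ev α β (C 2 * ((1 + a * X) * c * X)) * α := by
    have := Tm_left (α := α) (β := β) 1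
    rw [map_one, one_mul] at this
    rw [r.cj_eq sq hβ]
    nth_rewrite 1 [← this]
    nth_rewrite 4 [← this]
    rw [Tm_mul sq hβ, Tm_mul sq hβ, key _ _ _ _ _ (ev_mul_eq_zero e3 ⟨-1, by ring⟩) (by simp),
      key _ _ _ _ _ (by simp) (ev_mul_eq_zero e3 ⟨-1, by ring⟩)]
    simp only [zero_mul, mul_zero, add_zero, zero_add, one_mul, mul_one, map_zero]
    rw [← sub_mul, ← map_sub]
    congr 2
    rw [map_ofNat]; ring
  rw [e4] at q
  have e5 : ev α β (C 2 * ((1 + a * X) * c * X)) * α = 0 := by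
    by_contra h0
    exact hv' (hα.cancel_apply q h0 (kill _ ⟨C 2 * (1 + a * X) * X, by ring⟩))
  have e6 : ev α β (c * 1 * X) * α = 0 := by
    have h4 : (C 2⁻¹ * C 2 : k[X]) = 1 := by rw [← map_mul, inv_mul_cancel₀ h2, map_one]
    have : c * 1 * X = C 2 * ((1 + a * X) * c * X) * (C 2⁻¹ * (1 + d * X)) + -(c * X) ^ 2 * b := by
      linear_combination (-(1 + a * X) * c * X * (1 + d * X)) * h4 - c * X ^ 2 * r.det
    rw [this, map_add, add_mul, ev_mul_eq_zero e5 (dvd_mul_right _ _),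
      ev_mul_eq_zero e2 (dvd_mul_right _ _), add_zero]
  have e7 := hc 1 e6
  rw [mul_one] at e7
  refine ⟨e7, ?_⟩
  rw [r.cj_eq sq hβ, key _ _ _ _ _ (ev_mul_eq_zero e7 ⟨-(1 + a * X), by ring⟩)
    (ev_mul_eq_zero e7 ⟨1 + a * X, by ring⟩), show -(c ^ 2 * X) = -c * c * X by ring, map_mul _ _ X,
    map_mul, aeval_X, mul_assoc, zz_mul_right hβ, mul_assoc, mul_assoc, ← mul_assoc _ β, ev_right hβ,
    mul_assoc β, ← mul_assoc _ α, e7]
  simp

end Cfsg.Agent.Root
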