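import Cfsg.Agent.Root.RootSet4
import Cfsg.Agent.Root.Special2
import Cfsg.Agent.Sig.Quasi

/-! Quasisimplicity criterion for groups generated by a connected set of abstract root subgroups
(`RS.perfect`, `RS.isQuasisimple`). -/

namespace Cfsg.Agent.Root
open Cfsg

variable {G : Type*} [Group G] {S : Set (Subgroup G)} {A B C D E F : Subgroup G}

theorem FConn.exists_conj' (h : FConn S A B) : ∃ g ∈ (⨆ E ∈ S, E), B = conjBy A g := by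
  obtain ⟨g, hg, e⟩ := h.exists_conj
  exact ⟨g, (iSup₂_le fun E hE => le_iSup₂_of_le (f := fun E (_ : E ∈ S) => E) E hE.1 le_rfl :
    (⨆ E ∈ componentOf (FAdj S) S A, E) ≤ _) hg, e⟩

theorem le_iSup_of_mem (hA : A ∈ S) : A ≤ ⨆ B ∈ S, B := fun _ ha => RS.mem_iSup hA ha

theorem RS.perfect (hn : ∀ A ∈ S, NI S A) (hconn : ∀ A ∈ S, ∀ B ∈ S, FConn S A B)
    (hperf : (∃ A ∈ S, ∃ B ∈ S, ∃ C ∈ S, CC A B C) ∨
      ∀ A ∈ S, ∀ B ∈ S, IsRankOnePair A B → A ≤ ⁅A ⊔ B, A ⊔ B⁆) :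
    ⁅⨆ B ∈ S, B, ⨆ B ∈ S, B⁆ = ⨆ B ∈ S, B := by
  refine le_antisymm (Subgroup.commutator_le.2 fun x hx y hy => ?_) (iSup₂_le fun A hA => ?_)
  · exact Subgroup.mul_mem _ (Subgroup.mul_mem _ (Subgroup.mul_mem _ hx hy) (Subgroup.inv_mem _ hx))
      (Subgroup.inv_mem _ hy)
  rcases hperf with ⟨X, hX, Y, hY, Z, hZ, k⟩ | hperf
  · obtain ⟨g, hg, rfl⟩ := (hconn Z hZ A hA).exists_conj'
    rw [← (k.conj g).eq]
    exact Subgroup.commutator_mono (conjBy_le_of_mem (le_iSup_of_mem hX) hg)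
      (conjBy_le_of_mem (le_iSup_of_mem hY) hg)
  · obtain ⟨B, hB, hr⟩ := hn A hA
    have : A ⊔ B ≤ ⨆ B ∈ S, B := sup_le (le_iSup_of_mem hA) (le_iSup_of_mem hB)
    exact (hperf A hA B hB hr).trans (Subgroup.commutator_mono this this)

theorem RS.isQuasisimple (h : RS S) (hne : S.Nonempty) (hn : ∀ A ∈ S, NI S A)
    (hconn : ∀ A ∈ S, ∀ B ∈ S, FConn S A B)
    (hperf : (∃ A ∈ S, ∃ B ∈ S, ∃ C ∈ S, CC A B C) ∨
      ∀ A ∈ S, ∀ B ∈ S, IsRankOnePair A B → A ≤ ⁅A ⊔ B, A ⊔ B⁆)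
    (hsep : ∀ A ∈ S, ∀ C ∈ S, (∀ E ∈ S, Comm E A ↔ Comm E C) → A = C) :
    IsQuasisimple ↥(⨆ B ∈ S, B) := by
  refine Sig.isQuasisimple_subgroup_iff.2 ⟨?_, RS.perfect hn hconn hperf, fun N hle hN => ?_⟩
  · obtain ⟨A, hA⟩ := hne
    exact fun e => h.ne_bot A hA (le_bot_iff.1 (e ▸ le_iSup_of_mem hA))
  have hN' : ∀ g ∈ (⨆ B ∈ S, B), conjBy N g = N := fun g hg => conjBy_eq_iff_mem_normalizer.2 (hN hg)
  rcases h.normal_dichotomy hn hconn hle hN' hperf with h1 | h1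
  · exact Or.inl (le_antisymm hle h1)
  · right
    refine comm_iff_le_centralizer.1 (RS.comm_of_norm hn hN' fun A hA n hn' => ?_)
    have hA' := h.conj_mem_iSup hA (hle hn')
    refine (hsep A hA _ hA' fun E hE => ⟨h1 A hA n hn' E hE, fun hc => ?_⟩).symm
    simpa using h1 _ hA' n⁻¹ (N.inv_mem hn') E hE hc

end Cfsg.Agent.Root
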