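import Cfsg.Agent.Root.Quad4
import Cfsg.Agent.Root.RootSet5

/-! Quadratic pairs: nilpotent pairs of minimal quadratic elements (`Nil`), the commutator case `Nil.cc`, and the
theorem that `Σ(G)` is a set of abstract root subgroups without isolated vertices (`rs_sigma`, `ni_sigma`). -/

namespace Cfsg.Agent.Root
open Cfsg

variable {k : Type*} [Field k] {M : Type*} [AddCommGroup M] [Module k M]
variable {G : Subgroup (GLM k M)} {α β γ δ α' β' x y : Module.End k M}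

theorem nil_submodule {a b : Submodule k (Module.End k M)} (haa : a * a = ⊥) (hbb : b * b = ⊥)
    (haba : a * b * a = ⊥) (hbab : b * a * b = ⊥) :
    (a ⊔ b ⊔ (a * b ⊔ b * a)) * (a ⊔ b ⊔ (a * b ⊔ b * a)) ≤ a ⊔ b ⊔ (a * b ⊔ b * a) ∧
      (a ⊔ b ⊔ (a * b ⊔ b * a)) ^ 3 = ⊥ := by
  have aa : ∀ x, a * (a * x) = ⊥ := fun x => by rw [← mul_assoc, haa, Submodule.bot_mul]
  have bb : ∀ x, b * (b * x) = ⊥ := fun x => by rw [← mul_assoc, hbb, Submodule.bot_mul]
  have aba : ∀ x, a * (b * (a * x)) = ⊥ := fun x => by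
    rw [← mul_assoc, ← mul_assoc, haba, Submodule.bot_mul]
  have bab : ∀ x, b * (a * (b * x)) = ⊥ := fun x => by
    rw [← mul_assoc, ← mul_assoc, hbab, Submodule.bot_mul]
  rw [mul_assoc] at haba hbab
  constructor
  · simp [Submodule.mul_sup, Submodule.sup_mul, mul_assoc, aa, bb, aba, bab, haa, hbb, haba, hbab,
      le_sup_of_le_right]
  · simp [pow_succ, Submodule.mul_sup, Submodule.sup_mul, mul_assoc, aa, bb, aba, bab, haa, hbb, haba,
      hbab]

theorem cl_mul_cl : cl G α * cl G α = ⊥ :=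
  le_bot_iff.1 (Submodule.mul_le.2 fun _ hx _ hy => cl_mul hx hy)

theorem commutator_unitOf (ha : α * α = 0) (hb : β * β = 0) (e : α * β * α = 0) (e' : β * α * β = 0) :
    (unitOf α ha * unitOf β hb * (unitOf α ha)⁻¹ * (unitOf β hb)⁻¹).val = 1 + (α * β - β * α) := by
  have aa : ∀ x, α * (α * x) = 0 := fun x => by rw [← mul_assoc, ha, zero_mul]
  have bb : ∀ x, β * (β * x) = 0 := fun x => by rw [← mul_assoc, hb, zero_mul]
  have aba : ∀ x, α * (β * (α * x)) = 0 := fun x => by rw [← mul_assoc, ← mul_assoc, e, zero_mul]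
  rw [mul_assoc] at e e'
  simp only [Units.val_mul, unitOf_val, val_inv_of_sq ha (unitOf_val _),
    val_inv_of_sq hb (unitOf_val _), mul_sub, sub_mul, mul_add, add_mul, mul_assoc,
    aa, bb, aba, e, e', ha, hb, mul_zero, mul_one, one_mul]
  abel

variable [FiniteDimensional k M]

theorem rk_mul_add (β α : Module.End k M) :
    rk (β * α) + Module.finrank k ↥(LinearMap.range α ⊓ LinearMap.ker β) = rk α := by
  have := LinearMap.finrank_range_add_finrank_ker (β.domRestrict (LinearMap.range α))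
  rw [LinearMap.range_domRestrict, LinearMap.ker_domRestrict, ← LinearMap.range_comp,
    ← Submodule.finrank_map_subtype_eq, Submodule.map_comap_subtype] at this
  exact this

theorem finrank_cl_conj {g : GLM k M} (hg : g ∈ G) :
    Module.finrank k (cl G α) ≤ Module.finrank k (cl G (cj g α)) :=
  LinearMap.finrank_le_finrank_of_injective (f := (⟨⟨fun x => ⟨cj g x, cj_mem_cl (conjBy_of_mem hg) x.2⟩,
    fun _ _ => Subtype.ext (cj_add _ _ _)⟩, fun _ _ => Subtype.ext (cj_smul _ _ _)⟩ :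
      cl G α →ₗ[k] cl G (cj g α)))
    fun x y e => Subtype.ext (by
      have := congrArg (fun z => cj g⁻¹ z.1) e
      simpa using this)

section
variable (h2 : (2 : k) ≠ 0) (h3 : Nat.card k ≠ 3)
include h2 h3

theorem Min.aug_le (hα : Min G α) (hβ : Min G β) (h : α * β * α = 0) :
    aug (EE G α ⊔ EE G β) ≤ cl G α ⊔ cl G β ⊔ (cl G α * cl G β ⊔ cl G β * cl G α) ∧
      IsUnipotentOn (EE G α ⊔ EE G β) := by
  have key : ∀ {α β : Module.End k M}, Min G α → Min G β → α * β * α = 0 →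
      cl G α * cl G β * cl G α = ⊥ := fun hα hβ h =>
    le_bot_iff.1 (Submodule.mul_le.2 fun x hx c hc => Submodule.mul_induction_on hx
      (fun a ha b hb => hα.nil_cl h2 h3 hβ h ha hb hc) fun x y hx hy => by
        rw [add_mul]; exact add_mem hx hy)
  obtain ⟨h4, h5⟩ := nil_submodule cl_mul_cl cl_mul_cl (key hα hβ h) (key hβ hα (hα.nil_symm h2 h3 hβ h))
  have := aug_sup_le h4 (aug_EE.le.trans (le_sup_of_le_left le_sup_left))
    (aug_EE.le.trans (le_sup_of_le_left le_sup_right))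
  exact ⟨this, unip_of_le_pow this h5⟩

theorem Min.not_unip (hα : Min G α) (hβ : Min G β) (h : α * β * α ≠ 0) :
    ¬ IsUnipotentOn (EE G α ⊔ EE G β) := fun hu => by
  obtain ⟨n, hn⟩ := isUnipotentOn_iff.1 hu
  obtain ⟨f, hf, e1, -⟩ := hα.exists_partner h2 h3 hβ h
  have h4 : α * f ∈ aug (EE G α ⊔ EE G β) := aug_mul_self (Submodule.mul_mem_mul
    (aug_mono le_sup_left (aug_EE.ge hα.qd.mem_cl)) (aug_mono le_sup_right (aug_EE.ge hf)))
  have h5 := Submodule.pow_mem_pow _ h4 n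
  have h6 : ∀ n, (α * f) ^ n * α = α := fun n => by
    induction n with
    | zero => simp
    | succ n ih => rw [pow_succ, mul_assoc, e1, ih]
  rw [hn, Submodule.mem_bot] at h5
  exact hα.ne (by rw [← h6 n, h5, zero_mul])

theorem Min.finrank_cl_le (hα : Min G α) (hβ : Min G β) (h : α * β * α ≠ 0) :
    Module.finrank k (cl G α) ≤ Module.finrank k (cl G β) := by
  obtain ⟨x, hx, e⟩ := R1.exists_conj_eq (hα.special h2 h3 hβ h).1
  have hx' : x ∈ G := sup_le EE_le EE_le hx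
  rw [conjBy_EE (conjBy_of_mem hx')] at e
  exact cl_eq_of_EE e ▸ finrank_cl_conj hx'

theorem NU.exists_opp (hG : NU G) (hα : Min G α) : ∃ δ, Min G δ ∧ α * δ * α ≠ 0 := by
  by_contra hcon
  push Not at hcon
  have := hG.eq_bot_of_family (W := {A | ∃ g ∈ G, A = EE G (cj g α)}) (A := EE G α)
    (by rintro _ ⟨g, -, rfl⟩; exact EE_le)
    (by
      rintro _ ⟨g, hg, rfl⟩ x hx
      exact ⟨x * g, G.mul_mem hx hg, by rw [conjBy_EE (conjBy_of_mem hx), cj_cj]⟩)
    (by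
      rintro _ ⟨g, hg, rfl⟩ _ ⟨g', hg', rfl⟩
      refine ((hα.conj hg).aug_le h2 h3 (hα.conj hg') ?_).2
      have := congrArg (cj g) (hcon _ (hα.conj (G.mul_mem (G.inv_mem hg) hg')))
      simpa [cj_mul] using this)
    ⟨1, G.one_mem, by simp⟩
  have h4 := unitOf_mem_EE hα.qd.mem_cl hα.qd.sq
  rw [this, Subgroup.mem_bot, unitOf_eq_one] at h4
  exact hα.ne h4

end

/-- A non-commuting nilpotent pair of minimal quadratic elements. -/
structure Nil (G : Subgroup (GLM k M)) (α β : Module.End k M) : Prop where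
  ma : Min G α
  mb : Min G β
  aba : α * β * α = 0
  bab : β * α * β = 0
  ne : α * β - β * α ≠ 0

namespace Nil

omit [FiniteDimensional k M] in
theorem symm (h : Nil G α β) : Nil G β α :=
  ⟨h.mb, h.ma, h.bab, h.aba, fun e => h.ne (by rw [← neg_sub, e, neg_zero])⟩

omit [FiniteDimensional k M] in
theorem qd (h : Nil G α β) : Qd G (α * β - β * α) := h.ma.qd.bracket h.mb.qd h.aba h.bab

omit [FiniteDimensional k M] in
theorem range_le (h : Nil G α β) : LinearMap.range (α * β) ≤ LinearMap.range α ⊓ LinearMap.ker β :=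
  le_inf (range_mul_le _ _) (mul_eq_zero_iff_range_le_ker.1 (by rw [← mul_assoc, h.bab]))

omit [FiniteDimensional k M] in
theorem range_br_le (α β : Module.End k M) :
    LinearMap.range (α * β - β * α) ≤ LinearMap.range (α * β) ⊔ LinearMap.range (β * α) := by
  rintro _ ⟨v, rfl⟩
  exact sub_mem (Submodule.mem_sup_left ⟨v, rfl⟩) (Submodule.mem_sup_right ⟨v, rfl⟩)

theorem ranks (h : Nil G α β) : LinearMap.range (α * β) = LinearMap.range α ⊓ LinearMap.ker β ∧
    LinearMap.range (α * β - β * α) = LinearMap.range (α * β) ⊔ LinearMap.range (β * α) ∧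
    LinearMap.range (α * β) ⊓ LinearMap.range (β * α) = ⊥ ∧ rk (α * β - β * α) ≤ rk α := by
  have h1 := rk_mul_add β α
  have h2 := Submodule.finrank_mono h.range_le
  have h3 := h.ma.min _ h.qd h.ne
  have h4 := Submodule.finrank_mono (range_br_le α β)
  have h5 := Submodule.finrank_sup_add_finrank_inf_eq (LinearMap.range (α * β)) (LinearMap.range (β * α))
  simp only [rk] at *
  exact ⟨Submodule.eq_of_le_of_finrank_le h.range_le (by omega),
    Submodule.eq_of_le_of_finrank_le (range_br_le α β) (by omega),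
    Submodule.finrank_eq_zero.1 (by omega), by omega⟩

theorem min (h : Nil G α β) : Min G (α * β - β * α) := h.ma.of_le h.qd h.ne h.ranks.2.2.2

theorem eq_zero (h : Nil G α β) {v : M} (h1 : v ∈ LinearMap.range α) (h2 : v ∈ LinearMap.range β) :
    v = 0 := by
  rw [← Submodule.mem_bot k, ← h.ranks.2.2.1, h.ranks.1, h.symm.ranks.1]
  exact ⟨⟨h1, mul_eq_zero_iff_range_le_ker.1 h.mb.qd.sq h2⟩,
    ⟨h2, mul_eq_zero_iff_range_le_ker.1 h.ma.qd.sq h1⟩⟩

theorem of_br_apply (h : Nil G α β) {v : M} (hv : (α * β - β * α) v = 0) : α (β v) = 0 ∧ β (α v) = 0 := by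
  have e : α (β v) = β (α v) := sub_eq_zero.1 hv
  have := h.eq_zero ⟨_, rfl⟩ ⟨_, e.symm⟩
  exact ⟨this, e ▸ this⟩

variable (h2 : (2 : k) ≠ 0) (h3 : Nat.card k ≠ 3)
include h2 h3

theorem mul_apply_eq_zero (h : Nil G α β) (ha : α' ∈ cl G α) (hb : β' ∈ cl G β) {v : M}
    (hv : α (β v) = 0) : α' (β' v) = 0 := by
  obtain ⟨w, hw⟩ : β v ∈ LinearMap.range (β * α) := h.symm.ranks.1 ▸ ⟨⟨v, rfl⟩, hv⟩
  have h4 : β' (v - α w) = 0 := hb.2.1 (by rw [LinearMap.mem_ker, map_sub, ← hw]; simp)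
  rw [map_sub, sub_eq_zero] at h4
  rw [h4]
  exact LinearMap.congr_fun (h.ma.nil_cl h2 h3 h.mb h.aba ha hb h.ma.qd.mem_cl) w

theorem mem_cl (h : Nil G α β) (ha : α' ∈ cl G α) (hb : β' ∈ cl G β) :
    α' * β' - β' * α' ∈ cl G (α * β - β * α) := by
  have e1 := fun {a b c} (ha : a ∈ cl G α) (hb : b ∈ cl G β) (hc : c ∈ cl G α) =>
    h.ma.nil_cl h2 h3 h.mb h.aba ha hb hc
  have e2 := fun {a b c} (ha : a ∈ cl G β) (hb : b ∈ cl G α) (hc : c ∈ cl G β) =>
    h.mb.nil_cl h2 h3 h.ma h.bab ha hb hc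
  refine (Root.mem_cl h.qd.sq).2 ⟨ha.1.bracket hb.1 (e1 ha hb ha) (e2 hb ha hb), fun v hv => ?_, ?_⟩
  · obtain ⟨h4, h5⟩ := h.of_br_apply hv
    simp [h.mul_apply_eq_zero h2 h3 ha hb h4, h.symm.mul_apply_eq_zero h2 h3 hb ha h5]
  · rw [h.ranks.2.1, h.ranks.1, h.symm.ranks.1]
    refine (range_br_le _ _).trans (sup_le_sup (le_inf ((range_mul_le _ _).trans ha.2.2.1) ?_)
      (le_inf ((range_mul_le _ _).trans hb.2.2.1) ?_))
    · rw [← mul_eq_zero_iff_range_le_ker, ← mul_assoc, e2 h.mb.qd.mem_cl ha hb]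
    · rw [← mul_eq_zero_iff_range_le_ker, ← mul_assoc, e1 h.ma.qd.mem_cl hb ha]

theorem of_cl (h : Nil G α β) (ha : α' ∈ cl G α) (ha0 : α' ≠ 0) (hb : β' ∈ cl G β) (hb0 : β' ≠ 0) :
    Nil G α' β' := by
  refine ⟨h.ma.of_cl ha ha0, h.mb.of_cl hb hb0, h.ma.nil_cl h2 h3 h.mb h.aba ha hb ha,
    h.mb.nil_cl h2 h3 h.ma h.bab hb ha hb, fun e => h.ne ?_⟩
  rw [sub_eq_zero] at e
  have e1 : α' * β' = 0 := LinearMap.ext fun v =>
    h.eq_zero (ha.2.2.1 ⟨_, rfl⟩) (hb.2.2.1 ⟨α' v, (LinearMap.congr_fun e v).symm⟩)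
  have ha' : α ∈ cl G α' := h.ma.cl_eq ha ha0 ▸ h.ma.qd.mem_cl
  have hb' : β ∈ cl G β' := h.mb.cl_eq hb hb0 ▸ h.mb.qd.mem_cl
  rw [cl_left ha' (cl_right hb' e1), cl_left hb' (cl_right ha' (e ▸ e1)), sub_zero]

/-- The commutator map with a fixed element. -/
def brMap (h : Nil G α β) : cl G α →ₗ[k] cl G (α * β - β * α) where
  toFun x := ⟨x * β - β * x, h.mem_cl h2 h3 x.2 h.mb.qd.mem_cl⟩
  map_add' x y := Subtype.ext (by simp [add_mul, mul_add]; abel)
  map_smul' c x := Subtype.ext (by simp [smul_sub])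

theorem brMap_injective (h : Nil G α β) : Function.Injective (h.brMap h2 h3) := by
  rw [injective_iff_map_eq_zero]
  intro x hx
  by_contra h0
  exact (h.of_cl h2 h3 x.2 (fun e => h0 (Subtype.ext e)) h.mb.qd.mem_cl h.mb.ne).ne
    (congrArg Subtype.val hx)

theorem finrank_le (h : Nil G α β) (hG : NU G) :
    Module.finrank k (cl G (α * β - β * α)) ≤ Module.finrank k (cl G α) := by
  obtain ⟨δ, hδ, h4⟩ := hG.exists_opp h2 h3 h.min
  by_cases h5 : α * δ * α = 0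
  swap
  · exact (h.min.finrank_cl_le h2 h3 hδ h4).trans
      (hδ.finrank_cl_le h2 h3 h.ma fun e => h5 (hδ.nil_symm h2 h3 h.ma e))
  obtain ⟨f, hf, e1, e2⟩ := h.min.exists_partner h2 h3 hδ h4
  have hγα : (α * β - β * α) * α = 0 := by rw [sub_mul, h.aba, mul_assoc, h.ma.qd.sq]; simp
  have hαγ : α * (α * β - β * α) = 0 := by
    rw [mul_sub, ← mul_assoc, h.ma.qd.sq, ← mul_assoc, h.aba]; simp
  have k1 : LinearMap.range (α * β) ≤ LinearMap.range (α * β - β * α) := h.ranks.2.1 ▸ le_sup_left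
  have k2 : ∀ v, (α * β - β * α) v = 0 → β (α v) = 0 := fun v hv => (h.of_br_apply hv).2
  have hγ := h.min
  have hne := h.ne
  generalize hγ' : α * β - β * α = γ at *
  have f0 : f ≠ 0 := fun e => hγ.ne (by rw [← e1, e, mul_zero, zero_mul])
  have hfm := hδ.of_cl hf f0
  have afa := h.ma.nil_cl h2 h3 hδ h5 h.ma.qd.mem_cl hf h.ma.qd.mem_cl
  have faf := h.ma.nil_symm h2 h3 hfm afa
  have qφ := hfm.qd.bracket h.ma.qd faf afa
  have aa : ∀ x, α * (α * x) = 0 := fun x => by rw [← mul_assoc, h.ma.qd.sq, zero_mul]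
  have ag : ∀ x, α * (γ * x) = 0 := fun x => by rw [← mul_assoc, hαγ, zero_mul]
  have ga : ∀ x, γ * (α * x) = 0 := fun x => by rw [← mul_assoc, hγα, zero_mul]
  have ff : ∀ x, f * (f * x) = 0 := fun x => by rw [← mul_assoc, hfm.qd.sq, zero_mul]
  have faf' : ∀ x, f * (α * (f * x)) = 0 := fun x => by rw [← mul_assoc, ← mul_assoc, faf, zero_mul]
  have afa' : ∀ x, α * (f * (α * x)) = 0 := fun x => by rw [← mul_assoc, ← mul_assoc, afa, zero_mul]
  have fgf : ∀ x, f * (γ * (f * x)) = f * x := fun x => by rw [← mul_assoc, ← mul_assoc, e2]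
  rw [mul_assoc] at afa faf
  have g1 : γ * (f * α - α * f) * γ = 0 := by
    simp only [mul_sub, sub_mul, mul_assoc, hαγ, ga, mul_zero, sub_zero]
  have g2 : (f * α - α * f) * γ * (f * α - α * f) = 0 := by
    simp only [mul_sub, sub_mul, mul_assoc, ag, ga, fgf, afa, mul_zero, sub_zero]
  have q1 := hγ.qd.bracket qφ g1 g2
  have q2 := h.ma.qd.sub q1
    (by simp only [mul_sub, sub_mul, mul_assoc, ag, aa, afa', mul_zero, sub_zero])
    (by simp only [mul_sub, sub_mul, mul_assoc, hγα, ga, h.ma.qd.sq, mul_zero, sub_zero])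
  have e3 : α - (γ * (f * α - α * f) - (f * α - α * f) * γ) = (1 - γ * f) * α * (1 - f * γ) := by
    simp only [mul_sub, sub_mul, mul_assoc, ga, hαγ, faf', mul_zero, sub_zero, mul_one, one_mul]
    abel
  have e4 : γ * (f * α - α * f) - (f * α - α * f) * γ = α := by
    by_contra h0
    have r0 := h.ma.min _ q2 fun e => h0 (sub_eq_zero.1 e).symm
    rw [e3] at r0
    have r1 : LinearMap.ker ((1 - γ * f) * α) = LinearMap.ker α := by
      refine (Submodule.eq_of_le_of_finrank_le (ker_le_ker_mul _ _) ?_).symm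
      have := Submodule.finrank_mono (range_mul_le ((1 - γ * f) * α) (1 - f * γ))
      have := rk_add_ker α; have := rk_add_ker ((1 - γ * f) * α)
      simp only [rk] at *; omega
    have r2 : LinearMap.range (α * (1 - f * γ)) = LinearMap.range α :=
      Submodule.eq_of_le_of_finrank_le (range_mul_le _ _)
        (r0.trans (by rw [mul_assoc]; exact rk_le_of_ker (ker_le_ker_mul _ _)))
    have r3 : α * β = 0 := mul_eq_zero_of_ker r1.le (by
      rw [mul_assoc]; exact mul_eq_zero_of_range k1 (by rw [sub_mul, e1, one_mul, sub_self]))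
    have r4 : β * α = 0 := mul_eq_zero_of_range r2.ge (LinearMap.ext fun v => k2 _ (by
      rw [← Module.End.mul_apply, mul_sub, ← mul_assoc, e1, mul_one, sub_self]; rfl))
    exact hne (by rw [← hγ', r3, r4, sub_zero])
  have n1 : Nil G f α := ⟨hfm, h.ma, by rw [mul_assoc, faf], by rw [mul_assoc, afa],
    fun e => h.ma.ne (by rw [← e4, e]; simp)⟩
  have n2 : Nil G γ (f * α - α * f) := ⟨hγ, n1.min, g1, g2, by rw [e4]; exact h.ma.ne⟩
  have := LinearMap.finrank_le_finrank_of_injective (n2.brMap_injective h2 h3)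
  rwa [e4] at this

theorem surj (h : Nil G α β) (hG : NU G) (hc : γ ∈ cl G (α * β - β * α)) :
    ∃ a ∈ cl G α, γ = a * β - β * a := by
  obtain ⟨a, ha⟩ := (LinearMap.injective_iff_surjective_of_finrank_eq_finrank (le_antisymm
    (LinearMap.finrank_le_finrank_of_injective (h.brMap_injective h2 h3)) (h.finrank_le h2 h3 hG))).1
    (h.brMap_injective h2 h3) ⟨γ, hc⟩
  exact ⟨a, a.2, (congrArg Subtype.val ha).symm⟩

omit h2 h3 [FiniteDimensional k M] in
theorem mul_left (h : Nil G α β) (ha : α' ∈ cl G α) (hc : γ ∈ cl G (α * β - β * α)) :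
    α' * γ = 0 ∧ γ * α' = 0 :=
  ⟨cl_left ha (cl_right hc (by rw [mul_sub, ← mul_assoc, h.ma.qd.sq, ← mul_assoc, h.aba]; simp)),
    cl_right ha (cl_left hc (by rw [sub_mul, h.aba, mul_assoc, h.ma.qd.sq]; simp))⟩

omit h2 h3 [FiniteDimensional k M] in
theorem cl_swap (α β : Module.End k M) : cl G (β * α - α * β) = cl G (α * β - β * α) := by
  rw [← neg_sub, cl_neg]

theorem cc (h : Nil G α β) (hG : NU G) : CC (EE G α) (EE G β) (EE G (α * β - β * α)) := by
  have e1 := fun {a b c} (ha : a ∈ cl G α) (hb : b ∈ cl G β) (hc : c ∈ cl G α) =>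
    h.ma.nil_cl h2 h3 h.mb h.aba ha hb hc
  have e2 := fun {a b c} (ha : a ∈ cl G β) (hb : b ∈ cl G α) (hc : c ∈ cl G β) =>
    h.mb.nil_cl h2 h3 h.ma h.bab ha hb hc
  have sR : ∀ b ∈ EE G β, b ≠ 1 → ∀ c ∈ EE G (α * β - β * α), ∃ a ∈ EE G α, c = a * b * a⁻¹ * b⁻¹ := by
    intro b hb' hb1 c hc
    obtain ⟨b, hb, rfl⟩ := exists_of_mem_EE hb'
    have h' := h.of_cl h2 h3 h.ma.qd.mem_cl h.ma.ne hb (by simpa using hb1)
    rw [mem_EE, ← h.min.cl_eq (h.mem_cl h2 h3 h.ma.qd.mem_cl hb) h'.ne] at hc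
    obtain ⟨a, ha, e⟩ := h'.surj h2 h3 hG hc
    exact ⟨_, unitOf_mem_EE ha ha.1.sq, Units.ext (by
      rw [commutator_unitOf _ _ (e1 ha hb ha) (e2 hb ha hb), ← e]; simp)⟩
  refine ⟨le_antisymm (Subgroup.commutator_le.2 fun a ha' b hb' => ?_) fun c hc => ?_,
    comm_EE_iff.2 fun c hc a ha => ?_, comm_EE_iff.2 fun c hc a ha => ?_, fun a ha' ha1 c hc => ?_, sR⟩
  · obtain ⟨a, ha, rfl⟩ := exists_of_mem_EE ha'
    obtain ⟨b, hb, rfl⟩ := exists_of_mem_EE hb'
    rw [mem_EE, commutatorElement_def, commutator_unitOf _ _ (e1 ha hb ha) (e2 hb ha hb),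
      add_sub_cancel_left]
    exact h.mem_cl h2 h3 ha hb
  · obtain ⟨a, ha, rfl⟩ := sR _ (unitOf_mem_EE h.mb.qd.mem_cl h.mb.qd.sq) (by simpa using h.mb.ne) c hc
    exact Subgroup.commutator_mem_commutator ha (unitOf_mem_EE h.mb.qd.mem_cl _)
  · rw [(h.mul_left ha hc).1, (h.mul_left ha hc).2]
  · rw [← cl_swap] at hc
    rw [(h.symm.mul_left ha hc).1, (h.symm.mul_left ha hc).2]
  · obtain ⟨a, ha, rfl⟩ := exists_of_mem_EE ha'
    have h' := h.of_cl h2 h3 ha (by simpa using ha1) h.mb.qd.mem_cl h.mb.ne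
    rw [mem_EE, ← h.min.cl_eq (h.mem_cl h2 h3 ha h.mb.qd.mem_cl) h'.ne, ← cl_swap] at hc
    obtain ⟨b, hb, e⟩ := h'.symm.surj h2 h3 hG (neg_mem hc)
    exact ⟨_, unitOf_mem_EE hb hb.1.sq, Units.ext (by
      rw [commutator_unitOf _ _ (e1 ha hb ha) (e2 hb ha hb), ← neg_sub, ← e]; simp)⟩

end Nil

variable (h2 : (2 : k) ≠ 0) (h3 : Nat.card k ≠ 3)
include h2 h3

theorem Min.comm_or_nil (hα : Min G α) (hβ : Min G β) (h : α * β * α = 0) :
    Comm (EE G α) (EE G β) ∨ Nil G α β := by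
  by_cases h0 : α * β - β * α = 0
  · refine Or.inl (comm_EE_iff.2 fun a ha b hb => ?_)
    by_contra hne
    have a0 : a ≠ 0 := fun e => hne (by simp [e])
    have b0 : b ≠ 0 := fun e => hne (by simp [e])
    have n : Nil G a b := ⟨hα.of_cl ha a0, hβ.of_cl hb b0, hα.nil_cl h2 h3 hβ h ha hb ha,
      hβ.nil_cl h2 h3 hα (hα.nil_symm h2 h3 hβ h) hb ha hb, sub_ne_zero.2 hne⟩
    exact (n.of_cl h2 h3 (hα.cl_eq ha a0 ▸ hα.qd.mem_cl) hα.ne (hβ.cl_eq hb b0 ▸ hβ.qd.mem_cl) hβ.ne).ne h0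
  · exact Or.inr ⟨hα, hβ, h, hα.nil_symm h2 h3 hβ h, h0⟩

omit h2 h3 in
theorem conjBy_mem_sigma {A : Subgroup (GLM k M)} (hA : A ∈ quadraticRootSubgroups G) {g : GLM k M}
    (hg : g ∈ G) : conjBy A g ∈ quadraticRootSubgroups G := by
  obtain ⟨α, hα, rfl⟩ := mem_quadraticRootSubgroups.1 hA
  exact mem_quadraticRootSubgroups.2 ⟨_, hα.conj hg, conjBy_EE (conjBy_of_mem hg)⟩

omit h2 h3 in
theorem le_of_mem_sigma {A : Subgroup (GLM k M)} (hA : A ∈ quadraticRootSubgroups G) : A ≤ G := by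
  obtain ⟨α, -, rfl⟩ := mem_quadraticRootSubgroups.1 hA
  exact EE_le

theorem rs_sigma (hG : NU G) : RS (quadraticRootSubgroups G) where
  comm A hA := by obtain ⟨α, -, rfl⟩ := mem_quadraticRootSubgroups.1 hA; exact EE_comm
  ne_bot A hA e := by
    obtain ⟨α, hα, rfl⟩ := mem_quadraticRootSubgroups.1 hA
    have h4 := unitOf_mem_EE hα.qd.mem_cl hα.qd.sq
    rw [e, Subgroup.mem_bot, unitOf_eq_one] at h4
    exact hα.ne h4
  conj_mem A hA B hB b hb := conjBy_mem_sigma hA (le_of_mem_sigma hB hb)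
  pair A hA B hB := by
    obtain ⟨α, hα, rfl⟩ := mem_quadraticRootSubgroups.1 hA
    obtain ⟨β, hβ, rfl⟩ := mem_quadraticRootSubgroups.1 hB
    by_cases h : α * β * α = 0
    · rcases hα.comm_or_nil h2 h3 hβ h with h | h
      · exact Or.inl h
      · exact Or.inr (Or.inr ⟨_, mem_quadraticRootSubgroups.2 ⟨_, h.min, rfl⟩, h.cc h2 h3 hG⟩)
    · exact Or.inr (Or.inl (hα.special h2 h3 hβ h).1)

theorem ni_sigma (hG : NU G) : ∀ A ∈ quadraticRootSubgroups G, NI (quadraticRootSubgroups G) A := by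
  intro A hA
  obtain ⟨α, hα, rfl⟩ := mem_quadraticRootSubgroups.1 hA
  obtain ⟨δ, hδ, h⟩ := hG.exists_opp h2 h3 hα
  exact ⟨_, mem_quadraticRootSubgroups.2 ⟨δ, hδ, rfl⟩, (hα.special h2 h3 hδ h).1⟩

theorem Min.opp_of_rankOne (hG : NU G) (hα : Min G α) (hβ : Min G β)
    (hr : IsRankOnePair (EE G α) (EE G β)) : α * β * α ≠ 0 := fun h => by
  rcases hα.comm_or_nil h2 h3 hβ h with h | h
  · exact R1.not_comm hr h
  · exact (h.cc h2 h3 hG).not_rankOne EE_comm hr

end Cfsg.Agent.Root
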