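import Cfsg.Agent.Root.RootSet5
import Cfsg.Agent.Root.SL2

/-! Transfer of `RS S` to the subgroup generated by `S` (`RS.sub_set`, `RS.sub_class`, `RS.sub_kroot`,
`RS.sub_degenerate`, `sub_connected`) and connected components of the graph of rank one pairs (`RS.component`,
`RS.comm_of_not_fconn`). -/

namespace Cfsg.Agent.Root
open Cfsg

variable {G : Type*} [Group G] {S : Set (Subgroup G)} {A B C D E F H : Subgroup G}

theorem Comm.subgroupOf (h : Comm A B) : Comm (A.subgroupOf H) (B.subgroupOf H) :=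
  fun a ha b hb => Subtype.ext (h a ha b hb)

theorem Comm.of_subgroupOf (h : Comm (A.subgroupOf H) (B.subgroupOf H)) (hA : A ≤ H) (hB : B ≤ H) :
    Comm A B := fun a ha b hb => congrArg Subtype.val (h ⟨a, hA ha⟩ ha ⟨b, hB hb⟩ hb)

theorem R1.of_subgroupOf (h : IsRankOnePair (A.subgroupOf H) (B.subgroupOf H)) (hA : A ≤ H) (hB : B ≤ H) :
    IsRankOnePair A B := by
  have := R1.map_of_injective h H.subtype H.subtype_injective
  rwa [Subgroup.map_subgroupOf_eq_of_le hA, Subgroup.map_subgroupOf_eq_of_le hB] at this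

theorem CC.subgroupOf (k : CC A B C) (hA : A ≤ H) (hB : B ≤ H) :
    CC (A.subgroupOf H) (B.subgroupOf H) (C.subgroupOf H) where
  eq := Subgroup.map_injective H.subtype_injective (by
    rw [Subgroup.map_commutator, Subgroup.map_subgroupOf_eq_of_le hA, Subgroup.map_subgroupOf_eq_of_le hB,
      k.eq, Subgroup.map_subgroupOf_eq_of_le
        (k.eq ▸ (Subgroup.commutator_le_sup _ _).trans (sup_le hA hB))])
  cA := k.cA.subgroupOf
  cB := k.cB.subgroupOf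
  surjL a ha h1 c hc := by
    obtain ⟨b, hb, e⟩ := k.surjL a ha (fun e => h1 (Subtype.ext e)) c hc
    exact ⟨⟨b, hB hb⟩, hb, Subtype.ext e⟩
  surjR a ha h1 c hc := by
    obtain ⟨b, hb, e⟩ := k.surjR a ha (fun e => h1 (Subtype.ext e)) c hc
    exact ⟨⟨b, hA hb⟩, hb, Subtype.ext e⟩

theorem conjBy_subgroupOf (A : Subgroup G) (g : H) :
    conjBy (A.subgroupOf H) g = (conjBy A g).subgroupOf H := by
  ext x; rw [mem_conjBy, Subgroup.mem_subgroupOf, Subgroup.mem_subgroupOf, mem_conjBy]; rfl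

theorem iSup_subgroupOf_eq_top :
    (⨆ A ∈ (fun A : Subgroup G => A.subgroupOf (⨆ B ∈ S, B)) '' S, A) = ⊤ :=
  Subgroup.map_injective (Subgroup.subtype_injective _) (by
    rw [iSup_image, ← MonoidHom.range_eq_map, Subgroup.range_subtype]
    simp only [Subgroup.map_iSup]
    exact iSup_congr fun A => iSup_congr fun hA => Subgroup.map_subgroupOf_eq_of_le (le_iSup_of_mem hA))

theorem RS.sub (h : RS S) : RS ((fun A : Subgroup G => A.subgroupOf (⨆ B ∈ S, B)) '' S) where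
  comm := by rintro _ ⟨A, hA, rfl⟩; exact (h.comm A hA).subgroupOf
  ne_bot := by
    rintro _ ⟨A, hA, rfl⟩ e
    exact h.ne_bot A hA (by
      rw [← Subgroup.map_subgroupOf_eq_of_le (le_iSup_of_mem hA)]; simp only at e; rw [e, Subgroup.map_bot])
  conj_mem := by
    rintro _ ⟨A, hA, rfl⟩ _ _ g _
    exact ⟨_, h.conj_mem_iSup hA g.2, (conjBy_subgroupOf A g).symm⟩
  pair := by
    rintro _ ⟨A, hA, rfl⟩ _ ⟨B, hB, rfl⟩
    rcases h.pair A hA B hB with k | k | ⟨C, hC, k⟩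
    · exact Or.inl k.subgroupOf
    · exact Or.inr (Or.inl (R1.subgroupOf k (le_iSup_of_mem hA) (le_iSup_of_mem hB)))
    · exact Or.inr (Or.inr ⟨_, ⟨C, hC, rfl⟩, k.subgroupOf (le_iSup_of_mem hA) (le_iSup_of_mem hB)⟩)

theorem RS.isRootSubgroupSet (h : RS S) (ht : (⨆ A ∈ S, A) = ⊤) : IsRootSubgroupSet S where
  commutative A hA := comm_self_iff.1 (h.comm A hA)
  ne_bot := h.ne_bot
  generates := ht
  conj_mem A hA g := h.conj_mem_iSup hA (ht ▸ Subgroup.mem_top g)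
  pair A hA B hB := by
    rcases h.pair A hA B hB with k | k | ⟨C, hC, k⟩
    · exact Or.inl (comm_iff.2 k)
    · exact Or.inr (Or.inl k)
    · exact Or.inr (Or.inr (rootCommutatorCase_iff.2 (by rw [k.eq]; exact ⟨hC, k⟩)))

theorem RS.sub_set (h : RS S) :
    IsRootSubgroupSet ((fun A : Subgroup G => A.subgroupOf (⨆ B ∈ S, B)) '' S) :=
  h.sub.isRootSubgroupSet iSup_subgroupOf_eq_top

theorem RS.sub_class (h : RS S) (hne : S.Nonempty) (hc : ∀ A ∈ S, ∀ B ∈ S, FConn S A B) :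
    IsRootSubgroupClass ((fun A : Subgroup G => A.subgroupOf (⨆ B ∈ S, B)) '' S) := by
  refine ⟨h.sub_set, hne.image _, ?_⟩
  rintro _ ⟨A, hA, rfl⟩ _ ⟨B, hB, rfl⟩
  obtain ⟨g, hg, rfl⟩ := (hc A hA B hB).exists_conj'
  exact ⟨⟨g, hg⟩, (conjBy_subgroupOf A ⟨g, hg⟩).symm⟩

theorem RS.sub_kroot (h : RS S) {k : Type*} [Field k]
    (hk : ∀ A ∈ S, ∀ B ∈ S, IsRankOnePair A B → IsPSL2PairOver k A B) :
    IsKRootSubgroupSet k ((fun A : Subgroup G => A.subgroupOf (⨆ B ∈ S, B)) '' S) := by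
  refine ⟨h.sub_set, ?_⟩
  rintro _ ⟨A, hA, rfl⟩ _ ⟨B, hB, rfl⟩ hr
  exact psl2_subgroupOf (hk A hA B hB (R1.of_subgroupOf hr (le_iSup_of_mem hA) (le_iSup_of_mem hB)))
    (le_iSup_of_mem hA) (le_iSup_of_mem hB)

theorem RS.sub_degenerate (h : RS S) (hd : ∀ A ∈ S, ∀ B ∈ S, Comm A B ∨ IsRankOnePair A B) :
    IsDegenerateRootSet ((fun A : Subgroup G => A.subgroupOf (⨆ B ∈ S, B)) '' S) := by
  rw [h.sub.degenerate_iff]
  rintro _ ⟨A, hA, rfl⟩ _ ⟨B, hB, rfl⟩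
  exact (hd A hA B hB).imp Comm.subgroupOf fun k => R1.subgroupOf k (le_iSup_of_mem hA) (le_iSup_of_mem hB)

theorem sub_connected (hc : ∀ A ∈ S, ∀ B ∈ S, FConn S A B) :
    IsConnectedFamily (FAdj ((fun A : Subgroup G => A.subgroupOf (⨆ B ∈ S, B)) '' S))
      ((fun A : Subgroup G => A.subgroupOf (⨆ B ∈ S, B)) '' S) := by
  rintro _ ⟨A, hA, rfl⟩ _ ⟨B, hB, rfl⟩
  have := hc A hA B hB
  clear hB
  induction this with
  | refl => exact Relation.ReflTransGen.refl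
  | tail _ k ih => exact ih.tail ⟨⟨_, k.1, rfl⟩, ⟨_, k.2.1, rfl⟩,
      R1.subgroupOf k.2.2 (le_iSup_of_mem k.1) (le_iSup_of_mem k.2.1)⟩

theorem RS.fconn_of_cc (h : RS S) (hn : ∀ A ∈ S, NI S A) (hA : A ∈ S) (hB : B ∈ S) (hC : C ∈ S)
    (k : CC A B C) : FConn S A C :=
  h.fconn_of_line hA hC (hn A hA) (hn C hC) (h.cc_line hA hB hC k)

theorem RS.comm_of_not_fconn (h : RS S) (hn : ∀ A ∈ S, NI S A) (hA : A ∈ S) (hB : B ∈ S)
    (hc : ¬ FConn S A B) : Comm A B := by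
  rcases h.pair A hA B hB with k | k | ⟨C, hC, k⟩
  · exact k
  · exact absurd (FConn.of_pair hA hB k) hc
  · exact absurd ((h.fconn_of_cc hn hA hB hC k).trans (h.fconn_of_cc hn hB hA hC k.symm).symm) hc

theorem self_mem_component (hA : A ∈ S) : A ∈ componentOf (FAdj S) S A := ⟨hA, .refl⟩

theorem component_eq (h : FConn S A B) : componentOf (FAdj S) S A = componentOf (FAdj S) S B :=
  Set.ext fun _ => and_congr_right fun _ => ⟨h.symm.trans, h.trans⟩

theorem RS.conj_mem_component (h : RS S) (hn : ∀ A ∈ S, NI S A) (hB : B ∈ componentOf (FAdj S) S A)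
    {g : G} (hg : g ∈ ⨆ B ∈ S, B) : conjBy B g ∈ componentOf (FAdj S) S A :=
  ⟨h.conj_mem_iSup hB.1 hg, hB.2.trans (h.fconn_conj hB.1 (hn B hB.1) hg)⟩

theorem RS.component (h : RS S) (hn : ∀ A ∈ S, NI S A) : RS (componentOf (FAdj S) S A) where
  comm B hB := h.comm B hB.1
  ne_bot B hB := h.ne_bot B hB.1
  conj_mem B hB C hC _ hc := h.conj_mem_component hn hB (RS.mem_iSup hC.1 hc)
  pair B hB C hC := (h.pair B hB.1 C hC.1).imp_right (Or.imp_right fun ⟨D, hD, k⟩ =>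
    ⟨D, ⟨hD, hB.2.trans (h.fconn_of_cc hn hB.1 hC.1 hD k)⟩, k⟩)

theorem ni_component (hn : ∀ A ∈ S, NI S A) :
    ∀ B ∈ componentOf (FAdj S) S A, NI (componentOf (FAdj S) S A) B := fun B hB => by
  obtain ⟨C, hC, k⟩ := hn B hB.1
  exact ⟨C, ⟨hC, hB.2.tail ⟨hB.1, hC, k⟩⟩, k⟩

theorem fconn_component : ∀ B ∈ componentOf (FAdj S) S A, ∀ C ∈ componentOf (FAdj S) S A,
    FConn (componentOf (FAdj S) S A) B C := by
  have key : ∀ {B}, FConn S A B → FConn (componentOf (FAdj S) S A) A B := fun h => by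
    induction h with
    | refl => exact .refl
    | tail h k ih => exact ih.tail ⟨⟨k.1, h⟩, ⟨k.2.1, h.tail k⟩, k.2.2⟩
  exact fun B hB C hC => (key hB.2).symm.trans (key hC.2)

theorem component_le : (⨆ B ∈ componentOf (FAdj S) S A, B) ≤ ⨆ B ∈ S, B :=
  iSup₂_le fun _ hB => le_iSup_of_mem hB.1

theorem comm_iSup_iSup {S T : Set (Subgroup G)} (h : ∀ A ∈ S, ∀ B ∈ T, Comm A B) :
    Comm (⨆ A ∈ S, A) (⨆ B ∈ T, B) := fun x hx y hy =>
  (comm_iSup_elem (fun A hA a ha => (comm_iSup_elem (fun B hB => h A hA B hB a ha) y hy).symm) x hx).symm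

theorem RS.comm_component (h : RS S) (hn : ∀ A ∈ S, NI S A) (hc : ¬ FConn S A B) :
    Comm (⨆ C ∈ componentOf (FAdj S) S A, C) (⨆ C ∈ componentOf (FAdj S) S B, C) :=
  comm_iSup_iSup fun _ hC _ hD => h.comm_of_not_fconn hn hC.1 hD.1 fun k =>
    hc ((hC.2.trans k).trans (FConn.symm hD.2))

end Cfsg.Agent.Root
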