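import Cfsg.Agent.Root.Quad5
import Cfsg.Agent.Root.RootSet6

/-! Quadratic pairs: `U(L)` for nilpotent pairs (`Nil.core`), `SL₂(k)`-subpairs (`Min.exists_subpair`), the
decomposition `G = G₀ C_G(G₀)` (`NU.sigma_sup_centralizer`), finiteness and quasisimplicity of the components of
`Σ(G)` (`finite_components`, `component_quasisimple`). -/

namespace Cfsg.Agent.Root
open Cfsg

section
variable (k : Type*) {R : Type*} [Field k] [Ring R] [Algebra k R]

/-- The structure map of an algebra as a non-unital homomorphism. -/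
def algρ : k →ₙ+* R := (algebraMap k R : k →ₙ+* R)

variable {k}

@[simp] theorem algρ_mul (c : k) (x : R) : algρ k c * x = c • x := (Algebra.smul_def c x).symm

theorem slPair_alg {e f : R} (ee : e * e = 0) (ff : f * f = 0) (efe : e * f * e = e)
    (fef : f * e * f = f) : SlPair (algρ k) e f :=
  ⟨ee, ff, efe, fef, fun c => Algebra.commutes c e, fun c => Algebra.commutes c f, by simp, by simp⟩

end

variable {k : Type*} [Field k] {M : Type*} [AddCommGroup M] [Module k M]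
variable {G : Subgroup (GLM k M)} {α β γ δ α' β' x y : Module.End k M}

theorem mem_fixedSubmodule {H : Subgroup (GLM k M)} {v : M} :
    v ∈ fixedSubmodule H ↔ ∀ g ∈ H, (g.val - 1) v = 0 := by
  simp only [fixedSubmodule, Submodule.mem_iInf]; rfl

theorem commutatorSubmodule_le {H : Subgroup (GLM k M)} {W : Submodule k M} :
    commutatorSubmodule H ≤ W ↔ ∀ g ∈ H, LinearMap.range (g.val - 1) ≤ W := iSup₂_le_iff

theorem le_fixed_iff_aug {H : Subgroup (GLM k M)} {v : M} : v ∈ fixedSubmodule H ↔ ∀ x ∈ aug H, x v = 0 := by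
  refine ⟨fun h x hx => ?_, fun h => mem_fixedSubmodule.2 fun g hg => h _ (mem_aug hg)⟩
  exact (aug_le_iff (N := LinearMap.ker (LinearMap.applyₗ v))).2 (mem_fixedSubmodule.1 h) hx

theorem range_le_commutatorSubmodule {H : Subgroup (GLM k M)} (hx : x ∈ aug H) :
    LinearMap.range x ≤ commutatorSubmodule H := by
  rintro _ ⟨v, rfl⟩
  exact (aug_le_iff (N := (commutatorSubmodule H).comap (LinearMap.applyₗ v))).2
    (fun g hg => commutatorSubmodule_le.1 le_rfl g hg ⟨v, rfl⟩) hx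

theorem fixed_EE (h : Qd G α) : fixedSubmodule (EE G α) = LinearMap.ker α := by
  ext v
  rw [le_fixed_iff_aug, aug_EE]
  exact ⟨fun h' => h' _ h.mem_cl, fun h' x hx => hx.2.1 h'⟩

theorem commutatorSubmodule_EE (h : Qd G α) : commutatorSubmodule (EE G α) = LinearMap.range α :=
  le_antisymm (commutatorSubmodule_le.2 fun _ hg => hg.2.2.1)
    (range_le_commutatorSubmodule (aug_EE.ge h.mem_cl))

/-- The endomorphisms attached to `U(E(γ))`. -/
def coreSub (γ : Module.End k M) : Submodule k (Module.End k M) where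
  carrier := {x | γ * x = 0 ∧ x * γ = 0 ∧ ∀ v, γ v = 0 → x v ∈ LinearMap.range γ}
  zero_mem' := ⟨mul_zero _, zero_mul _, fun _ _ => zero_mem _⟩
  add_mem' := fun ⟨h1, h2, h3⟩ ⟨h4, h5, h6⟩ => ⟨by rw [mul_add, h1, h4, add_zero],
    by rw [add_mul, h2, h5, add_zero], fun v hv => add_mem (h3 v hv) (h6 v hv)⟩
  smul_mem' := fun c _ ⟨h1, h2, h3⟩ => ⟨by rw [mul_smul_comm, h1, smul_zero],
    by rw [smul_mul_assoc, h2, smul_zero], fun v hv => Submodule.smul_mem _ c (h3 v hv)⟩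

theorem coreSub_mul : coreSub γ * coreSub γ ≤ coreSub γ :=
  Submodule.mul_le.2 fun x ⟨h1, h2, _⟩ y ⟨_, h5, h6⟩ => ⟨by rw [← mul_assoc, h1, zero_mul],
    by rw [mul_assoc, h5, mul_zero], fun v hv => by
      obtain ⟨w, hw⟩ := h6 v hv
      rw [Module.End.mul_apply, ← hw, ← Module.End.mul_apply, h2]; simp⟩

theorem three_lt_card_EE (h2 : (2 : k) ≠ 0) (h3 : Nat.card k ≠ 3) (h : Qd G α) (h0 : α ≠ 0) :
    3 < ENat.card (EE G α) :=
  (three_lt_card h2 h3).trans_le (ENat.card_le_card_of_injective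
    (f := fun c : k => (⟨_, unitOf_mem_EE (Submodule.smul_mem _ c h.mem_cl) (smul_sq h.sq c)⟩ : EE G α))
    fun c d e => smul_left_injective k h0 (add_left_cancel (congrArg (fun g : EE G α => g.1.val) e)))

theorem exists_sl2_alg {e f : Module.End k M} (ee : e * e = 0) (ff : f * f = 0) (efe : e * f * e = e)
    (fef : f * e * f = f) (he : e ≠ 0) : ∃ φ : Matrix.SpecialLinearGroup (Fin 2) k →* GLM k M,
      Function.Injective φ ∧ ∀ g, (φ g).val = sl2Hom (slPair_alg (k := k) ee ff efe fef) g :=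
  exists_sl2_hom (slPair_alg ee ff efe fef) he (Units.coeHom _) (fun _ _ => Units.ext)
    (fun c => ⟨unitOf _ (smul_sq ee c), by simp⟩) fun c => ⟨unitOf _ (smul_sq ff c), by simp⟩

variable [FiniteDimensional k M]

theorem rk_bracket_le (h : β * α * β = 0) : rk (α * β - β * α) ≤ rk α := by
  have h1 := rk_mul_add β α
  have h2 : LinearMap.range (α * β) ≤ LinearMap.range α ⊓ LinearMap.ker β :=
    le_inf (range_mul_le _ _) (mul_eq_zero_iff_range_le_ker.1 (by rw [← mul_assoc, h]))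
  have h2 := Submodule.finrank_mono h2
  have h4 := Submodule.finrank_mono (Nil.range_br_le α β)
  have h5 := Submodule.finrank_sup_add_finrank_inf_eq (LinearMap.range (α * β)) (LinearMap.range (β * α))
  simp only [rk] at *
  omega

variable (h2 : (2 : k) ≠ 0) (h3 : Nat.card k ≠ 3)
include h2 h3

theorem Nil.cl_le_coreSub (h : Nil G α β) : cl G α ≤ coreSub (α * β - β * α) := fun a ha =>
  ⟨(h.mul_left ha h.qd.mem_cl).2, (h.mul_left ha h.qd.mem_cl).1, fun v hv => by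
    rw [h.ranks.2.1, h.ranks.1]
    exact Submodule.mem_sup_left ⟨ha.2.2.1 ⟨v, rfl⟩,
      h.symm.mul_apply_eq_zero h2 h3 h.mb.qd.mem_cl ha (h.of_br_apply hv).2⟩⟩

theorem Nil.core (h : Nil G α β) (hG : NU G) :
    ((EE G α ⊔ EE G β : Subgroup (GLM k M)) : Set (GLM k M)) ⊆
      quadraticUnipotentCore G ⁅EE G α, EE G β⁆ := by
  intro g hg
  have k1 := h.cc h2 h3 hG
  have h4 : aug (EE G α ⊔ EE G β) ≤ coreSub (α * β - β * α) := by
    refine aug_sup_le coreSub_mul (aug_EE.le.trans (h.cl_le_coreSub h2 h3)) (aug_EE.le.trans ?_)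
    intro x hx
    obtain ⟨h4, h5, h6⟩ := h.symm.cl_le_coreSub h2 h3 hx
    rw [← neg_sub] at h4 h5 h6
    exact ⟨by simpa only [neg_mul, neg_eq_zero] using h4, by simpa only [mul_neg, neg_eq_zero] using h5,
      fun v hv => LinearMap.range_neg (α * β - β * α) ▸ h6 v (by rw [LinearMap.neg_apply, hv, neg_zero])⟩
  obtain ⟨h5, h6, h7⟩ := h4 (mem_aug hg)
  rw [k1.eq]
  refine ⟨sup_le EE_le EE_le hg, conjBy_eq_iff_mem_normalizer.1 ((k1.cA.sup_right k1.cB).conjBy_eq' hg), ?_⟩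
  rw [fixed_EE h.qd, commutatorSubmodule_EE h.qd]
  refine ⟨fun v => LinearMap.congr_fun h5 v, h7, ?_⟩
  rintro _ ⟨v, rfl⟩
  exact sub_eq_zero.1 (LinearMap.congr_fun h6 v)

theorem Min.exists_subpair (hα : Min G α) (hβ : Min G β) (h : α * β * α ≠ 0) :
    ∃ A₀ B₀, A₀ ≤ EE G α ∧ B₀ ≤ EE G β ∧ IsPSL2PairOver k A₀ B₀ := by
  obtain ⟨f, hf, e1, e2⟩ := hα.exists_partner h2 h3 hβ h
  obtain ⟨φ, hφ, e⟩ := exists_sl2_alg hα.qd.sq hf.1.sq e1 e2 hα.ne
  refine ⟨_, _, ?_, ?_, psl2_map psl2_self φ hφ⟩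
  · rintro _ ⟨g, hg, rfl⟩
    obtain ⟨t, rfl⟩ := mem_upper.1 hg
    rw [mem_EE, e, sl2Hom_uSL, add_sub_cancel_left, algρ_mul]
    exact Submodule.smul_mem _ t hα.qd.mem_cl
  · rintro _ ⟨g, hg, rfl⟩
    obtain ⟨t, rfl⟩ := mem_lower.1 hg
    rw [mem_EE, e, sl2Hom_lSL, add_sub_cancel_left, algρ_mul]
    exact Submodule.smul_mem _ t hf

theorem sigma_subpair (hG : NU G) {A B : Subgroup (GLM k M)} (hA : A ∈ quadraticRootSubgroups G)
    (hB : B ∈ quadraticRootSubgroups G) (hr : IsRankOnePair A B) :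
    IsSpecialRankOnePair A B ∧ ∃ A₀ B₀, A₀ ≤ A ∧ B₀ ≤ B ∧ IsPSL2PairOver k A₀ B₀ := by
  obtain ⟨α, hα, rfl⟩ := mem_quadraticRootSubgroups.1 hA
  obtain ⟨β, hβ, rfl⟩ := mem_quadraticRootSubgroups.1 hB
  have := hα.opp_of_rankOne h2 h3 hG hβ hr
  exact ⟨hα.special h2 h3 hβ this, hα.exists_subpair h2 h3 hβ this⟩

theorem NU.eq_zero_of_nil (hG : NU G) (hα : Min G α) (hβ : Qd G β) (hr : rk β ≤ rk α)
    (h : ∀ δ, Min G δ → δ * β * δ = 0) : β = 0 := by
  by_contra h0
  have hβ' := hα.of_le hβ h0 hr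
  obtain ⟨δ, hδ, e⟩ := hG.exists_opp h2 h3 hβ'
  exact e (hδ.nil_symm h2 h3 hβ' (h δ hδ))

theorem NU.comm_of_nil (hG : NU G) (hβ : Qd G β) (h : ∀ δ, Min G δ → δ * β * δ = 0) (hα : Min G α) :
    α * β = β * α := by
  have key : ∀ γ x, Qd G γ → (∀ δ, Min G δ → δ * x * δ = 0) →
      ∀ δ, Min G δ → δ * (γ * x - x * γ) * δ = 0 := by
    intro γ x hγ hx δ hδ
    have k1 : ∀ γ, Qd G γ → δ * ((1 + γ) * x * (1 - γ)) * δ = 0 := fun γ hγ => by
      have := congrArg (cj (unitOf γ hγ.sq)) (hx _ (hδ.conj (G.inv_mem hγ.unitOf_mem)))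
      rw [cj_mul, cj_mul, cj_cj, mul_inv_cancel, cj_one_left, cj_zero, cj_unitOf] at this
      exact this
    have := smul_eq_zero_iff_right (m := δ * (γ * x - x * γ) * δ) h2
    rw [← this, two_smul]
    linear_combination (norm := noncomm_ring) k1 γ hγ - k1 _ hγ.neg
  have aba := h α hα
  have aa : ∀ x, α * (α * x) = 0 := fun x => by rw [← mul_assoc, hα.qd.sq, zero_mul]
  have bb : ∀ x, β * (β * x) = 0 := fun x => by rw [← mul_assoc, hβ.sq, zero_mul]
  have aba' : ∀ x, α * (β * (α * x)) = 0 := fun x => by rw [← mul_assoc, ← mul_assoc, aba, zero_mul]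
  rw [mul_assoc] at aba
  have q : ∀ γ, Qd G γ → α * (γ * α) = 0 → Qd G ((1 + γ) * α * (1 - γ) - α) := fun γ hγ e =>
    (hα.qd.conj_quad hγ).sub hα.qd
      (by simp only [mul_sub, sub_mul, mul_assoc, hα.qd.sq, e, mul_zero, one_mul, sub_zero])
      (by rw [← mul_assoc, ← mul_assoc, mul_add, add_mul, mul_one, hα.qd.sq, mul_assoc α γ, e]; simp)
  have q1 := ((q β hβ aba).add (q _ hβ.neg (by simp [aba])) ?_ ?_).smul (-2⁻¹)
  rotate_left
  · simp only [mul_sub, sub_mul, mul_add, add_mul, mul_assoc, aa, bb, aba, aba', hα.qd.sq, hβ.sq, mul_zero,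
      one_mul, mul_one, mul_neg, neg_mul, sub_neg_eq_add]
    simp
  · simp only [mul_sub, sub_mul, mul_add, add_mul, mul_assoc, aa, bb, aba, aba', hα.qd.sq, hβ.sq, mul_zero,
      one_mul, mul_one, mul_neg, neg_mul, sub_neg_eq_add]
    simp
  have e1 : (-2⁻¹ : k) • ((1 + β) * α * (1 - β) - α + ((1 + -β) * α * (1 - -β) - α)) = β * α * β := by
    rw [show (1 + β) * α * (1 - β) - α + ((1 + -β) * α * (1 - -β) - α) = (-2 : k) • (β * α * β) by
      rw [neg_smul, two_smul]; noncomm_ring, smul_smul]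
    simp [h2]
  rw [e1] at q1
  have n1 := key _ _ hα.qd h
  have bab : β * α * β = 0 := by
    refine hG.eq_zero_of_nil h2 h3 hα q1 ?_ fun δ hδ => ?_
    · exact (Submodule.finrank_mono (range_mul_le _ _)).trans (rk_le_of_ker (ker_le_ker_mul _ _))
    · have := smul_eq_zero_iff_right (m := δ * (β * α * β) * δ) h2
      rw [← this, two_smul]
      linear_combination (norm := noncomm_ring) key _ _ hβ n1 δ hδ + δ * hβ.sq * α * δ + δ * α * hβ.sq * δ
  exact sub_eq_zero.1 (hG.eq_zero_of_nil h2 h3 hα (hα.qd.bracket hβ (by rwa [mul_assoc]) bab)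
    (rk_bracket_le bab) n1)

theorem NU.qd_induction (hG : NU G) {P : Module.End k M → Prop}
    (h0 : ∀ β, Qd G β → (∀ α, Min G α → α * β = β * α) → P β)
    (h1 : ∀ β₁ β₀, Min G β₁ → Qd G β₀ → β₁ * β₀ = 0 → β₀ * β₁ = 0 → P β₀ → P (β₁ + β₀))
    (hβ : Qd G β) : P β := by
  induction hn : rk β using Nat.strong_induction_on generalizing β with | _ n ih =>
  by_cases h : ∀ δ, Min G δ → δ * β * δ = 0
  · exact h0 β hβ fun α hα => hG.comm_of_nil h2 h3 hβ h hα
  push Not at h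
  obtain ⟨δ, hδ, h⟩ := h
  obtain ⟨β₁, β₀, rfl, h4, h5, h6, h7⟩ := hδ.split h2 h3 hβ h
  refine h1 _ _ h4 h5 h6 ?_ (ih _ (hn ▸ h7) h5 rfl)
  linear_combination (norm := noncomm_ring) hβ.sq - h4.qd.sq - h5.sq - h6

omit h2 h3 in
theorem comm_sigma_iff {S : Set (Subgroup (GLM k M))} (hS : S ⊆ quadraticRootSubgroups G) {g : GLM k M} :
    g ∈ Subgroup.centralizer ((⨆ A ∈ S, A : Subgroup (GLM k M)) : Set (GLM k M)) ↔
      ∀ α, Min G α → EE G α ∈ S → α * g.val = g.val * α := by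
  constructor
  · intro h α hα hS
    have := congrArg Units.val (h _ (RS.mem_iSup hS (unitOf_mem_EE hα.qd.mem_cl hα.qd.sq)))
    simp only [Units.val_mul, unitOf_val] at this
    linear_combination (norm := noncomm_ring) this
  · intro h x hx
    refine (comm_iSup_elem (fun A hA a ha => ?_) x hx).symm
    obtain ⟨α, hα, rfl⟩ := mem_quadraticRootSubgroups.1 (hS hA)
    obtain ⟨a, ha', rfl⟩ := exists_of_mem_EE ha
    by_cases h0 : a = 0
    · simp [Units.ext_iff, h0]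
    have := h a (hα.of_cl ha' h0) (by rwa [EE_congr (hα.cl_eq ha' h0)])
    apply Units.ext
    simp only [Units.val_mul, unitOf_val]
    linear_combination (norm := noncomm_ring) -this

theorem NU.sigma_sup_centralizer (hG : NU G) (hg : Subgroup.closure (quadraticElements G) = G) :
    (⨆ A ∈ quadraticRootSubgroups G, A) ⊔ (G ⊓ Subgroup.centralizer
      ((⨆ A ∈ quadraticRootSubgroups G, A : Subgroup (GLM k M)) : Set (GLM k M))) = G := by
  refine le_antisymm (sup_le (iSup₂_le fun A hA => le_of_mem_sigma hA) inf_le_left)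
    (hg.ge.trans ((Subgroup.closure_le _).2 fun σ hσ => ?_))
  refine hG.qd_induction h2 h3 (P := fun β => ∀ g ∈ G, g.val = 1 + β → g ∈ _) (fun β _ h g hg e => ?_)
    (fun β₁ β₀ h4 h5 h6 _ ih g _ e => ?_) (mem_quadraticElements.1 hσ).1 σ hσ.1 (by simp)
  · exact Subgroup.mem_sup_right ⟨hg, (comm_sigma_iff le_rfl).2 fun α hα _ => by
      rw [e, mul_add, add_mul, h α hα, mul_one, one_mul]⟩
  · rw [show g = unitOf β₁ h4.qd.sq * unitOf β₀ h5.sq from Units.ext (by
      simp only [e, Units.val_mul, unitOf_val]; linear_combination (norm := noncomm_ring) -h6)]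
    exact mul_mem (Subgroup.mem_sup_left (RS.mem_iSup (mem_quadraticRootSubgroups.2 ⟨_, h4, rfl⟩)
      (unitOf_mem_EE h4.qd.mem_cl _))) (ih _ h5.unitOf_mem rfl)

theorem finite_components (hG : NU G) :
    (componentOf (FAdj (quadraticRootSubgroups G)) (quadraticRootSubgroups G) ''
      quadraticRootSubgroups G).Finite := by
  obtain ⟨T, hT, e⟩ := (Submodule.fg_span_iff_fg_span_finset_subset {α | Min G α}).1
    (IsNoetherian.noetherian (R := k) _)
  refine (T.finite_toSet.image fun α => componentOf (FAdj (quadraticRootSubgroups G))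
    (quadraticRootSubgroups G) (EE G α)).subset ?_
  rintro _ ⟨A, hA, rfl⟩
  obtain ⟨β, hβ, rfl⟩ := mem_quadraticRootSubgroups.1 hA
  by_contra hn
  obtain ⟨δ, hδ, h⟩ := hG.exists_opp h2 h3 hβ
  have : ∀ x ∈ Submodule.span k (T : Set (Module.End k M)), β * x = x * β := by
    intro x hx
    induction hx using Submodule.span_induction with
    | mem α hα =>
      refine comm_EE_iff.1 ((rs_sigma h2 h3 hG).comm_of_not_fconn (ni_sigma h2 h3 hG) hA
        (mem_quadraticRootSubgroups.2 ⟨α, hT hα, rfl⟩) fun hc => hn ⟨α, hα, (component_eq hc).symm⟩)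
        _ hβ.qd.mem_cl _ (hT hα).qd.mem_cl
    | zero => simp
    | add x y _ _ hx hy => rw [mul_add, add_mul, hx, hy]
    | smul c x _ hx => rw [mul_smul_comm, smul_mul_assoc, hx]
  exact h (by rw [this δ (e ▸ Submodule.subset_span hδ), mul_assoc, hβ.qd.sq, mul_zero])

omit h2 h3 in
theorem sigma_normal {g : GLM k M} (hg : g ∈ G) :
    conjBy (⨆ A ∈ quadraticRootSubgroups G, A) g = ⨆ A ∈ quadraticRootSubgroups G, A :=
  conjBy_iSup_eq (fun _ hA => conjBy_mem_sigma hA hg) fun _ hA => conjBy_mem_sigma hA (G.inv_mem hg)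

omit h2 h3 in
theorem sigma_le : (⨆ A ∈ quadraticRootSubgroups G, A) ≤ G := iSup₂_le fun _ hA => le_of_mem_sigma hA

theorem component_quasisimple (hG : NU G) {A : Subgroup (GLM k M)} (hA : A ∈ quadraticRootSubgroups G) :
    IsQuasisimple ↥(⨆ B ∈ componentOf (FAdj (quadraticRootSubgroups G)) (quadraticRootSubgroups G) A, B) := by
  have h := rs_sigma h2 h3 hG
  have hn := ni_sigma h2 h3 hG
  have hH : NU (⨆ B ∈ componentOf (FAdj (quadraticRootSubgroups G)) (quadraticRootSubgroups G) A, B) :=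
    (hG.of_normal sigma_le fun g hg => sigma_normal hg).of_normal component_le fun g hg =>
      conjBy_iSup_eq (fun _ hB => h.conj_mem_component hn hB hg)
        fun _ hB => h.conj_mem_component hn hB (Subgroup.inv_mem _ hg)
  have hp : ∀ B ∈ componentOf (FAdj (quadraticRootSubgroups G)) (quadraticRootSubgroups G) A,
      ∀ C ∈ componentOf (FAdj (quadraticRootSubgroups G)) (quadraticRootSubgroups G) A,
      IsRankOnePair B C → B ≤ ⁅B ⊔ C, B ⊔ C⁆ := fun B hB C hC hr => by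
    refine Sp.left_le_commutator (sigma_subpair h2 h3 hG hB.1 hC.1 hr).1 (h.comm B hB.1) (h.comm C hC.1) ?_
    obtain ⟨α, hα, rfl⟩ := mem_quadraticRootSubgroups.1 hB.1
    exact three_lt_card_EE h2 h3 hα.qd hα.ne
  have hS : componentOf (FAdj (quadraticRootSubgroups G)) (quadraticRootSubgroups G) A ⊆
      quadraticRootSubgroups G := fun _ hB => hB.1
  have hA' := self_mem_component hA
  have h' := h.component (A := A) hn
  have hn' := ni_component (A := A) hn
  have hc := fconn_component (S := quadraticRootSubgroups G) (A := A)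
  generalize componentOf (FAdj (quadraticRootSubgroups G)) (quadraticRootSubgroups G) A = S at *
  refine Sig.isQuasisimple_subgroup_iff.2 ⟨fun e => h.ne_bot A hA (le_bot_iff.1 (e ▸ le_iSup_of_mem hA')),
    RS.perfect hn' hc (Or.inr hp), fun N hle hN => ?_⟩
  have hN' : ∀ g ∈ (⨆ B ∈ S, B), conjBy N g = N := fun g hg => conjBy_eq_iff_mem_normalizer.2 (hN hg)
  refine (h'.normal_dichotomy hn' hc hle hN' (Or.inr hp)).imp (le_antisymm hle) fun h1 => ?_
  refine comm_iff_le_centralizer.1 fun n hn x hx => comm_iSup_elem (fun B hB b hb => ?_) x hx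
  let W := {C | ∃ n ∈ N, C = conjBy B n}
  have hW : ∀ C ∈ W, ∀ n ∈ N, conjBy C n ∈ W := by
    rintro _ ⟨m, hm, rfl⟩ n hn
    exact ⟨n * m, N.mul_mem hn hm, by simp⟩
  have hWc : ∀ C ∈ W, ∀ D ∈ W, Comm C D := by
    rintro _ ⟨m, hm, rfl⟩ _ ⟨n, hn, rfl⟩
    have hC := h'.conj_mem_iSup hB (hle hm)
    simpa using h1 _ hC (n * m⁻¹) (N.mul_mem hn (N.inv_mem hm)) _ hC (h'.comm _ hC)
  have hu : IsUnipotentOn (⨆ C ∈ W, C) := by
    refine isUnipotentOn_iSup (fun C hC D hD c hc => by rwa [(hWc C hC D hD).conjBy_eq hc]) ?_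
    rintro _ ⟨m, hm, e1⟩ _ ⟨n, hn, e2⟩
    have hc := hWc _ ⟨m, hm, e1⟩ _ ⟨n, hn, e2⟩
    obtain ⟨α, hα, rfl⟩ := mem_quadraticRootSubgroups.1 (e1 ▸ hS (h'.conj_mem_iSup hB (hle hm)))
    obtain ⟨β, hβ, rfl⟩ := mem_quadraticRootSubgroups.1 (e2 ▸ hS (h'.conj_mem_iSup hB (hle hn)))
    refine (hα.aug_le h2 h3 hβ ?_).2
    rw [comm_EE_iff.1 hc _ hα.qd.mem_cl _ hβ.qd.mem_cl, mul_assoc, hα.qd.sq, mul_zero]
  have := hH.of_normal hle hN' (N ⊓ ⨆ C ∈ W, C) inf_le_left (fun g hg => by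
    rw [conjBy_inf, conjBy_of_mem hg, conjBy_iSup_eq (fun C hC => hW C hC g hg)
      fun C hC => hW C hC _ (N.inv_mem hg)]) (unip_mono hu inf_le_right)
  have h4 : n * b * n⁻¹ * b⁻¹ ∈ N ⊓ ⨆ C ∈ W, C := by
    refine Subgroup.mem_inf.2 ⟨?_, Subgroup.mul_mem _ (RS.mem_iSup (S := W) ⟨n, hn, rfl⟩ (conj_mem_conjBy n hb))
      (RS.mem_iSup (S := W) ⟨1, N.one_mem, by simp⟩ (B.inv_mem hb))⟩
    have := N.mul_mem hn (hN' b (RS.mem_iSup hB hb) ▸ conj_mem_conjBy b (N.inv_mem hn))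
    simpa only [mul_assoc] using this
  rw [this, Subgroup.mem_bot, mul_inv_eq_one, mul_inv_eq_iff_eq_mul] at h4
  exact h4

end Cfsg.Agent.Root
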