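import Cfsg.Agent.Root.RootSet

/-! Abstract root subgroups: degenerate sets (`RS.comm_of_comm_mul`), lines (`Line S A B`: the members of
`S` in `AB` partition `AB`), the structure of lines, invariance of the components of the graph of
rank one pairs, double transitivity on lines. -/

namespace Cfsg.Agent.Root
open Cfsg

variable {G : Type*} [Group G] {S : Set (Subgroup G)} {A B C D E F : Subgroup G}

theorem RS.degenerate_iff (h : RS S) :
    IsDegenerateRootSet S ↔ ∀ A ∈ S, ∀ B ∈ S, Comm A B ∨ IsRankOnePair A B := by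
  constructor
  · intro hd A hA B hB
    rcases h.pair A hA B hB with e | e | ⟨C, hC, e⟩
    · exact Or.inl e
    · exact Or.inr e
    · exact absurd (rootCommutatorCase_iff.2 ⟨e.eq ▸ hC, e.eq ▸ e⟩) (hd A hA B hB)
  · intro hd A hA B hB hc
    rw [rootCommutatorCase_iff] at hc
    rcases hd A hA B hB with e | e
    · exact h.not_comm_of_cc hA hc.1 hc.2 e
    · exact h.not_cc hB e hc.2

/-- In the degenerate case, a root subgroup centralizing a product `a b ≠ 1` of commuting root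
elements centralizes the root subgroups containing them. -/
theorem RS.comm_of_comm_mul (h : RS S) (hd : ∀ A ∈ S, ∀ B ∈ S, Comm A B ∨ IsRankOnePair A B)
    (hA : A ∈ S) (hB : B ∈ S) (hC : C ∈ S) {a b : G} (ha : a ∈ A) (ha1 : a ≠ 1) (hb : b ∈ B)
    (hab : a * b = b * a) (hab1 : a * b ≠ 1) (hc : ∀ c ∈ C, a * b * c = c * (a * b)) :
    Comm A C := by
  refine (hd A hA C hC).resolve_right fun hr => ?_
  have hb1 : b ≠ 1 := by
    rintro rfl
    obtain ⟨c, hc', hc1⟩ := R1.exists_right hr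
    exact R1.not_mul_comm hr ha ha1 hc' hc1 (by simpa using hc c hc')
  have hAB : Comm A B := (hd A hA B hB).resolve_right fun hr' =>
    R1.not_mul_comm hr' ha ha1 hb hb1 hab
  have := h.eq_of_mul_mem hA hC hr hB (z := a * b) (a := a⁻¹)
    (fun x hx => by
      have h1 : Commute a x := h.comm A hA a ha x hx
      have h2 : Commute b x := (hAB x hx b hb).symm
      exact h1.mul_left h2) hc (A.inv_mem ha) (inv_ne_one.2 ha1) (by rw [hab]; simpa using hb)
  exact hab1 this.2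

/-- `B` is a line partner of `A`, in a convenient form. -/
structure Line (S : Set (Subgroup G)) (A B : Subgroup G) : Prop where
  ne : A ≠ B
  comm : Comm A B
  cover : ∀ a ∈ A, ∀ b ∈ B, a * b ≠ 1 → ∃ E ∈ S, E ≤ A ⊔ B ∧ a * b ∈ E

theorem Line.symm (l : Line S A B) : Line S B A :=
  ⟨l.ne.symm, l.comm.symm, fun b hb a ha h => by
    rw [← l.comm a ha b hb] at h ⊢; rw [sup_comm]; exact l.cover a ha b hb h⟩

theorem Line.cover' (l : Line S A B) {x : G} (hx : x ∈ A ⊔ B) (hx1 : x ≠ 1) :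
    ∃ E ∈ S, E ≤ A ⊔ B ∧ x ∈ E := by
  obtain ⟨a, ha, b, hb, rfl⟩ := l.comm.mem_sup.1 hx
  exact l.cover a ha b hb hx1

theorem line_of_mem (h : B ∈ linePartners S A) : Line S A B := by
  obtain ⟨⟨-, h1, h2⟩, -, h3, -⟩ := h
  refine ⟨h1.symm, comm_iff.1 h2, fun a ha b hb hab => ?_⟩
  obtain ⟨E, hE, hx⟩ := h3 _ (Subgroup.mul_mem_sup ha hb) hab
  exact ⟨E, hE.1, hE.2, hx⟩

theorem Line.mem (l : Line S A B) (h : RS S) (hB : B ∈ S) (hn : ∀ E ∈ S, E ≤ A ⊔ B → NI S E) :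
    B ∈ linePartners S A := by
  refine ⟨⟨hB, l.ne.symm, comm_iff.2 l.comm⟩, fun C hC => hC.2, fun x hx hx1 => ?_, ?_⟩
  · obtain ⟨E, hE, h1, h2⟩ := l.cover' hx hx1
    exact ⟨E, ⟨hE, h1⟩, h2⟩
  · intro C hC D hD hne
    rw [eq_bot_iff]
    rintro x ⟨hxC, hxD⟩
    by_contra hx
    exact hne (h.ti hD.1 (hn D hD.1 hD.2) hC.1 hxD hxC hx)

theorem Line.conj (l : Line S A B) {g : G} (hg : ∀ E ∈ S, conjBy E g ∈ S) :
    Line S (conjBy A g) (conjBy B g) := by
  refine ⟨fun e => l.ne (conjBy_inj.1 e), l.comm.conj g, ?_⟩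
  intro a' ha' b' hb' hab
  obtain ⟨a, ha, rfl⟩ := mem_conjBy'.1 ha'
  obtain ⟨b, hb, rfl⟩ := mem_conjBy'.1 hb'
  obtain ⟨E, hE, h1, h2⟩ := l.cover a ha b hb (fun e => hab (by
    calc _ = g * (a * b) * g⁻¹ := by group
      _ = 1 := by rw [e]; group))
  refine ⟨_, hg E hE, by rw [← conjBy_sup]; exact conjBy_mono g h1, ?_⟩
  convert conj_mem_conjBy g h2 using 1; group

theorem Line.comm_sup (l : Line S A B) (hA : Comm A A) (hB : Comm B B) : Comm (A ⊔ B) (A ⊔ B) :=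
  (hA.sup_right l.comm).sup_left (l.comm.symm.sup_right hB)

namespace RS

theorem cc_cover (h : RS S) (hA : A ∈ S) (hc : CC A B C) {a c : G} (ha : a ∈ A) (ha1 : a ≠ 1)
    (hcC : c ∈ C) : ∃ b ∈ B, a * c = b * a * b⁻¹ := by
  obtain ⟨b, hb, e⟩ := hc.symm.surjR a ha ha1 c hcC
  exact ⟨b, hb, by rw [← hc.cA c hcC a ha, e]; group⟩

theorem cc_line (h : RS S) (hA : A ∈ S) (hB : B ∈ S) (hC : C ∈ S) (hc : CC A B C) : Line S A C := by
  refine ⟨?_, hc.cA.symm, fun a ha c hcC hac => ?_⟩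
  · rintro rfl; exact h.not_comm_of_cc hA hA hc hc.cB
  · by_cases ha1 : a = 1
    · exact ⟨C, hC, le_sup_right, by simpa [ha1] using hcC⟩
    · obtain ⟨b, hb, e⟩ := h.cc_cover hA hc ha ha1 hcC
      exact ⟨_, h.conj_mem A hA B hB b hb, hc.conjBy_le' hb, e ▸ conj_mem_conjBy b ha⟩

/-- no non-identity element of `C = ⁅A, B⁆` centralizes a rank one partner of `A`. -/
theorem cc_not_comm_partner (h : RS S) (hA : A ∈ S) (hB : B ∈ S) (hc : CC A B C)
    (hD : D ∈ S) (hr : IsRankOnePair A D) {c : G} (hcC : c ∈ C) (hcD : ∀ d ∈ D, c * d = d * c) :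
    c = 1 := by
  obtain ⟨a, ha, ha1⟩ := R1.exists_left hr
  obtain ⟨b, hb, e⟩ := h.cc_cover hA hc ha ha1 hcC
  refine (h.eq_of_mul_mem hA hD hr (h.conj_mem A hA B hB b hb) (hc.cA c hcC) hcD ha ha1 ?_).2
  rw [hc.cA c hcC a ha, e]; exact conj_mem_conjBy b ha

/-- The members of `S` in `A C`, where `C = ⁅A, B⁆` and `A` is not isolated. -/
theorem cc_members (h : RS S) (hA : A ∈ S) (hn : NI S A) (hB : B ∈ S) (hC : C ∈ S)
    (hc : CC A B C) (hE : E ∈ S) (hle : E ≤ A ⊔ C) : (∃ b ∈ B, E = conjBy A b) ∨ E = C := by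
  by_cases hEC : E ≤ C
  · right
    obtain ⟨D, hD, hr⟩ := hn
    obtain ⟨e, he, he1⟩ := h.exists_ne_one hE
    rcases h.pair E hE D hD with h1 | h1 | ⟨F, hF, h1⟩
    · exact absurd (h.cc_not_comm_partner hA hB hc hD hr (hEC he) (h1 e he)) he1
    · exact (h.ti hE ⟨D, hD, h1⟩ hC he (hEC he) he1).symm
    rcases h.pair C hC D hD with h2 | h2 | ⟨F', hF', h2⟩
    · exact absurd (h.cc_not_comm_partner hA hB hc hD hr (hEC he) (h2 e (hEC he))) he1
    · exact h.ti hC ⟨D, hD, h2⟩ hE (hEC he) he he1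
    refine le_antisymm hEC fun c hcC => ?_
    obtain ⟨d, hd, hd1⟩ := h.exists_ne_one hD
    obtain ⟨d', hd', e1⟩ := h2.surjL e (hEC he) he1 _ (h2.mem hcC hd)
    obtain ⟨e', he', e2⟩ := h1.surjR d hd hd1 _ (h1.mem he hd')
    rw [← e1] at e2
    by_contra hne
    have h3 : e'⁻¹ * c ≠ 1 := fun e3 => hne (by rw [← inv_mul_eq_one.1 e3]; exact he')
    apply h.cc_not_mul_comm hD ⟨A, hA, R1.symm hr⟩ hC hF' h2.symm hd hd1
      (C.mul_mem (C.inv_mem (hEC he')) hcC) h3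
    calc d * (e'⁻¹ * c) = e'⁻¹ * (e' * d * e'⁻¹ * d⁻¹) * d * c := by group
      _ = _ := by rw [← e2]; group
  · left
    obtain ⟨x, hxE, hxC⟩ := SetLike.not_le_iff_exists.1 hEC
    obtain ⟨a, ha, c, hcC, rfl⟩ := hc.cA.symm.mem_sup.1 (hle hxE)
    have ha1 : a ≠ 1 := by rintro rfl; exact hxC (by simpa using hcC)
    obtain ⟨b, hb, e⟩ := h.cc_cover hA hc ha ha1 hcC
    refine ⟨b, hb, h.ti (h.conj_mem A hA B hB b hb) (h.ni_conj' hn hB hb) hE
      (e ▸ conj_mem_conjBy b ha) hxE fun e' => hxC (e' ▸ C.one_mem)⟩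

/-- Triangle lemma, for a root element `a c`. -/
theorem triangle_mul (h : RS S) (hA : A ∈ S) (hB : B ∈ S) (hr : IsRankOnePair A B) (hC : C ∈ S)
    (hD : D ∈ S) (hCA : Comm C A) (hc : CC B C D) (hF : CC A D F) (hE : E ∈ S) {a c : G}
    (ha : a ∈ A) (ha1 : a ≠ 1) (hcC : c ∈ C) (hm : a * c ∈ E) :
    c ∈ F ∧ (∃ d ∈ D, E = conjBy A d) ∧ ∃ n ∈ A ⊔ B, n * c * n⁻¹ ∈ D := by
  obtain ⟨F', -, hF', hFC, key⟩ := h.triangle hA hB hr hC hD hCA hc
  obtain rfl := hF.unique hF'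
  obtain ⟨b, hb, -, e⟩ := R1.ex_left hr ha ha1
  have k := key a ha b hb e c hcC
  set d := b * c * b⁻¹ * c⁻¹ with hd
  have hdD : d ∈ D := hc.mem hb hcC
  set f := a⁻¹ * d * a * d⁻¹ with hf
  have hfF : f ∈ F := by simpa using hF.mem (A.inv_mem ha) hdD
  obtain ⟨d', hd', e'⟩ := h.cc_cover hA hF ha ha1 (F.inv_mem hfF)
  have hzA : ∀ x ∈ A, c * f * x = x * (c * f) := fun x hx =>
    (show Commute c x from hCA c hcC x hx).mul_left (hF.cA f hfF x hx)
  have hzD : ∀ x ∈ D, Commute (c * f) x := fun x hx =>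
    (show Commute c x from (hc.cB x hx c hcC).symm).mul_left (hF.cB f hfF x hx)
  have hr' : IsRankOnePair (conjBy A d') B := by
    have := R1.conj hr d'
    rwa [hc.cA.conjBy_eq hd'] at this
  have := h.eq_of_mul_mem (h.conj_mem A hA D hD d' hd') hB hr' hE (z := c * f)
    (a := d' * a * d'⁻¹) (fun x hx => by
      obtain ⟨y, hy, rfl⟩ := mem_conjBy'.1 hx
      exact ((hzD d' hd').mul_right (hzA y hy)).mul_right (hzD d' hd').inv_right) k
    (conj_mem_conjBy d' ha) (by simpa using ha1) (by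
      rw [← e', ← mul_assoc, hzA a ha]; simpa [mul_assoc] using hm)
  refine ⟨?_, ⟨d', hd', this.1⟩, a⁻¹ * b, Subgroup.mul_mem_sup (A.inv_mem ha) hb, ?_⟩
  · rw [eq_inv_of_mul_eq_one_left this.2]; exact F.inv_mem hfF
  · have h5 : Commute c a := hCA c hcC a ha
    have e2 : a⁻¹ * b * c * (a⁻¹ * b)⁻¹ = f * d * c := by
      calc _ = a⁻¹ * d * (c * a) := by rw [hd]; group
        _ = _ := by rw [h5.eq, hf]; group
    rw [e2, mul_assoc, hc.cB d hdD c hcC, ← mul_assoc, hFC f hfF c hcC, this.2, one_mul]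
    exact hdD

/-- If `C` is a non-isolated line partner of `A` not opposite to `B ∈ Ω_A` then, with `D = ⁅B, C⁆`,
`C = ⁅A, D⁆`. -/
theorem line_partner (h : RS S) (hA : A ∈ S) (hB : B ∈ S) (hr : IsRankOnePair A B) (hC : C ∈ S)
    (hn : NI S C) (hne : A ≠ C) (hCA : Comm C A) {a c : G} (ha : a ∈ A) (ha1 : a ≠ 1)
    (hcC : c ∈ C) (hc1 : c ≠ 1) (hE : E ∈ S) (hm : a * c ∈ E) (hCB : ¬ IsRankOnePair C B) :
    ∃ D ∈ S, CC B C D ∧ CC A D C ∧ ∃ n ∈ A ⊔ B, D = conjBy C n := by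
  rcases h.pair B hB C hC with h1 | h1 | ⟨D, hD, h1⟩
  · exact absurd (h.eq_of_mul_mem hA hB hr hE (hCA c hcC) (fun x hx => (h1 x hx c hcC).symm)
      ha ha1 (by rwa [hCA c hcC a ha])).2 hc1
  · exact absurd (R1.symm h1) hCB
  obtain ⟨F, hF, hF', -⟩ := h.triangle hA hB hr hC hD hCA h1
  obtain ⟨k1, -, n, hn', k2⟩ := h.triangle_mul hA hB hr hC hD hCA h1 hF' hE ha ha1 hcC hm
  obtain rfl := h.ti hC hn hF hcC k1 hc1
  refine ⟨D, hD, h1, hF', n, hn', ?_⟩
  obtain ⟨K, hK, hK'⟩ := hn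
  exact h.ti (h.conj_mem_sup hF hA hB hn') ⟨_, h.conj_mem_sup hK hA hB hn', R1.conj hK' n⟩ hD
    (conj_mem_conjBy n hcC) k2 (by simpa using hc1)

theorem line_mul_ne_one (h : RS S) (hA : A ∈ S) (hn : NI S A) (hC : C ∈ S) (hne : A ≠ C) {a c : G}
    (ha : a ∈ A) (ha1 : a ≠ 1) (hc : c ∈ C) : a * c ≠ 1 := fun e =>
  hne (h.ti hA hn hC ha (by rw [eq_inv_of_mul_eq_one_left e]; exact C.inv_mem hc) ha1).symm

/-- Structure of a line: if all members of `S` on the line `A C` are non-isolated and `B ∈ Ω_A`, there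
is a member `C₀` of the line with `C₀ = ⁅A, D⁆`, `D = ⁅B, C₀⁆` and `A C₀ = A C`. -/
theorem line_structure (h : RS S) (hA : A ∈ S) (hB : B ∈ S) (hr : IsRankOnePair A B) (hC : C ∈ S)
    (l : Line S A C) (hn : ∀ E ∈ S, E ≤ A ⊔ C → NI S E) :
    ∃ C₀ ∈ S, ∃ D ∈ S, CC B C₀ D ∧ CC A D C₀ ∧ A ⊔ C₀ = A ⊔ C ∧ ∃ n ∈ A ⊔ B, D = conjBy C₀ n := by
  have hnA : NI S A := ⟨B, hB, hr⟩
  by_cases hCB : IsRankOnePair C B
  · obtain ⟨c, hc, hc1⟩ := h.exists_ne_one hC
    obtain ⟨b, hb, hb1, e1⟩ := R1.ex_left hCB hc hc1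
    obtain ⟨a, ha, ha1, e2⟩ := R1.ex_right hr hb hb1
    have h1 : Comm (conjBy B a) (conjBy B c) := e1 ▸ e2 ▸ l.comm.conj b
    have h2 : Comm B (conjBy B (a⁻¹ * c)) := by simpa using h1.conj a⁻¹
    have hac := h.line_mul_ne_one hA hnA hC l.ne (A.inv_mem ha) (inv_ne_one.2 ha1) hc
    obtain ⟨L, hL, hLle, hm⟩ := l.cover _ (A.inv_mem ha) c hc hac
    have hLB : ¬ IsRankOnePair L B := fun hr' => R1.not_comm (R1.pair_conj_left hr' hm hac).1 h2
    have hLA : A ≠ L := by rintro rfl; exact hLB hr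
    have hcomm : Comm L A :=
      (l.comm_sup (h.comm A hA) (h.comm C hC)).mono hLle le_sup_left
    obtain ⟨D, hD, k1, k2, k3⟩ := h.line_partner hA hB hr hL (hn L hL hLle) hLA hcomm ha ha1 hm hac hC
      (by simpa using hc) hLB
    refine ⟨L, hL, D, hD, k1, k2, le_antisymm (sup_le le_sup_left hLle) (sup_le le_sup_left ?_), k3⟩
    obtain ⟨d, hd, e⟩ := h.cc_cover hA k2 ha ha1 hm
    rw [mul_inv_cancel_left] at e
    rw [← h.ti hC ⟨B, hB, hCB⟩ (h.conj_mem A hA D hD d hd) hc (e ▸ conj_mem_conjBy d ha) hc1]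
    exact k2.conjBy_le' hd
  · obtain ⟨c, hc, hc1⟩ := h.exists_ne_one hC
    obtain ⟨a, ha, ha1⟩ := h.exists_ne_one hA
    obtain ⟨L, hL, -, hm⟩ := l.cover a ha c hc (h.line_mul_ne_one hA hnA hC l.ne ha ha1 hc)
    obtain ⟨D, hD, k1, k2, k3⟩ := h.line_partner hA hB hr hC (hn C hC le_sup_right) l.ne l.comm.symm
      ha ha1 hc hc1 hL hm hCB
    exact ⟨C, hC, D, hD, k1, k2, rfl, k3⟩

end RS

/-- Connectedness in the graph of rank one pairs. -/
abbrev FConn (S : Set (Subgroup G)) (A B : Subgroup G) : Prop := Relation.ReflTransGen (FAdj S) A B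

theorem fadj_symm (h : FAdj S A B) : FAdj S B A := ⟨h.2.1, h.1, R1.symm h.2.2⟩

theorem FConn.symm (h : FConn S A B) : FConn S B A := by
  induction h with
  | refl => exact Relation.ReflTransGen.refl
  | tail _ h ih => exact Relation.ReflTransGen.head (fadj_symm h) ih

theorem FConn.of_pair (hA : A ∈ S) (hB : B ∈ S) (h : IsRankOnePair A B) : FConn S A B :=
  Relation.ReflTransGen.single ⟨hA, hB, h⟩

theorem FConn.mem (h : FConn S A B) (hA : A ∈ S) : B ∈ S := by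
  induction h with
  | refl => exact hA
  | tail _ h _ => exact h.2.1

theorem FConn.ni (h : FConn S A B) (hA : NI S A) : NI S B := by
  induction h with
  | refl => exact hA
  | tail _ h _ => exact ⟨_, h.1, R1.symm h.2.2⟩

theorem FConn.conj (h : FConn S A B) {g : G} (hg : ∀ E ∈ S, conjBy E g ∈ S) :
    FConn S (conjBy A g) (conjBy B g) := by
  induction h with
  | refl => exact Relation.ReflTransGen.refl
  | tail _ h ih => exact ih.tail ⟨hg _ h.1, hg _ h.2.1, R1.conj h.2.2 g⟩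

theorem ni_of_fconn (h : FConn S A B) (hne : B ≠ A) : NI S A := by
  rcases h.cases_head with e | ⟨C, hC, -⟩
  · exact absurd e.symm hne
  · exact ⟨C, hC.2.1, hC.2.2⟩

/-- connected vertices are conjugate under the subgroup generated by their component. -/
theorem FConn.exists_conj (h : FConn S A B) :
    ∃ g ∈ (⨆ E ∈ componentOf (FAdj S) S A, E), B = conjBy A g := by
  induction h with
  | refl => exact ⟨1, Subgroup.one_mem _, by simp⟩
  | @tail B C h1 h2 ih =>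
    obtain ⟨g, hg, rfl⟩ := ih
    obtain ⟨x, hx, e⟩ := R1.exists_conj_eq h2.2.2
    refine ⟨x * g, Subgroup.mul_mem _ ?_ hg, by rw [← e]; simp⟩
    refine (sup_le ?_ ?_ : _ ≤ ⨆ E ∈ componentOf (FAdj S) S A, E) hx
    · exact le_iSup₂_of_le (f := fun E (_ : E ∈ componentOf (FAdj S) S A) => E) _ ⟨h2.1, h1⟩ le_rfl
    · exact le_iSup₂_of_le (f := fun E (_ : E ∈ componentOf (FAdj S) S A) => E) _
        ⟨h2.2.1, h1.tail h2⟩ le_rfl

namespace RS

theorem fconn_conj_mem (h : RS S) (hA : A ∈ S) (hn : NI S A) (hE : E ∈ S) {e : G} (he : e ∈ E) :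
    FConn S A (conjBy A e) := by
  have hA' := h.conj_mem A hA E hE e he
  rcases h.pair A hA E hE with h1 | h1 | ⟨F, hF, h1⟩
  · rw [h1.conjBy_eq' he]
  · refine (FConn.of_pair hA hE h1).trans (FConn.of_pair hE hA' ?_)
    have := R1.conj (R1.symm h1) e
    rwa [conjBy_of_mem he] at this
  obtain ⟨B, hB, hr⟩ := hn
  obtain ⟨a, ha, ha1⟩ := h.exists_ne_one hA
  rcases h.pair B hB F hF with h2 | h2 | ⟨D, hD, h2⟩
  · obtain ⟨f, hf, hf1⟩ := h.exists_ne_one hF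
    exact absurd (h.cc_not_comm_partner hA hE h1 hB hr hf fun d hd => (h2 d hd f hf).symm) hf1
  · have hB' := h.conj_mem B hB E hE e he
    have h3 := R1.conj (R1.symm h2) e
    rw [h1.cB.conjBy_eq' he] at h3
    exact (((FConn.of_pair hA hB hr).trans (FConn.of_pair hB hF h2)).trans
      (FConn.of_pair hF hB' h3)).trans (FConn.of_pair hB' hA' (R1.conj (R1.symm hr) e))
  · obtain ⟨F', -, hF', -⟩ := h.triangle hA hB hr hF hD h1.cA h2
    have hf := h1.symm.mem he ha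
    obtain ⟨-, ⟨d, hd, e1⟩, -⟩ := h.triangle_mul hA hB hr hF hD h1.cA h2 hF' hA' ha ha1 hf (by
      rw [← h1.cA _ hf a ha]; simpa using conj_mem_conjBy e ha)
    refine (FConn.of_pair hA hB hr).trans (FConn.of_pair hB hA' ?_)
    have := R1.conj (R1.symm hr) d
    rwa [h2.cA.conjBy_eq hd, ← e1] at this

/-- The components of the graph of rank one pairs of size `> 1` are invariant under `⟨S⟩`. -/
theorem fconn_conj (h : RS S) (hA : A ∈ S) (hn : NI S A) {g : G} (hg : g ∈ ⨆ B ∈ S, B) :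
    FConn S A (conjBy A g) := by
  refine conjBy_mem_of_iSup (P := {C | FConn S A C}) ?_ g hg A Relation.ReflTransGen.refl
  intro E hE e he C hC
  exact Relation.ReflTransGen.trans hC (h.fconn_conj_mem (FConn.mem hC hA) (FConn.ni hC hn) hE he)

theorem mem_iSup (hA : A ∈ S) {a : G} (ha : a ∈ A) : a ∈ ⨆ B ∈ S, B :=
  (le_iSup₂_of_le (f := fun B (_ : B ∈ S) => B) A hA le_rfl : A ≤ _) ha

theorem mem_iSup_sup (hA : A ∈ S) (hB : B ∈ S) {a : G} (ha : a ∈ A ⊔ B) : a ∈ ⨆ B ∈ S, B :=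
  (sup_le (fun _ => mem_iSup hA) (fun _ => mem_iSup hB) : A ⊔ B ≤ _) ha

/-- Non-isolated collinear root subgroups lie in the same component. -/
theorem fconn_of_line (h : RS S) (hA : A ∈ S) (hB : B ∈ S) (hnA : NI S A) (hnB : NI S B)
    (l : Line S A B) : FConn S A B := by
  by_contra hcon
  have key : ∀ {A B : Subgroup G}, A ∈ S → B ∈ S → NI S A → NI S B → Line S A B → ¬ FConn S A B →
      ∃ D ∈ S, CC A D B := by
    intro A B hA hB hnA hnB l hcon
    obtain ⟨A', hA', hr⟩ := id hnA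
    obtain ⟨a, ha, ha1⟩ := h.exists_ne_one hA
    obtain ⟨b, hb, hb1⟩ := h.exists_ne_one hB
    obtain ⟨L, hL, -, hm⟩ := l.cover a ha b hb (h.line_mul_ne_one hA hnA hB l.ne ha ha1 hb)
    obtain ⟨D, hD, -, k, -⟩ := h.line_partner hA hA' hr hB hnB l.ne l.comm.symm ha ha1 hb hb1 hL hm
      fun hr' => hcon ((FConn.of_pair hA hA' hr).trans (FConn.of_pair hA' hB (R1.symm hr')))
    exact ⟨D, hD, k⟩
  obtain ⟨D, hD, k1⟩ := key hA hB hnA hnB l hcon
  obtain ⟨D', hD', k2⟩ := key hB hA hnB hnA l.symm fun e => hcon e.symm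
  obtain ⟨d, hd, hd1⟩ := h.exists_ne_one hD
  have hAd := h.conj_mem A hA D hD d hd
  rcases h.cc_members hB hnB hD' hA k2 hAd (by rw [sup_comm]; exact k1.conjBy_le' hd) with
    ⟨d', hd', e⟩ | e
  · exact hcon ((h.fconn_conj_mem hA hnA hD hd).trans
      (e ▸ (h.fconn_conj_mem hB hnB hD' hd').symm))
  · obtain ⟨a, ha, ha1⟩ := h.exists_ne_one hA
    apply h.cc_not_mul_comm hA hnA hD hB k1 ha ha1 hd hd1
    have h1 : a⁻¹ * (d * a * d⁻¹) ∈ A := A.mul_mem (A.inv_mem ha) (e ▸ conj_mem_conjBy d ha)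
    have h2 : a⁻¹ * (d * a * d⁻¹) ∈ B := by
      have := k1.mem (A.inv_mem ha) hd
      simpa [mul_assoc] using this
    have := h.cc_inf hA hnA hD hB k1 h1 h2
    calc a * d = a * (a⁻¹ * (d * a * d⁻¹)) * d := by rw [this]; group
      _ = _ := by group

end RS

end Cfsg.Agent.Root
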