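import Cfsg.Agent.Root.RootSet2
import Cfsg.Agent.Root.Special2

/-! Abstract root subgroups without isolated vertices: double transitivity on lines, every line arises
from a commutator, speciality of rank one pairs (non-degenerate case and triangle case), comparison of
`Ω_A` and `Ω_C`, generation by line partners. -/

namespace Cfsg.Agent.Root
open Cfsg

variable {G : Type*} [Group G] {S : Set (Subgroup G)} {A B C D E F : Subgroup G}

theorem CC.conjBy_sup_eq (hc : CC A D C) {d : G} (hd : d ∈ D) : conjBy (A ⊔ C) d = A ⊔ C := by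
  have key : ∀ d ∈ D, conjBy (A ⊔ C) d ≤ A ⊔ C := fun d hd => by
    rw [conjBy_sup, hc.cB.conjBy_eq' hd]; exact sup_le (hc.conjBy_le' hd) le_sup_right
  exact conjBy_eq_of_le_of_le (key d hd) (key _ (D.inv_mem hd))

namespace RS

theorem cc_conj_ne (h : RS S) (hA : A ∈ S) (hn : NI S A) (hD : D ∈ S) (hC : C ∈ S) (hc : CC A D C)
    {d : G} (hd : d ∈ D) (hd1 : d ≠ 1) : conjBy A d ≠ A := by
  intro e
  obtain ⟨a, ha, ha1⟩ := h.exists_ne_one hA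
  apply h.cc_not_mul_comm hA hn hD hC hc ha ha1 hd hd1
  have h1 : a⁻¹ * (d * a * d⁻¹) ∈ A := A.mul_mem (A.inv_mem ha) (e ▸ conj_mem_conjBy d ha)
  have h2 : a⁻¹ * (d * a * d⁻¹) ∈ C := by
    have := hc.mem (A.inv_mem ha) hd
    simpa [mul_assoc] using this
  have := h.cc_inf hA hn hD hC hc h1 h2
  calc a * d = a * (a⁻¹ * (d * a * d⁻¹)) * d := by rw [this]; group
    _ = _ := by group

theorem cc_conj_sup (h : RS S) (hA : A ∈ S) (hc : CC A D C) {d : G} (hd : d ∈ D) (hd1 : d ≠ 1) :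
    A ⊔ conjBy A d = A ⊔ C := by
  refine le_antisymm (sup_le le_sup_left (hc.conjBy_le' hd)) (sup_le le_sup_left fun c hcC => ?_)
  obtain ⟨a, ha, rfl⟩ := hc.surjR d hd hd1 c hcC
  have := Subgroup.mul_mem_sup ha (conj_mem_conjBy d (A.inv_mem ha))
  simpa [mul_assoc] using this

theorem cc_conj_line (h : RS S) (hA : A ∈ S) (hn : NI S A) (hD : D ∈ S) (hC : C ∈ S) (hc : CC A D C)
    {d : G} (hd : d ∈ D) (hd1 : d ≠ 1) : Line S A (conjBy A d) := by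
  refine ⟨(h.cc_conj_ne hA hn hD hC hc hd hd1).symm, (hc.symm.comm_conj (h.comm A hA) hd).symm, ?_⟩
  intro a ha b hb hab
  rw [h.cc_conj_sup hA hc hd hd1]
  exact (h.cc_line hA hD hC hc).cover' (h.cc_conj_sup hA hc hd hd1 ▸ Subgroup.mul_mem_sup ha hb) hab

theorem line_two_trans (h : RS S) (hn : ∀ A ∈ S, NI S A) (hA : A ∈ S) (hB : B ∈ S) (l : Line S A B) :
    ∃ C₀ ∈ S, ∃ D ∈ S, CC A D C₀ ∧ A ⊔ C₀ = A ⊔ B ∧
    ∀ E₁ ∈ S, E₁ ≤ A ⊔ B → ∀ E₂ ∈ S, E₂ ≤ A ⊔ B → E₁ ≠ E₂ →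
      ∃ x ∈ ⨆ E ∈ normalizingMembers S (A ⊔ B), E, conjBy C₀ x = E₁ ∧ conjBy A x = E₂ := by
  obtain ⟨A', hA', hr⟩ := hn A hA
  obtain ⟨C₀, hC₀, D, hD, -, k1, e1, -⟩ := h.line_structure hA hA' hr hB l fun E hE _ => hn E hE
  obtain ⟨C', hC', hr'⟩ := hn C₀ hC₀
  obtain ⟨C₂, hC₂, D₂, hD₂, -, k2, e2, -⟩ := h.line_structure hC₀ hC' hr' hA
    (h.cc_line hA hD hC₀ k1).symm fun E hE _ => hn E hE
  refine ⟨C₀, hC₀, D, hD, k1, e1, ?_⟩
  rw [← e1]
  rw [sup_comm C₀ A] at e2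
  set Y := ⨆ E ∈ normalizingMembers S (A ⊔ C₀), E
  have hDY : D ≤ Y := le_iSup₂_of_le (f := fun E (_ : E ∈ normalizingMembers S (A ⊔ C₀)) => E) D
    ⟨hD, fun d hd => conjBy_eq_iff_mem_normalizer.1 (k1.conjBy_sup_eq hd)⟩ le_rfl
  have hDY₂ : D₂ ≤ Y := le_iSup₂_of_le (f := fun E (_ : E ∈ normalizingMembers S (A ⊔ C₀)) => E) D₂
    ⟨hD₂, fun d hd => conjBy_eq_iff_mem_normalizer.1 (e2 ▸ k2.conjBy_sup_eq hd)⟩ le_rfl
  have hstab : ∀ y ∈ Y, ∀ E ∈ {E | E ∈ S ∧ E ≤ A ⊔ C₀}, conjBy E y ∈ {E | E ∈ S ∧ E ≤ A ⊔ C₀} := by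
    apply conjBy_mem_of_iSup
    rintro K ⟨hK, hK'⟩ k hk E ⟨hE, hE'⟩
    refine ⟨h.conj_mem E hE K hK k hk, ?_⟩
    have := conjBy_mono k hE'
    rwa [conjBy_eq_iff_mem_normalizer.2 (hK' hk)] at this
  have m1 : ∀ E ∈ S, E ≤ A ⊔ C₀ → E ≠ C₀ → ∃ d ∈ D, E = conjBy A d := fun E hE hle hne =>
    (h.cc_members hA (hn A hA) hD hC₀ k1 hE hle).resolve_right hne
  have m2 : ∀ E ∈ S, E ≤ A ⊔ C₀ → ∃ y ∈ Y, E = conjBy C₀ y := by
    intro E hE hle
    rcases h.cc_members hC₀ (hn _ hC₀) hD₂ hC₂ k2 hE (e2 ▸ hle) with ⟨d, hd, e⟩ | e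
    · exact ⟨d, hDY₂ hd, e⟩
    · subst e
      obtain ⟨d, hd, e⟩ := m1 E hE hle (h.cc_line hC₀ hD₂ hE k2).ne.symm
      obtain ⟨d₂, hd₂, hd₂1⟩ := h.exists_ne_one hD₂
      obtain ⟨d', hd', e'⟩ := m1 _ (h.conj_mem _ hC₀ _ hD₂ _ hd₂) (e2 ▸ k2.conjBy_le' hd₂)
        (h.cc_conj_ne hC₀ (hn _ hC₀) hD₂ hE k2 hd₂ hd₂1)
      refine ⟨d * d'⁻¹ * d₂, Y.mul_mem (hDY (D.mul_mem hd (D.inv_mem hd'))) (hDY₂ hd₂), ?_⟩
      rw [← conjBy_conjBy, e', e]; simp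
  intro E₁ h₁ l₁ E₂ h₂ l₂ hne
  obtain ⟨y, hy, rfl⟩ := m2 E₁ h₁ l₁
  obtain ⟨h₃, l₃⟩ := hstab y⁻¹ (Y.inv_mem hy) E₂ ⟨h₂, l₂⟩
  obtain ⟨d, hd, e⟩ := m1 _ h₃ l₃ fun e => hne (by simpa using conjBy_inv_of_eq e)
  refine ⟨y * d, Y.mul_mem hy (hDY hd), conjBy_mul_of_eq _ (k1.cB.conjBy_eq' hd), ?_⟩
  rw [← conjBy_conjBy, ← e]; simp

theorem normalizing_le (M : Subgroup G) : (⨆ E ∈ normalizingMembers S M, E) ≤ ⨆ E ∈ S, E :=
  iSup₂_le fun E hE => le_iSup₂_of_le (f := fun E (_ : E ∈ S) => E) E hE.1 le_rfl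

/-- Every line comes from a commutator. -/
theorem line_exists_cc (h : RS S) (hn : ∀ A ∈ S, NI S A) (hA : A ∈ S) (hB : B ∈ S)
    (l : Line S A B) : ∃ D ∈ S, CC A D B := by
  obtain ⟨C₀, hC₀, D, hD, k, -, key⟩ := h.line_two_trans hn hA hB l
  obtain ⟨x, hx, e1, e2⟩ := key B hB le_sup_right A hA le_sup_left l.ne.symm
  refine ⟨_, h.conj_mem_iSup hD (normalizing_le _ hx), ?_⟩
  have := k.conj x
  rwa [e1, e2] at this

/-- Different members of a line span the line. -/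
theorem line_of_members (h : RS S) (hn : ∀ A ∈ S, NI S A) (hA : A ∈ S) (hB : B ∈ S)
    (l : Line S A B) (hC : C ∈ S) (hD : D ∈ S) (hCl : C ≤ A ⊔ B) (hDl : D ≤ A ⊔ B) (hne : C ≠ D) :
    Line S C D ∧ C ⊔ D = A ⊔ B := by
  obtain ⟨C₀, hC₀, D₀, hD₀, k, e, key⟩ := h.line_two_trans hn hA hB l
  obtain ⟨x, hx, e1, e2⟩ := key D hD hDl C hC hCl hne.symm
  have hx' : conjBy (A ⊔ B) x = A ⊔ B := by
    refine conjBy_eq_iff_mem_normalizer.2 ?_
    exact (iSup₂_le fun E hE => hE.2 : (⨆ E ∈ normalizingMembers S (A ⊔ B), E) ≤ _) hx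
  have := (h.cc_line hA hD₀ hC₀ k).conj fun E hE => h.conj_mem_iSup hE (normalizing_le _ hx)
  rw [e1, e2] at this
  exact ⟨this, by rw [← e1, ← e2, ← conjBy_sup, e, hx']⟩

/-- For collinear `A`, `L` there is a rank one partner of `L` in the commutator case with `A`. -/
theorem line_exists_partner (h : RS S) (hn : ∀ A ∈ S, NI S A) (hA : A ∈ S) (hB : B ∈ S)
    (l : Line S A B) : ∃ K ∈ S, IsRankOnePair B K ∧ ¬ IsRankOnePair A K := by
  obtain ⟨B', hB', hr⟩ := hn B hB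
  obtain ⟨C₀, hC₀, D, hD, k0, k1, e1, -⟩ := h.line_structure hB hB' hr hA l.symm fun E hE _ => hn E hE
  obtain ⟨C₁, hC₁, D₁, hD₁, k, e, key⟩ := h.line_two_trans hn hB hA l.symm
  obtain ⟨x, hx, e3, e4⟩ := key A hA le_sup_right B hB le_sup_left l.ne
  obtain ⟨y, hy, e5, e6⟩ := key C₀ hC₀ (e1 ▸ le_sup_right) B hB le_sup_left
    (h.cc_line hB hD hC₀ k1).ne.symm
  have hg : x * y⁻¹ ∈ ⨆ E ∈ S, E := normalizing_le _ (Subgroup.mul_mem _ hx (Subgroup.inv_mem _ hy))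
  have e7 : conjBy C₀ (x * y⁻¹) = A := by rw [← e5, ← e3]; simp
  have e8 : conjBy B (x * y⁻¹) = B := by
    rw [← conjBy_conjBy, conjBy_inv_of_eq e6, e4]
  refine ⟨conjBy B' (x * y⁻¹), h.conj_mem_iSup hB' hg, ?_, ?_⟩
  · have := R1.conj hr (x * y⁻¹); rwa [e8] at this
  · rw [← e7, R1.conj_iff]
    exact fun hr' => h.not_cc hB' hr' k0.symm

/-- Speciality when `⟨A, B⟩` acts on a line as on a natural module. -/
theorem special_of_cc (h : RS S) (hA : A ∈ S) (hB : B ∈ S) (hr : IsRankOnePair A B) (hC : C ∈ S)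
    (hD : D ∈ S) (k1 : CC B C D) (k2 : CC A D C) : IsSpecialRankOnePair A B := by
  refine isSpecial_iff.2 ⟨hr, fun a b r => ?_⟩
  obtain ⟨b', hb', e⟩ := R1.rel_ex_conj r r.ma
  suffices hh : b * b' = 1 by
    have : b' = b⁻¹ := (inv_eq_of_mul_eq_one_right hh).symm
    subst this
    exact eq_of_conj b⁻¹ e (by group)
  obtain ⟨c, hc, hc1⟩ := h.exists_ne_one hC
  have hnB : NI S B := ⟨A, hA, R1.symm hr⟩
  set d := b⁻¹ * c * b * c⁻¹ with hd
  have hdD : d ∈ D := by simpa using k1.mem (B.inv_mem r.mb) hc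
  set d' := b' * c * b'⁻¹ * c⁻¹ with hd'
  have hd'D : d' ∈ D := k1.mem hb' hc
  set c₁ := a * d * a⁻¹ * d⁻¹ with hc₁
  have hc₁C : c₁ ∈ C := k2.mem r.ma hdD
  set c₂ := a * d' * a⁻¹ * d'⁻¹ with hc₂
  have hc₂C : c₂ ∈ C := k2.mem r.ma hd'D
  set d₂ := b * (c₁ * c) * b⁻¹ * (c₁ * c)⁻¹ with hd₂
  have hd₂D : d₂ ∈ D := k1.mem r.mb (C.mul_mem hc₁C hc)
  have hca : Commute c a := k2.cA c hc a r.ma
  have e1 : (b * a * b⁻¹) * c * (b * a * b⁻¹)⁻¹ = d₂ * d * c₁ * c := by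
    have h1 : Commute d b := k1.cA d hdD b r.mb
    have h2 : Commute d c := k1.cB d hdD c hc
    have h3 : Commute d c₁ := k1.cB d hdD c₁ hc₁C
    calc _ = b * a * d * (c * a⁻¹) * b⁻¹ := by rw [hd]; group
      _ = b * c₁ * (d * c) * b⁻¹ := by rw [hca.inv_right.eq, hc₁]; group
      _ = b * (c₁ * c) * (d * b⁻¹) := by rw [h2.eq]; group
      _ = d₂ * (c₁ * (c * d)) := by rw [h1.inv_right.eq, hd₂]; group
      _ = _ := by rw [← h2.eq, ← mul_assoc c₁, ← h3.eq]; group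
  have e2 : (a * b' * a⁻¹) * c * (a * b' * a⁻¹)⁻¹ = d' * c₂ * c := by
    calc _ = a * b' * (a⁻¹ * c * a) * b'⁻¹ * a⁻¹ := by group
      _ = a * d' * (c * a⁻¹) := by rw [← hca.inv_right.eq, hd']; group
      _ = c₂ * d' * c := by rw [hca.inv_right.eq, hc₂]; group
      _ = _ := by rw [k1.cB d' hd'D c₂ hc₂C]
  rw [e, e2] at e1
  have e3 : c₂ * c₁⁻¹ = d'⁻¹ * (d₂ * d) := by
    have := mul_right_cancel e1
    calc _ = d'⁻¹ * (d' * c₂) * c₁⁻¹ := by group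
      _ = _ := by rw [this]; group
  have e4 : c₂ * c₁⁻¹ = 1 := h.cc_inf' hC hB hnB hD k1.symm (C.mul_mem hc₂C (C.inv_mem hc₁C))
    (e3 ▸ D.mul_mem (D.inv_mem hd'D) (D.mul_mem hd₂D hdD))
  have e5 : d⁻¹ * d' = 1 := by
    by_contra hne
    apply h.cc_not_mul_comm hA ⟨B, hB, hr⟩ hD hC k2 r.ma r.na (D.mul_mem (D.inv_mem hdD) hd'D) hne
    have := mul_inv_eq_one.1 e4
    have h1 : Commute c₁ d := k2.cB _ hc₁C d hdD
    calc a * (d⁻¹ * d') = (a * d * a⁻¹ * d⁻¹ * d)⁻¹ * (a * d' * a⁻¹ * d'⁻¹) * d' * a := by group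
      _ = (c₁ * d)⁻¹ * c₁ * d' * a := by rw [← hc₂, this]
      _ = _ := by group
  by_contra hne
  apply h.cc_not_mul_comm hB hnB hC hD k1 (B.mul_mem r.mb hb') hne hc hc1
  have := inv_mul_eq_one.1 e5
  calc b * b' * c = b * d' * c * b' := by rw [hd']; group
    _ = _ := by rw [← this, hd]; group

/-- Speciality in the triangle configuration of a degenerate set. -/
theorem special_of_triangle (h : RS S) (hd : ∀ A ∈ S, ∀ B ∈ S, Comm A B ∨ IsRankOnePair A B)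
    (hA : A ∈ S) (hB : B ∈ S) (hr : IsRankOnePair A B) (hC : C ∈ S) (hne : A ≠ C) (hAC : Comm A C)
    (hr' : IsRankOnePair C B) : IsSpecialRankOnePair A B := by
  refine isSpecial_iff.2 ⟨hr, fun a b r => ?_⟩
  obtain ⟨b₁, hb₁, e₁⟩ := R1.rel_ex_conj r r.ma
  suffices hh : b * b₁ = 1 by
    have : b₁ = b⁻¹ := (inv_eq_of_mul_eq_one_right hh).symm
    subst this
    exact eq_of_conj b⁻¹ e₁ (by group)
  obtain ⟨c, rc⟩ := R1.ex_rel_right hr' r.mb r.nb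
  obtain ⟨b₂, hb₂, e₂⟩ := R1.rel_ex_conj rc rc.ma
  have hac : Commute a c := hAC a r.ma c rc.ma
  set u := a⁻¹ * c with hu
  have huA : ∀ x ∈ A, Commute u x := fun x hx =>
    (show Commute a x from h.comm A hA a r.ma x hx).inv_left.mul_left (hAC x hx c rc.ma).symm
  have hBu : Comm B (conjBy B u) := by
    have : Comm (conjBy B a) (conjBy B c) := r.eq ▸ rc.eq ▸ hAC.conj b
    simpa using this.conj a⁻¹
  have hBune : conjBy B u ≠ B := fun e =>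
    hne (conjBy_inj.1 (r.eq.trans ((conjBy_eq_conjBy_iff.2 e).symm.trans rc.eq.symm)))
  -- `A^{b'}` commutes with `A^{u b'}`
  have k1 : ∀ b' ∈ B, b' ≠ 1 → Comm (conjBy A b') (conjBy A (u * b')) := by
    intro b' hb' hb'1
    obtain ⟨a', ha', -, e⟩ := R1.ex_right hr hb' hb'1
    rw [← conjBy_conjBy, e, conjBy_conjBy, (huA a' ha').eq, ← conjBy_conjBy]
    exact hBu.conj a'
  have hb₁1 : b₁ ≠ 1 := by
    rintro rfl
    apply r.na
    calc a = b⁻¹ * (b * a * b⁻¹) * b := by group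
      _ = 1 := by rw [e₁]; group
  have hb₂1 : b₂ ≠ 1 := by
    rintro rfl
    apply rc.na
    calc c = b⁻¹ * (b * c * b⁻¹) * b := by group
      _ = 1 := by rw [e₂]; group
  have k2 : Comm A (conjBy A (b * u * b⁻¹)) := by
    simpa [mul_assoc] using (k1 b⁻¹ (B.inv_mem r.mb) (inv_ne_one.2 r.nb)).conj b
  have ey : a⁻¹ * (b * u * b⁻¹) * a = b₁⁻¹ * (u * b₂ * u⁻¹) := by
    calc _ = a⁻¹ * (b * a * b⁻¹)⁻¹ * (b * c * b⁻¹) * a := by rw [hu]; group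
      _ = b₁⁻¹ * (a⁻¹ * c * b₂ * (c⁻¹ * a)) := by rw [e₁, e₂]; group
      _ = _ := by rw [hu]; group
  have k3 : Comm (conjBy A b₁) (conjBy A (u * b₂)) := by
    have h1 := k2.conj a⁻¹
    rw [conjBy_of_mem (A.inv_mem r.ma), conjBy_conjBy, ← conjBy_mul_of_mem _ r.ma, ey] at h1
    have h2 := h1.conj b₁
    rwa [conjBy_conjBy, mul_inv_cancel_left, conjBy_mul_of_eq _
      (conjBy_eq_of_comm fun x hx => (huA x hx).inv_left)] at h2
  have e12 : b₁ = b₂ := by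
    by_contra hne'
    have hp := R1.pair_of_unip hr (R1.conj_mem_unip R1.left_mem_unip (Subgroup.mem_sup_right hb₁))
      (R1.conj_mem_unip R1.left_mem_unip (Subgroup.mem_sup_right hb₂))
      fun e => hne' (R1.conj_right_inj hr hb₁ hb₂ e)
    have h1 := (k3.sup_left (k1 b₂ hb₂ hb₂1)).mono (hp.2 ▸ le_sup_left : A ≤ _) le_rfl
    have h2 := h1.conj u⁻¹
    rw [conjBy_eq_of_comm (fun x hx => (huA x hx).inv_left), conjBy_conjBy,
      inv_mul_cancel_left] at h2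
    exact R1.not_comm (R1.pair_conj_right hr hb₂ hb₂1).1 h2
  subst e12
  by_contra hne'
  have hm := B.mul_mem r.mb hb₁
  have hBuS : conjBy B u ∈ S := by
    rw [hu, ← conjBy_conjBy]; exact h.conj_mem _ (h.conj_mem B hB C hC c rc.ma) A hA _ (A.inv_mem r.ma)
  have hm' := conj_mem_conjBy u (B.inv_mem hm)
  refine R1.not_comm hr (h.comm_of_comm_mul hd hB hBuS hA hm hne' hm' (hBu _ hm _ hm') ?_ ?_).symm
  · intro e
    exact hBune (h.ti hB ⟨A, hA, R1.symm hr⟩ hBuS hm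
      (by rw [eq_inv_of_mul_eq_one_left e]; exact Subgroup.inv_mem _ hm') hne')
  · have h1 : Commute b₁ (u * b₁⁻¹ * u⁻¹) := hBu _ hb₁ _ (conj_mem_conjBy u (B.inv_mem hb₁))
    have h3 : Commute b b₁ := h.comm B hB b r.mb b₁ hb₁
    have h4 : Commute b (u * b₁⁻¹ * u⁻¹) := hBu _ r.mb _ (conj_mem_conjBy u (B.inv_mem hb₁))
    have ez : b * b₁ * (u * (b * b₁)⁻¹ * u⁻¹) =
        a⁻¹ * ((b * u * b⁻¹)⁻¹ * a * (b * u * b⁻¹)⁻¹⁻¹) * u⁻¹ := by
      calc _ = b * b₁ * (u * b₁⁻¹ * u⁻¹) * (u * b⁻¹ * u⁻¹) := by group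
        _ = (u * b₁⁻¹ * u⁻¹) * (b₁ * b) * (u * b⁻¹ * u⁻¹) := by rw [(h4.mul_left h1).eq, h3.eq]
        _ = (b₁⁻¹ * (u * b₁ * u⁻¹))⁻¹ * (b * u * b⁻¹) * u⁻¹ := by group
        _ = _ := by rw [← ey]; group
    have k4 : Comm (conjBy A (b * u * b⁻¹)⁻¹) A := by
      have := k2.conj (b * u * b⁻¹)⁻¹
      rwa [conjBy_conjBy, inv_mul_cancel, conjBy_one] at this
    intro x hx
    rw [ez]
    exact ((show Commute a x from h.comm A hA a r.ma x hx).inv_left.mul_left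
      (k4 _ (conj_mem_conjBy _ r.ma) x hx)).mul_left (huA x hx).inv_left

/-- In a set without isolated vertices and with a commutator pair through every member, rank one
pairs have a line partner in the commutator case. -/
theorem exists_natural (h : RS S) (hn : ∀ A ∈ S, NI S A) (hA : A ∈ S) (hB : B ∈ S)
    (hr : IsRankOnePair A B) (hC : C ∈ S) (l : Line S A C) :
    ∃ C₀ ∈ S, ∃ D ∈ S, CC B C₀ D ∧ CC A D C₀ ∧ A ⊔ C₀ = A ⊔ C := by
  obtain ⟨C₀, hC₀, D, hD, k1, k2, e, -⟩ := h.line_structure hA hB hr hC l fun E hE _ => hn E hE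
  exact ⟨C₀, hC₀, D, hD, k1, k2, e⟩

/-- The symmetry argument: an invariant preorder `r` on `S` which never relates a rank one pair. -/
theorem rel_symm_of_partner (h : RS S) (r : Subgroup G → Subgroup G → Prop)
    (htr : ∀ {X Y Z}, r X Y → r Y Z → r X Z)
    (hconj : ∀ {X Y g}, g ∈ (⨆ E ∈ S, E) → r X Y → r (conjBy X g) (conjBy Y g))
    (hirr : ∀ {X Y}, X ∈ S → Y ∈ S → r X Y → ¬ IsRankOnePair X Y)
    (hA : A ∈ S) (hC : C ∈ S) (hB : B ∈ S) (hAC : Comm A C) (h1 : IsRankOnePair A B)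
    (h2 : IsRankOnePair C B) (hr : r A C) : r C A := by
  obtain ⟨a, ha, ha1⟩ := h.exists_ne_one hA
  have key : ∀ a ∈ A, a ≠ 1 → ∃ c ∈ C, r (conjBy B a) (conjBy B c) ∧
      ∃ b ∈ B, conjBy A b = conjBy B a ∧ conjBy C b = conjBy B c := by
    intro a ha ha1
    obtain ⟨b, hb, hb1, e1⟩ := R1.ex_left h1 ha ha1
    obtain ⟨c, hc, -, e2⟩ := R1.ex_right h2 hb hb1
    exact ⟨c, hc, e1 ▸ e2 ▸ hconj (mem_iSup hB hb) hr, b, hb, e1, e2⟩
  obtain ⟨c, hc, r1, b, hb, e1, e2⟩ := key a ha ha1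
  obtain ⟨c', hc', r2, -⟩ := key a⁻¹ (A.inv_mem ha) (inv_ne_one.2 ha1)
  have hac : Commute a c := hAC a ha c hc
  have r3 := hconj (mem_iSup hA (A.inv_mem ha)) r1
  have r4 := hconj (mem_iSup hC hc) r2
  simp only [conjBy_conjBy, inv_mul_cancel, conjBy_one] at r3 r4
  rw [hac.inv_left.eq] at r3
  have r5 := htr r3 r4
  have hcc : c * c' = 1 := by
    by_contra hne
    exact hirr hB (h.conj_mem B hB C hC _ (C.mul_mem hc hc')) r5
      (R1.pair_conj_left h2 (C.mul_mem hc hc') hne).1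
  rw [hcc, conjBy_one] at r4
  have r6 := hconj (mem_iSup hA ha) r4
  simp only [conjBy_conjBy] at r6
  rw [← mul_assoc, hac.eq, mul_inv_cancel_right, ← e1, ← e2] at r6
  simpa using hconj (mem_iSup hB (B.inv_mem hb)) r6

/-- If every rank one partner of `A` is one of `C` then `A` and `C` commute. -/
theorem comm_of_partners_subset (h : RS S) (hn : ∀ A ∈ S, NI S A) (hA : A ∈ S) (hC : C ∈ S)
    (hsub : ∀ B ∈ S, IsRankOnePair A B → IsRankOnePair C B) : Comm A C := by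
  rcases h.pair A hA C hC with h1 | h1 | ⟨F, hF, h1⟩
  · exact h1
  · exact absurd rfl (hsub C hC h1).ne
  exfalso
  have key : ∀ B ∈ S, IsRankOnePair A B → ∀ c ∈ C, IsRankOnePair (conjBy A c) B := by
    intro B hB hr c hc
    have lC := h.cc_line hC hA hF h1.symm
    obtain ⟨C₀, hC₀, D, hD, k1, k2, e⟩ := h.exists_natural hn hC hB (hsub B hB hr) hF lC
    have hFB : ¬ IsRankOnePair F B := by
      intro hr'
      rcases h.cc_members hC (hn C hC) hA hF h1.symm hC₀ (e ▸ le_sup_right) with ⟨a, ha, e'⟩ | e'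
      · apply h.not_cc hC₀ _ k1
        have := hsub _ (h.conj_mem B hB A hA _ (A.inv_mem ha))
          (by simpa [conjBy_of_mem (A.inv_mem ha)] using R1.conj hr a⁻¹)
        rw [e']; simpa using R1.symm (R1.conj this a)
      · exact h.not_cc hC₀ (e' ▸ R1.symm hr') k1
    obtain ⟨a, ha, ha1⟩ := h.exists_ne_one hA
    obtain ⟨f, hf, hf1⟩ := h.exists_ne_one hF
    have lA := h.cc_line hA hC hF h1
    obtain ⟨L, hL, -, hm⟩ := lA.cover a ha f hf (h.line_mul_ne_one hA (hn A hA) hF lA.ne ha ha1 hf)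
    obtain ⟨D', hD', k3, k4, -⟩ := h.line_partner hA hB hr hF (hn F hF) lA.ne h1.cA ha ha1 hf hf1 hL
      hm hFB
    rcases h.cc_members hA (hn A hA) hD' hF k4 (h.conj_mem A hA C hC c hc) (h1.conjBy_le' hc) with
      ⟨d, hd, e'⟩ | e'
    · rw [e']
      have := R1.conj hr d
      rwa [k3.cA.conjBy_eq hd] at this
    · exact absurd (by rw [← h1.cB.conjBy_eq' hc] at e'; exact conjBy_inj.1 e') lA.ne
  obtain ⟨c, hc, hc1⟩ := h.exists_ne_one hC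
  have l := h.cc_conj_line hA (hn A hA) hC hF h1 hc hc1
  obtain ⟨K, hK, k1, k2⟩ := h.line_exists_partner hn (h.conj_mem A hA C hC c hc) hA l.symm
  exact k2 (key K hK k1 c hc)

/-- generation by the line partners of `A` and a rank one partner. -/
theorem conj_of_line (h : RS S) (hn : ∀ A ∈ S, NI S A) (hA : A ∈ S) (hB : B ∈ S)
    (hr : IsRankOnePair A B) {H : Subgroup G} (hH : ∀ C ∈ S, Line S A C → C ≤ H) (hBH : B ≤ H)
    (hC : C ∈ S) (l : Line S A C) : A ≤ H ∧ ∃ g ∈ H, C = conjBy A g := by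
  obtain ⟨C₀, hC₀, D, hD, k1, k2, e⟩ := h.exists_natural hn hA hB hr hC l
  obtain ⟨E, hE, k3⟩ := h.line_exists_cc hn hC hA l.symm
  have hEH : E ≤ H := hH E hE (h.cc_line hE hC hA k3.symm).symm
  have hCH : C ≤ H := hH C hC l
  have hAH : A ≤ H := k3.eq ▸ (Subgroup.commutator_le_sup _ _).trans (sup_le hCH hEH)
  have hDH : D ≤ H := k1.eq ▸ (Subgroup.commutator_le_sup _ _).trans
    (sup_le hBH (hH C₀ hC₀ (h.cc_line hA hD hC₀ k2)))
  refine ⟨hAH, ?_⟩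
  obtain ⟨d, hd, hd1⟩ := h.exists_ne_one hD
  rcases h.cc_members hC (hn C hC) hE hA k3 (h.conj_mem A hA D hD d hd)
    (by rw [sup_comm, ← e]; exact k2.conjBy_le' hd) with ⟨x, hx, e'⟩ | e'
  · exact ⟨x⁻¹ * d, H.mul_mem (H.inv_mem (hEH hx)) (hDH hd), (conjBy_eq_conjBy_iff.1 e').symm⟩
  · exact absurd e' (h.cc_conj_ne hA (hn A hA) hD hC₀ k2 hd hd1)

/-- Connectedness along lines. -/
def LConn (S : Set (Subgroup G)) (A B : Subgroup G) : Prop :=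
  Relation.ReflTransGen (fun X Y => X ∈ S ∧ Y ∈ S ∧ Line S X Y) A B

theorem lconn_conj (h : RS S) (hn : ∀ A ∈ S, NI S A) (hl : ∀ A ∈ S, ∃ C ∈ S, Line S A C)
    (hA : A ∈ S) {g : G} (hg : g ∈ ⨆ B ∈ S, B) : LConn S A (conjBy A g) := by
  have step : ∀ A ∈ S, ∀ E ∈ S, ¬ IsRankOnePair A E → ∀ e ∈ E, LConn S A (conjBy A e) := by
    intro A hA E hE hr e he
    by_cases he1 : e = 1
    · subst he1; rw [conjBy_one]; exact Relation.ReflTransGen.refl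
    rcases h.pair A hA E hE with h1 | h1 | ⟨F, hF, h1⟩
    · rw [h1.conjBy_eq' he]; exact Relation.ReflTransGen.refl
    · exact absurd h1 hr
    · exact Relation.ReflTransGen.single ⟨hA, h.conj_mem A hA E hE e he,
        h.cc_conj_line hA (hn A hA) hE hF h1 he he1⟩
  have step2 : ∀ A ∈ S, ∀ E ∈ S, ∀ e ∈ E, LConn S A (conjBy A e) := by
    intro A hA E hE e he
    by_cases hr : IsRankOnePair A E
    · obtain ⟨C, hC, l⟩ := hl A hA
      obtain ⟨C₀, hC₀, D, hD, k1, k2, -⟩ := h.exists_natural hn hA hE hr hC l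
      have l₀ := h.cc_line hA hD hC₀ k2
      refine Relation.ReflTransGen.head ⟨hA, hC₀, l₀⟩ (Relation.ReflTransGen.tail
        (step C₀ hC₀ E hE (fun hr' => h.not_cc hE hr' k1.symm) e he) ⟨h.conj_mem _ hC₀ E hE e he,
          h.conj_mem _ hA E hE e he, l₀.symm.conj fun X hX => h.conj_mem X hX E hE e he⟩)
    · exact step A hA E hE hr e he
  have := conjBy_mem_of_iSup (P := {C | C ∈ S ∧ LConn S A C}) (fun E hE e he C hC =>
    ⟨h.conj_mem C hC.1 E hE e he, Relation.ReflTransGen.trans hC.2 (step2 C hC.1 E hE e he)⟩) g hg A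
    ⟨hA, Relation.ReflTransGen.refl⟩
  exact this.2

end RS

/-- Facts about a non-degenerate class. -/
theorem nondeg_ni (hS : IsRootSubgroupClass S) (hnd : ∃ A ∈ S, ∃ B ∈ S, IsRankOnePair A B) :
    ∀ A ∈ S, NI S A := by
  obtain ⟨A, hA, B, hB, hr⟩ := hnd
  intro C hC
  obtain ⟨g, rfl⟩ := hS.2.2 A hA C hC
  exact ⟨_, hS.1.conj_mem B hB g, R1.conj hr g⟩

theorem nondeg_cc (hS : IsRootSubgroupClass S) (hnd : ∃ A ∈ S, ∃ B ∈ S, RootCommutatorCase S A B) :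
    ∀ C ∈ S, ∃ A ∈ S, ∃ B ∈ S, CC A B C := by
  obtain ⟨A, hA, B, hB, hr⟩ := hnd
  rw [rootCommutatorCase_iff] at hr
  intro C hC
  obtain ⟨g, rfl⟩ := hS.2.2 _ hr.1 C hC
  exact ⟨_, hS.1.conj_mem A hA g, _, hS.1.conj_mem B hB g, hr.2.conj g⟩

theorem nondeg_line (hS : IsRootSubgroupClass S) (hnd : ∃ A ∈ S, ∃ B ∈ S, RootCommutatorCase S A B) :
    ∀ C ∈ S, ∃ A ∈ S, Line S C A := by
  intro C hC
  obtain ⟨A, hA, B, hB, k⟩ := nondeg_cc hS hnd C hC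
  exact ⟨A, hA, ((rs_of hS.1).cc_line hA hB hC k).symm⟩

theorem nondeg_lconn (hS : IsRootSubgroupClass S) (hnd : IsNondegenerateRootSet S) (hA : A ∈ S)
    (hB : B ∈ S) : RS.LConn S A B := by
  obtain ⟨g, rfl⟩ := hS.2.2 A hA B hB
  exact (rs_of hS.1).lconn_conj (nondeg_ni hS hnd.2.1) (nondeg_line hS hnd.2.2) hA
    (hS.1.generates ▸ Subgroup.mem_top g)

/-- A subgroup containing the line partners of `A` and a rank one partner of `A` is everything. -/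
theorem nondeg_gen (hS : IsRootSubgroupClass S) (hnd : IsNondegenerateRootSet S) (hA : A ∈ S)
    (hB : B ∈ S) (hr : IsRankOnePair A B) {H : Subgroup G} (hH : ∀ C ∈ S, Line S A C → C ≤ H)
    (hBH : B ≤ H) : H = ⊤ := by
  have h := rs_of hS.1
  have hn := nondeg_ni hS hnd.2.1
  obtain ⟨C, hC, l⟩ := nondeg_line hS hnd.2.2 A hA
  have hAH := (h.conj_of_line hn hA hB hr hH hBH hC l).1
  have key : ∀ E, RS.LConn S A E → ∃ g ∈ H, E = conjBy A g := by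
    intro E hE
    induction hE with
    | refl => exact ⟨1, H.one_mem, by simp⟩
    | tail _ h2 ih =>
      obtain ⟨g, hg, rfl⟩ := ih
      have l' := h2.2.2.conj fun X hX => hS.1.conj_mem X hX g⁻¹
      rw [conjBy_conjBy, inv_mul_cancel, conjBy_one] at l'
      obtain ⟨g', hg', e⟩ := (h.conj_of_line hn hA hB hr hH hBH (hS.1.conj_mem _ h2.2.1 _) l').2
      exact ⟨g * g', H.mul_mem hg hg', by rw [← conjBy_conjBy, ← e]; simp⟩
  rw [eq_top_iff, ← hS.1.generates]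
  refine iSup₂_le fun E hE => ?_
  obtain ⟨g, hg, rfl⟩ := key E (nondeg_lconn hS hnd hA hE)
  exact conjBy_le_of_mem hAH hg

end Cfsg.Agent.Root
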