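import Cfsg.Agent.Root.RootSet3

/-! Abstract root subgroups: two commutator relations `⁅A, B⁆ = C`, `⁅D, C⁆ = A` force a rank one pair
`(B, D)`; class two of the commutator case; a criterion for membership in the upper central series of a
join; the quasisimplicity criterion `RS.normal_eq_top_or_center`. -/

namespace Cfsg.Agent.Root
open Cfsg
open scoped commutatorElement

variable {G : Type*} [Group G] {S : Set (Subgroup G)} {A B C D E F : Subgroup G}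

theorem RS.rankOne_of_cc_cc (h : RS S) (hA : A ∈ S) (hB : B ∈ S) (hC : C ∈ S) (hD : D ∈ S)
    (k1 : CC A B C) (k2 : CC D C A) : IsRankOnePair B D := by
  obtain ⟨d, hd, hd1⟩ := h.exists_ne_one hD
  refine R1.symm (h.rankOne_of_not_comm_conj hD hB hd fun hc => ?_)
  obtain ⟨b, hb, hb1⟩ := h.exists_ne_one hB
  obtain ⟨c₃, hc₃, hc₃1⟩ := h.exists_ne_one hC
  obtain ⟨a₂, ha₂, e₃⟩ := k1.symm.surjL b hb hb1 c₃ hc₃
  obtain ⟨c₂, hc₂, f₂⟩ := k2.surjL d hd hd1 a₂ ha₂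
  obtain ⟨a₁, ha₁, e₂⟩ := k1.symm.surjL b hb hb1 c₂ hc₂
  obtain ⟨c₁, hc₁, f₁⟩ := k2.surjL d hd hd1 a₁ ha₁
  obtain ⟨a₀, ha₀, e₁⟩ := k1.symm.surjL b hb hb1 c₁ hc₁
  set φ := MulAut.conj b
  set ψ := MulAut.conj d
  have p0 : φ a₀ = c₁ * a₀ := by rw [e₁]; simp [φ]
  have p1 : φ a₁ = c₂ * a₁ := by rw [e₂]; simp [φ]
  have pc : ∀ c ∈ C, φ c = c := fun c hc => by simp [φ, ← k1.cB c hc b hb]
  have q1 : ψ c₁ = a₁ * c₁ := by rw [f₁]; simp [ψ]
  have q2 : ψ c₂ = a₂ * c₂ := by rw [f₂]; simp [ψ]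
  have qa : ∀ a ∈ A, ψ a = a := fun a ha => by simp [ψ, ← k2.cA a ha d hd]
  have qa' : ψ⁻¹ a₀ = a₀ := by rw [MulAut.inv_def, MulEquiv.symm_apply_eq, qa a₀ ha₀]
  have q1' : ψ⁻¹ c₁ = a₁⁻¹ * c₁ := by
    rw [MulAut.inv_def, MulEquiv.symm_apply_eq, map_mul, map_inv, qa a₁ ha₁, q1]; group
  have hcomm : φ * (ψ * φ * ψ⁻¹) = (ψ * φ * ψ⁻¹) * φ := by
    simp only [φ, ψ, ← map_inv, ← map_mul]
    rw [hc b hb _ (conj_mem_conjBy d hb)]
  have := DFunLike.congr_fun hcomm a₀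
  simp only [MulAut.mul_apply, qa', p0, map_mul, q1, q1', qa a₀ ha₀, p1, pc c₁ hc₁, map_inv, q2,
    qa a₁ ha₁] at this
  have h1 : Commute c₁ a₁ := k1.cA c₁ hc₁ a₁ ha₁
  have h2 : Commute (a₂ * c₂) a₁ :=
    (show Commute a₂ a₁ from h.comm A hA a₂ ha₂ a₁ ha₁).mul_left (k1.cA c₂ hc₂ a₁ ha₁)
  have e : a₂ = c₂⁻¹ * c₂⁻¹ := by
    have h3 : c₂ = a₁⁻¹ * (a₂ * c₂)⁻¹ * a₁ := by
      calc c₂ = (c₂ * a₁ * c₁ * (c₁ * a₀)) * a₀⁻¹ * c₁⁻¹ * c₁⁻¹ * a₁⁻¹ := by group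
        _ = a₁⁻¹ * (a₂ * c₂)⁻¹ * a₁ * (c₁ * a₁) * c₁⁻¹ * a₁⁻¹ := by rw [this]; group
        _ = _ := by rw [h1.eq]; group
    rw [mul_assoc, h2.inv_left.eq, inv_mul_cancel_left] at h3
    calc a₂ = c₂⁻¹ * (a₂ * c₂)⁻¹⁻¹ * (c₂⁻¹ * a₂⁻¹ * c₂ * a₂) := by group
      _ = _ := by
        rw [← h3, mul_assoc c₂⁻¹ a₂⁻¹ c₂, ← (show Commute c₂ a₂ from k1.cA c₂ hc₂ a₂ ha₂).inv_right.eq]
        group
  apply hc₃1
  rw [e₃, ← k1.cB a₂ (e ▸ C.mul_mem (C.inv_mem hc₂) (C.inv_mem hc₂)) b hb]; group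

theorem CC.commutator_mem (k : CC A B C) (hA : Comm A A) (hB : Comm B B) :
    ∀ x ∈ A ⊔ B, ∀ y ∈ A ⊔ B, x * y * x⁻¹ * y⁻¹ ∈ C := by
  have hc : ∀ c ∈ C, ∀ y ∈ A ⊔ B, c * y = y * c := k.cA.sup_right k.cB
  have key : ∀ x, (∀ a ∈ A, x * a * x⁻¹ * a⁻¹ ∈ C) → (∀ a ∈ B, x * a * x⁻¹ * a⁻¹ ∈ C) →
      ∀ y ∈ A ⊔ B, x * y * x⁻¹ * y⁻¹ ∈ C := by
    intro x h1 h2 y hy
    rw [Subgroup.sup_eq_closure] at hy
    induction hy using Subgroup.closure_induction'' with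
    | mem y hy => rcases hy with hy | hy; exacts [h1 y hy, h2 y hy]
    | one => simp
    | mul y z hy' hz' ihy ihz =>
      rw [← Subgroup.sup_eq_closure] at hy' hz'
      have := C.mul_mem ihy ihz
      convert this using 1
      calc _ = x * y * x⁻¹ * y⁻¹ * (y * (x * z * x⁻¹ * z⁻¹)) * y⁻¹ := by group
        _ = _ := by rw [← hc _ ihz y hy']; group
    | inv_mem y hy => rcases hy with hy | hy; exacts [h1 _ (A.inv_mem hy), h2 _ (B.inv_mem hy)]
  have kA : ∀ a ∈ A, ∀ y ∈ A ⊔ B, a * y * a⁻¹ * y⁻¹ ∈ C := fun a ha =>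
    key a (fun a' ha' => by rw [hA a ha a' ha']; simp) fun b hb => k.mem ha hb
  have kB : ∀ a ∈ B, ∀ y ∈ A ⊔ B, a * y * a⁻¹ * y⁻¹ ∈ C := fun b hb =>
    key b (fun a ha => k.symm.mem hb ha) fun a' ha' => by rw [hB b hb a' ha']; simp
  intro x hx
  refine key x (fun a ha => ?_) fun b hb => ?_
  · simpa [mul_assoc] using C.inv_mem (kA a ha x hx)
  · simpa [mul_assoc] using C.inv_mem (kB b hb x hx)

theorem CC.commutator_sup (k : CC A B C) (hA : Comm A A) (hB : Comm B B) : ⁅A ⊔ B, A ⊔ B⁆ = C :=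
  le_antisymm (Subgroup.commutator_le.2 (k.commutator_mem hA hB))
    (k.eq ▸ Subgroup.commutator_mono le_sup_left le_sup_right)

/-- The upper central series of a subgroup, as subgroups of the ambient group. -/
def ucs (R : Subgroup G) (n : ℕ) : Subgroup G := (Subgroup.upperCentralSeries R n).map R.subtype

theorem ucs_zero (R : Subgroup G) : ucs R 0 = ⊥ := by simp [ucs]

theorem mem_ucs_succ {s : Set G} {n : ℕ} {x : G} (hx : x ∈ Subgroup.closure s)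
    (h : ∀ y ∈ s, x * y * x⁻¹ * y⁻¹ ∈ ucs (Subgroup.closure s) n) :
    x ∈ ucs (Subgroup.closure s) (n + 1) := by
  refine ⟨⟨x, hx⟩, Subgroup.mem_upperCentralSeries_succ_iff.2 ?_, rfl⟩
  set N := Subgroup.upperCentralSeries (Subgroup.closure s) n
  suffices H : ∀ y (hy : y ∈ Subgroup.closure s),
      Commute (QuotientGroup.mk' N ⟨x, hx⟩) (QuotientGroup.mk' N ⟨y, hy⟩) by
    rintro ⟨y, hy⟩
    rw [← QuotientGroup.eq_one_iff, ← QuotientGroup.mk'_apply, map_commutatorElement]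
    exact (H y hy).commutator_eq
  intro y hy
  induction hy using Subgroup.closure_induction with
  | mem y hy =>
    obtain ⟨z, hz, e⟩ := h y hy
    rw [← commutatorElement_eq_one_iff_commute, ← map_commutatorElement, QuotientGroup.mk'_apply,
      QuotientGroup.eq_one_iff]
    have e' : _ = z := Subtype.ext (a1 := ⁅(⟨x, hx⟩ : Subgroup.closure s), ⟨y, Subgroup.subset_closure hy⟩⁆) e.symm
    exact e' ▸ hz
  | one => exact (Commute.one_right _)
  | mul y z hy hz ihy ihz => exact ihy.mul_right ihz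
  | inv y hy ih => exact ih.inv_right

theorem isNilpotent_of_ucs {s : Set G} {n : ℕ} (h : ∀ x ∈ s, x ∈ ucs (Subgroup.closure s) n) :
    Group.IsNilpotent (Subgroup.closure s) := by
  refine ⟨n, ?_⟩
  have : Subgroup.closure s ≤ ucs (Subgroup.closure s) n := (Subgroup.closure_le _).2 h
  rw [eq_top_iff]
  rintro ⟨x, hx⟩ _
  obtain ⟨z, hz, e⟩ := this hx
  have e' : (⟨x, hx⟩ : Subgroup.closure s) = z := Subtype.ext e.symm
  rw [e']; exact hz

/-- Normal subgroups of a group generated by a class of root subgroups in which different members have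
different centralizers in `S` and the rank one groups are perfect in the degenerate case. -/
theorem RS.normal_dichotomy (h : RS S) (hn : ∀ A ∈ S, NI S A) (hconn : ∀ A ∈ S, ∀ B ∈ S, FConn S A B)
    {N : Subgroup G} (hNle : N ≤ ⨆ B ∈ S, B) (hN : ∀ g ∈ (⨆ B ∈ S, B), conjBy N g = N)
    (hperf : (∃ A ∈ S, ∃ B ∈ S, ∃ C ∈ S, CC A B C) ∨
      ∀ A ∈ S, ∀ B ∈ S, IsRankOnePair A B → A ≤ ⁅A ⊔ B, A ⊔ B⁆) :
    (⨆ B ∈ S, B) ≤ N ∨ ∀ A ∈ S, ∀ n ∈ N, ∀ E ∈ S, Comm E A → Comm E (conjBy A n) := by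
  by_cases h0 : ∃ A ∈ S, A ≤ N
  · left
    obtain ⟨A, hA, hAN⟩ := h0
    refine iSup₂_le fun B hB => ?_
    obtain ⟨g, hg, rfl⟩ := (hconn A hA B hB).exists_conj
    have hg' : g ∈ ⨆ B ∈ S, B :=
      (iSup₂_le fun E hE => le_iSup₂_of_le (f := fun E (_ : E ∈ S) => E) E hE.1 le_rfl :
        (⨆ E ∈ componentOf (FAdj S) S A, E) ≤ _) hg
    rw [← hN g hg']; exact conjBy_mono g hAN
  right
  push Not at h0
  have hmem : ∀ {A}, A ∈ S → ∀ a ∈ A, ∀ n ∈ N, a * n * a⁻¹ ∈ N := fun hA a ha n hn' => by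
    rw [← hN a (RS.mem_iSup hA ha)]; exact conj_mem_conjBy a hn'
  -- commutators of `E` with `A ^ n` lie in `N` if `E` commutes with `A`
  have hcomm : ∀ A ∈ S, ∀ n ∈ N, ∀ E ∈ S, Comm E A → ⁅E, conjBy A n⁆ ≤ N := by
    intro A hA n hn' E hE hc
    rw [Subgroup.commutator_le]
    intro e he x hx
    obtain ⟨a, ha, rfl⟩ := mem_conjBy'.1 hx
    have h1 := N.mul_mem (N.mul_mem (N.mul_mem (hmem hE e he n hn')
      (hmem hA a ha _ (hmem hE e he _ (N.inv_mem hn')))) (hmem hA a ha _ hn')) (N.inv_mem hn')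
    convert h1 using 1
    rw [commutatorElement_def]
    calc _ = e * n * e⁻¹ * (e * a) * n⁻¹ * e⁻¹ * n * a⁻¹ * n⁻¹ := by group
      _ = e * n * e⁻¹ * a * e * n⁻¹ * e⁻¹ * a⁻¹ * a * n * a⁻¹ * n⁻¹ := by rw [hc e he a ha]; group
      _ = _ := by group
  have hab : ∀ A ∈ S, ∀ n ∈ N, Comm A (conjBy A n) := by
    intro A hA n hn'
    have hA' := h.conj_mem_iSup hA (hNle hn')
    rcases h.pair A hA _ hA' with h1 | h1 | ⟨C, hC, h1⟩
    · exact h1
    · exfalso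
      rcases hperf with ⟨X, hX, Y, hY, Z, hZ, k⟩ | hperf
      · obtain ⟨g, hg, e⟩ := (hconn Z hZ A hA).exists_conj
        have hg' : g ∈ ⨆ B ∈ S, B :=
          (iSup₂_le fun E hE => le_iSup₂_of_le (f := fun E (_ : E ∈ S) => E) E hE.1 le_rfl :
            (⨆ E ∈ componentOf (FAdj S) S Z, E) ≤ _) hg
        have k' := k.conj g
        rw [← e] at k'
        obtain ⟨C₀, hC₀, D, hD, k1, k2, -⟩ := h.exists_natural hn hA hA' h1 (h.conj_mem_iSup hX hg')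
          (h.cc_line (h.conj_mem_iSup hX hg') (h.conj_mem_iSup hY hg') hA k').symm
        exact h0 D hD (k1.symm.eq ▸ hcomm A hA n hn' C₀ hC₀ k2.cA)
      · refine h0 A hA ((hperf A hA _ hA' h1).trans ?_)
        have hle : A ⊔ conjBy A n ≤ A ⊔ N :=
          sup_le le_sup_left (conjBy_le_of_mem le_sup_left (Subgroup.mem_sup_right hn'))
        refine (Subgroup.commutator_mono hle hle).trans (Subgroup.commutator_le.2 ?_)
        intro x hx y hy
        obtain ⟨a, ha, m, hm, rfl⟩ :=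
          (mem_sup_of_norm_left fun a ha => hN a (RS.mem_iSup hA ha)).1 hx
        obtain ⟨a', ha', m', hm', rfl⟩ :=
          (mem_sup_of_norm_left fun a ha => hN a (RS.mem_iSup hA ha)).1 hy
        have h2 := N.mul_mem (N.mul_mem (hmem hA a ha m hm) (hmem hA _ (A.mul_mem ha ha') _
          (N.mul_mem hm' (N.inv_mem hm)))) (hmem hA a' ha' _ (N.inv_mem hm'))
        convert h2 using 1
        rw [commutatorElement_def]
        calc _ = a * m * a' * m' * m⁻¹ * (a' * a)⁻¹ * a' * m'⁻¹ * a'⁻¹ := by group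
          _ = _ := by rw [← h.comm A hA a ha a' ha']; group
    · exact absurd (h1.eq ▸ hcomm A hA n hn' A hA (h.comm A hA)) (h0 C hC)
  intro A hA n hn' E hE hc
  have hA' := h.conj_mem_iSup hA (hNle hn')
  rcases h.pair E hE _ hA' with h1 | h1 | ⟨C, hC, h1⟩
  · exact h1
  · exfalso
    obtain ⟨e, he, he1⟩ := h.exists_ne_one hE
    apply R1.not_comm (R1.pair_conj_left h1 he he1).1
    have := hab _ hA' (e * n * e⁻¹ * n⁻¹) (N.mul_mem (hmem hE e he n hn') (N.inv_mem hn'))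
    rwa [conjBy_conjBy, inv_mul_cancel_right, conjBy_mul_of_eq _ (hc.conjBy_eq (E.inv_mem he)),
      ← conjBy_conjBy] at this
  · exact absurd (h1.eq ▸ hcomm A hA n hn' E hE hc) (h0 C hC)

/-- A subgroup normalizing all members of `S` and normalized by them centralizes them. -/
theorem RS.comm_of_norm (hn : ∀ A ∈ S, NI S A) {N : Subgroup G}
    (hN : ∀ g ∈ (⨆ B ∈ S, B), conjBy N g = N) (h1 : ∀ A ∈ S, ∀ n ∈ N, conjBy A n = A) :
    Comm N (⨆ B ∈ S, B) := by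
  intro n hn'
  refine comm_iSup_elem fun A hA => ?_
  obtain ⟨B, hB, hr⟩ := hn A hA
  exact R1.comm_of_norm hr (fun a ha => hN a (RS.mem_iSup hA ha)) (h1 A hA) (h1 B hB) n hn'

end Cfsg.Agent.Root
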