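import Cfsg.Agent.Root.Sub4

/-! Subfield subgroups of classical groups in dimension at least ten (without the orthogonal odd-index case): the arguments of `Sub1`-`Sub4`
for the structure `Rt10` (`isMaximalIn_sub10`). -/

set_option autoImplicit false

namespace Cfsg.Agent.Root.Mx

open Cfsg.Agent.Geom Cfsg.Agent.AutCl Module

section Main
variable {F₀ F : Type*} [Field F₀] [Field F] [Algebra F₀ F] {σ₀ : F₀ →+* F₀} {σ : F →+* F}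
  {V₀ V : Type*} [AddCommGroup V₀] [Module F₀ V₀] [AddCommGroup V] [Module F V]

/-- `j` embeds the formed space `Φ₀` over `F₀` as a rational structure of `Φ`. -/
structure Rt10 (Φ₀ : Formed σ₀ V₀) (Φ : Formed σ V) (j : V₀ →ₛₗ[algebraMap F₀ F] V) : Prop where
  hn : Φ.Nondeg
  hn₀ : Φ₀.Nondeg
  hB : ∀ x y, Φ.B (j x) (j y) = algebraMap F₀ F (Φ₀.B x y)
  hQ : ∀ x, Φ.Q (j x) = algebraMap F₀ F (Φ₀.Q x)
  hσ : ∀ c, σ (algebraMap F₀ F c) = algebraMap F₀ F (σ₀ c)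
  hε : Φ.ε = algebraMap F₀ F Φ₀.ε
  hτ : Φ.τ = algebraMap F₀ F Φ₀.τ
  span : Submodule.span F (Set.range j) = ⊤
  dim : 10 ≤ finrank F₀ V₀

variable {Φ₀ : Formed σ₀ V₀} {Φ : Formed σ V} {j : V₀ →ₛₗ[algebraMap F₀ F] V}
  {X : Subgroup (V ≃ₗ[F] V)}

local notation "f" => algebraMap F₀ F

section
namespace Rt10

theorem B_zero (h : Rt10 Φ₀ Φ j) {x y : V₀} (e : Φ₀.B x y = 0) : Φ.B (j x) (j y) = 0 := by
  rw [h.hB, e, map_zero]

theorem B_one (h : Rt10 Φ₀ Φ j) {x y : V₀} (e : Φ₀.B x y = 1) : Φ.B (j x) (j y) = 1 := by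
  rw [h.hB, e, map_one]

theorem sing (h : Rt10 Φ₀ Φ j) {x : V₀} : Φ.Sing (j x) ↔ Φ₀.Sing x := by
  simp only [Formed.Sing, h.hQ, h.hB, map_eq_zero]

theorem inj (h : Rt10 Φ₀ Φ j) : Function.Injective j :=
  (injective_iff_map_eq_zero j).2 fun x hx => h.hn₀ x fun y => by
    simpa [hx] using (h.hB x y).symm

theorem ne (h : Rt10 Φ₀ Φ j) {x : V₀} (hx : x ≠ 0) : j x ≠ 0 := by rwa [Ne, map_eq_zero_iff j h.inj]

theorem eq_zero (h : Rt10 Φ₀ Φ j) {v : V} (hv : ∀ w, Φ.B v (j w) = 0) : v = 0 := h.hn v fun y => by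
  have : Submodule.span F (Set.range j) ≤ LinearMap.ker (Φ.B v) :=
    Submodule.span_le.2 (by rintro _ ⟨w, rfl⟩; exact hv w)
  exact this (h.span ▸ Submodule.mem_top)

theorem σ_mem (h : Rt10 Φ₀ Φ j) {c : F} (hc : σ c ∈ (f).fieldRange) : c ∈ (f).fieldRange := by
  obtain ⟨a, ha⟩ := hc
  exact ⟨σ₀ a, by rw [← h.hσ, ha, Φ.σσ]⟩

theorem ε_mem (h : Rt10 Φ₀ Φ j) : Φ.ε ∈ (f).fieldRange := ⟨_, h.hε.symm⟩

theorem fin (h : Rt10 Φ₀ Φ j) : FiniteDimensional F₀ V₀ := .of_finrank_pos (by have := h.dim; omega)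

theorem rat_of_B (h : Rt10 Φ₀ Φ j) {v : V} (hv : ∀ w, Φ.B v (j w) ∈ (f).fieldRange) : ∃ r, v = j r := by
  haveI := h.fin
  choose φ hφ using hv
  obtain ⟨r, hr⟩ := h.hn₀.exists_eq_B
    { toFun := φ
      map_add' := fun x y => (f).injective (by simp [hφ])
      map_smul' := fun c x => (f).injective (by simp [hφ, map_smulₛₗ]) }
  refine ⟨r, sub_eq_zero.1 (h.eq_zero fun w => ?_)⟩
  rw [Φ.B_sub_left, h.hB, hr, ← hφ]; simp

theorem rat_add (h : Rt10 Φ₀ Φ j) {u : V₀} (hu : u ≠ 0) {v : V}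
    (hv : ∀ w, Φ₀.B u w = 0 → Φ.B v (j w) ∈ (f).fieldRange) : ∃ r, ∃ μ : F, v = j r + μ • j u := by
  obtain ⟨u', hu'⟩ := h.hn₀.exists_eq_one hu
  obtain ⟨r, hr⟩ := h.rat_of_B (v := v - σ (Φ.B v (j u')) • j u) fun w => by
    convert hv (w - Φ₀.B u w • u') (by simp [hu']) using 1
    rw [Φ.B_sub_left, Φ.B_smul_left, Φ.σσ, h.hB]; simp [map_smulₛₗ, mul_comm]
  exact ⟨r, _, sub_eq_iff_eq_add.1 hr⟩

theorem mem_span (h : Rt10 Φ₀ Φ j) {u : V₀} (hu : u ≠ 0) {v : V}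
    (hv : ∀ w, Φ₀.B u w = 0 → Φ.B v (j w) = 0) : v ∈ F ∙ j u := by
  obtain ⟨u', hu'⟩ := h.hn₀.exists_eq_one hu
  refine Submodule.mem_span_singleton.2 ⟨σ (Φ.B v (j u')), (sub_eq_zero.1 (h.eq_zero fun w => ?_)).symm⟩
  convert hv (w - Φ₀.B u w • u') (by simp [hu']) using 1
  rw [Φ.B_sub_left, Φ.B_smul_left, Φ.σσ, h.hB]; simp [map_smulₛₗ, mul_comm]

theorem notMem (h : Rt10 Φ₀ Φ j) {u w : V₀} (hw : w ∉ F₀ ∙ u) : j w ∉ F ∙ j u := fun hc => by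
  haveI := h.fin
  obtain ⟨t, h1, h2⟩ := exists_dual1 h.hn₀ hw
  obtain ⟨c, hc⟩ := Submodule.mem_span_singleton.1 hc
  have := h.B_one h1
  rw [← hc, Φ.B_smul_left, h.B_zero h2, mul_zero] at this
  exact zero_ne_one this

variable [FiniteDimensional F V]

theorem lift (h : Rt10 Φ₀ Φ j) {p a : V₀} {d : F₀} (hp : Φ₀.Sing p) (hpa : Φ₀.B p a = 0)
    (hQ : Φ₀.τ * d = Φ₀.Q a) (hB : Φ₀.ε * d + σ₀ d = Φ₀.B a a) : ∃ g, IsE Φ (j p) (j a) (f d) g :=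
  exists_isE h.hn (h.sing.2 hp) (h.B_zero hpa) (by rw [h.hτ, h.hQ, ← hQ, map_mul])
    (by rw [h.hε, h.hB, h.hσ, ← hB, map_add, map_mul])

theorem app (h : Rt10 Φ₀ Φ j) {p a : V₀} {d : F₀} {g : V ≃ₗ[F] V} (hg : IsE Φ (j p) (j a) (f d) g) (x : V₀) :
    g (j x) = j (x + (Φ₀.B a x - d * Φ₀.B p x) • p - (Φ₀.ε * Φ₀.B p x) • a) := by
  rw [hg.app]; simp [map_smulₛₗ, h.hB, h.hε]

theorem hasE (h : Rt10 Φ₀ Φ j) (hX : Ov Φ j X) {p a : V₀} (hp : Φ₀.Sing p) (hpa : Φ₀.B p a = 0) :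
    ∃ d, HasE Φ X (j p) (j a) (f d) := by
  obtain ⟨d, h1, h2⟩ := Φ₀.trace a
  obtain ⟨g, hg⟩ := h.lift hp hpa h1 h2
  exact ⟨d, g, hX.rat _ _ _ _ hg, hg⟩

theorem hasE0 (h : Rt10 Φ₀ Φ j) (hX : Ov Φ j X) {p a : V₀} (hp : Φ₀.Sing p) (ha : Φ₀.Sing a)
    (hpa : Φ₀.B p a = 0) : HasE Φ X (j p) (j a) 0 := by
  obtain ⟨g, hg⟩ := h.lift (d := 0) hp hpa (by simp [ha.1]) (by simp [ha.2])
  exact ⟨g, hX.rat _ _ _ _ hg, by simpa using hg⟩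

/-- `c` is a parameter at `p`. -/
def Par (Φ₀ : Formed σ₀ V₀) (Φ : Formed σ V) (j : V₀ →ₛₗ[algebraMap F₀ F] V)
    (X : Subgroup (V ≃ₗ[F] V)) (p : V₀) (c : F) : Prop :=
  ∀ w, Φ₀.B p w = 0 → ∃ d, HasE Φ X (j p) (c • j w) d

variable [Finite F₀]

theorem par_of (h : Rt10 Φ₀ Φ j) (hX : Ov Φ j X) {p w : V₀} {c d : F} (hp0 : p ≠ 0)
    (hw : w ∉ F₀ ∙ p) (hpw : Φ₀.B p w = 0) (he : HasE Φ X (j p) (c • j w) d) : Par Φ₀ Φ j X p c := by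
  haveI := h.fin
  have := h.dim
  refine perp_le_of_inv h.hn₀ (by omega) hp0 (h.sing.1 he.sp)
    ((AE Φ X he.sp).comap ((DistribSMul.toAddMonoidHom V c).comp j.toAddMonoidHom))
    (fun y z d g hy hz hg a ha => ?_) ⟨d, he⟩ hpw hw
  obtain ⟨s, hs⟩ := h.lift hg.sp hg.pa hg.hQ hg.hB
  have := map_mem_AE (hp := he.sp) (hX.rat _ _ _ _ hs) hs.mem_isom (by
    rw [h.app hs, Φ₀.B_eq_zero_symm hy, Φ₀.B_eq_zero_symm hz]; simp) ha
  change c • j (g a) ∈ AE Φ X he.sp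
  rwa [hg.app, ← h.app hs, ← map_smul s c (j a)]

theorem par_step (h : Rt10 Φ₀ Φ j) (hX : Ov Φ j X) {u p : V₀} {c c' : F} (hp0 : p ≠ 0)
    (hu : u ∉ F₀ ∙ p) (hpu : Φ₀.B p u = 0) (h1 : Par Φ₀ Φ j X u c) (h2 : Par Φ₀ Φ j X p c') :
    Par Φ₀ Φ j X p (σ c * c') := by
  haveI := h.fin
  obtain ⟨w, hw, a, ha, e⟩ := exists_B_one h.hn₀ (W := ⊤ ⊓ pf Φ₀ ![u, p]) (by
    have := finrank_pf (Φ := Φ₀) ![u, p] ⊤; have := h.dim; rw [finrank_top] at *; omega)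
  have hw := mem_pf.1 hw.2
  have ha := mem_pf.1 ha.2
  obtain ⟨d, h1⟩ := h1 w (hw 0)
  obtain ⟨d', h2⟩ := h2 a (ha 1)
  refine h.par_of hX hp0 hu hpu (d := 0) ((h1.move h2 (h.B_zero (Φ₀.B_eq_zero_symm hpu)) ?_ ?_).congr ?_ rfl)
  · rw [Φ.B_smul_left, h.B_zero (Φ₀.B_eq_zero_symm (show Φ₀.B p w = 0 from hw 1)), mul_zero]
  · rw [Φ.B_smul_right, h.B_zero (show Φ₀.B u a = 0 from ha 0), mul_zero]
  · rw [Φ.B_smul_left, Φ.B_smul_right, h.B_one e, mul_one]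

theorem par_rat (h : Rt10 Φ₀ Φ j) (hX : Ov Φ j X) {p : V₀} (hp : Φ₀.Sing p) (c : F₀) :
    Par Φ₀ Φ j X p (f c) := fun w hw => by
  obtain ⟨d, hd⟩ := h.hasE hX hp (a := c • w) (by simp [hw])
  exact ⟨_, hd.congr (map_smulₛₗ j c w) rfl⟩

theorem par_σ (h : Rt10 Φ₀ Φ j) (hX : Ov Φ j X) {u p : V₀} {c : F} (hp0 : p ≠ 0) (hp : Φ₀.Sing p)
    (hu : u ∉ F₀ ∙ p) (hpu : Φ₀.B p u = 0) (h1 : Par Φ₀ Φ j X u c) : Par Φ₀ Φ j X p (σ c) := by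
  simpa using h.par_step hX hp0 hu hpu h1 (h.par_rat hX hp 1)

theorem exists_nbr (h : Rt10 Φ₀ Φ j) {u p : V₀} (hu0 : u ≠ 0) (hp0 : p ≠ 0) : ∃ z, z ≠ 0 ∧ Φ₀.Sing z ∧
    Φ₀.B u z = 0 ∧ Φ₀.B p z = 0 ∧ z ∉ F₀ ∙ u ∧ z ∉ F₀ ∙ p ∧ u ∉ F₀ ∙ z ∧ p ∉ F₀ ∙ z := by
  haveI := h.fin
  obtain ⟨z, -, hz, hs, h1⟩ := exists_sing_pf Φ₀ ![u, p] (U := ⊤) (R := (F₀ ∙ u) ⊔ F₀ ∙ p) (by
    have := finrank_sup_one (F₀ ∙ u) p; have := finrank_span_one (F := F₀) u; have := h.dim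
    rw [finrank_top]; omega)
  have h2 : z ∉ F₀ ∙ u := fun e => hz (Submodule.mem_sup_left e)
  have h3 : z ∉ F₀ ∙ p := fun e => hz (Submodule.mem_sup_right e)
  exact ⟨z, by rintro rfl; simp at hz, hs, h1 0, h1 1, h2, h3, notMem_symm h2 hu0, notMem_symm h3 hp0⟩

theorem par_all (h : Rt10 Φ₀ Φ j) (hX : Ov Φ j X) {u p : V₀} {c : F} (hu0 : u ≠ 0) (hp0 : p ≠ 0)
    (hp : Φ₀.Sing p) (h1 : Par Φ₀ Φ j X u c) : Par Φ₀ Φ j X p c := by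
  obtain ⟨z, hz0, hz, e1, e2, -, n2, n3, -⟩ := h.exists_nbr hu0 hp0
  simpa [Φ.σσ] using h.par_σ hX hp0 hp n2 e2 (h.par_σ hX hz0 hz n3 (Φ₀.B_eq_zero_symm e1) h1)

theorem exists_pl (h : Rt10 Φ₀ Φ j) : ∃ u w, u ≠ 0 ∧ Φ₀.Sing u ∧ Φ₀.Sing w ∧ w ∉ F₀ ∙ u ∧ Φ₀.B u w = 0 := by
  haveI := h.fin
  obtain ⟨u, hu0, hu⟩ := exists_sing_top Φ₀ (by have := h.dim; omega)
  obtain ⟨z, -, hz, e1, -, n1, -⟩ := h.exists_nbr hu0 hu0
  exact ⟨u, z, hu0, hu, hz, n1, e1⟩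

/-- The ring of parameters. -/
def parR (h : Rt10 Φ₀ Φ j) (hX : Ov Φ j X) : Subring F where
  carrier := {c | ∀ p, p ≠ 0 → Φ₀.Sing p → Par Φ₀ Φ j X p c}
  one_mem' := fun p _ hp => by simpa using h.par_rat hX hp 1
  zero_mem' := fun p _ hp => by simpa using h.par_rat hX hp 0
  add_mem' := fun ha hb p h0 hp w hw => by
    obtain ⟨_, h1⟩ := ha p h0 hp w hw
    obtain ⟨_, h2⟩ := hb p h0 hp w hw
    exact ⟨_, (h1.mul h2).congr (add_smul _ _ _).symm rfl⟩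
  neg_mem' := fun ha p h0 hp w hw => by
    obtain ⟨_, h1⟩ := ha p h0 hp w hw
    exact ⟨_, h1.inv.congr (neg_smul _ _).symm rfl⟩
  mul_mem' := fun ha hb p h0 hp => by
    obtain ⟨z, hz0, hz, e1, -, n1, -, n3, -⟩ := h.exists_nbr h0 h0
    simpa [Φ.σσ] using h.par_step hX h0 n1 e1
      (h.par_σ hX hz0 hz n3 (Φ₀.B_eq_zero_symm e1) (ha p h0 hp)) (hb p h0 hp)

theorem mem_parR (h : Rt10 Φ₀ Φ j) (hX : Ov Φ j X) {u : V₀} {c : F} (hu0 : u ≠ 0)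
    (h1 : Par Φ₀ Φ j X u c) : c ∈ h.parR hX := fun _ h0 hp => h.par_all hX hu0 h0 hp h1

theorem σ_mem_parR (h : Rt10 Φ₀ Φ j) (hX : Ov Φ j X) {c : F} (hc : c ∈ h.parR hX) : σ c ∈ h.parR hX := by
  obtain ⟨u, w, h0, hu, hw, n, e⟩ := h.exists_pl
  exact h.mem_parR hX h0 (h.par_σ hX h0 hu n e (hc w (by rintro rfl; simp at n) hw))

theorem B_mem_aux (h : Rt10 Φ₀ Φ j) (hX : Ov Φ j X) {u v w : V₀} {a : V} {d : F} {e : F₀} (hu0 : u ≠ 0)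
    (ha : HasE Φ X (j u) a d) (hv : Φ₀.B u v = 0) (hw : Φ₀.B u w = 0)
    (hw' : w ∉ (F₀ ∙ u) ⊔ F₀ ∙ v) (hs : HasE Φ X (j w) (j v) (f e)) :
    Φ.B (j v) a - f e * Φ.B (j w) a ∈ h.parR hX := by
  haveI := h.fin
  obtain ⟨s, hsX, hs⟩ := hs
  have hu := ha.sp
  have h1 : s a - a ∈ AE Φ X hu := (AE Φ X hu).sub_mem (map_mem_AE hsX hs.mem_isom (by
    rw [h.app hs, Φ₀.B_eq_zero_symm hv, Φ₀.B_eq_zero_symm hw]; simp) ⟨d, ha⟩) ⟨d, ha⟩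
  obtain ⟨p, -, hp, hps, e1⟩ := exists_sing_pf Φ₀ ![u, v, w] (U := ⊤)
    (R := ((F₀ ∙ u) ⊔ F₀ ∙ v) ⊔ F₀ ∙ w) (by
    have := finrank_sup_one (F₀ ∙ u) v; have := finrank_span_one (F := F₀) u; have := h.dim
    have := finrank_sup_one ((F₀ ∙ u) ⊔ F₀ ∙ v) w
    rw [finrank_top]; omega)
  obtain ⟨t, ht, e2⟩ := h.hn₀.exists_perp_eq_one' (H := ((F₀ ∙ u) ⊔ F₀ ∙ v) ⊔ F₀ ∙ p) (x := w)
    fun hc => hp (exch hc hw')
  simp only [Φ₀.perp_sup, Submodule.mem_inf, Φ₀.mem_perp_span_singleton] at ht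
  obtain ⟨d', h1⟩ := h1
  obtain ⟨d'', h2⟩ := h.hasE hX hps ht.2
  have e10 : Φ₀.B u p = 0 := e1 0
  have h3 := h1.move h2 (h.B_zero e10) (by
    simp [hs.app, Φ.B_smul_left, h.B_zero (show Φ₀.B v p = 0 from e1 1),
      h.B_zero (show Φ₀.B w p = 0 from e1 2)]) (h.B_zero ht.1.1)
  have hp0 : p ≠ 0 := by rintro rfl; simp at hp
  have h4 := h.σ_mem_parR hX (h.mem_parR hX hp0 (h.par_of hX hp0 (notMem_symm (fun e => hp
    (Submodule.mem_sup_left (Submodule.mem_sup_left e))) hu0) (Φ₀.B_eq_zero_symm e10) h3))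
  convert h4 using 1
  simp [hs.app, Φ.B_smul_left, h.B_zero ht.1.2, h.B_one e2, Φ.σσ]

theorem B_mem (h : Rt10 Φ₀ Φ j) (hX : Ov Φ j X) {u v : V₀} {a : V} {d : F} (hu0 : u ≠ 0)
    (ha : HasE Φ X (j u) a d) (hv : Φ₀.B u v = 0) : Φ.B a (j v) ∈ h.parR hX := by
  haveI := h.fin
  have hf : ∀ c, f c ∈ h.parR hX := fun c _ _ hp => h.par_rat hX hp c
  have ex : ∀ v, ∃ w, Φ₀.Sing w ∧ Φ₀.B u w = 0 ∧ Φ₀.B w v = 0 ∧ w ∉ (F₀ ∙ u) ⊔ F₀ ∙ v := fun v => by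
    obtain ⟨w, -, hw, hs, e⟩ := exists_sing_pf Φ₀ ![u, v] (U := ⊤) (R := (F₀ ∙ u) ⊔ F₀ ∙ v) (by
      have := finrank_sup_one (F₀ ∙ u) v; have := finrank_span_one (F := F₀) u; have := h.dim
      rw [finrank_top]; omega)
    exact ⟨w, hs, e 0, Φ₀.B_eq_zero_symm (e 1), hw⟩
  obtain ⟨w, hs, e1, e2, n⟩ := ex v
  obtain ⟨w', hs', e1', e2', n'⟩ := ex w
  obtain ⟨e, he⟩ := h.hasE hX hs e2
  have h1 := h.B_mem_aux hX hu0 ha hv e1 n he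
  have h2 := h.B_mem_aux hX (e := 0) hu0 ha e1 e1' n' (by simpa using h.hasE0 hX hs' hs e2')
  rw [map_zero, zero_mul, sub_zero] at h2
  rw [Φ.symm, h.hε]
  refine mul_mem (hf _) (h.σ_mem_parR hX ?_)
  simpa using add_mem h1 (mul_mem (hf e) h2)

theorem mem_AE_of_top (h : Rt10 Φ₀ Φ j) (hX : Ov Φ j X) (ht : h.parR hX = ⊤) {u : V₀} (hu0 : u ≠ 0)
    (hu : Φ₀.Sing u) (v : V) (hv : Φ.B (j u) v = 0) : v ∈ AE Φ X (h.sing.2 hu) := by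
  obtain ⟨u', hu'⟩ := h.hn₀.exists_eq_one hu0
  have : ∀ v : V, ∀ c : F, c • (v - Φ.B (j u) v • j u') ∈ AE Φ X (h.sing.2 hu) := fun v => by
    induction (h.span ▸ Submodule.mem_top : v ∈ Submodule.span F (Set.range j)) using
      Submodule.span_induction with
    | mem x hx =>
      obtain ⟨w, rfl⟩ := hx
      intro c
      have := (ht.ge (Subring.mem_top c)) u hu0 hu (w - Φ₀.B u w • u') (by simp [hu'])
      rwa [map_sub, map_smulₛₗ, ← h.hB] at this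
    | zero => simp
    | add x y _ _ hx hy =>
      intro c
      convert add_mem (hx c) (hy c) using 1
      rw [map_add]; module
    | smul e x _ hx =>
      intro c
      convert hx (c * e) using 1
      rw [map_smul, smul_eq_mul]; module
  simpa [hv] using this v 1

variable [Finite F]

theorem full_of_top (h : Rt10 Φ₀ Φ j) (hX : Ov Φ j X) (ht : h.parR hX = ⊤) {u : V₀} (hu0 : u ≠ 0)
    (hu : Φ₀.Sing u) : Full Φ X (j u) := by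
  haveI := h.fin
  have hA := h.mem_AE_of_top hX ht hu0 hu
  obtain ⟨w, hw0, hw, e1, -, n1, -, n2, -⟩ := h.exists_nbr hu0 hu0
  obtain ⟨u', b1, b2⟩ := exists_dual1 h.hn₀ n2
  obtain ⟨w', b3, b4⟩ := exists_dual1 h.hn₀ n1
  by_cases h2 : NotSp2 Φ
  · refine full_of_AE _ hA (fullT_of_comm _ h2 fun t => ⟨_, hA _ (h.B_zero e1), _, hA (t • j w') ?_, ?_⟩)
    · rw [Φ.B_smul_right, h.B_zero b4, mul_zero]
    · rw [Φ.B_smul_right, h.B_one b3, mul_one]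
  refine full_of_AE _ hA fun d g hg => ?_
  have h22 : (2 : F) = 0 := by_contra fun e => h2 (notSp2_of_two e)
  have hσ : σ = RingHom.id F := by_contra fun e => h2 (notSp2_of_ne e)
  have hτ : Φ.τ = 0 := by_contra fun e => h2 (Or.inl e)
  have hε : Φ.ε = -1 := by
    have : (Φ.ε + 1) ^ 2 = 0 := by linear_combination Φ.εε + (Φ.ε + 1) * h22
    linear_combination pow_eq_zero_iff two_ne_zero |>.1 this
  subst hσ
  rcases eq_or_ne d 0 with rfl | hd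
  · rw [hg.ext (isE_one hg.sp)]; exact X.one_mem
  haveI : CharP F 2 := CharTwo.of_one_ne_zero_of_two_eq_zero one_ne_zero h22
  obtain ⟨c, rfl⟩ := FiniteField.isSquare_of_char_two (ringChar.eq F 2) d
  have hc : c ≠ 0 := by rintro rfl; simp at hd
  have hA' := h.mem_AE_of_top hX ht hw0 hw
  have mv : ∀ {x y y' : V₀} (hx : Φ₀.Sing x), (∀ v, Φ.B (j x) v = 0 → v ∈ AE Φ X (h.sing.2 hx)) →
      Φ₀.B x y = 0 → Φ₀.B y y' = 1 → Φ₀.B x y' = 0 → ∀ c : F, ∃ s ∈ X, s (j x) = j x ∧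
      s (j y) = j y + c • j x := fun {x y y'} hx hA e b1 b2 c => by
    obtain ⟨_, s, hsX, hs⟩ := hA ((-c) • j y') (by rw [Φ.B_smul_right, h.B_zero b2, mul_zero])
    refine ⟨s, hsX, hs.apply_p, ?_⟩
    rw [hs.apply_perp (h.B_zero e), Φ.B_smul_left, Φ.symm, h.B_one b1, hε]; simp
  obtain ⟨s1, x1, -, a1⟩ := mv hw hA' (Φ₀.B_eq_zero_symm e1) b1 b2 1
  obtain ⟨s2, x2, a2, a3⟩ := mv hu hA e1 b3 b4 (c - 1)
  obtain ⟨s3, x3, a4, a5⟩ := mv hw hA' (Φ₀.B_eq_zero_symm e1) b1 b2 (-c⁻¹)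
  obtain ⟨t, ht⟩ := exists_isE h.hn (a := 0) (d := 1) hg.sp (by simp) (by simp [hτ]) (by simp [hε])
  have hx := X.mul_mem x3 (X.mul_mem x2 x1)
  have := HasE.conj ⟨t, hX.rat u 0 1 t (by simpa using ht), ht⟩ hx (hX.isom hx)
  rw [show (s3 * (s2 * s1)) (j u) = c • j u by
    simp only [LinearEquiv.mul_apply, a1, a2, a3, a4, a5, map_add, map_smul]
    match_scalars <;> field_simp <;> ring] at this
  exact ((this.of_smul hc).congr (by simp) (by simp)).mem hg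

/-- Either `X` contains everything or its Eichler maps at rational points are rational. -/
theorem le_or_small (h : Rt10 Φ₀ Φ j) (hX : Ov Φ j X)
    (hmax : ∀ R : Subring F, (∀ c, f c ∈ R) → R = ⊤ ∨ ∀ c ∈ R, c ∈ (f).fieldRange) :
    EG Φ ≤ X ∨ Small Φ₀ Φ j X := by
  rcases hmax (h.parR hX) (fun c _ _ hp => h.par_rat hX hp c) with ht | ht
  · haveI := h.fin
    obtain ⟨u, hu0, hu⟩ := exists_sing_top Φ₀ (by have := h.dim; omega)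
    obtain ⟨r, hr⟩ := h.hn₀.exists_isPair hu0 hu
    exact Or.inl (EG_le_of_full h.hn (h.full_of_top hX ht hu0 hu)
      (h.full_of_top hX ht hr.right_ne_zero hr.sf) (by rw [h.B_one hr.ef]; exact one_ne_zero))
  · exact Or.inr fun u a d h0 ha v hv => ht _ (h.B_mem hX h0 ha hv)

end Rt10
end

section
namespace Rt10
variable [FiniteDimensional F V]

theorem small_add (h : Rt10 Φ₀ Φ j) (hS : Small Φ₀ Φ j X) {u : V₀} (hu : u ≠ 0) {a : V} {d : F}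
    (ha : HasE Φ X (j u) a d) : ∃ r, ∃ μ : F, a = j r + μ • j u := h.rat_add hu (hS u a d hu ha)

theorem rat_of_move (h : Rt10 Φ₀ Φ j) (hX : Ov Φ j X) (hS : Small Φ₀ Φ j X) {x b : V} {d : F}
    (hx : HasE Φ X x b d) {t p q : V₀} (hp : Φ₀.Sing p) (hq : Φ₀.Sing q) (hp0 : p ≠ 0)
    (hpq : q ∉ F₀ ∙ p) (h1 : Φ.B x (j t) = 0) (h2 : ∀ y ∈ ({p, q} : Set V₀), Φ.B x (j y) = 0 ∧
      Φ.B b (j y) = 0 ∧ Φ₀.B t y = 0) : ∃ r, Φ.B b (j t) • x = j r := by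
  haveI := h.fin
  have key : ∀ y ∈ ({p, q} : Set V₀), y ≠ 0 → Φ₀.Sing y → ∀ w, Φ₀.B y w = 0 →
      Φ.B (Φ.B b (j t) • x) (j w) ∈ (f).fieldRange := fun y hy h0 hs => by
    obtain ⟨e1, e2, e3⟩ := h2 y hy
    obtain ⟨_, he⟩ := h.hasE hX hs (Φ₀.B_eq_zero_symm e3)
    exact hS y _ _ h0 (hx.move he e1 e2 h1)
  obtain ⟨s, e1, e2⟩ := exists_dual1 h.hn₀ (notMem_symm hpq hp0)
  refine h.rat_of_B fun w => ?_
  rw [show w = (w - Φ₀.B p w • s) + Φ₀.B p w • s by abel, map_add, map_add]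
  exact add_mem (key p (by simp) hp0 hp _ (by simp [e1]))
    (key q (by simp) (by rintro rfl; simp at hpq) hq _ (by simp [e2]))

variable [Finite F₀]

theorem point_step (h : Rt10 Φ₀ Φ j) (hX : Ov Φ j X) (hS : Small Φ₀ Φ j X) {y : V ≃ₗ[F] V} (hy : y ∈ X)
    {u u' v : V₀} {c : F} (hu0 : u ≠ 0) (hu : Φ₀.Sing u) (e : y (j u) = c • j u') (hv : Φ₀.Sing v)
    (huv : Φ₀.B u v = 0) (hvu : v ∉ F₀ ∙ u) : ∃ v', y (j v) = c • j v' := by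
  haveI := h.fin
  have hd := h.dim
  have h0 : c • j u' ≠ 0 := e ▸ (map_ne_zero_iff y y.injective).2 (h.ne hu0)
  have hc : c ≠ 0 := left_ne_zero_of_smul h0
  have hσc : σ c ≠ 0 := by simpa
  have hu0' : u' ≠ 0 := by rintro rfl; simp at h0
  have key : ∀ v, Φ₀.B u v = 0 → ∃ r, ∃ μ : F, y (j v) = (σ c)⁻¹ • j r + μ • j u' := fun v hv => by
    obtain ⟨d, he⟩ := h.hasE hX hu hv
    have := he.conj hy (hX.isom hy)
    rw [e] at this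
    obtain ⟨r, μ, hr⟩ := h.small_add hS hu0' (this.of_smul hc)
    exact ⟨r, (σ c)⁻¹ * μ, by rw [mul_smul, ← smul_add, ← hr, inv_smul_smul₀ hσc]⟩
  obtain ⟨w, -, hw, -, e1⟩ := exists_sing_pf Φ₀ ![u, v] (U := ⊤) (R := (F₀ ∙ u) ⊔ F₀ ∙ v) (by
    have := finrank_sup_one (F₀ ∙ u) v; have := finrank_span_one (F := F₀) u
    rw [finrank_top]; omega)
  obtain ⟨v', μ, hv'⟩ := key v huv
  obtain ⟨w', ν, hw'⟩ := key w (e1 0)
  obtain ⟨t, ht, e2⟩ := h.hn₀.exists_perp_eq_one' (H := (F₀ ∙ u') ⊔ F₀ ∙ v') (x := w') fun hc' => by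
    obtain ⟨t, ht, e2⟩ := h.hn₀.exists_perp_eq_one' hw
    simp only [Φ₀.perp_sup, Submodule.mem_inf, Φ₀.mem_perp_span_singleton] at ht
    obtain ⟨_, h1, _, h2, rfl⟩ := Submodule.mem_sup.1 hc'
    obtain ⟨α, rfl⟩ := Submodule.mem_span_singleton.1 h1
    obtain ⟨β, rfl⟩ := Submodule.mem_span_singleton.1 h2
    have : j w = f β • j v + (c⁻¹ * ((σ c)⁻¹ * f α + ν - f β * μ)) • j u := y.injective (by
      rw [map_add, map_smul, map_smul, hw', hv', e, map_add, map_smulₛₗ, map_smulₛₗ]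
      match_scalars <;> field_simp <;> ring)
    have h3 := h.B_one e2
    rw [this] at h3
    simp [h.B_zero ht.1, h.B_zero ht.2] at h3
  simp only [Φ₀.perp_sup, Submodule.mem_inf, Φ₀.mem_perp_span_singleton] at ht
  obtain ⟨p, -, q, -, hp, hq, hp0, hpq, a1, a2⟩ := exists_two_sing Φ₀ ![u', v', w', t] (U := ⊤) (by
    rw [finrank_top]; omega)
  obtain ⟨d, he⟩ := h.hasE hX hv (show Φ₀.B v w = 0 from e1 1)
  obtain ⟨r, hr⟩ := h.rat_of_move hX hS (he.conj hy (hX.isom hy)) hp hq hp0 hpq (t := t)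
    (by simp [hv', h.B_zero ht.1, h.B_zero ht.2]) fun z hz => by
      have : ∀ i, Φ₀.B (![u', v', w', t] i) z = 0 := by rcases hz with rfl | rfl <;> assumption
      have b0 : Φ.B (j u') (j z) = 0 := h.B_zero (this 0)
      have b1 : Φ.B (j v') (j z) = 0 := h.B_zero (this 1)
      have b2 : Φ.B (j w') (j z) = 0 := h.B_zero (this 2)
      exact ⟨by simp [hv', b0, b1], by simp [hw', b0, b2], this 3⟩
  refine ⟨r, ?_⟩
  rw [← hr, hw']; simp [h.B_zero ht.1, h.B_one e2, Φ.σσ, hc]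

variable [Finite V]

theorem mem_of_point (h : Rt10 Φ₀ Φ j) (hX : Ov Φ j X) (hS : Small Φ₀ Φ j X) {y : V ≃ₗ[F] V} (hy : y ∈ X)
    {u u' : V₀} {c : F} (hu0 : u ≠ 0) (hu : Φ₀.Sing u) (e : y (j u) = c • j u') :
    y ∈ ratG F (Set.range j) := by
  haveI := h.fin
  have hc : c ≠ 0 := left_ne_zero_of_smul (e ▸ (map_ne_zero_iff y y.injective).2 (h.ne hu0))
  obtain ⟨r, hr⟩ := h.hn₀.exists_isPair hu0 hu
  refine mem_ratG.2 ⟨c⁻¹, inv_ne_zero hc, ?_⟩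
  rintro _ ⟨v, rfl⟩
  refine sing_induction hr (P := fun v => c⁻¹ • y (j v) ∈ Set.range j) (fun z hz => ?_) ?_ v
  · rcases eq_or_ne z 0 with rfl | hz0
    · exact ⟨0, by simp⟩
    obtain ⟨w, hw0, hw, e1, e2, n1, -, -, n2⟩ := h.exists_nbr hu0 hz0
    obtain ⟨w', hw'⟩ := h.point_step hX hS hy hu0 hu e hw e1 n1
    obtain ⟨z', hz'⟩ := h.point_step hX hS hy hw0 hw hw' hz (Φ₀.B_eq_zero_symm e2) n2
    exact ⟨z', by rw [hz', inv_smul_smul₀ hc]⟩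
  · rintro a b ⟨a', ha⟩ ⟨b', hb⟩
    exact ⟨a' + b', by simp [ha, hb]⟩

theorem mem_of_supp (h : Rt10 Φ₀ Φ j) (hX : Ov Φ j X) (hS : Small Φ₀ Φ j X) {g : V ≃ₗ[F] V} (hg : g ∈ X)
    {e : V₀} (he0 : e ≠ 0) (he : Φ₀.Sing e) {Z : Submodule F₀ V₀} (hZ : finrank F₀ V₀ ≤ finrank F₀ Z + 3)
    (hx : ∀ z ∈ Z, Φ.B (g (j e)) (j z) = 0) : g ∈ ratG F (Set.range j) := by
  haveI := h.fin
  have hd := h.dim
  have hi := hX.isom hg
  obtain ⟨p, hpZ, hp, hn⟩ : ∃ p ∈ Z, Φ₀.Sing p ∧ g⁻¹ (j p) ∉ F ∙ j e := by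
    by_contra! hc
    obtain ⟨p, hpZ, q, hqZ, hp, hq, hp0, hpq, -⟩ := exists_two_sing Φ₀ ![] (U := Z) (by omega)
    obtain ⟨a, ha⟩ := Submodule.mem_span_singleton.1 (hc p hpZ hp)
    obtain ⟨b, hb⟩ := Submodule.mem_span_singleton.1 (hc q hqZ hq)
    have ha0 : a ≠ 0 := by
      rintro rfl
      exact h.ne hp0 ((map_eq_zero_iff _ (g⁻¹).injective).1 (by simp [← ha]))
    exact h.notMem hpq (Submodule.mem_span_singleton.2 ⟨b / a, (g⁻¹).injective (by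
      rw [map_smul, ← ha, ← hb, smul_smul, div_mul_cancel₀ _ ha0])⟩)
  obtain ⟨e', h1, h2⟩ : ∃ e', Φ₀.B e e' = 0 ∧ Φ.B (j p) (g (j e')) ≠ 0 := by
    by_contra! hc
    exact hn (h.mem_span he0 fun w hw => by rw [← hi.1, ← hc w hw]; simp)
  obtain ⟨w, hw, t, ht, e1⟩ := exists_B_one h.hn₀ (W := Z ⊓ pf Φ₀ ![p]) (by
    have := finrank_pf (Φ := Φ₀) ![p] Z; omega)
  have hpw : Φ₀.B p w = 0 := mem_pf.1 hw.2 0
  have hpt : Φ₀.B p t = 0 := mem_pf.1 ht.2 0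
  obtain ⟨d, he'⟩ := h.hasE hX he h1
  have hb := he'.conj hg hi
  obtain ⟨d', s, hsX, hs⟩ := h.hasE hX hp hpw
  obtain ⟨d'', hb'⟩ : s (g (j e')) - g (j e') ∈ AE Φ X hb.sp := sub_mem (map_mem_AE hsX hs.mem_isom (by
    rw [hs.app, Φ.B_eq_zero_symm (hx p hpZ), Φ.B_eq_zero_symm (hx w hw.1)]; simp) ⟨_, hb⟩) ⟨_, hb⟩
  obtain ⟨p₁, z1, q, z2, hp₁, hq, hp0, hpq, a1, a2⟩ := exists_two_sing Φ₀ ![p, w, t] (U := Z) (by omega)
  obtain ⟨r, hr⟩ := h.rat_of_move hX hS hb' hp₁ hq hp0 hpq (hx t ht.1) fun z hz => by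
    obtain ⟨b, b'⟩ : z ∈ Z ∧ ∀ i, Φ₀.B (![p, w, t] i) z = 0 := by
      rcases hz with rfl | rfl <;> exact ⟨by assumption, by assumption⟩
    have b0 : Φ.B (j p) (j z) = 0 := h.B_zero (b' 0)
    have b1 : Φ.B (j w) (j z) = 0 := h.B_zero (b' 1)
    exact ⟨hx z b, by simp [hs.app, b0, b1], b' 2⟩
  exact h.mem_of_point hX hS hg he0 he (u' := r) (by
    rw [← hr, inv_smul_smul₀ (by simpa [hs.app, h.B_zero hpt, h.B_one e1, Φ.ε_ne_zero] using h2)])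

theorem mem_of_comb (h : Rt10 Φ₀ Φ j) (hX : Ov Φ j X) (hS : Small Φ₀ Φ j X) {g : V ≃ₗ[F] V} (hg : g ∈ X)
    {e : V₀} (he0 : e ≠ 0) (he : Φ₀.Sing e) (s : Fin 3 → V₀)
    (hx : g (j e) ∈ Submodule.span F (Set.range fun i => j (s i))) : g ∈ ratG F (Set.range j) := by
  haveI := h.fin
  refine h.mem_of_supp hX hS hg he0 he (Z := ⊤ ⊓ pf Φ₀ s) (by simpa using finrank_pf (Φ := Φ₀) s ⊤)
    fun z hz => (Φ.mem_perp_span.2 ?_ : j z ∈ Φ.perp _) _ hx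
  rintro _ ⟨i, rfl⟩
  exact h.B_zero (mem_pf.1 hz.2 i)

theorem mem_of_plane (h : Rt10 Φ₀ Φ j) (hX : Ov Φ j X) (hS : Small Φ₀ Φ j X) {g : V ≃ₗ[F] V} (hg : g ∈ X)
    {e e' p : V₀} (he0 : e ≠ 0) (he : Φ₀.Sing e) (he' : Φ₀.Sing e') (hee : Φ₀.B e e' = 0)
    (hn : e' ∉ F₀ ∙ e) (hp0 : p ≠ 0) (hp : Φ₀.Sing p) (h1 : Φ.B (g (j e)) (j p) = 0)
    (h2 : Φ.B (g (j e')) (j p) = 0) : g ∈ ratG F (Set.range j) := by
  have hi := hX.isom hg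
  by_cases hc : ∃ α β : F, j p = α • g (j e) + β • g (j e')
  · obtain ⟨α, β, hc⟩ := hc
    refine inv_mem_iff.1 (h.mem_of_comb hX hS (X.inv_mem hg) hp0 hp ![e, e', 0] ?_)
    rw [hc]
    simp only [map_add, map_smul, LinearEquiv.coe_inv, LinearEquiv.symm_apply_apply]
    exact add_mem (Submodule.smul_mem _ _ (Submodule.subset_span ⟨0, rfl⟩))
      (Submodule.smul_mem _ _ (Submodule.subset_span ⟨1, rfl⟩))
  set x := g (j e)
  set a := g (j e')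
  have ex : ∀ α β : F, α • x + β • a ≠ 0 → ∃ w, Φ₀.B p w = 0 ∧ Φ.B (α • x + β • a) (j w) ≠ 0 :=
    fun α β h0 => by
      by_contra! hw
      obtain ⟨c, e⟩ := Submodule.mem_span_singleton.1 (h.mem_span hp0 hw)
      have hc0 : c ≠ 0 := by rintro rfl; exact h0 (by simp [← e])
      exact hc ⟨c⁻¹ * α, c⁻¹ * β, by rw [mul_smul, mul_smul, ← smul_add, ← e, inv_smul_smul₀ hc0]⟩
  obtain ⟨w₁, b1, c1⟩ := ex 1 0 (by simpa [x] using h.ne he0)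
  simp only [one_smul, zero_smul, add_zero] at c1
  obtain ⟨w₂, b2, c2⟩ := ex (σ (Φ.B a (j w₁))) (-σ (Φ.B x (j w₁))) fun h0 => by
    refine h.notMem hn (Submodule.mem_span_singleton.2 ⟨σ (Φ.B a (j w₁)) / σ (Φ.B x (j w₁)),
      g.injective ?_⟩)
    have : σ (Φ.B x (j w₁)) ≠ 0 := by simpa
    rw [map_smul, div_eq_inv_mul, mul_smul, inv_smul_eq_iff₀ this]
    exact (add_neg_eq_zero.1 (by rwa [neg_smul] at h0))
  obtain ⟨s, hsX, hs⟩ := (h.hasE0 hX he he' hee).conj hg hi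
  have key : ∀ w, Φ₀.B p w = 0 → ∃ r, ∃ μ : F,
      Φ.B a (j w) • x - (Φ.ε * Φ.B x (j w)) • a = j r + μ • j p := fun w hw => by
    obtain ⟨d, hd⟩ := h.hasE hX hp hw
    obtain ⟨d', hd'⟩ : s (j w) - j w ∈ AE Φ X hd.sp := sub_mem (map_mem_AE hsX hs.mem_isom (by
      rw [hs.apply_perp h1, h2]; simp) ⟨_, hd⟩) ⟨_, hd⟩
    refine h.small_add hS hp0 (hd'.congr ?_ rfl)
    rw [hs.app]; simp only [zero_mul, sub_zero]; abel
  obtain ⟨r₁, μ₁, k1⟩ := key w₁ b1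
  obtain ⟨r₂, μ₂, k2⟩ := key w₂ b2
  refine h.mem_of_comb hX hS hg he0 he ![r₁, r₂, p] ((Submodule.smul_mem_iff _ c2).1 ?_)
  have m : ∀ i, j (![r₁, r₂, p] i) ∈ Submodule.span F (Set.range fun i => j (![r₁, r₂, p] i)) :=
    fun i => Submodule.subset_span ⟨i, rfl⟩
  convert sub_mem (Submodule.smul_mem _ (Φ.B x (j w₂)) (add_mem (m 0) (Submodule.smul_mem _ μ₁ (m 2))))
    (Submodule.smul_mem _ (Φ.B x (j w₁)) (add_mem (m 1) (Submodule.smul_mem _ μ₂ (m 2)))) using 1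
  change _ = _ • (j r₁ + μ₁ • j p) - _ • (j r₂ + μ₂ • j p)
  rw [← k1, ← k2, Φ.B_add_left, Φ.B_smul_left, Φ.B_smul_left, map_neg, Φ.σσ, Φ.σσ]
  module

end Rt10
end

section
namespace Rt10
variable [FiniteDimensional F V] [Finite F₀] [Finite F] [Finite V]

theorem mem_of_deg (h : Rt10 Φ₀ Φ j) (hX : Ov Φ j X) (hS : Small Φ₀ Φ j X) (hd : finrank F₀ F ≤ 3)
    {g : V ≃ₗ[F] V} (hg : g ∈ X) : g ∈ ratG F (Set.range j) := by
  haveI := h.fin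
  obtain ⟨e, -, he0, he, -⟩ := h.exists_pl
  let φ : V₀ →ₗ[F₀] F :=
    { toFun := fun v => Φ.B (g (j e)) (j v)
      map_add' := by simp
      map_smul' := fun c v => by simp [map_smulₛₗ, Algebra.smul_def] }
  refine h.mem_of_supp hX hS hg he0 he (Z := LinearMap.ker φ) ?_ fun z hz => hz
  have := φ.finrank_range_add_finrank_ker
  have := Submodule.finrank_le (LinearMap.range φ)
  omega

omit [Finite F] [Finite V] in
theorem exists_sing_B (h : Rt10 Φ₀ Φ j) {v : V} (hv : v ≠ 0) : ∃ u, Φ₀.Sing u ∧ Φ.B v (j u) ≠ 0 := by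
  haveI := h.fin
  obtain ⟨e, -, he0, he, -⟩ := h.exists_pl
  obtain ⟨r, hr⟩ := h.hn₀.exists_isPair he0 he
  by_contra! hc
  exact hv (h.eq_zero (sing_induction hr hc fun x y hx hy => by simp [hx, hy]))

omit [Finite F] [Finite V] [Finite F₀] in
theorem small_L (h : Rt10 Φ₀ Φ j) (hX : Ov Φ j X) (hS : Small Φ₀ Φ j X) {α : Module.End F V}
    (hα : HasL X α) {p a t : V₀} (hp0 : p ≠ 0) (hp : Φ₀.Sing p) (h0 : α (j p) = 0) (ha : Φ₀.B p a = 0)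
    (ht : Φ₀.B p t = 0) : Φ.B (α (j a)) (j t) ∈ (f).fieldRange := by
  obtain ⟨s, hs, e⟩ := hα.exists_apply
  obtain ⟨d, hd⟩ := h.hasE hX hp ha
  obtain ⟨d', hd'⟩ : s (j a) - j a ∈ AE Φ X hd.sp := sub_mem (map_mem_AE hs (hX.isom hs) (by
    rw [e, h0, add_zero]) ⟨_, hd⟩) ⟨_, hd⟩
  exact hS p _ _ hp0 (hd'.congr (by rw [e, add_sub_cancel_left]) rfl) t ht

theorem mem_of_dickson (hsq : ∀ x : F, x ^ 2 ∈ (f).fieldRange → x ∈ (f).fieldRange) {μ : F} {P : Prop}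
    (h : μ = 0 ∨ μ ^ 2 = -1 ∨ P) (hP : P → μ ^ 2 ∈ (f).fieldRange) : μ ∈ (f).fieldRange := by
  rcases h with rfl | h | h
  · exact zero_mem _
  · exact hsq _ (h ▸ neg_mem (one_mem _))
  · exact hsq _ (hP h)

theorem mem_of_tv (h : Rt10 Φ₀ Φ j) (hX : Ov Φ j X) (hS : Small Φ₀ Φ j X) (h2 : (2 : F) ≠ 0)
    (hsq : ∀ x : F, x ^ 2 ∈ (f).fieldRange → x ∈ (f).fieldRange) {d : F₀} (hd : d ≠ 0)
    (hd1 : Φ₀.τ * d = 0) (hd2 : Φ₀.ε * d + σ₀ d = 0)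
    (hN : ∀ β : F, (∀ κ, (β + f κ) * σ (β + f κ) ∈ (f).fieldRange) → β ∈ (f).fieldRange)
    {g : V ≃ₗ[F] V} (hg : g ∈ X) : g ∈ ratG F (Set.range j) := by
  haveI := h.fin
  have hT : ∀ u, Φ₀.Sing u → HasE Φ X (j u) 0 (f d) := fun u hu => by
    obtain ⟨s, hs⟩ := h.lift (a := 0) (d := d) hu (by simp) (by simpa using hd1) (by simpa)
    exact ⟨s, hX.rat _ _ _ _ hs, by simpa using hs⟩
  have hL : ∀ x, HasE Φ X x 0 (f d) → HasL X (rk1 x (-f d • Φ.B x)) := fun x ⟨s, hs, e⟩ =>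
    HasL.of_apply hs fun v => by rw [e.app]; simp
  have hfd : f d ≠ 0 := by simpa
  obtain ⟨e, -, he0, he, -⟩ := h.exists_pl
  have hx := (hT e he).conj hg (hX.isom hg)
  rw [map_zero] at hx
  set x := g (j e)
  have key : ∀ u, u ≠ 0 → Φ₀.Sing u → Φ.B x (j u) * σ (Φ.B x (j u)) ∈ (f).fieldRange := fun u h0 hu => by
    have hu' := h.sing.2 hu
    have := mem_of_dickson hsq (hasL_dickson h2 (hL _ (hT u hu)) (hL _ hx)
      (μ := f d ^ 2 * Φ.B (j u) x * Φ.B x (j u)) (rk1_mul_zero (by simp [hu'.2]))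
      (rk1_mul_zero (by simp [hx.sp.2])) (by ext v; simp [smul_smul]; congr 1; ring)
      (by ext v; simp [smul_smul]; congr 1; ring)) fun hP => by
        obtain ⟨p, hp0, hp, e1, -, -, -, n, -⟩ := h.exists_nbr h0 h0
        obtain ⟨a, b1, b2⟩ := exists_dual1 h.hn₀ n
        have := h.small_L hX hS hP hp0 hp (by simp [h.B_zero e1]) b2 b2
        simp only [LinearMap.smul_apply, LinearMap.smulRight_apply, h.B_one b1, Φ.B_smul_left, mul_one,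
          smul_eq_mul, ← map_mul] at this
        have := div_mem (h.σ_mem this) (neg_mem (RingHom.mem_fieldRange_self f d))
        rwa [mul_div_cancel_right₀ _ (neg_ne_zero.2 hfd)] at this
    convert div_mem this (mul_mem (pow_mem (RingHom.mem_fieldRange_self f d) 2) h.ε_mem) using 1
    have := Φ.ε_ne_zero
    rw [Φ.symm x (j u)]; field_simp
  obtain ⟨u, hu, hb⟩ := h.exists_sing_B (v := x) (by simpa [x] using h.ne he0)
  have hu0 : u ≠ 0 := by rintro rfl; simp at hb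
  obtain ⟨r, μ, hr⟩ := h.rat_add hu0 (v := (σ (Φ.B x (j u)))⁻¹ • x) (perp_ind h.hn₀ (by have := h.dim; omega)
    hu0 hu (((f).fieldRange.toAddSubgroup).comap ((Φ.B ((σ (Φ.B x (j u)))⁻¹ • x)).toAddMonoidHom.comp
      j.toAddMonoidHom)) fun w e hw n => by
    change Φ.B _ (j w) ∈ (f).fieldRange
    refine hN _ fun κ => ?_
    convert div_mem (key (w + κ • u) (fun e => n (Submodule.mem_span_singleton.2 ⟨-κ, by
      rw [neg_smul, neg_eq_iff_add_eq_zero, add_comm, e]⟩))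
      (sing_add_of_perp hw (hu.smul κ) (by simp [Φ₀.B_eq_zero_symm e]))) (key u hu0 hu) using 1
    have : σ (Φ.B x (j u)) ≠ 0 := by simpa
    rw [Φ.B_smul_left]
    simp only [map_inv₀, Φ.σσ, map_add, map_smulₛₗ, map_mul, RingHom.id_apply, smul_eq_mul]
    field_simp)
  refine h.mem_of_comb hX hS hg he0 he ![r, u, 0] ((Submodule.smul_mem_iff _
    (inv_ne_zero (by simpa : σ (Φ.B x (j u)) ≠ 0))).1 (hr ▸ ?_))
  exact add_mem (Submodule.subset_span ⟨0, rfl⟩) (Submodule.smul_mem _ _ (Submodule.subset_span ⟨1, rfl⟩))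

omit [Finite F] [Finite V] [Finite F₀] [FiniteDimensional F V] in
theorem smul_rat (h : Rt10 Φ₀ Φ j) {u u' : V₀} {c : F} (hu : u ≠ 0) (e : c • j u = j u') :
    c ∈ (f).fieldRange := by
  obtain ⟨t, ht⟩ := h.hn₀.exists_eq_one hu
  refine h.σ_mem ⟨Φ₀.B u' t, ?_⟩
  rw [← h.hB, ← e, Φ.B_smul_left, h.B_one ht, mul_one]

omit [Finite F] [FiniteDimensional F V] in
theorem exists_lin (h : Rt10 Φ₀ Φ j) (hsq : ∀ x : F, x ^ 2 ∈ (f).fieldRange → x ∈ (f).fieldRange)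
    {z : V ≃ₗ[F] V} (hz : z ∈ ratG F (Set.range j)) (hz2 : z * z = 1) :
    ∃ z₀ : V₀ →ₗ[F₀] V₀, ∀ v, z (j v) = j (z₀ v) := by
  obtain ⟨c, hc, hz⟩ := mem_ratG.1 hz
  obtain ⟨e, -, he0, -⟩ := h.exists_pl
  obtain ⟨e', he'⟩ := hz _ (hz _ ⟨e, rfl⟩)
  obtain ⟨c, rfl⟩ := hsq c (h.smul_rat he0 (u' := e') (by
    rw [he', map_smul, smul_smul, ← LinearEquiv.mul_apply, hz2, sq]; rfl))
  have : ∀ v, ∃ v', z (j v) = j v' := fun v => by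
    obtain ⟨v', hv⟩ := hz _ ⟨v, rfl⟩
    exact ⟨c⁻¹ • v', by rw [map_smulₛₗ, hv, map_inv₀, inv_smul_smul₀ hc]⟩
  choose φ hφ using this
  exact ⟨{ toFun := φ
           map_add' := fun x y => h.inj (by simp [← hφ])
           map_smul' := fun c x => h.inj (by simp [← hφ, map_smulₛₗ]) }, hφ⟩

omit [Finite F] [Finite V] [FiniteDimensional F V] in
theorem exists_fixed (h : Rt10 Φ₀ Φ j) (h2 : (2 : F) = 0) {z : V ≃ₗ[F] V} (hz2 : z * z = 1)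
    {z₀ : V₀ →ₗ[F₀] V₀} (hz : ∀ v, z (j v) = j (z₀ v)) : ∃ e e', e ≠ 0 ∧ Φ₀.Sing e ∧ Φ₀.Sing e' ∧
      Φ₀.B e e' = 0 ∧ e' ∉ F₀ ∙ e ∧ z (j e) = j e ∧ z (j e') = j e' := by
  haveI := h.fin
  have h1 : LinearMap.range (z₀ - 1) ≤ LinearMap.ker (z₀ - 1) := by
    rintro _ ⟨v, rfl⟩
    refine h.inj ?_
    simp only [LinearMap.sub_apply, Module.End.one_apply, map_sub, ← hz, ← LinearEquiv.mul_apply, hz2, map_zero]
    change j v - z (j v) - (z (j v) - j v) = 0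
    rw [← zero_smul F (j v - z (j v)), ← h2]; module
  have h3 := Submodule.finrank_mono h1
  have h4 := (z₀ - 1).finrank_range_add_finrank_ker
  have := h.dim
  obtain ⟨e, he, he0, hs, -⟩ := exists_sing_pf Φ₀ ![] (U := LinearMap.ker (z₀ - 1)) (R := ⊥) (by
    rw [finrank_bot]; omega)
  obtain ⟨e', he', n, hs', b⟩ := exists_sing_pf Φ₀ ![e] (U := LinearMap.ker (z₀ - 1)) (R := F₀ ∙ e) (by
    have := finrank_span_one (F := F₀) e; omega)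
  exact ⟨e, e', by simpa using he0, hs, hs', b 0, n, by rw [hz, sub_eq_zero.1 he]; rfl,
    by rw [hz, sub_eq_zero.1 he']; rfl⟩

omit [Finite F] [Finite V] [FiniteDimensional F V] in
theorem exists_moved (h : Rt10 Φ₀ Φ j) (h2 : (2 : F) = 0) (hR : NoRefl Φ) {z : V ≃ₗ[F] V} (hz2 : z * z = 1)
    (hz1 : z ≠ 1) (hzE : z ∈ EG Φ) {z₀ : V₀ →ₗ[F₀] V₀} (hz : ∀ v, z (j v) = j (z₀ v)) :
    ∃ p, p ≠ 0 ∧ Φ₀.Sing p ∧ ∃ v, j p = z v - v := by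
  have hi := EG_le_isom hzE
  have sp : ∀ S : Submodule F V, (∀ v, z (j v) - j v ∈ S) → ∀ v, z v - v ∈ S := fun S hS v => by
    have : Submodule.span F (Set.range j) ≤ S.comap ((z : V →ₗ[F] V) - 1) :=
      Submodule.span_le.2 (by rintro _ ⟨w, rfl⟩; exact hS w)
    exact this (h.span ▸ Submodule.mem_top)
  have hj : ∀ v, j (z₀ v - v) = z (j v) - j v := fun v => by rw [map_sub, hz]
  have iso : ∀ v w, Φ₀.B (z₀ v - v) (z₀ w - w) = 0 := fun v w => (f).injective (by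
    rw [← h.hB, hj, hj, map_zero, Φ.B_sub_left, map_sub, map_sub, hi.1, ← hi.1 (j v) (z (j w)),
      ← LinearEquiv.mul_apply, hz2, LinearEquiv.coe_one, id]
    linear_combination (Φ.B (j v) (j w) - Φ.B (z (j v)) (j w)) * h2)
  obtain ⟨v, hv⟩ : ∃ v, z₀ v - v ≠ 0 := by
    by_contra! hc
    exact hz1 (LinearEquiv.ext fun v => sub_eq_zero.1 (sp ⊥ (fun v => by simp [← hj, hc]) v))
  by_cases hQ : Φ₀.Q (z₀ v - v) = 0
  · exact ⟨_, hv, ⟨hQ, iso v v⟩, _, hj v⟩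
  obtain ⟨w, hw⟩ : ∃ w, z₀ w - w ∉ F₀ ∙ (z₀ v - v) := by
    by_contra! hc
    refine hQ ((f).injective ?_)
    rw [← h.hQ, hj, map_zero]
    refine hR z hzE (j (z₀ v - v)) (sp _ fun w => ?_) _
    obtain ⟨c, hc⟩ := Submodule.mem_span_singleton.1 (hc w)
    rw [← hj, ← hc, map_smulₛₗ]
    exact Submodule.smul_mem _ _ (Submodule.mem_span_singleton_self _)
  have h20 : (2 : F₀) = 0 := (f).injective (by rw [map_ofNat, h2, map_zero])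
  haveI : CharP F₀ 2 := CharTwo.of_one_ne_zero_of_two_eq_zero one_ne_zero h20
  obtain ⟨κ, hκ⟩ := FiniteField.isSquare_of_char_two (ringChar.eq F₀ 2) (Φ₀.Q (z₀ w - w) / Φ₀.Q (z₀ v - v))
  have e : z₀ (w + κ • v) - (w + κ • v) = (z₀ w - w) + κ • (z₀ v - v) := by simp only [map_add, map_smul]; module
  refine ⟨_, fun h0 => hw ?_, ⟨?_, iso (w + κ • v) _⟩, _, hj _⟩
  · rw [e, add_eq_zero_iff_eq_neg] at h0
    rw [h0]; exact neg_mem (Submodule.smul_mem _ _ (Submodule.mem_span_singleton_self _))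
  · rw [e, Φ₀.Q_add, Φ₀.Q_smul, Φ₀.B_smul_right, iso, ← hκ, div_mul_cancel₀ _ hQ]
    linear_combination Φ₀.Q (z₀ w - w) * h20

theorem mem_of_two (h : Rt10 Φ₀ Φ j) (hX : Ov Φ j X) (hXE : X ≤ EG Φ) (hS : Small Φ₀ Φ j X) (h2 : (2 : F) = 0)
    (hsq : ∀ x : F, x ^ 2 ∈ (f).fieldRange → x ∈ (f).fieldRange) (hR : NoRefl Φ)
    {g : V ≃ₗ[F] V} (hg : g ∈ X) : g ∈ ratG F (Set.range j) := by
  haveI := h.fin
  haveI : Finite (V ≃ₗ[F] V) := Finite.of_injective _ DFunLike.coe_injective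
  have hd := h.dim
  obtain ⟨e₁, e₂, he0, s1, s2, n2, b12⟩ := h.exists_pl
  have r1 := finrank_span_one (F := F₀) e₁
  have r2 := finrank_sup_one (F₀ ∙ e₁) e₂
  obtain ⟨e₃, -, n3, s3, b3⟩ := exists_sing_pf Φ₀ ![e₁, e₂] (U := ⊤) (R := (F₀ ∙ e₁) ⊔ F₀ ∙ e₂) (by
    rw [finrank_top]; omega)
  have r3 := finrank_sup_one ((F₀ ∙ e₁) ⊔ F₀ ∙ e₂) e₃
  obtain ⟨e₄, -, n4, s4, b4⟩ := exists_sing_pf Φ₀ ![e₁, e₂, e₃] (U := ⊤)
    (R := ((F₀ ∙ e₁) ⊔ F₀ ∙ e₂) ⊔ F₀ ∙ e₃) (by rw [finrank_top]; omega)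
  have dual : ∀ a b c d : V₀, a ∉ ((F₀ ∙ b) ⊔ F₀ ∙ c) ⊔ F₀ ∙ d → ∃ t, Φ.B (j a) t = 1 ∧ Φ.B (j b) t = 0 ∧
      Φ.B (j c) t = 0 ∧ Φ.B (j d) t = 0 := fun a b c d n => by
    obtain ⟨t, ht, e⟩ := h.hn₀.exists_perp_eq_one' n
    simp only [Φ₀.perp_sup, Submodule.mem_inf, Φ₀.mem_perp_span_singleton] at ht
    exact ⟨j t, h.B_one e, h.B_zero ht.1.1, h.B_zero ht.1.2, h.B_zero ht.2⟩
  obtain ⟨t₄, d44, d41, d42, d43⟩ := dual _ _ _ _ n4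
  obtain ⟨t₃, d33, d31, d32, d34⟩ := dual e₃ e₁ e₂ e₄ fun hc => n4 (exch hc n3)
  obtain ⟨t₂, d22, d21, d23, d24⟩ := dual e₂ e₁ e₃ e₄ fun hc => n4 (sup_right_comm (F₀ ∙ e₁) _ _ ▸
    exch hc fun hc => n3 (exch hc n2))
  obtain ⟨t₁, d11, d12, d13, d14⟩ := dual e₁ e₂ e₃ e₄ fun hc => n4 (by
    rw [sup_comm (F₀ ∙ e₁), sup_right_comm]
    exact exch hc fun hc => n3 (sup_comm (F₀ ∙ e₁) _ ▸ exch hc (notMem_symm n2 he0)))
  obtain ⟨a, haX, ha⟩ := h.hasE0 hX s1 s2 b12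
  obtain ⟨a', haX', ha'⟩ := h.hasE0 hX s3 s4 (b4 2)
  have sq : ∀ {p q : V} {a}, IsE Φ p q 0 a → a * a = 1 := fun {p q a} ha =>
    ((ha.mul ha).congr (by rw [← two_smul F, h2, zero_smul]) (by rw [← ha.hB]; simp)).ext (isE_one ha.sp)
  have c13 : Φ.B (j e₁) (j e₃) = 0 := h.B_zero (b3 0)
  have c23 : Φ.B (j e₂) (j e₃) = 0 := h.B_zero (b3 1)
  have c14 : Φ.B (j e₁) (j e₄) = 0 := h.B_zero (b4 0)
  have c24 : Φ.B (j e₂) (j e₄) = 0 := h.B_zero (b4 1)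
  have c31 := Φ.B_eq_zero_symm c13
  have c32 := Φ.B_eq_zero_symm c23
  have c41 := Φ.B_eq_zero_symm c14
  have c42 := Φ.B_eq_zero_symm c24
  have hb : ∀ v, (a * a') v = a v + a' v - v := fun v => by
    rw [LinearEquiv.mul_apply, ha.app, ha.app, ha'.app]; simp [c13, c23, c14, c24]; abel
  have hc : Commute a a' := LinearEquiv.ext fun v => by
    rw [hb, LinearEquiv.mul_apply, ha'.app, ha.app, ha'.app]; simp [c31, c32, c41, c42]; abel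
  have hb2 : a * a' * (a * a') = 1 := by
    rw [mul_assoc, ← mul_assoc a', ← hc.eq, mul_assoc, sq ha', mul_one, sq ha]
  have key : ∀ s z : V ≃ₗ[F] V, z ∈ X → Commute z s → (∀ v, Φ.B (s v - v) (j e₁) = 0) →
      s t₂ - t₂ = j e₁ → s t₁ - t₁ = -(Φ.ε • j e₂) → z ∈ ratG F (Set.range j) := fun s z hz hc k0 k1 k2 => by
    have hc : ∀ v, z (s v) = s (z v) := fun v => DFunLike.congr_fun hc.eq v
    refine h.mem_of_plane hX hS hz he0 s1 s2 b12 n2 he0 s1 (by rw [← k0 (z t₂), ← hc, ← map_sub z, k1]) ?_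
    have := k0 (z t₁)
    rw [← hc, ← map_sub z, k2] at this
    simpa [Φ.ε_ne_zero] using this
  rcases dihedral_trick haX (X.mul_mem (X.mul_mem hg (X.mul_mem haX haX')) (X.inv_mem hg)) (sq ha)
    (by rw [conj_mul, hb2]; simp) with ⟨y, -, hy⟩ | ⟨z, hzX, hz1, hz2, k1, k2, -⟩
  · exfalso
    obtain ⟨k, hk⟩ : ∃ k, a * a' = k * a * k⁻¹ := ⟨g⁻¹ * y, by
      rw [mul_assoc g⁻¹, mul_assoc g⁻¹, _root_.mul_inv_rev, ← mul_assoc (y * a), hy]; group⟩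
    have hS : ∀ v, (a * a') v - v ∈ (F ∙ k (j e₁)) ⊔ F ∙ k (j e₂) := fun v => by
      rw [hk, LinearEquiv.mul_apply, LinearEquiv.mul_apply, ha.app]
      simp only [map_sub, map_add, map_smul, LinearEquiv.coe_inv, LinearEquiv.apply_symm_apply]
      rw [sub_right_comm, add_sub_cancel_left]
      exact sub_mem (Submodule.mem_sup_left (Submodule.smul_mem _ _ (Submodule.mem_span_singleton_self _)))
        (Submodule.smul_mem _ _ (mem_sup_self _ _))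
    have q1 := finrank_sup_one (F ∙ k (j e₁)) (k (j e₂))
    have q2 := finrank_span_one (F := F) (k (j e₁))
    have q3 := finrank_lt_sup (S := (⊥ : Submodule F V)) (x := j e₁) (h.ne he0)
    have q4 := finrank_lt_sup (S := ⊥ ⊔ F ∙ j e₁) (x := j e₂) (by simpa using h.notMem n2)
    have q5 := finrank_lt_sup (S := (⊥ ⊔ F ∙ j e₁) ⊔ F ∙ j e₂) (x := j e₃) fun hc => by
      have : t₃ ∈ Φ.perp ((⊥ ⊔ F ∙ j e₁) ⊔ F ∙ j e₂) := by
        simp [Φ.perp_sup, Φ.mem_perp_span_singleton, d31, d32]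
      exact one_ne_zero (d33.symm.trans (this _ hc))
    have q6 : ((⊥ ⊔ F ∙ j e₁) ⊔ F ∙ j e₂) ⊔ F ∙ j e₃ ≤ (F ∙ k (j e₁)) ⊔ F ∙ k (j e₂) := by
      simp only [sup_le_iff, bot_le, Submodule.span_singleton_le_iff_mem, true_and]
      refine ⟨⟨?_, (Submodule.smul_mem_iff _ (neg_ne_zero.2 Φ.ε_ne_zero)).1 ?_⟩, ?_⟩
      · simpa [hb, ha.app, ha'.app, d22, d21, d23, d24] using hS t₂
      · simpa [hb, ha.app, ha'.app, d11, d12, d13, d14] using hS t₁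
      · simpa [hb, ha.app, ha'.app, d44, d41, d42, d43] using hS t₄
    have := Submodule.finrank_mono q6
    omega
  have c11 := ha.sp.2
  have c21 := ha.ap
  have m1 := key a z hzX k1 (fun v => by simp [ha.app, c11, c21]) (by simp [ha.app, d22, d21])
    (by simp [ha.app, d11, d12])
  have m2 := key (a * a') (g⁻¹ * z * g) (X.mul_mem (X.mul_mem (X.inv_mem hg) hzX) hg)
    (by simpa [mul_assoc] using (Commute.conj_iff g⁻¹).2 k2)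
    (fun v => by simp [hb, ha.app, ha'.app, c11, c21, c31, c41]) (by simp [hb, ha.app, ha'.app, d22, d21, d23, d24])
    (by simp [hb, ha.app, ha'.app, d11, d12, d13, d14])
  have hz2' : g⁻¹ * z * g * (g⁻¹ * z * g) = 1 := by simp [mul_assoc, ← mul_assoc z, hz2]
  obtain ⟨z₀, hz₀⟩ := h.exists_lin hsq m1 hz2
  obtain ⟨z₁, hz₁⟩ := h.exists_lin hsq m2 hz2'
  obtain ⟨p, hp0, hp, v, hv⟩ := h.exists_moved h2 hR hz2 hz1 (hXE hzX) hz₀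
  obtain ⟨e, e', f0, f1, f2, f3, f4, f5, f6⟩ := h.exists_fixed h2 hz2' hz₁
  have fin : ∀ x, (g⁻¹ * z * g) x = x → Φ.B (g x) (j p) = 0 := fun x hx => by
    have : z (g x) = g x := by simpa using congrArg g hx
    rw [hv, map_sub, ← this, (hX.isom hzX).1, this, sub_self]
  exact h.mem_of_plane hX hS hg f0 f1 f2 f3 f4 hp0 hp (fin _ f5) (fin _ f6)

/-- Maximality of subfield subgroups. -/
theorem isMaximalIn (h : Rt10 Φ₀ Φ j) (hne : ∃ c, c ∉ (f).fieldRange)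
    (hmax : ∀ R : Subring F, (∀ c, f c ∈ R) → R = ⊤ ∨ ∀ c ∈ R, c ∈ (f).fieldRange)
    (hc : ∀ X, Ov Φ j X → X ≤ EG Φ → Small Φ₀ Φ j X → X ≤ ratG F (Set.range j)) :
    Geo.IsMaximalIn (EG Φ) (ratG F (Set.range j) ⊓ EG Φ) := by
  haveI := h.fin
  have ov : ∀ X, ratG F (Set.range j) ⊓ EG Φ ≤ X → X ≤ EG Φ → Ov Φ j X := fun X h1 h2 =>
    ⟨fun p a d g hg => h1 ⟨mem_ratG.2 ⟨1, one_ne_zero, by
      rintro _ ⟨v, rfl⟩; exact ⟨_, by rw [one_smul, h.app hg]⟩⟩, IsE_mem_EG hg⟩, h2.trans EG_le_isom⟩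
  refine max_crit inf_le_right ?_ fun X h1 h2 g hg hg' => (h.le_or_small (ov X h1 h2) hmax).resolve_right
    fun hS => hg' ⟨hc X (ov X h1 h2) h2 hS hg, h2 hg⟩
  obtain ⟨c, hc⟩ := hne
  obtain ⟨u, w, h0, hu, hw, n, e⟩ := h.exists_pl
  obtain ⟨g, hg⟩ := exists_isE0 h.hn (h.sing.2 hu) ((h.sing.2 hw).smul c) (by simp [h.B_zero e])
  refine ⟨g, IsE_mem_EG hg, fun hm => hc ?_⟩
  obtain ⟨l, hl, hm⟩ := mem_ratG.1 hm.1
  obtain ⟨t, t1, t2⟩ := exists_dual1 h.hn₀ n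
  obtain ⟨u', hu'⟩ := hm _ ⟨u, rfl⟩
  obtain ⟨l, rfl⟩ := h.smul_rat h0 (by rw [hu', hg.apply_p])
  obtain ⟨t', ht'⟩ := hm _ ⟨t, rfl⟩
  refine h.σ_mem (h.smul_rat h0 (u' := l⁻¹ • t' - t) ?_)
  rw [map_sub, map_smulₛₗ, ht', map_inv₀, inv_smul_smul₀ hl, hg.apply_perp (h.B_zero t2), Φ.B_smul_left,
    h.B_one t1]
  simp

end Rt10
end

end Main

open Matrix

variable {F : Type*} [Field F] {σ : F →+* F} {V : Type*} [AddCommGroup V] [Module F V]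

theorem exists_pull10 {Φ : Formed σ V} {F₀ : Subfield F} {V₀ : Type*} [AddCommGroup V₀] [Module F₀ V₀]
    (j : V₀ →ₛₗ[algebraMap F₀ F] V) (hσ : ∀ x ∈ F₀, σ x ∈ F₀) (hB : ∀ x y, Φ.B (j x) (j y) ∈ F₀)
    (hτ : Φ.τ ∈ F₀) (htr : ∀ x, ∃ d ∈ F₀, Φ.τ * d = Φ.Q (j x) ∧ Φ.ε * d + σ d = Φ.B (j x) (j x))
    (hn : Φ.Nondeg) (hj : Function.Injective j) (hs : Submodule.span F (Set.range j) = ⊤)
    (hd : 10 ≤ finrank F₀ V₀) : ∃ (σ₀ : F₀ →+* F₀) (Φ₀ : Formed σ₀ V₀), Rt10 Φ₀ Φ j := by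
  have hε : Φ.ε ∈ F₀ := by
    rcases mul_self_eq_one_iff.1 Φ.εε with h | h <;> rw [h]
    exacts [one_mem _, neg_mem (one_mem _)]
  have hQ : ∀ x, Φ.Q (j x) ∈ F₀ := fun x => by
    obtain ⟨d, hd, e, -⟩ := htr x
    exact e ▸ mul_mem hτ hd
  let σ₀ : F₀ →+* F₀ := (σ.comp F₀.subtype).codRestrict F₀ fun x => hσ _ x.2
  have hj' : ∀ (c : F₀) x, j (c • x) = (c : F) • j x := fun c x => map_smulₛₗ j c x
  let Φ₀ : Formed σ₀ V₀ :=
    { B := LinearMap.mk₂'ₛₗ σ₀ (RingHom.id F₀) (fun x y => ⟨_, hB x y⟩)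
        (fun x y z => Subtype.ext (by simp)) (fun c x y => Subtype.ext (by simp [hj', σ₀]))
        (fun x y z => Subtype.ext (by simp)) (fun c x y => Subtype.ext (by simp [hj']))
      Q := fun x => ⟨_, hQ x⟩
      ε := ⟨_, hε⟩
      τ := ⟨_, hτ⟩
      σσ := fun a => Subtype.ext (Φ.σσ a)
      εε := Subtype.ext Φ.εε
      σε := Subtype.ext Φ.σε
      symm := fun x y => Subtype.ext (Φ.symm _ _)
      Q_add := fun x y => Subtype.ext (by simpa using Φ.Q_add (j x) (j y))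
      Q_smul := fun c x => Subtype.ext (by simpa [hj'] using Φ.Q_smul c (j x))
      τσ := fun a => Subtype.ext (Φ.τσ a)
      τε := Subtype.ext Φ.τε
      trace := fun x => by
        obtain ⟨d, hd, e1, e2⟩ := htr x
        exact ⟨⟨d, hd⟩, Subtype.ext e1, Subtype.ext e2⟩ }
  refine ⟨σ₀, Φ₀, hn, fun x hx => hj ((hn _ fun y => ?_).trans (map_zero j).symm), fun _ _ => rfl,
    fun _ => rfl, fun _ => rfl, rfl, rfl, hs, hd⟩
  have : Submodule.span F (Set.range j) ≤ LinearMap.ker (Φ.B (j x)) :=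
    Submodule.span_le.2 (by rintro _ ⟨w, rfl⟩; exact congrArg Subtype.val (hx w))
  exact this (hs ▸ Submodule.mem_top)

variable {ι : Type} [Fintype ι] [DecidableEq ι]

variable {F₀ : Subfield F} {P : GL ι F}

theorem isMaximalIn_sub10 [Fintype F] {Φ : Formed σ (ι → F)} (hn : Φ.Nondeg) (h13 : 10 ≤ Fintype.card ι)
    {r : ℕ} (hr : r.Prime) (hc : Fintype.card F = Nat.card F₀ ^ r)
    (hB : ∀ x y, Φ.B (jP F₀ P x) (jP F₀ P y) ∈ F₀) (hτ : Φ.τ ∈ F₀)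
    (htr : ∀ x, ∃ d ∈ F₀, Φ.τ * d = Φ.Q (jP F₀ P x) ∧ Φ.ε * d + σ d = Φ.B (jP F₀ P x) (jP F₀ P x))
    (hR : NoRefl Φ) (hσ : σ ≠ RingHom.id F) (hτ0 : Φ.τ = 0) :
    Geo.IsMaximalIn (EG Φ) (ratG F (Set.range (jP F₀ P)) ⊓ EG Φ) := by
  rw [← Nat.card_eq_fintype_card] at hc
  obtain ⟨σ₀, Φ₀, h⟩ := exists_pull10 (jP F₀ P) (σ_mem_subfield F₀ σ) hB hτ htr hn jP_inj jP_span (by simpa)
  refine h.isMaximalIn ?_ (subring_of_prime hr hc) fun X hX hXE hS g hg => ?_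
  · by_contra! hx
    exact Asch.ne_top_of_card_pow hr.two_le hc (top_le_iff.1 fun x _ => mem_fieldRange.1 (hx x))
  rcases hr.eq_two_or_odd' with rfl | ho
  · exact h.mem_of_deg hX hS (by rw [finrank_of_card hc]; omega) hg
  have hsq : ∀ x : F, x ^ 2 ∈ (algebraMap F₀ F).fieldRange → x ∈ (algebraMap F₀ F).fieldRange := fun x hx =>
    mem_fieldRange.2 (mem_of_quad ho hc (zero_mem _) (neg_mem (mem_fieldRange.1 hx)) (by ring))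
  by_cases h2 : (2 : F) = 0
  · exact h.mem_of_two hX hXE hS h2 hsq hR hg
  obtain ⟨κ, hκ, hκ'⟩ := exists_σ_ne ho hc hσ Φ.σσ
  have hε := mem_fieldRange.1 h.ε_mem
  have hσκ := σ_mem_subfield F₀ σ κ hκ
  obtain ⟨d, hd, d0, d1⟩ : ∃ d ∈ F₀, d ≠ 0 ∧ Φ.ε * d + σ d = 0 := by
    rcases mul_self_eq_one_iff.1 Φ.εε with e | e
    · exact ⟨κ - σ κ, sub_mem hκ hσκ, sub_ne_zero.2 hκ'.symm, by simp [e, Φ.σσ]⟩
    · exact ⟨1, one_mem _, one_ne_zero, by simp [e]⟩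
  refine h.mem_of_tv hX hS h2 hsq (d := ⟨d, hd⟩) (fun e => d0 (congrArg Subtype.val e))
    ((algebraMap F₀ F).injective ?_) ((algebraMap F₀ F).injective ?_) (fun β hβ => ?_) hg
  · simp [← h.hτ, hτ0]
  · rw [map_add, map_mul, ← h.hε, ← h.hσ, map_zero]; exact d1
  · have a0 := mem_fieldRange.1 (hβ 0)
    have a1 := mem_fieldRange.1 (hβ 1)
    refine mem_fieldRange.2 (mem_of_quad ho hc (neg_mem (sub_mem (sub_mem a1 a0) (one_mem _))) a0 ?_)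
    simp only [map_one, map_zero, add_zero, map_add]; ring

end Cfsg.Agent.Root.Mx
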