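import Cfsg.Agent.Root.Ten7

/-! Overgroups `X` of `EG(W) ⊗ G` where `W` (dimension `≥ 4`) has transvections (`FZ`): the criterion `FZ.win` and the
parabolic lemma `FZ.par`. -/

set_option autoImplicit false

namespace Cfsg.Agent.Root.Mx

open Cfsg.Agent.Geom Cfsg.Agent.AutCl Module TensorProduct

variable {F : Type*} [Field F] {σ : F →+* F} {W U : Type*} [AddCommGroup W] [Module F W] [AddCommGroup U] [Module F U]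
  {Φ₁ : Formed σ W} {Φ₂ : Formed σ U} {Φ : Formed σ (W ⊗[F] U)} {X : Subgroup (W ⊗[F] U ≃ₗ[F] W ⊗[F] U)}
  {G : Subgroup (U ≃ₗ[F] U)}

theorem scal_all (hσσ : ∀ a, σ (σ a) = a) (S : AddSubgroup F) (h0 : 1 ∈ S) (h1 : ∀ a, σ a = a → ∀ k ∈ S, a * k ∈ S)
    (h2 : ∀ j ≠ 0, σ j / j ∈ S) (k : F) : k ∈ S := by
  by_cases hσ : σ = RingHom.id F
  · simpa using h1 k (by simp [hσ]) 1 h0
  have s : ∀ k, k + σ k ≠ 0 → k ∈ S := fun k hk => by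
    have k0 : σ k ≠ 0 := by rintro e; simp [(map_eq_zero σ).1 e] at hk
    convert h1 (k * σ k / (k + σ k)) (by simp [hσσ, mul_comm, add_comm]) _ (add_mem h0 (h2 _ k0)) using 1
    rw [hσσ]; field_simp; ring
  obtain ⟨t, ht⟩ := exists_trace_one hσ hσσ
  by_cases e : k + σ k = 0
  · simpa using sub_mem (s (k + t) (by rw [map_add, add_add_add_comm, e, ht]; simp)) (s t (by simp [ht]))
  · exact s k e

/-- Invariant subspaces of `End U` closed under the commutator products contain only scalars or all rank one maps. -/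
def AlgOK (ε : F) (Φ₂ : Formed σ U) (G : Subgroup (U ≃ₗ[F] U)) : Prop := ∀ R : Submodule F (End F U), 1 ∈ R →
  (∀ g ∈ G, ∀ ρ ∈ R, g.toLinearMap ∘ₗ ρ ∘ₗ g.symm.toLinearMap ∈ R) →
  (∀ a ∈ R, ∀ b ∈ R, ∀ a' b', IsAdj Φ₂ a a' → IsAdj Φ₂ b b' → ∀ k : F, ∀ ρ ∈ R,
    (k • (a' * b) - (ε * σ k) • (b' * a)) * ρ ∈ R) →
  ∀ ρ ∈ R, (∀ c : F, ρ ≠ c • 1) → ∀ y φ, rk1 y φ ∈ R

/-- An overgroup of `EG(W) ⊗ G`, where `W` has transvections. -/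
structure FZ (Φ₁ : Formed σ W) (Φ₂ : Formed σ U) (Φ : Formed σ (W ⊗[F] U)) (X : Subgroup (W ⊗[F] U ≃ₗ[F] W ⊗[F] U))
    (G : Subgroup (U ≃ₗ[F] U)) : Prop where
  B : ∀ w u w' u', Φ.B (w ⊗ₜ u) (w' ⊗ₜ u') = Φ₁.B w w' * Φ₂.B u u'
  Q : ∀ w u, Φ₁.Sing w → Φ.Q (w ⊗ₜ u) = 0
  τ : Φ₁.τ = 0
  Q₁ : ∀ w, Φ₁.Q w = 0
  nd : Φ₁.Nondeg
  four : 4 ≤ finrank F W
  two : ∀ T R : Submodule F W, finrank F R + 2 ≤ finrank F T → ∃ x ∈ T, x ∉ R ∧ Φ₁.Sing x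
  tp : ∃ t, TP Φ₁ t
  ok : UOK Φ₂ G
  alg : AlgOK Φ₁.ε Φ₂ G
  iso : X ≤ Φ.isom
  l : ∀ p a d g, IsE Φ₁ p a d g → lT U g ∈ X
  r : ∀ g ∈ G, TensorProduct.congr (.refl F W) g ∈ X
  ns : NotSp2 Φ

theorem HE.smul {w : W} {θ : U →ₗ[F] W ⊗[F] U} (h : HE Φ₁ X w θ) {c : F} (hc : c ≠ 0) :
    HE Φ₁ X (c • w) ((σ c)⁻¹ • θ) := by
  obtain ⟨a, g, hg, e⟩ := h
  refine ⟨fun u => by simp [a], g, hg, fun x => ?_⟩
  obtain ⟨u, e⟩ := e x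
  exact ⟨c⁻¹ • u, by simp [e, smul_tmul, hc]⟩

theorem HE.add_w {w : W} (hw : Φ₁.Sing w) {θ : U →ₗ[F] W ⊗[F] U} (h : HE Φ₁ X w θ) (κ : End F U) :
    HE Φ₁ X w (θ + TensorProduct.mk F W U w ∘ₗ κ) := by
  obtain ⟨a, g, hg, e⟩ := h
  refine ⟨fun u => by simp [a, hw.2], g, hg, fun x => ?_⟩
  obtain ⟨u, e⟩ := e x
  exact ⟨u + κ (cL (Φ₁.B w) x), by simp [e, tmul_add]; abel⟩

namespace FZ

variable [Finite F] [FiniteDimensional F W] [FiniteDimensional F U] (h : FZ Φ₁ Φ₂ Φ X G)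
include h

theorem sing_pf {k : ℕ} (s : Fin k → W) (R : Submodule F W) (hk : k + finrank F R + 2 ≤ finrank F W) :
    ∃ x, x ∉ R ∧ Φ₁.Sing x ∧ ∀ i, Φ₁.B (s i) x = 0 := by
  have := finrank_pf (Φ := Φ₁) s ⊤
  obtain ⟨x, hx, h1, h2⟩ := h.two (⊤ ⊓ pf Φ₁ s) R (by rw [finrank_top] at this; omega)
  exact ⟨x, h1, h2, mem_pf.1 hx.2⟩

theorem sing_perp (w : W) : ∃ x, x ∉ F ∙ w ∧ Φ₁.Sing x ∧ Φ₁.B w x = 0 := by
  obtain ⟨x, a, b, c⟩ := h.sing_pf ![w] (F ∙ w) (by have := finrank_span_one (F := F) w; have := h.four; omega)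
  exact ⟨x, a, b, c 0⟩

theorem sing_perp2 (w z : W) : ∃ x, x ≠ 0 ∧ Φ₁.Sing x ∧ Φ₁.B w x = 0 ∧ Φ₁.B z x = 0 := by
  obtain ⟨x, a, b, c⟩ := h.sing_pf ![w, z] ⊥ (by simpa using h.four)
  exact ⟨x, a, b, c 0, c 1⟩

theorem exists_pair₁ : ∃ w r, Φ₁.IsPair w r := by
  obtain ⟨u, -, r, -, h⟩ := exists_pair h.nd (nondeg_top h.nd) (by have := h.four; simp; omega)
  exact ⟨u, r, h⟩

theorem pair_perp {w r : W} (hr : Φ₁.IsPair w r) : ∃ a ∈ Φ₁.pairPerp w r, ∃ b ∈ Φ₁.pairPerp w r, Φ₁.IsPair a b := by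
  have := hr.finrank_pairPerp h.nd
  have := h.four
  obtain ⟨a, ha, a0, hs⟩ := h.two (Φ₁.pairPerp w r) ⊥ (by simp; omega)
  exact ⟨a, ha, exists_pair_mem h.nd (hr.nondeg_pairPerp h.nd) ha a0 hs⟩

theorem perp_two {w : W} (hw : Φ₁.Sing w) (w0 : w ≠ 0) : ∃ a b, Φ₁.B w a = 0 ∧ Φ₁.B w b = 0 ∧ Φ₁.B a b = 1 := by
  obtain ⟨r, hr⟩ := h.nd.exists_isPair w0 hw
  obtain ⟨a, ha, b, hb, e⟩ := h.pair_perp hr
  exact ⟨a, b, (Φ₁.mem_pairPerp.1 ha).1, (Φ₁.mem_pairPerp.1 hb).1, e.ef⟩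

theorem sing_trans {P : W → Prop} (hs : ∀ c : F, c ≠ 0 → ∀ w, P w → P (c • w))
    (hE : ∀ p a d g, IsE Φ₁ p a d g → ∀ w, P w → P (g w)) {w z : W} (hw : Φ₁.Sing w) (w0 : w ≠ 0) (H : P w)
    (hz : Φ₁.Sing z) (z0 : z ≠ 0) : P z := by
  have hn := h.nd
  have s : ∀ {w z : W}, Φ₁.Sing w → w ≠ 0 → P w → Φ₁.Sing z → z ≠ 0 → Φ₁.B z w = 0 → P z := by
    intro w z hw w0 h hz z0 e
    obtain ⟨r, -, hr, a, b⟩ := exists_sing_both hn (nondeg_top hn) trivial w0 hw trivial z0 e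
    replace a : Φ₁.B r w ≠ 0 := fun e => a (Φ₁.B_eq_zero_symm e)
    replace b : Φ₁.B r z ≠ 0 := fun e => b (Φ₁.B_eq_zero_symm e)
    obtain ⟨_, -, d, g, hg, e⟩ := exists_isE_apply hn (isPair_smul hr hw a) (isPair_smul hr hz b)
    simpa [e, b] using hs _ b _ (hE _ _ _ _ hg _ (hs _ (inv_ne_zero a) _ h))
  obtain ⟨x, x0, hx, e, e'⟩ := h.sing_perp2 w z
  exact s hx x0 (s hw w0 H hx x0 (Φ₁.B_eq_zero_symm e)) hz z0 e'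

theorem perp_ind {w : W} (hw : Φ₁.Sing w) (w0 : w ≠ 0) (A : AddSubgroup W)
    (hA : ∀ x, x ∉ F ∙ w → Φ₁.Sing x → Φ₁.B w x = 0 → x ∈ A) (a : W) (ha : Φ₁.B w a = 0) : a ∈ A := by
  have s : ∀ x, Φ₁.Sing x → Φ₁.B w x = 0 → x ∈ A := fun y hy e => by
    by_cases h' : y ∈ F ∙ w
    swap
    · exact hA y h' hy e
    obtain ⟨x, a, b, c⟩ := h.sing_perp w
    refine (add_mem_cancel_right (hA x a b c)).1 (hA _ (by rwa [add_mem_cancel_left h']) (sing_add_of_perp hy b ?_)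
      (by simp [e, c]))
    obtain ⟨k, rfl⟩ := Submodule.mem_span_singleton.1 h'
    simp [c]
  obtain ⟨r, hr⟩ := h.nd.exists_isPair w0 hw
  obtain ⟨e, he, f, hf, hef⟩ := h.pair_perp hr
  simpa [ha] using add_mem (sing_ind he hf hef A (fun x hx h => s x h (Φ₁.mem_pairPerp.1 hx).1) _
    (hr.sub_mem_pairPerp a)) (s _ (hw.smul (Φ₁.ε * Φ₁.B r a)) (by simp [hw.2]))

theorem sing_one {w v : W} (hw : Φ₁.Sing w) (w0 : w ≠ 0) (hv : v ∉ F ∙ w) :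
    ∃ z, Φ₁.Sing z ∧ Φ₁.B w z = 0 ∧ Φ₁.B z v = 1 := by
  obtain ⟨z, a, b, c⟩ : ∃ z, Φ₁.Sing z ∧ Φ₁.B w z = 0 ∧ Φ₁.B v z ≠ 0 := by
    by_contra! hc
    exact hv (mem_span_of_perp h.nd (h.perp_ind hw w0 (LinearMap.ker (Φ₁.B v)).toAddSubgroup fun x _ => hc x))
  replace c : Φ₁.B z v ≠ 0 := fun e => c (Φ₁.B_eq_zero_symm e)
  exact ⟨(σ (Φ₁.B z v))⁻¹ • z, a.smul _, by simp [b], by simp [Φ₁.σσ, c]⟩

theorem Bl (w : W) (u : U) (x : W ⊗[F] U) : Φ.B (w ⊗ₜ u) x = Φ₂.B u (cL (Φ₁.B w) x) := by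
  induction x with
  | zero => simp
  | tmul w u => simp [h.B]
  | add x y a b => simp only [map_add, a, b]

theorem Br (w : W) (u : U) (x : W ⊗[F] U) : Φ.B x (w ⊗ₜ u) = Φ₁.ε * Φ₂.B (cL (Φ₁.B w) x) u := by
  induction x with
  | zero => simp
  | tmul w' u => simp [h.B, Φ₁.symm w w', mul_assoc]
  | add x y a b => simp only [map_add, LinearMap.add_apply, a, b, mul_add]

theorem nondeg : Φ.Nondeg := fun x e => eq_of_cL fun φ => by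
  obtain ⟨w, rfl⟩ := h.nd.exists_eq_B φ
  exact h.ok.nd.ext fun u => by simpa [h.Br, Φ₁.ε_ne_zero] using e (w ⊗ₜ u)

theorem sing {w : W} (hw : Φ₁.Sing w) (u : U) : Φ.Sing (w ⊗ₜ u) := ⟨h.Q w u hw, by simp [h.B, hw.2]⟩

theorem ε : Φ.ε = Φ₁.ε * Φ₂.ε := by
  obtain ⟨w, r, a⟩ := h.exists_pair₁
  obtain ⟨u, v, b⟩ := h.ok.ex
  simpa [h.B, a.ef, b.ef, a.fe, b.fe] using (Φ.symm (w ⊗ₜ u) (r ⊗ₜ v)).symm

theorem cL_fix {s : W ⊗[F] U ≃ₗ[F] W ⊗[F] U} (hs : s ∈ X) {w : W} (e : ∀ u, s (w ⊗ₜ u) = w ⊗ₜ u) (x : W ⊗[F] U) :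
    cL (Φ₁.B w) (s x) = cL (Φ₁.B w) x :=
  h.ok.nd.ext_right fun u => by rw [← h.Bl, ← h.Bl, ← (h.iso hs).1 _ x, e]

theorem conj_fix {w : W} {θ : U →ₗ[F] W ⊗[F] U} (H : HE Φ₁ X w θ) {s : W ⊗[F] U ≃ₗ[F] W ⊗[F] U} (hs : s ∈ X)
    (e : ∀ u, s (w ⊗ₜ u) = w ⊗ₜ u) : HE Φ₁ X w (s.toLinearMap ∘ₗ θ) :=
  H.conj hs (fun u => ⟨u, e u⟩) (γ := LinearMap.id) Function.injective_id fun x => (h.cL_fix hs e x).symm

theorem spec {w : W} (hw : Φ₁.Sing w) (w0 : w ≠ 0) {θ : U →ₗ[F] W ⊗[F] U} (a : ∀ u, cL (Φ₁.B w) (θ u) = 0)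
    {g : W ⊗[F] U ≃ₗ[F] W ⊗[F] U} (hg : g ∈ X) (e : ∀ x, ∃ u, g x = x - θ (cL (Φ₁.B w) x) + w ⊗ₜ u)
    {x : W ⊗[F] U} (hx : cL (Φ₁.B w) x = 0) {y : U} (hy : ∀ u, Φ₂.B y u = Φ.B x (θ u)) : g x = x + w ⊗ₜ y := by
  obtain ⟨r, hr⟩ := h.nd.exists_eq_one w0
  obtain ⟨y', e1⟩ := e x
  rw [e1, hx, map_zero, sub_zero, h.ok.nd.ext (x := y') (x' := y) fun u => ?_]
  obtain ⟨z, e2⟩ := e (r ⊗ₜ u)
  have := (h.iso hg).1 x (r ⊗ₜ u)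
  simp [e1, e2, hx, hr, h.Bl, h.Br w, a, hw.2] at this
  rw [hy]; linear_combination this

theorem spec' {w v : W} (hw : Φ₁.Sing w) (w0 : w ≠ 0) {ρ ρ' : End F U} (a : IsAdj Φ₂ ρ ρ')
    (H : HE Φ₁ X w (TensorProduct.mk F W U v ∘ₗ ρ)) : ∃ g ∈ X, (∀ x, ∃ u, g x = x - v ⊗ₜ ρ (cL (Φ₁.B w) x) + w ⊗ₜ u) ∧
      ∀ x, cL (Φ₁.B w) x = 0 → g x = x + w ⊗ₜ (Φ₁.ε • ρ' (cL (Φ₁.B v) x)) :=
  H.2.imp fun _ e => ⟨e.1, e.2, fun _ hx => h.spec hw w0 H.1 e.1 e.2 hx fun u => by simp [h.Br, a _, Φ₁.σε]⟩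

theorem rf_one : RF Φ₁ X (1 : End F U) := fun w v hw _ e => by
  obtain ⟨d, g, hg⟩ := exists_isE' h.nd hw (a := Φ₁.ε • v) (by simp [e])
  exact ⟨fun u => by simp [e], _, h.l _ _ _ _ hg, fun x => ⟨_, by
    rw [lT_isE hg, smul_smul, Φ₁.εε, one_smul, add_sub_right_comm]; rfl⟩⟩

theorem lT_fix {p a w : W} {d : F} {g : W ≃ₗ[F] W} (hg : IsE Φ₁ p a d g) (h1 : Φ₁.B w p = 0) (h2 : Φ₁.B w a = 0)
    (u : U) : lT U g (w ⊗ₜ u) = w ⊗ₜ u := by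
  simp [hg.app, Φ₁.B_eq_zero_symm h1, Φ₁.B_eq_zero_symm h2]

theorem he_tv {w x : W} (hw : Φ₁.Sing w) (hx : Φ₁.Sing x) (e : Φ₁.B w x = 0) {t : F} (ht : TP Φ₁ t)
    {θ : U →ₗ[F] W ⊗[F] U} (H : HE Φ₁ X w θ) :
    HE Φ₁ X w (TensorProduct.mk F W U (t • x) ∘ₗ (cL (Φ₁.B x) ∘ₗ θ)) := by
  obtain ⟨g, hg⟩ := isE_T h.nd hx ht
  exact (H.sub hw (h.conj_fix H (h.l _ _ _ _ hg) (h.lT_fix hg e (by simp)))).congr fun u => by
    simp only [LinearMap.sub_apply, LinearMap.comp_apply, LinearEquiv.coe_coe, lT_isE hg]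
    simp [tmul_neg, smul_tmul]

theorem he_E {w v : W} {ρ : End F U} (H : HE Φ₁ X w (TensorProduct.mk F W U v ∘ₗ ρ)) {p a : W} {d : F} {g : W ≃ₗ[F] W}
    (hg : IsE Φ₁ p a d g) : HE Φ₁ X (g w) (TensorProduct.mk F W U (g v) ∘ₗ ρ) :=
  (H.conj (h.l _ _ _ _ hg) (fun u => ⟨u, rfl⟩) (γ := LinearMap.id) Function.injective_id
    fun x => (cL_lT hg.mem_isom w x).symm).congr fun u => rfl

theorem exists_shift {w x : W} (hx : Φ₁.Sing x) (e : Φ₁.B x w = 0) (hv : w ∉ F ∙ x) (k : F) :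
    ∃ a d g, IsE Φ₁ x a d g ∧ g w = w + k • x := by
  obtain ⟨a, -, a1, a2⟩ := sep h.nd (nondeg_top h.nd) le_top trivial hv
  obtain ⟨d, g, hg⟩ := exists_isE' h.nd hx (a := (Φ₁.ε * σ k) • a) (by simp [Φ₁.mem_perp_span_singleton.1 a1])
  exact ⟨_, d, g, hg, by simp [hg.app, e, Φ₁.symm w a, a2, Φ₁.σε, Φ₁.σσ, mul_right_comm _ k, Φ₁.εε]⟩

theorem he_swap {w x : W} (hw : Φ₁.Sing w) (w0 : w ≠ 0) (hx : Φ₁.Sing x) (e : Φ₁.B w x = 0) (hv : x ∉ F ∙ w)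
    {ρ : End F U} (H : HE Φ₁ X w (TensorProduct.mk F W U x ∘ₗ ρ)) {k : F} (k0 : k ≠ 0) :
    HE Φ₁ X x (TensorProduct.mk F W U (-(σ k / k) • w) ∘ₗ ρ) := by
  obtain ⟨a, d, g, hg, e1⟩ := h.exists_shift hx (Φ₁.B_eq_zero_symm e) (notMem_symm hv w0) k
  obtain ⟨a', d', g', hg', e2⟩ := h.exists_shift hw e hv (-k⁻¹)
  have H1 := h.he_E H hg
  rw [e1, hg.apply_p] at H1
  have H2 := h.he_E ((H1.add_w (sing_add_of_perp hw (hx.smul k) (by simp [e])) (-k⁻¹ • ρ)).congr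
    (θ' := TensorProduct.mk F W U (-k⁻¹ • w) ∘ₗ ρ) fun u => by
      simp [add_tmul, ← smul_tmul', smul_smul, k0, neg_tmul]) hg'
  have e3 : k⁻¹ • g' (w + k • x) = x := by simp [e2, hg'.apply_p, smul_smul, k0]
  exact (e3 ▸ H2.smul (inv_ne_zero k0)).congr fun u => by
    simp [hg'.apply_p, ← smul_tmul', smul_smul, div_eq_mul_inv]

theorem rf_of {w v : W} (hw : Φ₁.Sing w) (w0 : w ≠ 0) (e : Φ₁.B w v = 0) (hv : v ∉ F ∙ w) {ρ : End F U}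
    (H : HE Φ₁ X w (TensorProduct.mk F W U v ∘ₗ ρ)) : RF Φ₁ X ρ := by
  intro z y hz z0
  revert y
  refine h.sing_trans (P := fun w => ∀ v, Φ₁.B w v = 0 → HE Φ₁ X w (TensorProduct.mk F W U v ∘ₗ ρ))
    (fun c hc w H v e => ?_) (fun p a d g hg w H v e => ?_) hw w0 ?_ hz z0
  · exact ((H (σ c • v) (by simpa [hc] using e)).smul hc).congr fun u => by simp [← smul_tmul', smul_smul, hc]
  · obtain ⟨v, rfl⟩ := g.surjective v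
    exact h.he_E (H v (hg.mem_isom.1 w v ▸ e)) hg
  obtain ⟨t, ht⟩ := h.tp
  let A : AddSubgroup W := .ofSub {v | HE Φ₁ X w (TensorProduct.mk F W U v ∘ₗ ρ)} ⟨0, (H.sub hw H).congr (by simp)⟩
    fun a ha b hb => (HE.sub hw ha hb).congr fun u => by simp [add_tmul, neg_tmul, sub_eq_add_neg]
  have tv : ∀ {x}, Φ₁.Sing x → Φ₁.B w x = 0 → ∀ {t}, TP Φ₁ t → ∀ v ∈ A, (t * Φ₁.B x v) • x ∈ A :=
    fun hx e t ht v hv => (h.he_tv hw hx e ht hv).congr fun u => by simp [← smul_tmul', smul_smul]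
  obtain ⟨x, hx, x1, x2⟩ := h.sing_one hw w0 hv
  have x3 : t • x ∉ F ∙ w := fun e1 => by
    obtain ⟨k, e1⟩ := Submodule.mem_span_singleton.1 e1
    simpa [e, x2, ht.1, eq_comm (a := (0 : F))] using congrArg (Φ₁.B · v) e1
  have x4 : t • x ∈ A := by simpa [x2] using tv hx x1 ht v H
  replace x1 : Φ₁.B w (t • x) = 0 := by simp [x1]
  replace hx := hx.smul t
  generalize t • x = x at *
  obtain ⟨z, hz, z1, z2⟩ := h.sing_one hw w0 x3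
  have x0 : x ≠ 0 := by rintro rfl; simp at x3
  have all : ∀ k : F, k • x ∈ A := scal_all Φ₁.σσ (A.comap (LinearMap.toSpanSingleton F W x).toAddMonoidHom)
    (by simpa) (fun a ha k hk => by
      by_cases a0 : a = 0
      · simp [a0]
      have := tv hx x1 (t := Φ₁.ε * a / t) ⟨by simp [a0, ht.1, Φ₁.ε_ne_zero], by simp [h.τ], by
        have e1 : σ t = -(Φ₁.ε * t) := eq_neg_of_add_eq_zero_right ht.2.2
        have := ht.1; have := Φ₁.ε_ne_zero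
        simp only [map_div₀, map_mul, Φ₁.σε, ha, e1]; field_simp; linear_combination a * Φ₁.εε⟩ _ (tv hz z1 ht _ hk)
      change (a * k) • x ∈ A
      convert this using 2
      have := ht.1
      simp [Φ₁.symm z x, z2]; field_simp; linear_combination (-k) * Φ₁.εε)
    fun j j0 => by
      have j1 : σ j ≠ 0 := by simpa
      have n0 : -(σ (σ j) / σ j) ≠ 0 := by simp [j0]
      have := (h.he_swap hx x0 (hw.smul _) (by simp [Φ₁.B_eq_zero_symm x1]) (by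
        rw [Submodule.smul_mem_iff _ n0]; exact notMem_symm x3 w0) (h.he_swap hw w0 hx x1 x3 x4 j1) one_ne_zero).smul
        (inv_ne_zero n0)
      rw [inv_smul_smul₀ n0] at this
      exact this.congr fun u => by simp [← smul_tmul', smul_smul, Φ₁.σσ, neg_tmul]
  have s : ∀ y, Φ₁.Sing y → Φ₁.B w y = 0 → Φ₁.B y x ≠ 0 → y ∈ A := fun y hy e1 e2 => by
    simpa [ht.1, e2, mul_assoc] using tv hy e1 ht _ (all (t⁻¹ * (Φ₁.B y x)⁻¹))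
  refine h.perp_ind hw w0 A fun y _ hy e1 => ?_
  by_cases e2 : Φ₁.B y x = 0
  swap
  · exact s y hy e1 e2
  by_cases e3 : Φ₁.B y z = 0
  · exact (add_mem_cancel_right (s z hz z1 (by simp [z2]))).1 (s _ (sing_add_of_perp hy hz e3) (by simp [e1, z1])
      (by simp [e2, z2]))
  simpa [ht.1, e3, mul_assoc] using tv hy e1 ht _ (s _ (hz.smul (t⁻¹ * (Φ₁.B y z)⁻¹)) (by simp [z1])
    (by simp [z2, ht.1, e3]))

theorem extract {w x : W} (hw : Φ₁.Sing w) (w0 : w ≠ 0) (hx : Φ₁.Sing x) (e : Φ₁.B w x = 0) (hv : x ∉ F ∙ w)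
    {θ : U →ₗ[F] W ⊗[F] U} (H : HE Φ₁ X w θ) : RF Φ₁ X (cL (Φ₁.B x) ∘ₗ θ) :=
  let ⟨t, ht⟩ := h.tp
  h.rf_of hw w0 (v := t • x) (by simp [e]) (by rwa [Submodule.smul_mem_iff _ ht.1]) (h.he_tv hw hx e ht H)

theorem comm_z {w a b : W} (hw : Φ₁.Sing w) (w0 : w ≠ 0) (a1 : Φ₁.B w a = 0) (b1 : Φ₁.B w b = 0)
    {ρ₁ ρ₁' ρ₂ ρ₂' : End F U} (h₁ : IsAdj Φ₂ ρ₁ ρ₁') (h₂ : IsAdj Φ₂ ρ₂ ρ₂')
    (H₁ : HE Φ₁ X w (TensorProduct.mk F W U a ∘ₗ ρ₁)) (H₂ : HE Φ₁ X w (TensorProduct.mk F W U b ∘ₗ ρ₂)) :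
    ∃ g ∈ X, ∀ x, g x = x + w ⊗ₜ (Φ₁.ε • (Φ₁.B a b • (ρ₁' * ρ₂) - Φ₁.B b a • (ρ₂' * ρ₁)) (cL (Φ₁.B w) x)) := by
  obtain ⟨g₁, hg₁, e1, e1'⟩ := h.spec' hw w0 h₁ H₁
  obtain ⟨g₂, hg₂, e2, e2'⟩ := h.spec' hw w0 h₂ H₂
  refine ⟨(g₁ * g₂)⁻¹ * (g₂ * g₁), mul_mem (inv_mem (mul_mem hg₁ hg₂)) (mul_mem hg₂ hg₁), fun x => inv_mul_apply.2 ?_⟩
  have f1 : ∀ u, g₁ (w ⊗ₜ u) = w ⊗ₜ u := fun u => by simp [e1' (w ⊗ₜ u) (by simp [hw.2]), Φ₁.B_eq_zero_symm a1]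
  have f2 : ∀ u, g₂ (w ⊗ₜ u) = w ⊗ₜ u := fun u => by simp [e2' (w ⊗ₜ u) (by simp [hw.2]), Φ₁.B_eq_zero_symm b1]
  obtain ⟨y₁, e1⟩ := e1 x
  obtain ⟨y₂, e2⟩ := e2 x
  have f3 := fun u => e1' (b ⊗ₜ u) (by simp [b1])
  have f4 := fun u => e2' (a ⊗ₜ u) (by simp [a1])
  simp only [LinearEquiv.mul_apply, map_add, map_sub, map_smul, e1, e2, f1, f2, f3, f4, cL_tmul, smul_sub, tmul_sub,
    LinearMap.sub_apply, LinearMap.smul_apply, End.mul_apply]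
  abel

theorem rf_rk1 {ρ : End F U} (H : RF Φ₁ X ρ) (hs : ∀ c : F, ρ ≠ c • 1) (y : U) (φ : Dual F U) : RF Φ₁ X (rk1 y φ) := by
  let R : Submodule F (End F U) :=
    { carrier := {ρ | RF Φ₁ X ρ}
      zero_mem' := fun w v a b c => (h.rf_one w 0 a b (by simp)).congr (by simp)
      add_mem' := fun ha hb w v a b c => ((ha w v a b c).sub a (hb w (-v) a b (by simpa))).congr fun u => by
        simp [tmul_add, neg_tmul]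
      smul_mem' := fun k ρ ha w v a b c => (ha w (k • v) a b (by simp [c])).congr fun u => by simp [smul_tmul] }
  refine h.alg R h.rf_one (fun g hg ρ ha w v a b c => ?_) (fun a ha b hb a' b' e1 e2 k ρ hρ => ?_) ρ H hs y φ
  · refine ((ha w v a b c).conj (h.r g hg) (fun u => ⟨g u, rfl⟩) g.symm.injective fun x => ?_).congr fun u => rfl
    induction x with
    | zero => simp
    | tmul w u => simp
    | add x y a b => simp only [map_add, ← a, ← b]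
  obtain ⟨w, r, hp⟩ := h.exists_pair₁
  obtain ⟨x, x1, hx, e⟩ := h.sing_perp w
  have x0 : x ≠ 0 := by rintro rfl; simp at x1
  obtain ⟨p, q, p1, q1, e3⟩ := h.perp_two hx x0
  obtain ⟨s, hs, e4⟩ := h.comm_z hx x0 p1 (b := k • q) (by simp [q1]) e1 e2 (ha x p hx x0 p1)
    (hb x _ hx x0 (by simp [q1]))
  obtain ⟨z, -, z1, z2⟩ := sep h.nd (nondeg_top h.nd) le_top trivial x1
  have H1 := hρ w z hp.1 hp.left_ne_zero (Φ₁.mem_perp_span_singleton.1 z1)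
  refine h.rf_of hp.1 hp.left_ne_zero (v := Φ₁.ε • x) (by simp [e]) (by rwa [Submodule.smul_mem_iff _ Φ₁.ε_ne_zero])
    (((h.conj_fix H1 hs fun u => ?_).sub hp.1 H1).congr fun u => ?_)
  · simp [e4, Φ₁.B_eq_zero_symm e]
  · simp [e4, z2, e3, Φ₁.symm p q, smul_tmul, mul_comm]

theorem win {ρ : End F U} (H : RF Φ₁ X ρ) (hs : ∀ c : F, ρ ≠ c • 1) : EG Φ ≤ X := by
  have all := h.rf_rk1 H hs
  obtain ⟨u₂, u₁, hu⟩ := h.ok.ex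
  have sa : ∀ {w} (hw : Φ₁.Sing w), w ≠ 0 → ∀ z z', w ⊗ₜ z' ∈ AE Φ X (h.sing hw z) := fun {w} hw w0 z z' => by
    obtain ⟨b, a, b1, a1, e⟩ := h.perp_two hw w0
    obtain ⟨g₁, hg₁, e1, e1'⟩ := h.spec' hw w0 (isAdj_rk1 z u₁) (all _ _ w a hw w0 a1)
    obtain ⟨g₂, hg₂, e2, e2'⟩ := h.spec' hw w0 (isAdj_rk1 z' u₂) (all _ _ w b hw w0 b1)
    refine ⟨0, (g₁ * g₂)⁻¹ * (g₂ * g₁), mul_mem (inv_mem (mul_mem hg₁ hg₂)) (mul_mem hg₂ hg₁), h.sing hw z,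
      by simp [h.B, hw.2], by simp [h.Q _ _ hw], by simp [h.B, hw.2], fun x => inv_mul_apply.2 ?_⟩
    have f1 : ∀ u, g₁ (w ⊗ₜ u) = w ⊗ₜ u := fun u => by simp [e1' (w ⊗ₜ u) (by simp [hw.2]), Φ₁.B_eq_zero_symm a1]
    have f2 : ∀ u, g₂ (w ⊗ₜ u) = w ⊗ₜ u := fun u => by simp [e2' (w ⊗ₜ u) (by simp [hw.2]), Φ₁.B_eq_zero_symm b1]
    obtain ⟨y₁, e1⟩ := e1 x
    obtain ⟨y₂, e2⟩ := e2 x
    have f3 := e1' (b ⊗ₜ u₂) (by simp [b1])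
    have f4 := e2' (a ⊗ₜ u₁) (by simp [a1])
    simp only [LinearEquiv.mul_apply, map_add, map_sub, map_smul, e1, e2, f1, f2, f3, f4, LinearMap.smulRight_apply,
      tmul_smul, h.Bl, cL_tmul, e, hu.ef, hu.fe, Φ₁.symm b a, h.ε, map_one]
    linear_combination (norm := skip) (Φ₁.εε * Φ₂.ε * Φ₂.ε + Φ₂.εε) • Φ₂.B z' (cL (Φ₁.B w) x) • w ⊗ₜ[F] z
    module
  have two : ∀ z : U, ∃ z', z' ∉ F ∙ z := fun z => by
    by_contra! hc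
    obtain ⟨a, e⟩ := Submodule.mem_span_singleton.1 (hc u₂)
    obtain ⟨b, e'⟩ := Submodule.mem_span_singleton.1 (hc u₁)
    have e1 : a • u₁ = b • u₂ := by rw [← e, ← e', smul_comm]
    exact hu.left_ne_zero (by simp [← e, show a = 0 by simpa [hu.ef, hu.se.2] using congrArg (Φ₂.B u₂) e1])
  have sb : ∀ {w} (hw : Φ₁.Sing w), w ≠ 0 → ∀ z a y, Φ₁.B w a = 0 → a ⊗ₜ y ∈ AE Φ X (h.sing hw z) :=
    fun {w} hw w0 z a y ha => by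
    refine h.perp_ind hw w0 ((AE Φ X (h.sing hw z)).comap ((TensorProduct.mk F W U).flip y).toAddMonoidHom)
      (fun x x1 hx e => ?_) a ha
    have x0 : x ≠ 0 := by rintro rfl; simp at x1
    obtain ⟨b, -, b1, b2⟩ := sep h.nd (nondeg_top h.nd) le_top trivial (notMem_symm x1 w0)
    rw [Formed.mem_perp_span_singleton] at b1
    obtain ⟨z', hz'⟩ := two z
    obtain ⟨φ, p1, p2⟩ := exists_fun1 hz'
    obtain ⟨z₂, rfl⟩ := h.ok.nd.exists_eq_B φ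
    obtain ⟨s, hs, -, e1⟩ := h.spec' hx x0 (isAdj_rk1 y z₂) (all _ _ x b hx x0 b1)
    have e2 : ∀ u, s (w ⊗ₜ u) = w ⊗ₜ u + Φ₂.B z₂ u • x ⊗ₜ y := fun u => by
      simp [e1 (w ⊗ₜ u) (by simp [Φ₁.B_eq_zero_symm e]), Φ₁.symm w b, b2, smul_smul, ← mul_assoc, Φ₁.εε]
    have m := sa hw w0 z z'
    simpa [e2, p1, add_mem_cancel_left m] using map_mem_AE hs (h.iso hs) (by simp [e2, p2]) m
  have sc : ∀ {w} (hw : Φ₁.Sing w), w ≠ 0 → ∀ z, z ≠ 0 → Full Φ X (w ⊗ₜ z) := fun {w} hw w0 z z0 => by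
    obtain ⟨r, hr⟩ := h.nd.exists_isPair w0 hw
    refine full_of_AE' h.nondeg ?_ h.ns (fun e => z0 (tmul_inj w0 (e.trans (tmul_zero _ _).symm))) (h.sing hw z)
      fun v hv => ?_
    · have := h.four
      have : 0 < finrank F U := finrank_pos_iff_exists_ne_zero.2 ⟨z, z0⟩
      rw [finrank_tensorProduct]; nlinarith
    rw [← sub_add_cancel v (r ⊗ₜ cL (Φ₁.B w) v)]
    refine add_mem (tperp_ind hr _ (sb hw w0 z) v) ?_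
    obtain ⟨b, hb, a, ha, -, -, e⟩ := h.pair_perp hr
    obtain ⟨b1, b2⟩ := Φ₁.mem_pairPerp.1 hb
    obtain ⟨a1, a2⟩ := Φ₁.mem_pairPerp.1 ha
    obtain ⟨d, g, hg, e1⟩ := sb hr.2 hr.right_ne_zero (cL (Φ₁.B w) v) b u₂ b2
    have m := sb hw w0 z a u₁ a1
    have := map_mem_AE hg (h.iso hg) (by
      simp [e1.app, h.B, Φ₁.B_eq_zero_symm b1, Φ₂.B_eq_zero_symm (h.Bl _ _ _ ▸ hv)]) m
    simpa [e1.app, h.B, a2, e, hu.ef, add_mem_cancel_left m] using this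
  obtain ⟨w, r, hp⟩ := h.exists_pair₁
  exact EG_le_of_full h.nondeg (sc hp.1 hp.left_ne_zero _ hu.left_ne_zero) (sc hp.2 hp.right_ne_zero _ hu.right_ne_zero)
    (by simp [h.B, hp.ef, hu.ef])

theorem mem_pt {w : W} (hw : Φ₁.Sing w) (w0 : w ≠ 0) {v : W ⊗[F] U} (hv : ∀ x, Φ₁.B w x = 0 → cL (Φ₁.B x) v = 0) :
    ∃ u, v = w ⊗ₜ u := by
  obtain ⟨r, hr⟩ := h.nd.exists_eq_one w0
  refine ⟨Φ₁.ε • cL (Φ₁.B r) v, eq_of_cL fun φ => ?_⟩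
  obtain ⟨x, rfl⟩ := h.nd.exists_eq_B φ
  have := hv (x - Φ₁.B w x • r) (by simp [hr])
  simp [sub_eq_zero] at this
  simp [this, Φ₁.symm w x, smul_smul, mul_comm _ Φ₁.ε, ← mul_assoc, Φ₁.εε]

theorem nontriv : Nontrivial U := let ⟨_, _, e⟩ := h.ok.ex; nontrivial_of_ne _ _ e.left_ne_zero

variable (hS : ¬ EG Φ ≤ X)
include hS

theorem theta {w : W} (hw : Φ₁.Sing w) (w0 : w ≠ 0) {θ : U →ₗ[F] W ⊗[F] U} (H : HE Φ₁ X w θ) :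
    ∃ b, Φ₁.B w b = 0 ∧ ∀ u, ∃ u', θ u = b ⊗ₜ u + w ⊗ₜ u' := by
  have := h.nontriv
  obtain ⟨u₀, u0⟩ := exists_ne (0 : U)
  obtain ⟨μ, m1⟩ := exists_fun0 (F := F) u0
  have e1 : ∀ (φ : Dual F W) v, φ (TensorProduct.rid F W (μ.lTensor W v)) = μ (cL φ v) := fun φ v => by
    induction v with
    | zero => simp
    | tmul w u => simp [mul_comm]
    | add x y a b => simp only [map_add, a, b]
  refine ⟨TensorProduct.rid F W (μ.lTensor W (θ u₀)), by simp [e1, H.1], fun u => ?_⟩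
  refine (h.mem_pt hw w0 fun x hx => ?_).imp fun _ => sub_eq_iff_eq_add'.1
  obtain ⟨k, hk⟩ := h.perp_ind hw w0 (AddSubgroup.ofSub {x | ∃ k : F, cL (Φ₁.B x) ∘ₗ θ = k • 1}
    ⟨0, 0, by simp⟩ fun a ⟨k, ha⟩ b ⟨l, hb⟩ => ⟨k - l, by simp [LinearMap.add_comp, ha, hb, sub_eq_add_neg, add_smul]⟩)
    (fun x a b c => by_contra fun e => hS (h.win (h.extract hw w0 b c a H) fun k hk => e ⟨k, hk⟩)) x hx
  have := LinearMap.congr_fun hk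
  simp only [LinearMap.comp_apply] at this
  simp [e1, this, m1]

theorem triv_form {w : W} (hw : Φ₁.Sing w) (w0 : w ≠ 0) {k : W ⊗[F] U ≃ₗ[F] W ⊗[F] U} (hk : k ∈ X)
    (h1 : ∀ u, k (w ⊗ₜ u) = w ⊗ₜ u) (h2 : ∀ v, cL (Φ₁.B w) v = 0 → ∃ u, k v = v + w ⊗ₜ u) :
    ∃ b, Φ₁.B b w = 0 ∧ ∀ v, cL (Φ₁.B w) v = 0 → k v = v + w ⊗ₜ cL (Φ₁.B b) v := by
  obtain ⟨r, hr⟩ := h.nd.exists_eq_one w0
  let θ := (1 - k.toLinearMap) ∘ₗ TensorProduct.mk F W U r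
  have a1 : ∀ u, cL (Φ₁.B w) (θ u) = 0 := fun u => by simp [θ, h.cL_fix hk h1]
  have a2 : ∀ x, ∃ u, k x = x - θ (cL (Φ₁.B w) x) + w ⊗ₜ u := fun x =>
    (h2 (x - r ⊗ₜ cL (Φ₁.B w) x) (by simp [hr])).imp fun u e => by
      simp only [θ, map_sub] at e ⊢
      simp; linear_combination (norm := abel) e
  obtain ⟨b, b1, e⟩ := h.theta hS hw w0 ⟨a1, k, hk, a2⟩
  refine ⟨Φ₁.ε • b, by simp [Φ₁.B_eq_zero_symm b1], fun v hv => h.spec hw w0 a1 hk a2 hv fun u => ?_⟩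
  obtain ⟨u', e⟩ := e u
  simp [e, h.Br, hv, Φ₁.σε]

theorem par_step {c : W ⊗[F] U ≃ₗ[F] W ⊗[F] U} (hc : c ∈ X) {w w' : W} (hw : Φ₁.Sing w) (w0 : w ≠ 0) {β : U ≃ₗ[F] U}
    (hβ : ∀ u, c (w ⊗ₜ u) = w' ⊗ₜ β u) (a : W) (ha : Φ₁.B w a = 0) : ∃ a', ∀ u, c (a ⊗ₜ u) = a' ⊗ₜ β u := by
  obtain ⟨u₀, u₁, hu⟩ := h.ok.ex
  have iso := (h.iso hc).1
  have w1 : w' ≠ 0 := by
    rintro rfl
    exact hu.left_ne_zero (tmul_inj (F := F) w0 (by simpa using hβ u₀))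
  have hw' : Φ₁.Sing w' := ⟨h.Q₁ _, by
    simpa [hβ, h.B, hu.ef, hw.2] using iso (w ⊗ₜ β.symm u₀) (w ⊗ₜ β.symm u₁)⟩
  obtain ⟨γ₀, hγ⟩ := exists_isAdj h.ok.nd β.toLinearMap
  obtain ⟨γ, g1⟩ : ∃ γ : U ≃ₗ[F] U, ∀ x, cL (Φ₁.B w) x = γ (cL (Φ₁.B w') (c x)) :=
    ⟨.ofInjectiveEndo γ₀ ((injective_iff_map_eq_zero _).2 fun z e => h.ok.nd _ fun y => by
      simpa [e] using (hγ z (β.symm y)).symm), fun x => h.ok.nd.ext_right fun u => by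
      rw [← h.Bl, ← iso, hβ, h.Bl]; exact hγ.symm _ _⟩
  have := fun a (ha : Φ₁.B w a = 0) => h.theta hS hw' w1 ((h.rf_one w a hw w0 ha).conj hc (fun u => ⟨_, hβ u⟩)
    γ.injective g1)
  choose! A A1 κ A2 using this
  replace A2 : ∀ a, Φ₁.B w a = 0 → ∀ u, c (a ⊗ₜ γ u) = A a ⊗ₜ u + w' ⊗ₜ κ a u := A2
  obtain ⟨l, l0, ls, hl⟩ : ∃ l, l ≠ 0 ∧ σ l = l ∧ ∀ a b, Φ₁.B w a = 0 → Φ₁.B w b = 0 →
      Φ₁.B (A a) (A b) = l * Φ₁.B a b := by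
    have s : ∀ a b u v, Φ₁.B w a = 0 → Φ₁.B w b = 0 → Φ₁.B (A a) (A b) * Φ₂.B u v = Φ₁.B a b * Φ₂.B (γ u) (γ v) :=
      fun a b u v ha hb => by
      simpa [A2, ha, hb, h.B, A1, hw'.2, Φ₁.B_eq_zero_symm (A1 a ha)] using iso (a ⊗ₜ γ u) (b ⊗ₜ γ v)
    have s1 := fun a b ha hb => (by simpa [hu.ef, mul_comm] using s a b u₀ u₁ ha hb :
      Φ₁.B (A a) (A b) = Φ₂.B (γ u₀) (γ u₁) * Φ₁.B a b)
    obtain ⟨a, b, a1, b1, e⟩ := h.perp_two hw w0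
    refine ⟨_, fun e0 => ?_, ?_, s1⟩
    · simpa [s1 a b a1 b1, e0, e, hu.ef] using s a b (γ.symm u₀) (γ.symm u₁) a1 b1
    · simpa [s1 a b a1 b1, s1 b a b1 a1, e, Φ₁.symm a b, Φ₁.ε_ne_zero, mul_comm, eq_comm] using Φ₁.symm (A a) (A b)
  have key := h.perp_ind hw w0 (AddSubgroup.ofSub {a | ∃ a', ∀ u, c (a ⊗ₜ γ u) = a' ⊗ₜ u}
    ⟨0, 0, by simp⟩ fun a ⟨a', ha⟩ b ⟨b', hb⟩ => ⟨a' - b', by simp [add_tmul, neg_tmul, ha, hb, sub_eq_add_neg]⟩)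
    fun x x1 hx e => by
    obtain ⟨z, -, z1, z2⟩ := sep h.nd (nondeg_top h.nd) le_top trivial x1
    rw [Formed.mem_perp_span_singleton] at z1
    obtain ⟨d, ht⟩ := h.tp
    obtain ⟨g, hg⟩ := isE_T h.nd hx ht
    obtain ⟨g₁, hg₁⟩ := isE_T h.nd (u := A x) (t := d / l) ⟨h.Q₁ _, by simp [hl x x e e, hx.2]⟩
      ⟨by simp [ht.1, l0], by simp [h.τ], by rw [map_div₀, ls, ← mul_div_assoc, ← add_div, ht.2.2, zero_div]⟩
    have f1 := h.lT_fix hg₁ (A1 x e) (by simp)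
    have s : ∀ a u, Φ₁.B w a = 0 → c (lT U g (a ⊗ₜ γ u)) = lT U g₁ (c (a ⊗ₜ γ u)) + w' ⊗ₜ
        (-(d * Φ₁.B x a) • κ x u) := fun a u ha => by
      rw [A2 a ha, map_add, f1]
      simp only [TensorProduct.congr_tmul, LinearEquiv.refl_apply, hg.app, hg₁.app, add_tmul, sub_tmul, ← smul_tmul',
        map_add, map_sub, map_smul, A2 _ ha, A2 _ e, hl _ _ e ha, tmul_smul, map_zero, LinearMap.zero_apply, zero_tmul]
      match_scalars <;> field_simp <;> ring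
    obtain ⟨b, b1, hb⟩ := h.triv_form hS hw' w1 (k := (lT U g₁)⁻¹ * (c * lT U g * c⁻¹)) (mul_mem (inv_mem (h.l _ _ _ _ hg₁))
      (mul_mem (mul_mem hc (h.l _ _ _ _ hg)) (inv_mem hc))) (fun u => inv_mul_apply.2 (by
        obtain ⟨u, rfl⟩ := β.surjective u
        simp only [f1, LinearEquiv.mul_apply, LinearEquiv.coe_inv, ← hβ, c.symm_apply_apply, h.lT_fix hg e (by simp)]
        rw [hβ, f1])) fun v hv => by
      obtain ⟨v, rfl⟩ := c.surjective v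
      obtain ⟨r, hr⟩ := h.nd.exists_isPair w0 hw
      obtain ⟨u, e⟩ := tperp_ind hr (AddSubgroup.ofSub {v | ∃ u, c (lT U g v) = lT U g₁ (c v) + w' ⊗ₜ u} ⟨0, 0, by simp⟩
        fun a ⟨u, ha⟩ b ⟨u', hb⟩ => ⟨u - u', by simp [ha, hb, tmul_sub]; abel⟩)
        (fun a u ha => ⟨_, by simpa using s a (γ.symm u) ha⟩) v
      exact ⟨u, inv_mul_apply.2 (by
        simp only [g1 v, hv, map_zero, tmul_zero, sub_zero] at e
        simpa only [LinearEquiv.mul_apply, LinearEquiv.coe_inv, c.symm_apply_apply, map_add, f1] using e)⟩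
    refine ⟨A x - (Φ₁.B b (A z) / d) • w', fun u => ?_⟩
    have := inv_mul_apply.1 (hb (c (z ⊗ₜ γ u)) (γ.injective (by simp [← g1, z1])))
    simp only [LinearEquiv.mul_apply, LinearEquiv.coe_inv, c.symm_apply_apply, s z u z1, map_add, f1] at this
    simp only [A2 z z1, z2, b1, add_right_inj, map_add, cL_tmul, zero_smul, add_zero, tmul_smul] at this
    rw [A2 x e, sub_tmul, ← smul_tmul', div_eq_inv_mul, mul_smul, ← this, smul_smul]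
    simp [ht.1]
  obtain ⟨w₂, e⟩ := key w hw.2
  obtain ⟨a', e'⟩ := key a ha
  obtain ⟨χ, c1⟩ := exists_fun0 (F := F) w1
  have e2 : ∀ u, β (γ u) = χ w₂ • u := fun u => by simpa [hβ, c1] using congrArg (cL χ) (e u)
  have e3 : χ w₂ ≠ 0 := fun e => hu.left_ne_zero (by simpa [e] using e2 u₀)
  refine ⟨(χ w₂)⁻¹ • a', fun u => ?_⟩
  obtain ⟨u, rfl⟩ := γ.surjective u
  simp [e', e2, smul_tmul, e3]

/-- An element mapping a singular point `w ⊗ U` into a point is a tensor product. -/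
theorem par {c : W ⊗[F] U ≃ₗ[F] W ⊗[F] U} (hc : c ∈ X) {w w' : W} (hw : Φ₁.Sing w) (w0 : w ≠ 0)
    (H : ∀ u, ∃ u', c (w ⊗ₜ u) = w' ⊗ₜ u') : c ∈ tstab F W U := by
  have := h.nontriv
  obtain ⟨β, hβ⟩ := exists_beta w0 H
  obtain ⟨e, f, hp⟩ := h.exists_pair₁
  refine mem_tstab_of (β := β) (sing_induction hp (fun z hz => ?_) fun x y ⟨x', a⟩ ⟨y', b⟩ =>
    ⟨x' + y', fun u => by simp [add_tmul, a, b]⟩)
  obtain ⟨x, x0, hx, e, e'⟩ := h.sing_perp2 w z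
  obtain ⟨x', a⟩ := h.par_step hS hc hw w0 hβ x e
  exact h.par_step hS hc hx x0 a z (Φ₁.B_eq_zero_symm e')

end FZ

end Cfsg.Agent.Root.Mx
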