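import Cfsg.Agent.Root.Basic

/-! Unipotent linear groups via the augmentation space `aug H = span {g - 1}`: `isUnipotentOn_iff`, products of
unipotent groups normalizing each other, the Baer–Suzuki type theorem `isUnipotentOn_iSup`, the property `NU G`
(no non-trivial unipotent normal subgroup), which holds for irreducible groups and passes to normal subgroups. -/

namespace Cfsg.Agent.Root
open Cfsg

variable {k : Type*} [Field k] {M : Type*} [AddCommGroup M] [Module k M]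

/-- The general linear group of `M`. -/
abbrev GLM (k M : Type*) [Field k] [AddCommGroup M] [Module k M] := LinearMap.GeneralLinearGroup k M

variable {G H L U V A B : Subgroup (GLM k M)} {N : Submodule k (Module.End k M)}

/-- The span of the `g - 1`, `g ∈ H`. -/
def aug (H : Subgroup (GLM k M)) : Submodule k (Module.End k M) :=
  Submodule.span k {x | ∃ g ∈ H, x = (g : Module.End k M) - 1}

theorem mem_aug {g : GLM k M} (hg : g ∈ H) : (g : Module.End k M) - 1 ∈ aug H :=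
  Submodule.subset_span ⟨g, hg, rfl⟩

theorem aug_le_iff : aug H ≤ N ↔ ∀ g ∈ H, (g : Module.End k M) - 1 ∈ N := by
  rw [aug, Submodule.span_le]
  exact ⟨fun h g hg => h ⟨g, hg, rfl⟩, by rintro h _ ⟨g, hg, rfl⟩; exact h g hg⟩

theorem aug_mono (h : A ≤ B) : aug A ≤ aug B := aug_le_iff.2 fun _ hg => mem_aug (h hg)

theorem aug_mul_aug_le (h : ∀ a ∈ A, ∀ b ∈ B,
    ((a : Module.End k M) - 1) * ((b : Module.End k M) - 1) ∈ N) : aug A * aug B ≤ N := by
  rw [aug, aug, Submodule.span_mul_span, Submodule.span_le]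
  rintro _ ⟨_, ⟨a, ha, rfl⟩, _, ⟨b, hb, rfl⟩, rfl⟩
  exact h a ha b hb

theorem aug_mul_self : aug H * aug H ≤ aug H := aug_mul_aug_le fun a ha b hb => by
  have := sub_mem (sub_mem (mem_aug (H.mul_mem ha hb)) (mem_aug ha)) (mem_aug hb)
  convert this using 1
  rw [Units.val_mul]; noncomm_ring

theorem isUnipotentOn_iff_list : IsUnipotentOn H ↔ ∃ n : ℕ, ∀ l : List (GLM k M), (∀ g ∈ l, g ∈ H) →
    l.length = n → (l.map fun g : GLM k M => (g : Module.End k M) - 1).prod = 0 := by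
  simp only [IsUnipotentOn, bind_pure_comp, List.map_eq_map, List.map_map, Function.comp_def]

theorem isUnipotentOn_iff : IsUnipotentOn H ↔ ∃ n, aug H ^ n = ⊥ := by
  rw [isUnipotentOn_iff_list]
  refine exists_congr fun n => ⟨fun h => ?_, fun h l hl hn => ?_⟩
  · rw [aug, Submodule.span_pow, Submodule.span_eq_bot]
    intro x hx
    obtain ⟨f, rfl⟩ := Set.mem_pow.1 hx
    choose g hg e using fun i => (f i).2
    have := h (List.ofFn g) (by simpa [List.mem_ofFn] using hg) (by simp)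
    rw [List.map_ofFn] at this
    simpa [Function.comp_def, ← e] using this
  · subst hn
    rw [← Submodule.mem_bot k, ← h]
    clear h
    induction l with
    | nil => exact Submodule.one_le.1 (pow_zero (aug H)).ge
    | cons g l ih =>
      rw [List.map_cons, List.prod_cons, List.length_cons, pow_succ']
      exact Submodule.mul_mem_mul (mem_aug (hl g (by simp))) (ih fun x hx => hl x (by simp [hx]))

theorem unip_of_le_pow {n : ℕ} (h : aug H ≤ N) (hN : N ^ n = ⊥) : IsUnipotentOn H :=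
  isUnipotentOn_iff.2 ⟨n, le_bot_iff.1 (hN ▸ pow_le_pow_left' h n)⟩

theorem unip_mono (h : IsUnipotentOn B) (hAB : A ≤ B) : IsUnipotentOn A := by
  obtain ⟨n, hn⟩ := isUnipotentOn_iff.1 h
  exact unip_of_le_pow (aug_mono hAB) hn

/-- The group `1 + N`. -/
def oneAdd (N : Submodule k (Module.End k M)) (hN : N * N ≤ N) : Subgroup (GLM k M) where
  carrier := {g | (g : Module.End k M) - 1 ∈ N ∧ ((g⁻¹ : GLM k M) : Module.End k M) - 1 ∈ N}
  one_mem' := by simp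
  mul_mem' := by
    have key : ∀ a b : GLM k M, (a : Module.End k M) - 1 ∈ N → (b : Module.End k M) - 1 ∈ N →
        ((a * b : GLM k M) : Module.End k M) - 1 ∈ N := fun a b ha hb => by
      have := add_mem (add_mem (hN (Submodule.mul_mem_mul ha hb)) ha) hb
      convert this using 1
      rw [Units.val_mul]; noncomm_ring
    rintro a b ⟨ha, ha'⟩ ⟨hb, hb'⟩
    exact ⟨key a b ha hb, by rw [mul_inv_rev]; exact key _ _ hb' ha'⟩
  inv_mem' := by rintro a ⟨ha, ha'⟩; exact ⟨ha', by rwa [inv_inv]⟩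

theorem le_oneAdd_iff (hN : N * N ≤ N) : H ≤ oneAdd N hN ↔ aug H ≤ N := by
  rw [aug_le_iff]
  exact ⟨fun h g hg => (h hg).1, fun h g hg => ⟨h g hg, h _ (H.inv_mem hg)⟩⟩

theorem aug_sup_le (hN : N * N ≤ N) (hA : aug A ≤ N) (hB : aug B ≤ N) : aug (A ⊔ B) ≤ N :=
  (le_oneAdd_iff hN).1 (sup_le ((le_oneAdd_iff hN).2 hA) ((le_oneAdd_iff hN).2 hB))

theorem aug_iSup_le {W : Set (Subgroup (GLM k M))} (hN : N * N ≤ N) (h : ∀ A ∈ W, aug A ≤ N) :
    aug (⨆ A ∈ W, A) ≤ N :=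
  (le_oneAdd_iff hN).1 (iSup₂_le fun A hA => (le_oneAdd_iff hN).2 (h A hA))

theorem aug_closure_le {s : Set (GLM k M)} (hN : N * N ≤ N)
    (h : ∀ g ∈ s, (g : Module.End k M) - 1 ∈ N ∧ ((g⁻¹ : GLM k M) : Module.End k M) - 1 ∈ N) :
    aug (Subgroup.closure s) ≤ N := (le_oneAdd_iff hN).1 ((Subgroup.closure_le _).2 h)

theorem unip_sup_of_norm (hU : IsUnipotentOn U) (hV : IsUnipotentOn V)
    (hn : ∀ u ∈ U, conjBy V u = V) : IsUnipotentOn (U ⊔ V) := by
  obtain ⟨m, hm⟩ := isUnipotentOn_iff.1 hU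
  obtain ⟨n, hn'⟩ := isUnipotentOn_iff.1 hV
  have haa : aug U * aug U ≤ aug U := aug_mul_self
  have hbb : aug V * aug V ≤ aug V := aug_mul_self
  have hab : aug U * aug V ≤ aug V ⊔ aug V * aug U := aug_mul_aug_le fun u hu v hv => by
    have hv' : u * v * u⁻¹ ∈ V := hn u hu ▸ conj_mem_conjBy u hv
    have := add_mem (Submodule.mem_sup_left (sub_mem (mem_aug hv') (mem_aug hv)))
      (Submodule.mem_sup_right (S := aug V) (Submodule.mul_mem_mul (mem_aug hv') (mem_aug hu)))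
    convert this using 1
    simp only [Units.val_mul, mul_sub, sub_mul, mul_assoc, Units.inv_mul, mul_one, one_mul]
    abel
  suffices key : ∀ a b : Submodule k (Module.End k M), a ^ m = ⊥ → b ^ n = ⊥ → a * a ≤ a → b * b ≤ b →
      a * b ≤ b ⊔ b * a → (a ⊔ (b ⊔ b * a)) * (a ⊔ (b ⊔ b * a)) ≤ a ⊔ (b ⊔ b * a) ∧
        (a ⊔ (b ⊔ b * a)) ^ ((m + 1) * (n + 1)) = ⊥ by
    obtain ⟨h1, h2⟩ := key _ _ hm hn' haa hbb hab
    exact unip_of_le_pow (aug_sup_le h1 le_sup_left (le_sup_of_le_right le_sup_left)) h2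
  intro a b hm hn' haa hbb hab
  set J := b ⊔ b * a with hJ
  have hJa : J * a ≤ J := by
    rw [hJ, Submodule.sup_mul, mul_assoc]
    exact sup_le le_sup_right (le_sup_of_le_right (mul_le_mul' le_rfl haa))
  have haJ : a * J ≤ J := by
    conv_lhs => rw [hJ, Submodule.mul_sup, ← mul_assoc]
    exact sup_le hab ((mul_le_mul' hab le_rfl).trans hJa)
  have hbJ : b * J ≤ J := by
    rw [hJ, Submodule.mul_sup, ← mul_assoc]
    exact sup_le (le_sup_of_le_left hbb) (le_sup_of_le_right (mul_le_mul' hbb le_rfl))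
  have hJJ : J * J ≤ b * J := by
    nth_rewrite 1 [hJ]
    rw [Submodule.sup_mul, mul_assoc]
    exact sup_le le_rfl (mul_le_mul' le_rfl haJ)
  have hJn : ∀ n, J ^ (n + 1) ≤ b ^ n * J := by
    intro n
    induction n with
    | zero => simp
    | succ n ih =>
      rw [pow_succ, pow_succ b, mul_assoc]
      exact (mul_le_mul' ih le_rfl).trans (by rw [mul_assoc]; exact mul_le_mul' le_rfl hJJ)
  have hstep : ∀ c, c ≤ a → (c ⊔ J) * (a ⊔ J) ≤ c * a ⊔ J := fun c hc => by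
    rw [Submodule.sup_mul, Submodule.mul_sup c a J, Submodule.mul_sup J a J]
    exact sup_le (sup_le le_sup_left (le_sup_of_le_right ((mul_le_mul' hc le_rfl).trans haJ)))
      (le_sup_of_le_right (sup_le hJa (hJJ.trans hbJ)))
  have hpow : ∀ m, a ^ (m + 1) ≤ a := fun m => by
    induction m with
    | zero => simp
    | succ m ih => rw [pow_succ]; exact (mul_le_mul' ih le_rfl).trans haa
  have hNm : ∀ m, (a ⊔ J) ^ (m + 1) ≤ a ^ (m + 1) ⊔ J := fun m => by
    induction m with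
    | zero => simp
    | succ m ih =>
      rw [pow_succ, pow_succ a (m + 1)]
      exact (mul_le_mul' ih le_rfl).trans (hstep _ (hpow m))
  refine ⟨(hstep a le_rfl).trans (sup_le_sup_right haa _), le_bot_iff.1 ?_⟩
  have h1 := hNm m
  rw [pow_succ a, hm, Submodule.bot_mul, bot_sup_eq] at h1
  rw [pow_mul]
  refine (pow_le_pow_left' h1 _).trans ((hJn n).trans ?_)
  rw [hn', Submodule.bot_mul]

theorem pow_succ_le_self (hN : N * N ≤ N) (m : ℕ) : N ^ (m + 1) ≤ N := by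
  induction m with
  | zero => simp
  | succ m ih => rw [pow_succ]; exact (mul_le_mul' ih le_rfl).trans hN

section BaerSuzuki
variable {W : Set (Subgroup (GLM k M))}

/-- In a unipotent group generated by members of an invariant family `W`, a proper `W`-subgroup is normalized by a
member of `W` outside it. -/
theorem exists_norm_member (hc : ∀ A ∈ W, ∀ B ∈ W, ∀ a ∈ A, conjBy B a ∈ W) {D : Submodule k _}
    (hN : N * N ≤ N) {n : ℕ} (hn : N ^ n = ⊥) (hD : D * D ≤ D) (hDN : D ≤ N)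
    (h : ∃ A ∈ W, aug A ≤ N ∧ ¬ aug A ≤ D) :
    ∃ A ∈ W, aug A ≤ N ∧ ¬ aug A ≤ D ∧ ∀ a ∈ A, ∀ B ∈ W, aug B ≤ D → aug (conjBy B a) ≤ D := by
  classical
  have hex : ∃ j, ∀ A ∈ W, aug A ≤ D ⊔ N ^ (j + 1) → aug A ≤ D :=
    ⟨n, fun A _ hA => by simpa [pow_succ, hn] using hA⟩
  have h0 : Nat.find hex ≠ 0 := fun e => by
    obtain ⟨A, hA, h1, h2⟩ := h
    have := Nat.find_spec hex
    rw [e] at this
    exact h2 (this A hA (by simpa using le_sup_of_le_right h1))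
  obtain ⟨j, hj⟩ := Nat.exists_eq_succ_of_ne_zero h0
  have h1 := Nat.find_spec hex
  have h2 := Nat.find_min hex (show j < Nat.find hex by omega)
  rw [hj] at h1
  push Not at h2
  obtain ⟨A, hA, h3, h4⟩ := h2
  refine ⟨A, hA, h3.trans (sup_le hDN (pow_succ_le_self hN j)), h4, fun a ha B hB hBD => ?_⟩
  refine h1 _ (hc A hA B hB a ha) (aug_le_iff.2 fun x hx => ?_)
  obtain ⟨b, hb, rfl⟩ := mem_conjBy'.1 hx
  have hP : D ⊔ N ^ (j + 1) ≤ N := sup_le hDN (pow_succ_le_self hN j)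
  have l1 : (D ⊔ N ^ (j + 1)) * D ≤ D ⊔ N ^ (j + 1 + 1) := by
    rw [Submodule.sup_mul, pow_succ N (j + 1)]
    exact sup_le_sup hD (mul_le_mul' le_rfl hDN)
  have l2 : (D ⊔ N ^ (j + 1 + 1)) * (D ⊔ N ^ (j + 1)) ≤ D ⊔ N ^ (j + 1 + 1) := by
    rw [Submodule.sup_mul, Submodule.mul_sup D]
    refine sup_le (sup_le_sup hD ?_) (le_sup_of_le_right ?_)
    · rw [pow_succ' N (j + 1)]; exact mul_le_mul' hDN le_rfl
    · rw [pow_succ N (j + 1), mul_assoc]
      exact mul_le_mul' le_rfl ((mul_le_mul' le_rfl hP).trans hN)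
  have m1 := hBD (mem_aug hb)
  have m2 := add_mem (Submodule.mem_sup_left m1) (l1 (Submodule.mul_mem_mul (h3 (mem_aug ha)) m1))
  have m3 := add_mem m2 (l2 (Submodule.mul_mem_mul m2 (h3 (mem_aug (A.inv_mem ha)))))
  convert m3 using 1
  simp only [Units.val_mul, mul_sub, sub_mul, add_mul, mul_assoc, Units.mul_inv, mul_one, one_mul]
  abel

variable [FiniteDimensional k M]

theorem isUnipotentOn_iSup (hc : ∀ A ∈ W, ∀ B ∈ W, ∀ a ∈ A, conjBy B a ∈ W)
    (hW : ∀ A ∈ W, ∀ B ∈ W, IsUnipotentOn (A ⊔ B)) : IsUnipotentOn (⨆ A ∈ W, A) := by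
  let T : Set (Submodule k (Module.End k M)) :=
    {N | ∃ Δ ⊆ W, IsUnipotentOn (⨆ A ∈ Δ, A) ∧ N = aug (⨆ A ∈ Δ, A)}
  have hmax : ∀ N ∈ T, ∃ N', N ≤ N' ∧ Maximal (· ∈ T) N' := fun N hN =>
    exists_maximal_ge_of_wellFoundedGT (· ∈ T) N hN
  have hle : ∀ {Δ : Set (Subgroup (GLM k M))} {A}, A ∈ Δ → aug A ≤ aug (⨆ A ∈ Δ, A) := fun hA =>
    aug_mono (le_iSup₂_of_le (f := fun A (_ : A ∈ _) => A) _ hA le_rfl)
  have key : ∀ D, ∀ N₁ N₂, Maximal (· ∈ T) N₁ → Maximal (· ∈ T) N₂ →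
      D = aug (⨆ A ∈ {A ∈ W | aug A ≤ N₁ ∧ aug A ≤ N₂}, A) → N₁ = N₂ := by
    intro D
    induction D using WellFoundedGT.induction with | ind D ih =>
    intro N₁ N₂ h1 h2 hD
    by_contra hne
    have step : ∀ {N₁ N₂}, Maximal (· ∈ T) N₁ → Maximal (· ∈ T) N₂ → N₁ ≠ N₂ →
        D = aug (⨆ A ∈ {A ∈ W | aug A ≤ N₁ ∧ aug A ≤ N₂}, A) →
        ∃ A ∈ W, aug A ≤ N₁ ∧ ¬ aug A ≤ D ∧ ∀ a ∈ A, ∀ B ∈ W, aug B ≤ D → aug (conjBy B a) ≤ D := by
      intro N₁ N₂ h1 h2 hne hD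
      obtain ⟨Δ, hΔ, hu, e⟩ := h1.prop
      obtain ⟨n, hn⟩ := isUnipotentOn_iff.1 hu
      have hN : N₁ * N₁ ≤ N₁ := e ▸ aug_mul_self
      have hN2 : N₂ * N₂ ≤ N₂ := by obtain ⟨_, _, _, e⟩ := h2.prop; exact e ▸ aug_mul_self
      refine exists_norm_member hc hN (e ▸ hn) (hD ▸ aug_mul_self)
        (hD ▸ aug_iSup_le hN fun A hA => hA.2.1) ?_
      by_contra hcon
      push Not at hcon
      have : N₁ ≤ N₂ := by
        rw [e]
        exact aug_iSup_le hN2 fun A hA => (hcon A (hΔ hA) (e ▸ hle hA)).trans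
          (hD ▸ aug_iSup_le hN2 fun A hA => hA.2.2)
      exact hne (le_antisymm this (h1.le_of_ge h2.prop this))
    obtain ⟨A₁, hA₁, a1, b1, c1⟩ := step h1 h2 hne hD
    obtain ⟨A₂, hA₂, a2, b2, c2⟩ := step h2 h1 (Ne.symm hne) (by simpa only [and_comm] using hD)
    set Δ := {A ∈ W | aug A ≤ N₁ ∧ aug A ≤ N₂} with hΔ
    have hN1 : N₁ * N₁ ≤ N₁ := by obtain ⟨_, _, _, e⟩ := h1.prop; exact e ▸ aug_mul_self
    have hN2 : N₂ * N₂ ≤ N₂ := by obtain ⟨_, _, _, e⟩ := h2.prop; exact e ▸ aug_mul_self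
    have hD1 : D ≤ N₁ := hD ▸ aug_iSup_le hN1 fun A hA => hA.2.1
    have hD2 : D ≤ N₂ := hD ▸ aug_iSup_le hN2 fun A hA => hA.2.2
    have hΔ' : ∀ B, B ∈ Δ ↔ B ∈ W ∧ aug B ≤ D := fun B =>
      ⟨fun h => ⟨h.1, hD ▸ hle h⟩, fun h => ⟨h.1, h.2.trans hD1, h.2.trans hD2⟩⟩
    have hnorm : ∀ x ∈ A₁ ⊔ A₂, ∀ B ∈ Δ, conjBy B x ∈ Δ := conjBy_mem_of_sup
      (fun a ha B hB => (hΔ' _).2 ⟨hc _ hA₁ _ hB.1 a ha, c1 a ha B hB.1 ((hΔ' B).1 hB).2⟩)
      (fun a ha B hB => (hΔ' _).2 ⟨hc _ hA₂ _ hB.1 a ha, c2 a ha B hB.1 ((hΔ' B).1 hB).2⟩)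
    have hnorm' : ∀ x ∈ A₁ ⊔ A₂, conjBy (⨆ B ∈ Δ, B) x ≤ ⨆ B ∈ Δ, B := fun x hx => by
      simp only [Subgroup.map_iSup]
      exact iSup₂_le fun B hB => le_iSup₂_of_le (f := fun A (_ : A ∈ Δ) => A) _ (hnorm x hx B hB) le_rfl
    have hu : IsUnipotentOn (⨆ B ∈ Δ, B) := by
      obtain ⟨_, _, hu, e⟩ := h1.prop
      obtain ⟨n, hn⟩ := isUnipotentOn_iff.1 hu
      exact unip_of_le_pow (hD ▸ hD1) (e ▸ hn)
    have hu' := unip_sup_of_norm (hW _ hA₁ _ hA₂) hu fun x hx =>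
      conjBy_eq_of_le_of_le (hnorm' x hx) (hnorm' _ (Subgroup.inv_mem _ hx))
    obtain ⟨N₃, h4, h3⟩ := hmax _ ⟨insert A₁ (insert A₂ Δ),
      Set.insert_subset hA₁ (Set.insert_subset hA₂ fun B hB => hB.1),
      by rwa [iSup_insert, iSup_insert, ← sup_assoc], rfl⟩
    have fin : ∀ {N A}, Maximal (· ∈ T) N → D ≤ N → A ∈ W → aug A ≤ N → ¬ aug A ≤ D →
        A ∈ insert A₁ (insert A₂ Δ) → N = N₃ := by
      intro N A hN hDN hA a b hm
      refine ih (aug (⨆ A ∈ {A ∈ W | aug A ≤ N ∧ aug A ≤ N₃}, A)) (lt_of_le_not_ge ?_ fun h =>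
        b (le_trans (hle (Δ := {A ∈ W | aug A ≤ N ∧ aug A ≤ N₃}) ⟨hA, a, (hle hm).trans h4⟩) h))
        N N₃ hN h3 rfl
      rw [hD]
      exact aug_iSup_le aug_mul_self fun B hB => hle ⟨hB.1, ((hΔ' B).1 hB).2.trans hDN,
        (hle (by simp [hB])).trans h4⟩
    exact hne ((fin h1 hD1 hA₁ a1 b1 (by simp)).trans (fin h2 hD2 hA₂ a2 b2 (by simp)).symm)
  obtain ⟨N₀, -, h0⟩ := hmax _ ⟨∅, Set.empty_subset _, isUnipotentOn_iff.2 ⟨1, by
    rw [pow_one, eq_bot_iff, aug_le_iff]; simp⟩, rfl⟩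
  obtain ⟨Δ, -, hu, e⟩ := h0.prop
  obtain ⟨n, hn⟩ := isUnipotentOn_iff.1 hu
  refine unip_of_le_pow (aug_iSup_le aug_mul_self fun A hA => ?_) hn
  obtain ⟨N₁, h4, h1⟩ := hmax _ ⟨{A}, by simpa using hA, by simpa using hW A hA A hA, rfl⟩
  rw [← e, ← key _ _ _ h1 h0 rfl]
  exact (hle (by simp)).trans h4

end BaerSuzuki

/-- `G` normalizes no non-trivial unipotent subgroup of itself. -/
def NU (G : Subgroup (GLM k M)) : Prop :=
  ∀ U ≤ G, (∀ g ∈ G, conjBy U g = U) → IsUnipotentOn U → U = ⊥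

theorem conjBy_iSup_eq {G : Type*} [Group G] {W : Set (Subgroup G)} {g : G}
    (h : ∀ A ∈ W, conjBy A g ∈ W) (h' : ∀ A ∈ W, conjBy A g⁻¹ ∈ W) :
    conjBy (⨆ A ∈ W, A) g = ⨆ A ∈ W, A := by
  have key : ∀ g : G, (∀ A ∈ W, conjBy A g ∈ W) → conjBy (⨆ A ∈ W, A) g ≤ ⨆ A ∈ W, A := fun g h => by
    simp only [Subgroup.map_iSup]
    exact iSup₂_le fun B hB => le_iSup₂_of_le (f := fun A (_ : A ∈ W) => A) _ (h B hB) le_rfl
  exact conjBy_eq_of_le_of_le (key g h) (key _ h')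

theorem unip_conj (h : IsUnipotentOn U) (g : GLM k M) : IsUnipotentOn (conjBy U g) := by
  obtain ⟨n, hn⟩ := isUnipotentOn_iff_list.1 h
  refine isUnipotentOn_iff_list.2 ⟨n, fun l hl e => ?_⟩
  have := hn (l.map fun x => g⁻¹ * x * g) (by
    intro x hx; obtain ⟨y, hy, rfl⟩ := List.mem_map.1 hx; exact mem_conjBy.1 (hl y hy)) (by simpa using e)
  have key : ∀ l : List (GLM k M), ((l.map fun x => g⁻¹ * x * g).map
      fun g : GLM k M => (g : Module.End k M) - 1).prod = (g⁻¹ : GLM k M) *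
        (l.map fun g : GLM k M => (g : Module.End k M) - 1).prod * (g : Module.End k M) := by
    intro l
    induction l with
    | nil => simp
    | cons x l ih =>
      simp only [List.map_cons, List.prod_cons] at ih ⊢
      rw [ih]
      simp only [Units.val_mul, sub_mul, mul_sub, mul_assoc,
        Units.mul_inv_cancel_left, one_mul]
  rw [key] at this
  simpa using this

theorem nu_of_irreducible (h : IsIrreducibleFor G) : NU G := by
  intro U hU hn hu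
  obtain ⟨n, hn'⟩ := isUnipotentOn_iff.1 hu
  let W : Submodule k M := aug U • ⊤
  have hW : ∀ g ∈ G, ∀ w ∈ W, (g : M →ₗ[k] M) w ∈ W := by
    intro g hg w hw
    refine Submodule.smul_induction_on hw (fun x hx m _ => ?_) fun x y hx hy => by
      rw [map_add]; exact add_mem hx hy
    have : (g : Module.End k M) * x * (g⁻¹ : GLM k M) ∈ aug U := by
      induction hx using Submodule.span_induction with
      | mem x hx =>
        obtain ⟨u, hu, rfl⟩ := hx
        have := mem_aug (hn g hg ▸ conj_mem_conjBy g hu)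
        simpa [mul_sub, sub_mul] using this
      | zero => simp
      | add x y _ _ hx hy => rw [mul_add, add_mul]; exact add_mem hx hy
      | smul c x _ hx => rw [mul_smul_comm, smul_mul_assoc]; exact Submodule.smul_mem _ c hx
    have h2 := Submodule.smul_mem_smul this (Submodule.mem_top (x := (g : M →ₗ[k] M) m))
    convert h2 using 1
    simp [← Module.End.mul_apply, mul_assoc]
  rcases h.2 W hW with e | e
  · rw [eq_bot_iff]
    intro u hu
    have : ∀ m, ((u : Module.End k M) - 1) m = 0 := fun m =>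
      (Submodule.mem_bot k).1 (e ▸ Submodule.smul_mem_smul (mem_aug hu) Submodule.mem_top)
    exact Units.ext (sub_eq_zero.1 (LinearMap.ext this))
  · exfalso
    have : ∀ j, aug U ^ j • (⊤ : Submodule k M) = ⊤ := fun j => by
      induction j with
      | zero => rw [pow_zero, Submodule.one_smul]
      | succ j ih => rw [pow_succ, ← smul_eq_mul, Submodule.smul_assoc, show aug U • ⊤ = ⊤ from e, ih]
    obtain ⟨m, hm⟩ := h.1
    have h2 := this n
    rw [hn', Submodule.bot_smul] at h2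
    exact hm ((Submodule.mem_bot k).1 (h2 ▸ Submodule.mem_top))

variable [FiniteDimensional k M]

theorem NU.eq_bot_of_family (h : NU G) {W : Set (Subgroup (GLM k M))} (hle : ∀ A ∈ W, A ≤ G)
    (hc : ∀ A ∈ W, ∀ g ∈ G, conjBy A g ∈ W) (hW : ∀ A ∈ W, ∀ B ∈ W, IsUnipotentOn (A ⊔ B))
    (hA : A ∈ W) : A = ⊥ := by
  have := h _ (iSup₂_le hle) (fun g hg => conjBy_iSup_eq (fun A hA => hc A hA g hg)
    fun A hA => hc A hA _ (G.inv_mem hg))
    (isUnipotentOn_iSup (fun A hA B hB a ha => hc B hB a (hle A hA ha)) hW)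
  exact le_bot_iff.1 (this ▸ le_iSup₂_of_le (f := fun A (_ : A ∈ W) => A) _ hA le_rfl)

theorem NU.of_normal (h : NU G) (hL : L ≤ G) (hn : ∀ g ∈ G, conjBy L g = L) : NU L := by
  intro U hU hnU hu
  refine h.eq_bot_of_family (W := {V | V ≤ L ∧ (∀ g ∈ L, conjBy V g = V) ∧ IsUnipotentOn V})
    (fun A hA => hA.1.trans hL) (fun A hA g hg => ⟨hn g hg ▸ conjBy_mono g hA.1, fun x hx => ?_,
      unip_conj hA.2.2 g⟩) (fun A hA B hB => unip_sup_of_norm hA.2.2 hB.2.2 fun a ha => hB.2.1 a (hA.1 ha))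
    ⟨hU, hnU, hu⟩
  have := hA.2.1 _ (mem_conjBy.1 ((hn g hg).symm ▸ hx))
  rw [conjBy_conjBy, conjBy_eq_conjBy_iff, ← mul_assoc, this]

end Cfsg.Agent.Root
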