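import Cfsg.Agent.Root.Ten5

/-! An abstract criterion for a group `X` containing commuting families `D i` of root elements to permute the families
(`WrA.ind`), and the engine for families of involutions (`WrI.fixes`, `WrI.le`). -/

set_option autoImplicit false

namespace Cfsg.Agent.Root.Wr

variable {G : Type*} [Group G] {ι : Type*}

/-- Conjugation by `c` maps `S` onto `T`. -/
def Mp (c : G) (S T : Set G) : Prop := (∀ d ∈ S, c * d * c⁻¹ ∈ T) ∧ ∀ e ∈ T, c⁻¹ * e * c ∈ S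

/-- `g` centralises `S`. -/
def Ce (g : G) (S : Set G) : Prop := ∀ e ∈ S, Commute g e

namespace Mp
variable {a b c : G} {S T R : Set G}

theorem mul (h : Mp a S T) (h' : Mp b T R) : Mp (b * a) S R :=
  ⟨fun d hd => by simpa [mul_assoc] using h'.1 _ (h.1 d hd), fun e he => by simpa [mul_assoc] using h.2 _ (h'.2 e he)⟩

theorem inv (h : Mp a S T) : Mp a⁻¹ T S := ⟨fun d hd => by simpa using h.2 d hd, fun d hd => by simpa using h.1 d hd⟩

theorem ce (h : Mp a S T) (h' : Ce b S) : Ce (a * b * a⁻¹) T := fun e he => by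
  simpa [mul_assoc] using (h' _ (h.2 e he)).conj a

end Mp

theorem Ce.mp {g : G} {S : Set G} (h : Ce g S) : Mp g S S :=
  ⟨fun d hd => by rwa [(h d hd).eq, mul_inv_cancel_right], fun d hd => by rwa [mul_assoc, ← (h d hd).eq, inv_mul_cancel_left]⟩

theorem Ce.mul {a b : G} {S : Set G} (h : Ce a S) (h' : Ce b S) : Ce (a * b) S := fun e he => (h e he).mul_left (h' e he)

theorem Ce.inv {a : G} {S : Set G} (h : Ce a S) : Ce a⁻¹ S := fun e he => (h e he).inv_left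

theorem ce_one (S : Set G) : Ce 1 S := fun e _ => Commute.one_left e

variable [Finite G]

/-- The elements permuting the sets `D i`. -/
def HD (D : ι → Set G) : Subgroup G where
  carrier := {c | ∀ i, ∃ j, Mp c (D i) (D j)}
  one_mem' := fun i => ⟨i, (ce_one _).mp⟩
  mul_mem' := fun ha hb i => let ⟨j, h⟩ := hb i; let ⟨k, h'⟩ := ha j; ⟨k, h.mul h'⟩
  inv_mem' := fun {a} ha => by
    have : ∀ n : ℕ, ∀ i, ∃ j, Mp (a ^ n) (D i) (D j) := fun n => by
      induction n with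
      | zero => exact fun i => ⟨i, by simpa using (ce_one _).mp⟩
      | succ n ih => exact fun i => let ⟨j, h⟩ := ih i; let ⟨k, h'⟩ := ha j; ⟨k, pow_succ' a n ▸ h.mul h'⟩
    rw [inv_eq_of_mul_eq_one_right (show a * a ^ (orderOf a - 1) = 1 by
      rw [← pow_succ', Nat.sub_add_cancel (orderOf_pos a), pow_orderOf_eq_one])]
    exact this _

theorem dih3 {S : Subgroup G} {a b : G} (ha : a ∈ S) (hb : b ∈ S) (a2 : a * a = 1) (b2 : b * b = 1) :
    (∃ k ∈ S, k * a * k⁻¹ = b) ∨ ∃ z ∈ S, z ≠ 1 ∧ z * z = 1 ∧ Commute z a ∧ Commute z b ∧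
      ((∃ k ∈ S, a * z = k * a * k⁻¹) ∧ (∃ k ∈ S, b * z = k * b * k⁻¹) ∨
        (∃ k ∈ S, a * z = k * b * k⁻¹) ∧ ∃ k ∈ S, b * z = k * a * k⁻¹) := by
  rcases Mx.dihedral_trick ha hb a2 b2 with h | ⟨z, hz, z1, z2, za, zb, n, e⟩
  · exact .inl h
  have e' : z = (b * a) ^ n := by
    rw [← inv_eq_of_mul_eq_one_right z2, e, ← inv_pow, mul_inv_rev, inv_eq_of_mul_eq_one_right a2,
      inv_eq_of_mul_eq_one_right b2]
  obtain ⟨i, hi⟩ := Mx.dih a2 b2 n
  obtain ⟨j, hj⟩ := Mx.dih b2 a2 n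
  rw [← e] at hi
  rw [← e'] at hj
  have m1 := pow_mem (mul_mem ha hb) i
  have m2 := pow_mem (mul_mem hb ha) j
  have c1 := (za.mul_right zb).pow_right i
  have c2 := (zb.mul_right za).pow_right j
  generalize (a * b) ^ i = k at *
  generalize (b * a) ^ j = l at *
  have key : ∀ {a b x k l : G}, Commute z k → Commute z l → a * z = k⁻¹ * x * k → b * z = l⁻¹ * x * l →
      l⁻¹ * k * a * (l⁻¹ * k)⁻¹ = b := fun {a b x k l} c1 c2 h1 h2 => mul_right_cancel (b := z) (by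
    rw [h2, mul_assoc _ _ z, ← (c2.inv_right.mul_right c1).inv_right.eq, ← mul_assoc, mul_assoc _ a, h1]; group)
  rcases hi with hi | hi <;> rcases hj with hj | hj
  · exact .inr ⟨z, hz, z1, z2, za, zb, .inl ⟨⟨_, inv_mem m1, by simpa using hi⟩, _, inv_mem m2, by simpa using hj⟩⟩
  · exact .inl ⟨_, mul_mem (inv_mem m2) m1, key c1 c2 hi hj⟩
  · exact .inl ⟨_, mul_mem (inv_mem m2) m1, key c1 c2 hi hj⟩
  · exact .inr ⟨z, hz, z1, z2, za, zb, .inr ⟨⟨_, inv_mem m1, by simpa using hi⟩, _, inv_mem m2, by simpa using hj⟩⟩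

/-- Commuting families of root elements in `X`. -/
structure WrA (X : Subgroup G) (D : ι → Set G) : Prop where
  le : ∀ i, ∀ d ∈ D i, d ∈ X
  comm : ∀ i j, i ≠ j → ∀ d ∈ D i, Ce d (D j)
  U : ∀ c ∈ X, ∀ i j, ∀ d ∈ D i, c * d * c⁻¹ ∈ D j → Mp c (D i) (D j)
  R : ∀ c ∈ X, ∀ i j, ∀ d ∈ D i, Mp (c * d * c⁻¹) (D j) (D j) → c * d * c⁻¹ ∈ D j ∨ Ce (c * d * c⁻¹) (D j)
  nc : ∀ i, ∀ d ∈ D i, ¬ Ce d (D i)
  ne : ∀ i, (D i).Nonempty
  C : ∀ c ∈ X, ∀ i, ∀ d ∈ D i, ¬ ∀ j, Ce (c * d * c⁻¹) (D j)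
  C2 : ∀ g ∈ X, ∀ i, (∀ j ≠ i, Ce g (D j)) → Mp g (D i) (D i)

variable {X X' : Subgroup G} {D : ι → Set G}

/-- The families with index in `I` are recognised by any of their elements. -/
structure RC (X : Subgroup G) (D : ι → Set G) (I : ι → Prop) : Prop extends WrA X D where
  out : ∀ l, ¬ I l → ∀ c ∈ X, Mp c (D l) (D l)
  N : ∀ i, I i → ∀ c ∈ X, Mp c (D i) (D i) → c ∈ HD D
  rc : ∀ i, I i → ∀ d ∈ D i, ∀ c ∈ X, c * d * c⁻¹ ∈ HD D → c ∈ HD D
  base : ∀ i, I i → ∀ d ∈ D i, ∀ c ∈ X, c * d * c⁻¹ ∈ HD D → ∃ j, I j ∧ c * d * c⁻¹ ∈ D j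

namespace WrA
omit [Finite G] in
theorem mono (h : WrA X D) (a : X' ≤ X) (b : ∀ i, ∀ d ∈ D i, d ∈ X') : WrA X' D :=
  ⟨b, h.comm, fun c hc => h.U c (a hc), fun c hc => h.R c (a hc), h.nc, h.ne, fun c hc => h.C c (a hc),
    fun c hc => h.C2 c (a hc)⟩

variable (h : WrA X D) {i j : ι} {d : G}
include h

omit [Finite G] in
theorem idx (h1 : d ∈ D i) (h2 : d ∈ D j) : i = j := by_contra fun e => h.nc j d h2 (h.comm i j e d h1)

omit [Finite G] in
theorem idx' {c : G} {l : ι} (h1 : Mp c (D l) (D i)) (h2 : Mp c (D l) (D j)) : i = j :=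
  let ⟨d, hd⟩ := h.ne l; h.idx (h1.1 d hd) (h2.1 d hd)

omit [Finite G] in
theorem self (h1 : d ∈ D i) (j : ι) : Mp d (D j) (D j) := by
  by_cases e : i = j
  · exact e ▸ h.U d (h.le i d h1) i i d h1 (by simpa)
  · exact (h.comm i j e d h1).mp

/-- The inductive criterion. -/
theorem ind (B : ∀ c ∈ X, ∀ i, ∀ d ∈ D i, c * d * c⁻¹ ∈ HD D → ∀ j, Mp (c * d * c⁻¹) (D j) (D j))
    (E : ∀ X' ≤ X, ∀ I i j, i ≠ j → I i → I j → RC X' D I → X' ≤ HD D) : X ≤ HD D := by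
  induction hn : Nat.card X using Nat.strong_induction_on generalizing X with | _ n ih =>
  let N : ι → Subgroup G := fun i =>
    { carrier := {c | c ∈ X ∧ Mp c (D i) (D i)}
      one_mem' := ⟨one_mem _, (ce_one _).mp⟩
      mul_mem' := fun a b => ⟨mul_mem a.1 b.1, b.2.mul a.2⟩
      inv_mem' := fun a => ⟨inv_mem a.1, a.2.inv⟩ }
  let I : ι → Prop := fun i => ¬ X ≤ N i
  have out : ∀ l, ¬ I l → ∀ c ∈ X, Mp c (D l) (D l) := fun l hl c hc => (not_not.1 hl hc).2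
  have hN : ∀ i, I i → ∀ c ∈ X, Mp c (D i) (D i) → c ∈ HD D := fun i hi c hc e => by
    have le : N i ≤ X := fun _ a => a.1
    exact ih _ (hn ▸ lt_of_le_of_ne (Subgroup.card_le_of_le le) fun e => hi (Subgroup.eq_of_le_of_card_ge le e.ge).ge) (h.mono le fun j d hd =>
      ⟨h.le j d hd, h.self hd i⟩) (fun c hc => B c (le hc)) (fun Y hY => E Y (hY.trans le)) rfl ⟨hc, e⟩
  have base : ∀ i, ∀ d ∈ D i, ∀ c ∈ X, c * d * c⁻¹ ∈ HD D → ∃ j, c * d * c⁻¹ ∈ D j := fun i d hd c hc e => by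
    by_contra! H
    exact h.C c hc i d hd fun j => (h.R c hc i j d hd (B c hc i d hd e j)).resolve_left (H j)
  have tr : ∀ i j, I i → ∀ c ∈ X, Mp c (D i) (D j) → I j := fun i j hi c hc e => by_contra fun hj =>
    hj (h.idx' (out j hj _ (inv_mem hc)) e.inv ▸ hi)
  by_cases H : ∃ i j, i ≠ j ∧ I i ∧ I j
  · obtain ⟨i, j, a, b, c⟩ := H
    refine E X le_rfl I i j a b c ⟨h, out, hN, fun i hi d hd c hc e l => ?_, fun i hi d hd c hc e => ?_⟩
    · obtain ⟨j, hj⟩ := base i d hd c hc e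
      have m := h.U c hc i j d hd hj
      obtain ⟨r, hr⟩ := h.ne l
      obtain ⟨k, hk⟩ := base l r hr c hc (hN j (tr i j hi c hc m) _ (mul_mem (mul_mem hc (h.le l r hr)) (inv_mem hc))
        ((m.inv.mul (h.self hr i)).mul m |> fun e => by simpa [mul_assoc] using e))
      exact ⟨k, h.U c hc l k r hr hk⟩
    · obtain ⟨j, hj⟩ := base i d hd c hc e
      exact ⟨j, tr i j hi c hc (h.U c hc i j d hd hj), hj⟩
  intro c hc i
  by_cases hi : I i
  · obtain ⟨d, hd⟩ := h.ne i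
    have : ∀ j ≠ i, Ce (c * d * c⁻¹) (D j) := fun j e =>
      (out j (fun hj => H ⟨j, i, e, hj, hi⟩) c hc).ce (h.comm i j e.symm d hd)
    refine ⟨i, h.U c hc i i d hd ((h.R c hc i i d hd (h.C2 _ (mul_mem (mul_mem hc (h.le i d hd)) (inv_mem hc)) i
      this)).resolve_right fun e => h.C c hc i d hd fun j => ?_)⟩
    by_cases e' : j = i
    exacts [e' ▸ e, this j e']
  · exact ⟨i, out i hi c hc⟩

end WrA

/-- There is a relation of odd length among the elements of `S`. -/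
def OddRel (S : Set G) : Prop := ∃ L : List G, Odd L.length ∧ (∀ r ∈ L, r ∈ S) ∧ L.prod = 1

omit [Finite G] in
theorem OddRel.ind {S : Set G} (h : OddRel S) {y : G} (hc : ∀ r ∈ S, ∀ s ∈ S, Commute r (y * s * y⁻¹)) (P : ℕ → G → Prop)
    (h0 : P 0 1) (hs : ∀ n a, ∀ r ∈ S, P n a → P (n + 1) (r * (y * r * y⁻¹) * a)) : ∃ n, P (2 * n + 1) 1 := by
  obtain ⟨L, ⟨n, hn⟩, hL, e⟩ := h
  have : ∀ L : List G, (∀ r ∈ L, r ∈ S) → P L.length (L.prod * (y * L.prod * y⁻¹)) := fun L hL => by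
    induction L with
    | nil => simpa using h0
    | cons r L ih =>
      have c : Commute L.prod (y * r * y⁻¹) :=
        Commute.list_prod_left _ _ fun s hs => hc s (hL s (by simp [hs])) r (hL r (by simp))
      have := hs _ _ r (hL r (by simp)) (ih fun s hs => hL s (by simp [hs]))
      rwa [show r * (y * r * y⁻¹) * (L.prod * (y * L.prod * y⁻¹)) = (r :: L).prod * (y * (r :: L).prod * y⁻¹) by
        rw [List.prod_cons, mul_assoc r (y * r * y⁻¹), ← mul_assoc _ L.prod, ← c.eq]; group] at this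
  exact ⟨n, by simpa [e, hn] using this L hL⟩

/-- The additional hypotheses for families of involutions. -/
structure WrI (X : Subgroup G) (D : ι → Set G) : Prop where
  sq : ∀ i, ∀ d ∈ D i, d * d = 1
  Z : ∀ i, ∀ d ∈ D i, ∀ e ∈ D i, Ce (d * e) (D i) → d = e
  PI : ∀ i, ∀ d ∈ D i, ∀ e ∈ D i, d ≠ e → Commute d e → ∀ g ∈ X, Commute g (d * e) →
    ∃ r ∈ D i, Mp (g * r * g⁻¹) (D i) (D i)
  Xa : ∀ i, ∀ d ∈ D i, ∃ x ∈ D i, x ≠ d ∧ Commute x d
  Fa : ∀ c ∈ X, ∀ i j, i ≠ j → ∀ d ∈ D i, ∀ e ∈ D j, ∀ l, Mp (c * (d * e) * c⁻¹) (D l) (D l) →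
    ∃ r ∈ D l, Commute r (c * (d * e) * c⁻¹)
  T1 : ∀ c ∈ X, ∀ i, ∀ d ∈ D i, ∀ l l', l ≠ l' → Mp (c * d * c⁻¹) (D l) (D l') → OddRel (D l)
  T2 : ∀ c ∈ X, ∀ i j, i ≠ j → ∀ d ∈ D i, ∀ e ∈ D j, ∀ l l', l ≠ l' → Mp (c * (d * e) * c⁻¹) (D l) (D l') → OddRel (D l)

omit [Finite G] in
theorem conj_sq {a : G} (h : a * a = 1) (c : G) : c * a * c⁻¹ * (c * a * c⁻¹) = 1 := by rw [conj_mul, h]; simp

omit [Finite G] in
theorem comm_inv {a b : G} (ha : a * a = 1) (hb : b * b = 1) (h : a * b * (a * b) = 1) : Commute a b := by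
  rw [Commute, SemiconjBy, ← inv_eq_of_mul_eq_one_right h, mul_inv_rev, inv_eq_of_mul_eq_one_right ha,
    inv_eq_of_mul_eq_one_right hb]

namespace WrI
omit [Finite G] in
theorem mono (k : WrI X D) (a : X' ≤ X) : WrI X' D :=
  ⟨k.sq, k.Z, fun i d hd e he n c g hg => k.PI i d hd e he n c g (a hg), k.Xa, fun c hc => k.Fa c (a hc),
    fun c hc => k.T1 c (a hc), fun c hc => k.T2 c (a hc)⟩

omit [Finite G] in
/-- Conjugates of root elements permuting the families fix them. -/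
theorem fixes (k : WrI X D) (h : WrA X D) {c : G} (hc : c ∈ X) {i : ι} {d : G} (hd : d ∈ D i) {l l' : ι}
    (e : Mp (c * d * c⁻¹) (D l) (D l')) : l = l' := by_contra fun n => by
  have d2 := k.sq i d hd
  have f2 := conj_sq d2 c
  set f := c * d * c⁻¹ with hf
  have fi := inv_eq_of_mul_eq_one_right f2
  have cm : ∀ r ∈ D l, ∀ s ∈ D l, Commute r (f * s * f⁻¹) := fun r hr s hs => h.comm l l' n r hr _ (e.1 s hs)
  have key : ∀ r ∈ D l, Ce (c⁻¹ * (r * f * r) * c) (D i) := fun r hr => by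
    have r2 := k.sq l r hr
    have ri := inv_eq_of_mul_eq_one_right r2
    have m := mul_mem (mul_mem (inv_mem hc) (h.le l r hr)) hc
    have e1 : c⁻¹ * (r * f * r) * c = c⁻¹ * r * c * d * (c⁻¹ * r * c)⁻¹ := by
      rw [hf]; nth_rw 2 [← ri]; group
    have e2 : Commute (r * f * r) f := comm_inv (by simpa [ri] using conj_sq f2 r) f2 (by
      have := (cm r hr r hr).eq
      rw [fi] at this
      calc _ = r * (r * (f * r * f)) * f * r * f := by rw [this]; simp only [mul_assoc]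
        _ = 1 := by simp only [← mul_assoc, r2, one_mul]; rw [mul_assoc _ f f, f2, mul_one, mul_assoc f r r, r2, mul_one, f2])
    have e3 : c⁻¹ * (r * f * r) * c * d * (c⁻¹ * (r * f * r) * c)⁻¹ = d := by
      rw [mul_inv_eq_iff_eq_mul]; simpa [hf, mul_assoc] using (e2.conj c⁻¹).eq
    have e4 := h.U _ (e1 ▸ mul_mem (mul_mem m (h.le i d hd)) (inv_mem m)) i i d hd (by rwa [e3])
    rw [e1] at e4 ⊢
    refine (h.R _ m i i d hd e4).resolve_left fun e5 => ?_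
    rcases h.R _ (inv_mem hc) l i r hr (by simpa using h.U _ m i i d hd e5) with e6 | e6
    · exact n (h.idx' (h.self ((h.U _ (inv_mem hc) l i r hr e6).2 d hd |> fun e => by simpa using e) l) e)
    · have : f * r * f⁻¹ = r := by
        rw [mul_inv_eq_iff_eq_mul]; simpa [hf, mul_assoc] using ((e6 d hd).conj c).symm.eq
      exact n (h.idx hr (this ▸ e.1 r hr))
  obtain ⟨n, hn⟩ := (k.T1 c hc i d hd l l' n e).ind cm (fun n a => Ce (c⁻¹ * (a * f ^ n) * c) (D i))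
    (by simpa using ce_one _) fun n a r hr H => by
      convert (key r hr).mul ((h.self hd i).ce H) using 1
      rw [fi, pow_succ, inv_eq_of_mul_eq_one_right d2, hf]; group
  rw [pow_succ, pow_mul, pow_two, f2] at hn
  exact h.nc i d hd (by simpa [hf, mul_assoc] using hn)

variable (k : WrI X D) {I : ι → Prop} (h : RC X D I) {i j : ι} {d e g : G}
include k h

theorem comp {w w' : G} (hd : d ∈ D i) (he : e ∈ D i) (a : Ce w (D i)) (b : Ce w' (D i)) (H : d * w = e * w') : d = e :=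
  (k.Z i e he d hd (by
    convert b.mul a.inv using 1
    rw [eq_mul_inv_iff_mul_eq, mul_assoc, H, ← mul_assoc, k.sq i e he, one_mul])).symm

theorem cfix {w : G} (hd : d ∈ D i) (a : Ce w (D i)) (hg : g ∈ X) (c : Commute g (d * w)) (H : g * d * g⁻¹ ∈ D i) :
    g * d * g⁻¹ = d :=
  k.comp h H hd ((h.U g hg i i d hd H).ce a) a (by rw [conj_mul, c.eq, mul_inv_cancel_right])

omit k in
theorem p1 (hi : I i) (hd : d ∈ D i) (hg : g ∈ X) (c : Commute g d) : g ∈ HD D :=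
  h.rc i hi d hd g hg (by rw [c.eq, mul_inv_cancel_right]; exact fun j => ⟨j, h.self hd j⟩)

theorem pI (hi : I i) (hd : d ∈ D i) (he : e ∈ D i) (n : d ≠ e) (c : Commute d e) (hg : g ∈ X) (H : Commute g (d * e)) :
    g ∈ HD D :=
  let ⟨r, hr, m⟩ := k.PI i d hd e he n c g hg H
  h.rc i hi r hr g hg (h.N i hi _ (mul_mem (mul_mem hg (h.le i r hr)) (inv_mem hg)) m)

theorem two (n : i ≠ j) (hd : d ∈ D i) (he : e ∈ D j) (hg : g ∈ X) (c : Commute g (d * e)) {l : ι}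
    (H : g * d * g⁻¹ ∈ D l) : g * d * g⁻¹ = d ∨ g * d * g⁻¹ = e := by
  by_cases a : l = i
  · exact .inl (k.cfix h hd (h.comm j i n.symm e he) hg c (a ▸ H))
  have m := (h.U g hg i l d hd H).ce (h.comm j i n.symm e he)
  have e1 : g * d * g⁻¹ * (g * e * g⁻¹) = d * e := by rw [conj_mul, c.eq, mul_inv_cancel_right]
  by_cases b : l = j
  · exact .inr (k.comp h H (b ▸ he) m (h.comm i l (Ne.symm a) d hd) (e1.trans (h.comm i j n d hd e he).eq))
  · have := ((h.comm i l (Ne.symm a) d hd).mul (h.comm j l (Ne.symm b) e he)).mul m.inv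
    rw [← e1, mul_inv_cancel_right] at this
    exact (h.nc l _ H this).elim

theorem p2 (hi : I i) (n : i ≠ j) (hd : d ∈ D i) (he : e ∈ D j) (hg : g ∈ X) (c : Commute g (d * e)) : g ∈ HD D := by
  obtain ⟨x, hx, x1, x2⟩ := k.Xa i d hd
  have d2 := k.sq i d hd
  have xX := h.le i x hx
  have dX := h.le i d hd
  have cd : Commute d (d * e) := (Commute.refl d).mul_right (h.comm i j n d hd e he)
  let S := X ⊓ Subgroup.centralizer {d * e}
  have mS : ∀ {a}, a ∈ S ↔ a ∈ X ∧ Commute a (d * e) := Iff.and Iff.rfl Subgroup.mem_centralizer_singleton_iff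
  have bS : g * d * g⁻¹ ∈ S := mul_mem (mul_mem (mS.2 ⟨hg, c⟩) (mS.2 ⟨dX, cd⟩)) (inv_mem (mS.2 ⟨hg, c⟩))
  refine h.rc i hi d hd g hg ?_
  rcases dih3 (mS.2 ⟨xX, x2.mul_right (h.comm i j n x hx e he)⟩) bS (k.sq i x hx) (conj_sq d2 g) with
    ⟨a, ha, e1⟩ | ⟨z, hz, z1, z2, zx, zb, H⟩
  · obtain ⟨a1, a2⟩ := mS.1 (mul_mem (inv_mem ha) (mS.2 ⟨hg, c⟩))
    have e2 : a⁻¹ * g * d * (a⁻¹ * g)⁻¹ = x := by rw [← (MulAut.conj a).injective.eq_iff]; simp [e1, mul_assoc]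
    exact (x1 (e2.symm.trans (k.cfix h hd (h.comm j i n.symm e he) a1 a2 (e2 ▸ hx)))).elim
  have m := p1 h hi hx (mul_mem xX hz.1) ((Commute.refl x).mul_left zx)
  have fin : ∀ y ∈ D i, x ≠ y → Commute x y → Commute (g * d * g⁻¹) (x * y) → g * d * g⁻¹ ∈ HD D := fun y hy a b =>
    k.pI h hi hx hy a b bS.1
  have fin1 : x * z ∈ D i → g * d * g⁻¹ ∈ HD D := fun hy => fin _ hy (by simpa using z1)
    ((Commute.refl x).mul_right zx.symm) (by rw [← mul_assoc, k.sq i x hx, one_mul]; exact zb.symm)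
  rcases H with ⟨⟨a, ha, e1⟩, b, hb, e2⟩ | ⟨⟨a, ha, e1⟩, -⟩
  · obtain ⟨l, -, hl⟩ := h.base i hi x hx a ha.1 (e1 ▸ m)
    rw [← e1] at hl
    by_cases li : l = i
    · exact fin1 (li ▸ hl)
    obtain ⟨b1, b2⟩ := mS.1 (mul_mem (mul_mem (inv_mem (mS.2 ⟨hg, c⟩)) hb) (mS.2 ⟨hg, c⟩))
    have e3 : g⁻¹ * b * g * d * (g⁻¹ * b * g)⁻¹ = d * (g⁻¹ * z * g) := by
      rw [← (MulAut.conj g).injective.eq_iff]; simpa [mul_assoc] using e2.symm
    obtain ⟨l', -, hl'⟩ := h.base i hi d hd _ b1 (p1 h hi hd (mul_mem (mul_mem b1 dX) (inv_mem b1)) (by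
      rw [e3]; exact (Commute.refl d).mul_left (by simpa [mul_assoc] using zb.conj g⁻¹)))
    rcases k.two h n hd he b1 b2 hl' with e4 | e4 <;> rw [e3] at e4
    · exact (z1 (by simpa [mul_assoc, ← eq_mul_inv_iff_mul_eq] using e4)).elim
    have e5 : z = d * e := by
      rw [← e4, ← mul_assoc, d2, one_mul] at c ⊢
      rw [mul_assoc, ← (show Commute g z by simpa [mul_assoc] using c.conj g).eq, inv_mul_cancel_left]
    exact (x1 (k.Z i x hx d hd (by
      simpa [e5, mul_assoc] using (h.comm l i li _ hl).mul (h.comm j i n.symm e he).inv))).elim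
  obtain ⟨a1, a2⟩ := mS.1 (mul_mem ha (mS.2 ⟨hg, c⟩))
  have e2 : a * g * d * (a * g)⁻¹ = x * z := by rw [e1]; group
  obtain ⟨l, -, hl⟩ := h.base i hi d hd _ a1 (e2 ▸ m)
  rcases k.two h n hd he a1 a2 hl with e3 | e3 <;> rw [e2] at e3
  · exact fin1 (e3 ▸ hd)
  refine fin d hd x1 x2 ?_
  have := zb.symm.mul_right (mS.1 bS).2
  rwa [← (mS.1 hz).2.symm.eq, ← e3, mul_assoc d (x * z), mul_assoc x, z2, mul_one, ← x2.eq] at this

theorem pp (hi : I i) (hd : d ∈ D i) {z : G} (z1 : z ≠ 1) (zd : Commute z d) {l : ι} (H : d * z ∈ D l) (hg : g ∈ X)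
    (c : Commute g z) : g ∈ HD D := by
  have e : z = d * (d * z) := by rw [← mul_assoc, k.sq i d hd, one_mul]
  by_cases a : i = l
  · exact k.pI h hi hd (a ▸ H) (by simpa using z1) ((Commute.refl d).mul_right zd.symm) hg (e ▸ c)
  · exact k.p2 h hi a hd H hg (e ▸ c)

theorem p3 (hi : I i) (hd : d ∈ D i) (hj : I j) (he : e ∈ D j) (hg : g ∈ X) (n : g ∉ HD D) {S : Subgroup G} (le : S ≤ X)
    (a : d ∈ S) (b : g * e * g⁻¹ ∈ S) : ∃ s ∈ S, s * d * s⁻¹ = g * e * g⁻¹ := by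
  refine (dih3 a b (k.sq i d hd) (conj_sq (k.sq j e he) g)).resolve_right fun ⟨z, hz, z1, _, za, zb, H⟩ => ?_
  have m := p1 h hi hd (le (mul_mem a hz)) ((Commute.refl d).mul_left za)
  obtain ⟨l, hl⟩ : ∃ l, d * z ∈ D l := by
    rcases H with ⟨⟨s, hs, e1⟩, -⟩ | ⟨⟨s, hs, e1⟩, -⟩
    · exact e1 ▸ (h.base i hi d hd s (le hs) (e1 ▸ m)).imp fun _ => And.right
    · replace e1 : d * z = s * g * e * (s * g)⁻¹ := by rw [e1]; group
      exact e1 ▸ (h.base j hj e he _ (mul_mem (le hs) hg) (e1 ▸ m)).imp fun _ => And.right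
  exact n (h.rc j hj e he g hg (k.pp h hi hd z1 za hl (le b) zb.symm))

theorem p4 (hi : I i) (n : i ≠ j) (hd : d ∈ D i) (he : e ∈ D j) (hg : g ∈ X) (H : g * (d * e) * g⁻¹ ∈ HD D) :
    g ∈ HD D := by
  obtain ⟨l, m⟩ := H i
  have cj : ∀ a ∈ X, g⁻¹ * a * g⁻¹⁻¹ ∈ X := fun a ha => mul_mem (mul_mem (inv_mem hg) ha) (inv_mem (inv_mem hg))
  by_cases a : i = l
  · obtain ⟨r, hr, c⟩ := k.Fa g hg i j n d hd e he i (a ▸ m)
    exact inv_mem_iff.1 (h.rc i hi r hr _ (inv_mem hg) (k.p2 h hi n hd he (cj r (h.le i r hr)) (by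
      simpa [mul_assoc] using c.conj g⁻¹)))
  have de := h.comm i j n d hd e he
  have y2 : d * e * (d * e) = 1 := by rw [mul_assoc, ← mul_assoc e, ← de.eq, mul_assoc, k.sq j e he, mul_one, k.sq i d hd]
  have f2 := conj_sq y2 g
  set f := g * (d * e) * g⁻¹ with hf
  have fi := inv_eq_of_mul_eq_one_right f2
  have cm : ∀ r ∈ D i, ∀ s ∈ D i, Commute r (f * s * f⁻¹) := fun r hr s hs => h.comm i l a r hr _ (m.1 s hs)
  by_contra hg'
  have key : ∀ r ∈ D i, Commute (g⁻¹ * (r * (f * r * f⁻¹)) * g) (d * e) ∧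
      g⁻¹ * (r * (f * r * f⁻¹)) * g * d * (g⁻¹ * (r * (f * r * f⁻¹)) * g)⁻¹ = e := fun r hr => by
    have c1 : Commute (r * (f * r * f⁻¹)) f := by
      rw [Commute, SemiconjBy]
      nth_rw 2 [(cm r hr r hr).eq]
      simp only [fi, ← mul_assoc, f2, one_mul]; rw [mul_assoc _ f f, f2, mul_one]
    have c2 : Commute (g⁻¹ * (r * (f * r * f⁻¹)) * g) (d * e) := by simpa [hf, mul_assoc] using c1.conj g⁻¹
    have qX : g⁻¹ * (r * (f * r * f⁻¹)) * g ∈ X := by simpa using cj _ (mul_mem (h.le i r hr) (h.le l _ (m.1 r hr)))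
    obtain ⟨l', hl'⟩ := k.p2 h hi n hd he qX c2 i
    refine ⟨c2, (k.two h n hd he qX c2 (hl'.1 d hd)).resolve_left fun e1 => hg' ?_⟩
    refine h.rc i hi d hd g hg (k.p2 h hi a hr (m.1 r hr) (mul_mem (mul_mem hg (h.le i d hd)) (inv_mem hg)) ?_)
    simpa [mul_assoc] using (Commute.symm (mul_inv_eq_iff_eq_mul.1 e1)).conj g
  obtain ⟨t, -, ht⟩ := (k.T2 g hg i j n d hd e he i l a m).ind cm (fun t a => Commute (g⁻¹ * a * g) (d * e) ∧
    g⁻¹ * a * g * d * (g⁻¹ * a * g)⁻¹ = d * (d * e) ^ t) (by simp) fun t a r hr ⟨H1, H2⟩ => by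
      obtain ⟨c1, c2⟩ := key r hr
      rw [show g⁻¹ * (r * (f * r * f⁻¹) * a) * g = g⁻¹ * (r * (f * r * f⁻¹)) * g * (g⁻¹ * a * g) by group]
      generalize g⁻¹ * (r * (f * r * f⁻¹)) * g = q at *
      generalize g⁻¹ * a * g = q' at *
      refine ⟨c1.mul_left H1, ?_⟩
      rw [mul_inv_rev, ← mul_assoc, mul_assoc q, mul_assoc q, H2, ← conj_mul, c2, (c1.pow_right t).eq,
        mul_inv_cancel_right, pow_succ', ← mul_assoc, ← mul_assoc, k.sq i d hd, one_mul]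
  rw [pow_succ, pow_mul, pow_two, y2] at ht
  simp only [mul_one, one_mul, one_pow, inv_mul_cancel, inv_one, ← mul_assoc, k.sq i d hd] at ht
  exact n (h.idx hd (ht ▸ he))

/-- The engine for families of involutions. -/
theorem le (hi : I i) (hj : I j) (n : i ≠ j) : X ≤ HD D := fun g hg => by_contra fun hg' => by
  obtain ⟨d, hd⟩ := h.ne i
  obtain ⟨e, he⟩ := h.ne j
  have de := h.comm i j n d hd e he
  have y2 : d * e * (d * e) = 1 := by rw [mul_assoc, ← mul_assoc e, ← de.eq, mul_assoc, k.sq j e he, mul_one, k.sq i d hd]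
  have dX := h.le i d hd
  have yX := mul_mem dX (h.le j e he)
  have bX := mul_mem (mul_mem hg dX) (inv_mem hg)
  rcases dih3 bX yX (conj_sq (k.sq i d hd) g) y2 with ⟨a, ha, e1⟩ | ⟨z, hz, z1, z2, zb, zy, H⟩
  · replace e1 : a * g * d * (a * g)⁻¹ = d * e := by rw [← e1]; group
    obtain ⟨l, -, hl⟩ := h.base i hi d hd _ (mul_mem ha hg) (e1 ▸ mul_mem (fun l => ⟨l, h.self hd l⟩)
      fun l => ⟨l, h.self he l⟩)
    rw [e1] at hl
    by_cases li : l = i
    · have := k.comp h hd (li ▸ hl) (h.comm j i n.symm e he) (ce_one _) (mul_one _).symm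
      exact h.nc j e he (by rw [show e = 1 by simpa using this]; exact ce_one _)
    · exact h.nc i d hd (by simpa using (h.comm l i li _ hl).mul (h.comm j i n.symm e he).inv)
  rcases H with ⟨⟨a, ha, e1⟩, -⟩ | ⟨-, a, ha, e1⟩
  · have aX := mul_mem (mul_mem (inv_mem hg) ha) hg
    have e2 : g⁻¹ * a * g * d * (g⁻¹ * a * g)⁻¹ = d * (g⁻¹ * z * g) := by
      rw [← (MulAut.conj g).injective.eq_iff]; simpa [mul_assoc] using e1.symm
    have c : Commute (g⁻¹ * z * g) d := by simpa [mul_assoc] using zb.conj g⁻¹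
    obtain ⟨l, -, hl⟩ := h.base i hi d hd _ aX (p1 h hi hd (mul_mem (mul_mem aX dX) (inv_mem aX))
      (e2 ▸ (Commute.refl d).mul_left c))
    exact hg' (inv_mem_iff.1 (k.p4 h hi n hd he (inv_mem hg) (k.pp h hi hd (by simpa [mul_assoc, ← eq_mul_inv_iff_mul_eq])
      c (e2 ▸ hl) (mul_mem (mul_mem (inv_mem hg) yX) (inv_mem (inv_mem hg))) (by simpa using zy.symm.conj g⁻¹))))
  replace e1 : a * g * d * (a * g)⁻¹ = d * e * z := by rw [e1]; group
  obtain ⟨l, -, hl⟩ := h.base i hi d hd _ (mul_mem ha hg) (e1 ▸ k.p2 h hi n hd he (mul_mem yX hz)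
    ((Commute.refl _).mul_left zy))
  rw [e1] at hl
  have key : ∀ f, I f → ∀ p ∈ D f, ∀ w, Ce w (D f) → z = p * w → False := fun f hf p hp w hw e2 => by
    obtain ⟨x, hx, x1, x2⟩ := k.Xa f p hp
    let S := X ⊓ Subgroup.centralizer {z}
    have mS : ∀ {a}, a ∈ S ↔ a ∈ X ∧ Commute a z := Iff.and Iff.rfl Subgroup.mem_centralizer_singleton_iff
    obtain ⟨s, hs, a1⟩ := k.p3 h hf hp hi hd hg hg' (S := S) inf_le_left (mS.2 ⟨h.le f p hp,
      e2 ▸ (Commute.refl p).mul_right (hw p hp).symm⟩) (mS.2 ⟨bX, zb.symm⟩)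
    obtain ⟨s', hs', a2⟩ := k.p3 h hf hx hi hd hg hg' (S := S) inf_le_left (mS.2 ⟨h.le f x hx,
      e2 ▸ x2.mul_right (hw x hx).symm⟩) (mS.2 ⟨bX, zb.symm⟩)
    obtain ⟨b1, b2⟩ := mS.1 (mul_mem (inv_mem hs') hs)
    have e3 : s'⁻¹ * s * p * (s'⁻¹ * s)⁻¹ = x := by
      rw [← (MulAut.conj s').injective.eq_iff]; simp [a2, ← a1, mul_assoc]
    exact x1 (e3.symm.trans (k.cfix h hp hw b1 (e2 ▸ b2) (e3 ▸ hx)))
  have ez : z = d * e * (d * e * z) := by rw [← mul_assoc, y2, one_mul]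
  by_cases li : l = i
  · exact key j hj e he _ ((h.comm i j n d hd).mul (h.comm l j (li ▸ n) _ hl)) (by rw [← mul_assoc, ← de.eq, ← ez])
  · exact key i hi d hd _ ((h.comm j i n.symm e he).mul (h.comm l i li _ hl)) (by rw [← mul_assoc, ← ez])

end WrI

/-- A group containing commuting families of involutions with the properties `WrA`, `WrI` permutes them. -/
theorem WrA.le_inv (h : WrA X D) (k : WrI X D) : X ≤ HD D :=
  h.ind (fun _ hc _ _ hd e j => let ⟨_, m⟩ := e j; k.fixes h hc hd m ▸ m) fun _ a _ _ _ n hi hj r => (k.mono a).le r hi hj n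

end Cfsg.Agent.Root.Wr
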