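import Cfsg.Agent.Root.Wr1
import Cfsg.Agent.Root.Tq2

/-! Tensor-power frames `TW`, groups containing root elements of all factors (`TG`); such groups permute the factors
(`TG.le_even`, `TG.le_odd`). -/

set_option autoImplicit false

namespace Cfsg.Agent.Root.Wr

open Cfsg.Agent.Geom Cfsg.Agent.AutCl Module TensorProduct Mx

variable {F : Type*} [Field F] {V W U : Type*} [AddCommGroup V] [Module F V] [AddCommGroup W] [Module F W]
  [AddCommGroup U] [Module F U] {ι : Type*}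

/-- `a ⊗ 1`, transported. -/
noncomputable def fa (e : W ⊗[F] U ≃ₗ[F] V) : End F W →ₐ[F] End F V :=
  (e.conjAlgEquiv F).toAlgHom.comp (Module.End.rTensorAlgHom F W U)

/-- `1 ⊗ b`, transported. -/
noncomputable def fb (e : W ⊗[F] U ≃ₗ[F] V) : End F U →ₐ[F] End F V :=
  (e.conjAlgEquiv F).toAlgHom.comp (Module.End.lTensorAlgHom F U W)

/-- `r ⊗ 1`, transported. -/
noncomputable def lf (e : W ⊗[F] U ≃ₗ[F] V) : (W ≃ₗ[F] W) →* (V ≃ₗ[F] V) :=
  MonoidHom.mk' (fun r => autCongr e (lT U r)) fun a b => by rw [lT_mul, map_mul]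

/-- `g` is a tensor product between the frames `e`, `e'`. -/
def tst (e e' : W ⊗[F] U ≃ₗ[F] V) (g : V ≃ₗ[F] V) : Prop :=
  ∃ (a : W ≃ₗ[F] W) (b : U ≃ₗ[F] U), ∀ w u, g (e (w ⊗ₜ u)) = e' (a w ⊗ₜ b u)

variable {e e' e'' : W ⊗[F] U ≃ₗ[F] V} {g c : V ≃ₗ[F] V}

@[simp] theorem fa_tmul (a : End F W) (w : W) (u : U) : fa e a (e (w ⊗ₜ u)) = e (a w ⊗ₜ u) :=
  congrArg (fun x => e (a.rTensor U x)) (e.symm_apply_apply _)

@[simp] theorem fb_tmul (b : End F U) (w : W) (u : U) : fb e b (e (w ⊗ₜ u)) = e (w ⊗ₜ b u) :=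
  congrArg (fun x => e (b.lTensor W x)) (e.symm_apply_apply _)

@[simp] theorem lf_tmul (a : W ≃ₗ[F] W) (w : W) (u : U) : lf e a (e (w ⊗ₜ u)) = e (a w ⊗ₜ u) := by simp [lf]

theorem ext_e (e : W ⊗[F] U ≃ₗ[F] V) {x y : End F V} (h : ∀ w u, x (e (w ⊗ₜ u)) = y (e (w ⊗ₜ u))) : x = y :=
  LinearMap.ext fun v => by
    simpa using LinearMap.congr_fun (TensorProduct.ext' (g := x ∘ₗ e.toLinearMap) (h := y ∘ₗ e.toLinearMap) h) (e.symm v)

theorem ext_e' (e : W ⊗[F] U ≃ₗ[F] V) {x y : V ≃ₗ[F] V} (h : ∀ w u, x (e (w ⊗ₜ u)) = y (e (w ⊗ₜ u))) : x = y :=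
  LinearEquiv.toLinearMap_injective (ext_e e h)

theorem coe_lf (a : W ≃ₗ[F] W) : (lf e a : End F V) = fa e a := ext_e e fun w u => by simp

theorem lf_rk1 {r : W ≃ₗ[F] W} {w : W} {φ : Dual F W} (h : ∀ x, r x = x + φ x • w) (v : V) :
    lf e r v = v + e (w ⊗ₜ cL φ (e.symm v)) :=
  LinearMap.congr_fun (ext_e e (x := (lf e r : End F V)) (y := 1 + e.toLinearMap ∘ₗ tt w φ 1 ∘ₗ e.symm.toLinearMap)
    fun x u => by simp [h, add_tmul, smul_tmul]) v

theorem comm_iff {a b : V ≃ₗ[F] V} : Commute a b ↔ Commute (a : End F V) b :=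
  ⟨fun h => congrArg LinearEquiv.toLinearMap h.eq, fun h => LinearEquiv.toLinearMap_injective h.eq⟩

theorem fa_fb (a : End F W) (b : End F U) : Commute (fa e a) (fb e b) := ext_e e fun w u => by simp

theorem lf_inj [Nontrivial U] {a b : W ≃ₗ[F] W} (h : lf e a = lf e b) : a = b := lT_inj ((autCongr e).injective h)

theorem tst.mul (h : tst e e' g) (h' : tst e' e'' c) : tst e e'' (c * g) :=
  let ⟨a, b, h⟩ := h; let ⟨a', b', h'⟩ := h'; ⟨a' * a, b' * b, fun w u => by simp [h, h']⟩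

theorem tst_inv {a : W ≃ₗ[F] W} {b : U ≃ₗ[F] U} (h : ∀ w u, g (e (w ⊗ₜ u)) = e' (a w ⊗ₜ b u)) (w : W) (u : U) :
    g⁻¹ (e' (w ⊗ₜ u)) = e (a⁻¹ w ⊗ₜ b⁻¹ u) := g.symm_apply_eq.2 (by simp [h])

theorem tst.inv (h : tst e e' g) : tst e' e g⁻¹ := let ⟨_, _, h⟩ := h; ⟨_, _, tst_inv h⟩

theorem conj_lf {a : W ≃ₗ[F] W} {b : U ≃ₗ[F] U} (h : ∀ w u, g (e (w ⊗ₜ u)) = e' (a w ⊗ₜ b u)) (r : W ≃ₗ[F] W) :
    g * lf e r * g⁻¹ = lf e' (a * r * a⁻¹) := ext_e' e' fun w u => by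
  simp only [LinearEquiv.mul_apply, tst_inv h, lf_tmul, h]; simp

theorem exists_fb [Nontrivial W] {z : End F V} (h : ∀ a, Commute z (fa e a)) : ∃ b, z = fb e b := by
  obtain ⟨w, w0⟩ := exists_ne (0 : W)
  obtain ⟨ψ, p⟩ := exists_fun0 (F := F) w0
  refine ⟨cL ψ ∘ₗ e.symm.toLinearMap ∘ₗ z ∘ₗ e.toLinearMap ∘ₗ TensorProduct.mk F W U w, ext_e e fun x u => ?_⟩
  have e1 : fa e (rk1 x ψ) = e.toLinearMap ∘ₗ tt x ψ 1 ∘ₗ e.symm.toLinearMap := ext_e e fun y u => by simp [smul_tmul]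
  have := LinearMap.congr_fun (h (rk1 x ψ)).eq (e (w ⊗ₜ u))
  rw [Module.End.mul_apply, fa_tmul, e1] at this
  simpa [p] using this

theorem exists_fa [Nontrivial U] {z : End F V} (h : ∀ b, Commute z (fb e b)) : ∃ a, z = fa e a := by
  have e1 : ∀ b, fa ((TensorProduct.comm F U W).trans e) b = fb e b := fun b => ext_e e fun w u => by
    simpa using fa_tmul (e := (TensorProduct.comm F U W).trans e) b u w
  obtain ⟨a, ha⟩ := exists_fb (e := (TensorProduct.comm F U W).trans e) fun b => e1 b ▸ h b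
  exact ⟨a, ha.trans (ext_e e fun w u => by simpa using fb_tmul (e := (TensorProduct.comm F U W).trans e) a u w)⟩

theorem indep {a : End F W} (a0 : a ≠ 0) {z : End F V} (h : ∀ a, Commute z (fa e a)) (H : fa e a * z = 0) : z = 0 := by
  obtain ⟨w, hw⟩ : ∃ w, a w ≠ 0 := by by_contra! hc; exact a0 (LinearMap.ext hc)
  have : Nontrivial W := ⟨⟨_, _, hw⟩⟩
  obtain ⟨b, rfl⟩ := exists_fb h
  rw [show b = 0 from LinearMap.ext fun u => tmul_inj (F := F) hw ?_, map_zero]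
  simpa using LinearMap.congr_fun H (e (w ⊗ₜ u))

theorem fa_inj [Nontrivial U] {a : End F W} (h : fa e a = 0) : a = 0 := by_contra fun a0 => by
  obtain ⟨u, u0⟩ := exists_ne (0 : U)
  obtain ⟨w, hw⟩ : ∃ w, a w ≠ 0 := by by_contra! hc; exact a0 (LinearMap.ext hc)
  exact u0 (tmul_inj (F := F) hw (by simpa using LinearMap.congr_fun h (e (w ⊗ₜ u))))

theorem scal_of_fa [Nontrivial W] [Nontrivial U] {a : End F W} (h : ∀ a', Commute (fa e a) (fa e a')) :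
    ∃ k : F, a = k • 1 := by
  obtain ⟨b, hb⟩ := exists_fb h
  by_contra! hk
  obtain ⟨w, hw⟩ := exists_notMem_of_not_scalar hk
  obtain ⟨u, u0⟩ := exists_ne (0 : U)
  exact hw (mem_span_of_tmul u0 (e.injective (by simpa using LinearMap.congr_fun hb (e (w ⊗ₜ u)))))

theorem tst_of_fa [Nontrivial U] [FiniteDimensional F W] {a : End F W} (h : (g : End F V) = fa e a) : tst e e g := by
  have e1 : ∀ w u, g (e (w ⊗ₜ u)) = e (a w ⊗ₜ u) := fun w u => by simpa using LinearMap.congr_fun h (e (w ⊗ₜ u))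
  obtain ⟨u, u0⟩ := exists_ne (0 : U)
  exact ⟨.ofInjectiveEndo a ((injective_iff_map_eq_zero _).2 fun w h => by_contra fun w0 => u0 (tmul_inj (F := F) w0
    (by simpa [h] using e1 w u))), 1, e1⟩

/-- A tensor-power frame. -/
structure TW (E : ι → W ⊗[F] U ≃ₗ[F] V) : Prop where
  comm : ∀ i j, i ≠ j → ∀ a b, Commute (fa (E i) a) (fa (E j) b)
  gen : ∀ i, ∀ S : Subalgebra F (End F V), (∀ j ≠ i, ∀ a, fa (E j) a ∈ S) → ∀ b, fb (E i) b ∈ S

/-- The stabiliser of the frame. -/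
def wstab (E : ι → W ⊗[F] U ≃ₗ[F] V) : Subgroup (V ≃ₗ[F] V) where
  carrier := {g | ∃ π : Equiv.Perm ι, ∀ i, tst (E i) (E (π i)) g}
  one_mem' := ⟨1, fun _ => ⟨1, 1, fun _ _ => rfl⟩⟩
  mul_mem' := fun ⟨π, h⟩ ⟨π', h'⟩ => ⟨π * π', fun i => (h' i).mul (h _)⟩
  inv_mem' := fun ⟨π, h⟩ => ⟨π⁻¹, fun i => by simpa using (h (π⁻¹ i)).inv⟩

/-- The root elements of the factors. -/
def DT (E : ι → W ⊗[F] U ≃ₗ[F] V) (T : Set (W ≃ₗ[F] W)) (i : ι) : Set (V ≃ₗ[F] V) := lf (E i) '' T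

/-- `X` contains the root elements `T` (of rank one with centres in `P`) of all factors. -/
structure TG (E : ι → W ⊗[F] U ≃ₗ[F] V) (X : Subgroup (V ≃ₗ[F] V)) (T : Set (W ≃ₗ[F] W)) (P : Set W) : Prop
    extends TW E where
  three : 3 ≤ finrank F W
  nt : Nontrivial U
  le : ∀ i, ∀ r ∈ T, lf (E i) r ∈ X
  rk : ∀ r ∈ T, ∃ w ∈ P, w ≠ 0 ∧ ∃ φ : Dual F W, φ ≠ 0 ∧ ∀ x, r x = x + φ x • w
  span : ∀ S : Subalgebra F (End F W), (∀ r ∈ T, (r : End F W) ∈ S) → S = ⊤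
  par : ∀ c ∈ X, ∀ i j, ∀ w ∈ P, w ≠ 0 → ∀ w', (∀ u, ∃ u', c (E i (w ⊗ₜ u)) = E j (w' ⊗ₜ u')) → tst (E i) (E j) c
  inv : ∀ c ∈ X, ∀ i j (a : W ≃ₗ[F] W) (b : U ≃ₗ[F] U), (∀ w u, c (E i (w ⊗ₜ u)) = E j (a w ⊗ₜ b u)) →
    ∀ r ∈ T, a * r * a⁻¹ ∈ T

variable {E : ι → W ⊗[F] U ≃ₗ[F] V} {X : Subgroup (V ≃ₗ[F] V)} {T : Set (W ≃ₗ[F] W)} {P : Set W}

theorem TW.fa_of (h : TW E) [Nontrivial U] {z : End F V} {i : ι} (H : ∀ j ≠ i, ∀ a, Commute z (fa (E j) a)) :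
    ∃ a, z = fa (E i) a :=
  exists_fa fun b => ((Subalgebra.mem_centralizer_iff F).1 (h.gen i (Subalgebra.centralizer F {z})
    (fun j n a => (Subalgebra.mem_centralizer_iff F).2 (by rintro _ rfl; exact H j n a)) b) z rfl)

variable [FiniteDimensional F W] [FiniteDimensional F U]

theorem exists_rk1_kill (h : 3 ≤ finrank F W) (x y : W) : ∃ a : End F W, a ≠ 0 ∧ a x = 0 ∧ a y = 0 := by
  obtain ⟨φ, ⟨z, a⟩, b, c⟩ := exists_fun2 h x y
  exact ⟨rk1 z φ, fun e => by simpa [a, show z = 0 by simpa [a] using LinearMap.congr_fun e z] using a, by simp [b],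
    by simp [c]⟩

omit [FiniteDimensional F W] [FiniteDimensional F U] in
theorem tmul_inj2 {u : U} (u0 : u ≠ 0) {x y : W} (h : x ⊗ₜ[F] u = y ⊗ₜ u) : x = y :=
  tmul_inj (F := F) u0 (congrArg (TensorProduct.comm F W U) h)

omit [FiniteDimensional F W] in
theorem eq_zero_of_neg (h2 : (2 : F) ≠ 0) {x : W} (h : x = -x) : x = 0 :=
  (smul_eq_zero.1 (by rw [two_smul, ← eq_neg_iff_add_eq_zero, ← h])).resolve_left h2

omit [FiniteDimensional F U] in
theorem finrank_map_ker (M : Submodule F W) (f : End F W) :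
    finrank F (M.map f) + finrank F ↥(M ⊓ LinearMap.ker f) = finrank F M := by
  have := (f.domRestrict M).finrank_range_add_finrank_ker
  rwa [LinearMap.range_domRestrict, LinearMap.ker_domRestrict, ← Submodule.finrank_map_subtype_eq,
    Submodule.map_comap_subtype] at this

/-- A central involution of the group generated by `r ⊗ 1` and a conjugate `d` forces `d` to fix many points. -/
theorem quad_fix [FiniteDimensional F V] [Nontrivial U] (h2 : (2 : F) ≠ 0) (h3 : 3 ≤ finrank F W) {r : W ≃ₗ[F] W} {w : W}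
    {φ : Dual F W} (w0 : w ≠ 0) (φ0 : φ ≠ 0) (hr : ∀ x, r x = x + φ x • w) (hw : φ w = 0) {d z : V ≃ₗ[F] V}
    (hd : ∀ x, d (d x - x) = d x - x) {Y : Submodule F V} (hY : finrank F Y ≤ finrank F U) (dY : d ∈ mvS Y)
    (hz : z ∈ Subgroup.closure {lf e r, d}) (z1 : z ≠ 1) (z2 : z * z = 1) (zs : Commute z (lf e r)) (zd : Commute z d)
    (zt : tst e e z) : ∃ S : Submodule F W, finrank F W ≤ finrank F S + 2 ∧ ∀ x ∈ S, ∀ u, d (e (x ⊗ₜ u)) = e (x ⊗ₜ u) := by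
  obtain ⟨u₀, u0⟩ := exists_ne (0 : U)
  obtain ⟨x₀, x1⟩ : ∃ x, φ x = 1 := by
    obtain ⟨x, hx⟩ : ∃ x, φ x ≠ 0 := by by_contra! hc; exact φ0 (LinearMap.ext hc)
    exact ⟨(φ x)⁻¹ • x, by simp [hx]⟩
  obtain ⟨a, b, e1, aw, aφ⟩ : ∃ (a : End F W) (b : End F U), (∀ x u, z (e (x ⊗ₜ u)) = e (a x ⊗ₜ b u)) ∧ a w = w ∧
      ∀ x, φ (a x) = φ x := by
    obtain ⟨a, b, e1⟩ := zt
    have k : ∀ x, φ x • a w = φ (a x) • w := fun x => by
      simpa [hr] using tmul_inj2 (b.map_ne_zero_iff.2 u0) (x := a (r x)) (y := r (a x)) (e.injective (by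
        simpa only [LinearEquiv.mul_apply, lf_tmul, e1] using LinearEquiv.congr_fun zs.eq (e (x ⊗ₜ u₀))))
    have k1 := k x₀
    rw [x1, one_smul] at k1
    have m0 : φ (a x₀) ≠ 0 := fun e => w0 (by simpa [e] using k1)
    exact ⟨(φ (a x₀))⁻¹ • a.toLinearMap, φ (a x₀) • b.toLinearMap, fun x u => by simp [e1, smul_tmul, m0],
      by simp [k1, m0], fun x => by
        have := smul_left_injective F w0 (show (φ x * φ (a x₀)) • w = _ by rw [mul_smul, ← k1, k])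
        simp [← this, mul_comm, m0]⟩
  have zz : ∀ v, z (z v) = v := LinearEquiv.congr_fun z2
  have bb : ∀ u, b (b u) = u := fun u => tmul_inj (F := F) w0 (e.injective (by simpa [e1, aw] using zz (e (w ⊗ₜ u))))
  have aa : ∀ x, a (a x) = x := fun x => tmul_inj2 u0 (e.injective (by simpa [e1, bb] using zz (e (x ⊗ₜ u₀))))
  let M := LinearMap.ker ((z : End F V) + 1)
  have mM : ∀ {v}, v ∈ M ↔ z v = -v := by simp [M, add_eq_zero_iff_eq_neg]
  have cM : ∀ g, Commute z g → ∀ v ∈ M, g v ∈ M := fun g hg v hv => mM.2 (by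
    rw [← LinearEquiv.mul_apply, hg.eq, LinearEquiv.mul_apply, mM.1 hv, map_neg])
  have le : ∀ g, Commute z g → (∀ x, g (g x - x) = g x - x) →
      M.map ((g : End F V) - 1) ≤ M ⊓ LinearMap.ker ((g : End F V) - 1) := by
    rintro g hg h _ ⟨v, hv, rfl⟩
    exact ⟨sub_mem (cM g hg v hv) hv, sub_eq_zero.2 (h v)⟩
  have l1 := le _ zs fun v => by simp [lf_rk1 hr, hw]
  have l2 := le _ zd hd
  let Z := M.map ((lf e r : End F V) - 1) ⊔ M.map ((d : End F V) - 1)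
  let Γ : Subgroup (V ≃ₗ[F] V) :=
    { carrier := {g | Commute z g ∧ ∀ v ∈ M, g v - v ∈ Z}
      one_mem' := ⟨Commute.one_right _, by simp⟩
      mul_mem' := fun {p q} hp hq => ⟨hp.1.mul_right hq.1, fun v hv => by
        simpa using add_mem (hp.2 _ (cM q hq.1 v hv)) (hq.2 v hv)⟩
      inv_mem' := fun {p} hp => ⟨hp.1.inv_right, fun v hv => by
        simpa using neg_mem (hp.2 _ (cM _ hp.1.inv_right v hv))⟩ }
  have MZ : M ≤ Z := fun v hv => by
    have := ((Subgroup.closure_le Γ).2 (by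
      rintro _ (rfl | rfl)
      exacts [⟨zs, fun v hv => Submodule.mem_sup_left ⟨v, hv, rfl⟩⟩,
        ⟨zd, fun v hv => Submodule.mem_sup_right ⟨v, hv, rfl⟩⟩]) hz).2 v hv
    rwa [mM.1 hv, ← neg_add', neg_mem_iff, ← two_smul F, Z.smul_mem_iff h2] at this
  have d1 := finrank_map_ker M ((lf e r : End F V) - 1)
  have d2 := finrank_map_ker M ((d : End F V) - 1)
  have d3 := Submodule.finrank_mono l1
  have d4 := Submodule.finrank_mono l2
  have d5 := (Submodule.finrank_mono MZ).trans (Submodule.finrank_add_le_finrank_add_finrank _ _)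
  have K : ∀ x u, u ≠ 0 → φ x = 0 → a x ⊗ₜ[F] b u = -(x ⊗ₜ u) → x ∈ F ∙ w := fun x u u0 hx H => by
    obtain ⟨v, -, hv⟩ := (Submodule.eq_of_le_of_finrank_le l1 (by omega)).ge (show e (x ⊗ₜ u) ∈ _ from
      ⟨mM.2 (by rw [e1, H, map_neg]), by simp [hr, hx]⟩)
    exact mem_span_of_tmul u0 (e.injective (by simpa [lf_rk1 hr] using hv.symm))
  have K' : ∀ x u, u ≠ 0 → a x = -x → b u = u → x = 0 := fun x u u0 h1 h4 => by
    obtain ⟨k, rfl⟩ := Submodule.mem_span_singleton.1 (K x u u0 (eq_zero_of_neg h2 ((aφ x).symm.trans (by rw [h1, map_neg])))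
      (by rw [h1, h4, neg_tmul]))
    exact eq_zero_of_neg h2 (x := k • w) (by rw [← h1, map_smul, aw])
  obtain ⟨u₁, u1, b1⟩ : ∃ u, u ≠ 0 ∧ b u = -u := by
    by_contra! hc
    have b1 : ∀ u, b u = u := fun u => by_contra fun n => hc (b u - u) (sub_ne_zero.2 n) (by simp [bb])
    exact z1 (ext_e' e fun x u => by
      rw [e1, b1, sub_eq_zero.1 (K' (a x - x) u₀ u0 (by simp [aa]) (b1 _))]; rfl)
  have d6 := (a + 1).finrank_range_add_finrank_ker
  have d7 := Submodule.finrank_mono (show LinearMap.range (a + 1) ≤ (F ∙ w) ⊔ F ∙ (a x₀ + x₀) by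
    rintro _ ⟨x, rfl⟩
    have := K (a x + x - φ x • (a x₀ + x₀)) u₁ u1 (by simp [aφ, x1]) (by simp [aa, b1, tmul_neg, add_comm])
    have := add_mem (Submodule.mem_sup_left this) (Submodule.smul_mem _ (φ x) (mem_sup_self _ (a x₀ + x₀)))
    rwa [sub_add_cancel] at this)
  have d8 := finrank_sup_one (F ∙ w) (a x₀ + x₀)
  have d9 := finrank_span_one (F := F) w
  have mS : ∀ {x}, x ∈ LinearMap.ker (a + 1) ↔ a x = -x := by simp [add_eq_zero_iff_eq_neg]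
  obtain ⟨y, hy, y0⟩ := exists_notMem_of_lt (U := LinearMap.ker (a + 1)) (R := ⊥) (by simp; omega)
  have b2 : ∀ u, b u = -u := fun u => by_contra fun n => y0 (K' y (b u + u) (by rwa [Ne, add_eq_zero_iff_eq_neg])
    (mS.1 hy) (by simp [bb, add_comm]))
  have d10 := Submodule.finrank_mono (show LinearMap.range (e.toLinearMap ∘ₗ TensorProduct.mk F W U w) ≤
      M ⊓ LinearMap.ker ((lf e r : End F V) - 1) by
    rintro _ ⟨u, rfl⟩
    exact ⟨mM.2 (by simp [e1, aw, b2, tmul_neg]), by simp [hr, hw]⟩)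
  rw [LinearMap.finrank_range_of_inj fun u u' h => tmul_inj w0 (e.injective h)] at d10
  have YM : Y ≤ M := (Submodule.eq_of_le_of_finrank_le (show M.map ((d : End F V) - 1) ≤ Y by
    rintro _ ⟨v, -, rfl⟩; exact dY v) (by omega)).ge.trans (l2.trans inf_le_left)
  refine ⟨LinearMap.ker (a + 1), by omega, fun x hx u => sub_eq_zero.1 (eq_zero_of_neg h2 ?_)⟩
  rw [← mM.1 (YM (dY _)), map_sub, ← LinearEquiv.mul_apply, zd.eq, LinearEquiv.mul_apply, e1, mS.1 hx, b2, neg_tmul,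
    tmul_neg, neg_neg]

namespace TG
variable (h : TG E X T P) {i j : ι} {r : W ≃ₗ[F] W}
include h

omit [FiniteDimensional F U] in
theorem ntW : Nontrivial W := nontrivial_of_finrank_pos (R := F) (by have := h.three; omega)

omit [FiniteDimensional F U] in
theorem not_scal (hr : r ∈ T) (k : F) : (r : End F W) ≠ k • 1 := fun e => by
  obtain ⟨w, -, w0, φ, φ0, e1⟩ := h.rk r hr
  obtain ⟨z, z0, z1, -⟩ := exists_ker2 h.three φ φ
  have e2 : ∀ x, x + φ x • w = k • x := fun x => (e1 x).symm.trans (LinearMap.congr_fun e x)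
  obtain rfl : 1 = k := smul_left_injective F z0 (by simpa [z1] using e2 z)
  exact φ0 (LinearMap.ext fun x => by simpa [w0] using e2 x)

omit [FiniteDimensional F U] [FiniteDimensional F W] in
theorem ce_iff : Ce g (DT E T j) ↔ ∀ a, Commute (g : End F V) (fa (E j) a) :=
  ⟨fun H a => ((Subalgebra.mem_centralizer_iff F).1 ((h.span ((Subalgebra.centralizer F {(g : End F V)}).comap (fa (E j)))
    fun r hr => (Subalgebra.mem_centralizer_iff F).2 (by
      rintro _ rfl; exact coe_lf (e := E j) r ▸ comm_iff.1 (H _ ⟨r, hr, rfl⟩))).ge trivial : a ∈ _) _ rfl),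
    fun H _ ⟨r, _, e⟩ => e ▸ comm_iff.2 (coe_lf (e := E j) r ▸ H r)⟩

omit [FiniteDimensional F U] [FiniteDimensional F W] in
theorem mp (hc : c ∈ X) (H : tst (E i) (E j) c) : Mp c (DT E T i) (DT E T j) := by
  obtain ⟨a, b, e⟩ := H
  refine ⟨?_, ?_⟩ <;> rintro _ ⟨r, hr, rfl⟩
  · exact ⟨_, h.inv c hc i j a b e r hr, (conj_lf e r).symm⟩
  · exact ⟨_, h.inv _ (inv_mem hc) j i _ _ (tst_inv e) r hr, by simpa using (conj_lf (tst_inv e) r).symm⟩

theorem pt (hc : c ∈ X) (hr : r ∈ T) {a : W ≃ₗ[F] W} (e : c * lf (E i) r * c⁻¹ = lf (E j) a) : tst (E i) (E j) c := by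
  have := h.nt
  obtain ⟨w, hw, w0, φ, φ0, e1⟩ := h.rk r hr
  obtain ⟨x, hx⟩ : ∃ x, a x - x ≠ 0 := by
    by_contra! hx
    rw [show a = 1 from LinearEquiv.ext fun x => sub_eq_zero.1 (hx x), map_one, conj_eq_one_iff] at e
    exact h.not_scal hr 1 (by rw [lf_inj (e.trans (map_one _).symm), one_smul]; rfl)
  let L : End F U := cL φ ∘ₗ (E i).symm.toLinearMap ∘ₗ c.symm.toLinearMap ∘ₗ (E j).toLinearMap ∘ₗ TensorProduct.mk F W U x
  have e2 : ∀ u, c (E i (w ⊗ₜ L u)) = E j ((a x - x) ⊗ₜ u) := fun u => by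
    have := LinearEquiv.congr_fun e (E j (x ⊗ₜ u))
    simp only [LinearEquiv.mul_apply, lf_rk1 e1, lf_tmul, map_add] at this
    simp [L, sub_tmul, ← this]
  have := LinearMap.injective_iff_surjective.1 (show Function.Injective L from fun u u' e3 =>
    tmul_inj hx ((E j).injective (by rw [← e2, ← e2, e3])))
  exact h.par c hc i j w hw w0 _ fun u => let ⟨u', e3⟩ := this u; ⟨u', e3 ▸ e2 u'⟩

omit [FiniteDimensional F U] in
theorem ne : T.Nonempty := by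
  by_contra hc
  have := h.ntW
  obtain ⟨w, w0⟩ := exists_ne (0 : W)
  obtain ⟨a, a0, a1, -⟩ := exists_rk1_kill h.three w w
  obtain ⟨k, rfl⟩ := Algebra.mem_bot.1 ((h.span ⊥ fun r hr => (hc ⟨r, hr⟩).elim).ge trivial : a ∈ _)
  simp [show k = 0 by simpa [w0] using a1] at a0

theorem tst_of_mp (hc : c ∈ X) (H : Mp c (DT E T i) (DT E T j)) : tst (E i) (E j) c :=
  let ⟨r, hr⟩ := h.ne; let ⟨_, _, e⟩ := H.1 _ ⟨r, hr, rfl⟩; h.pt hc hr e.symm

theorem mv (hr : r ∈ T) (c : V ≃ₗ[F] V) (e : W ⊗[F] U ≃ₗ[F] V) : ∃ Y : Submodule F (W ⊗[F] U), finrank F Y ≤ finrank F U ∧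
    (autCongr e).symm (c * lf (E i) r * c⁻¹) ∈ mvS Y := by
  obtain ⟨w, -, -, φ, -, e1⟩ := h.rk r hr
  exact ⟨ptc (e.trans (c.symm.trans (E i).symm)) w, finrank_ptc _ _, fun x => ⟨cL φ ((E i).symm (c⁻¹ (e x))), by
    rw [autCongr_symm_apply]; simp [lf_rk1 e1]⟩⟩

theorem wrA : WrA X (DT E T) := by
  have := h.nt
  have := h.ntW
  refine ⟨?_, ?_, ?_, ?_, ?_, fun i => h.ne.image _, ?_, fun g hg i H => ?_⟩
  · rintro i _ ⟨r, hr, rfl⟩; exact h.le i r hr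
  · rintro i j n _ ⟨r, -, rfl⟩; exact h.ce_iff.2 fun a => coe_lf (e := E i) r ▸ h.comm i j n _ a
  · rintro c hc i j _ ⟨r, hr, rfl⟩ ⟨a, -, e⟩; exact h.mp hc (h.pt hc hr e.symm)
  · rintro c hc i j _ ⟨r, hr, rfl⟩ H
    obtain ⟨a, b, e⟩ := h.tst_of_mp (mul_mem (mul_mem hc (h.le i r hr)) (inv_mem hc)) H
    by_cases hk : ∀ k : F, a.toLinearMap ≠ k • 1
    · obtain ⟨p, hp⟩ := exists_notMem_of_not_scalar hk
      obtain ⟨φ, p1, p2⟩ := exists_fun1 (notMem_symm hp (by rintro rfl; simp at hp))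
      obtain ⟨Y, y1, y2⟩ := h.mv (i := i) hr c (E j)
      obtain ⟨a', e1, -⟩ := scalar_of_mv (a := a) (b := b) (fun w u => by rw [autCongr_symm_apply, e]; simp) y2 ![p] ![φ]
        (by simpa) (by simpa) (by have := h.three; omega)
      exact .inl ((h.mp hc (h.pt hc hr (a := a') ((autCongr (E j)).symm_apply_eq.1 e1))).1 _ ⟨r, hr, rfl⟩)
    obtain ⟨k, hk⟩ := not_forall.1 hk
    replace hk : ∀ w, a w = k • w := LinearMap.congr_fun (not_not.1 hk)
    refine .inr (h.ce_iff.2 fun a => ?_)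
    generalize c * _ * c⁻¹ = g at e
    exact ext_e (E j) fun w u => by simp [e, hk, -map_smul, a.map_smul]
  · rintro i _ ⟨r, hr, rfl⟩ H
    obtain ⟨k, e⟩ := scal_of_fa (e := E i) (a := r) fun a => coe_lf (e := E i) r ▸ h.ce_iff.1 H a
    exact h.not_scal hr k e
  · rintro c hc i _ ⟨r, hr, rfl⟩ H
    obtain ⟨a, e⟩ := h.fa_of (i := i) fun j _ => h.ce_iff.1 (H j)
    obtain ⟨k, rfl⟩ := scal_of_fa (e := E i) (a := a) fun a => e ▸ h.ce_iff.1 (H i) a
    refine h.not_scal hr k (sub_eq_zero.1 (fa_inj (e := E i) (LinearMap.ext fun v => ?_)))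
    have := LinearMap.congr_fun e (c v)
    rw [map_smul, map_one] at this
    rw [map_sub, map_smul, map_one, ← coe_lf]
    simpa [sub_eq_zero, ← map_smul] using this
  · obtain ⟨a, e⟩ := h.fa_of (i := i) fun j n => h.ce_iff.1 (H j n)
    exact h.mp hg (tst_of_fa e)

theorem le_wstab [Finite ι] [Finite (V ≃ₗ[F] V)] (H : X ≤ HD (DT E T)) : X ≤ wstab E := fun c hc => by
  choose π hπ using H hc
  exact ⟨.ofBijective π (Finite.injective_iff_bijective.1 fun i j e => h.wrA.idx' (hπ i).inv (e ▸ (hπ j).inv)),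
    fun i => h.tst_of_mp hc (hπ i)⟩

omit [FiniteDimensional F W] [FiniteDimensional F U] in
theorem mono {X' : Subgroup (V ≃ₗ[F] V)} (a : X' ≤ X) (b : ∀ i, ∀ d ∈ DT E T i, d ∈ X') : TG E X' T P :=
  { h with le := fun i r hr => b i _ ⟨r, hr, rfl⟩, par := fun c hc => h.par c (a hc), inv := fun c hc => h.inv c (a hc) }

theorem zee (sq : ∀ r ∈ T, r * r = 1) : ∀ d ∈ DT E T i, ∀ e ∈ DT E T i, Ce (d * e) (DT E T i) → d = e := by
  rintro _ ⟨r, hr, rfl⟩ _ ⟨s, hs, rfl⟩ H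
  have := h.nt
  have := h.ntW
  obtain ⟨k, e⟩ := scal_of_fa (e := E i) (a := (r * s : W ≃ₗ[F] W)) fun a => by
    rw [← coe_lf, map_mul]; exact h.ce_iff.1 H a
  obtain ⟨w, -, -, φ, -, e1⟩ := h.rk r hr
  obtain ⟨w', -, -, ψ, -, e2⟩ := h.rk s hs
  obtain ⟨z, z0, z1, z2⟩ := exists_ker2 h.three φ ψ
  obtain rfl : 1 = k := smul_left_injective F z0 (by simpa [e1, e2, z1, z2] using LinearMap.congr_fun e z)
  rw [← inv_eq_of_mul_eq_one_right (sq r hr), inv_eq_of_mul_eq_one_right (show r * s = 1 from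
    LinearEquiv.toLinearMap_injective (e.trans (one_smul _ _)))]

variable [Finite ι] [Finite (V ≃ₗ[F] V)] [Finite F]

/-- The criterion in characteristic two. -/
theorem le_even (h2 : (2 : F) = 0) (sq : ∀ r ∈ T, r * r = 1)
    (hI : ∀ r ∈ T, ∀ s ∈ T, r ≠ s → Commute r s → ∃ q ∈ T, ∃ θ : End F W,
      (q : End F W) = 1 + ((r * s : W ≃ₗ[F] W) - 1 : End F W) * θ * ((r * s : W ≃ₗ[F] W) - 1 : End F W))
    (hX : ∀ r ∈ T, ∃ x ∈ T, x ≠ r ∧ Commute x r)
    (hF : ∀ c ∈ X, ∀ l (a : W ≃ₗ[F] W) (b : U ≃ₗ[F] U), (∀ w u, c (E l (w ⊗ₜ u)) = E l (a w ⊗ₜ b u)) → a * a = 1 →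
      ∃ r ∈ T, Commute r a) (hO : OddRel T) : X ≤ wstab E := by
  have := h.nt
  have O : ∀ l, OddRel (DT E T l) := fun l => by
    obtain ⟨L, a, b, c⟩ := hO
    exact ⟨L.map (lf (E l)), by simpa, by simpa using fun r hr => ⟨r, b r hr, rfl⟩, by rw [← map_list_prod, c, map_one]⟩
  have sq' : ∀ i, ∀ d ∈ DT E T i, d * d = 1 := by rintro i _ ⟨r, hr, rfl⟩; rw [← map_mul, sq r hr, map_one]
  refine h.le_wstab (h.wrA.le_inv ⟨sq', fun i => h.zee sq, ?_, ?_, fun c hc i j n d hd e he l H => ?_,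
    fun _ _ _ _ _ l _ _ _ => O l, fun _ _ _ _ _ _ _ _ _ l _ _ _ => O l⟩)
  · rintro i _ ⟨r, hr, rfl⟩ _ ⟨s, hs, rfl⟩ n c g hg H
    have c' : Commute r s := lf_inj (by simpa using c.eq)
    obtain ⟨q, hq, θ, e⟩ := hI r hr s hs (fun e => n (by rw [e])) c'
    have qX := h.le i q hq
    refine ⟨_, ⟨q, hq, rfl⟩, h.wrA.U _ (mul_mem (mul_mem hg qX) (inv_mem hg)) i i _ ⟨q, hq, rfl⟩ ⟨q, hq, ?_⟩⟩
    rw [eq_mul_inv_iff_mul_eq]
    refine (comm_iff.2 ?_).eq
    have e1 := comm_iff.1 H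
    have e2 := comm_iff.1 H.inv_left
    have e3 : lf (E i) r * lf (E i) s * (lf (E i) r * lf (E i) s) = 1 := by
      rw [mul_assoc, ← mul_assoc _ (lf (E i) r), ← c.eq, mul_assoc, sq' i _ ⟨s, hs, rfl⟩, mul_one, sq' i _ ⟨r, hr, rfl⟩]
    have e4 : _ = (1 : End F V) := congrArg LinearEquiv.toLinearMap e3
    have e5 : (g : End F V) * (g⁻¹ : V ≃ₗ[F] V) = 1 := congrArg LinearEquiv.toLinearMap (mul_inv_cancel g)
    have e6 : (2 : End F V) = 0 := by rw [← one_add_one_eq_two, ← two_smul F, h2, zero_smul]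
    rw [LinearEquiv.coe_toLinearMap_mul] at e4
    rw [LinearEquiv.coe_toLinearMap_mul, LinearEquiv.coe_toLinearMap_mul, coe_lf, e]
    simp only [map_add, map_mul (fa (E i)), map_sub, map_one]
    rw [← map_mul, coe_lf] at e1 e2 e4
    generalize fa (E i) (r * s : W ≃ₗ[F] W) = f at *
    have e7 : (f - 1) * (f - 1) = 0 := by linear_combination (norm := noncomm_ring) e4 + (1 - f) * e6
    have e8 : (g : End F V) * (1 + (f - 1) * fa (E i) θ * (f - 1)) * (g⁻¹ : V ≃ₗ[F] V) =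
        1 + (f - 1) * (g * fa (E i) θ * (g⁻¹ : V ≃ₗ[F] V)) * (f - 1) := by
      linear_combination (norm := noncomm_ring) e5 + e1.eq * fa (E i) θ * (f - 1) * (g⁻¹ : V ≃ₗ[F] V) -
        (f - 1) * g * fa (E i) θ * e2.eq
    rw [e8, Commute, SemiconjBy]
    generalize (g : End F V) * fa (E i) θ * (g⁻¹ : V ≃ₗ[F] V) = θ'
    linear_combination (norm := noncomm_ring) (f - 1) * fa (E i) θ * e7 * θ' * (f - 1) -
      (f - 1) * θ' * e7 * fa (E i) θ * (f - 1)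
  · rintro i _ ⟨r, hr, rfl⟩
    obtain ⟨x, hx, a, b⟩ := hX r hr
    exact ⟨_, ⟨x, hx, rfl⟩, fun e => a (lf_inj e), b.map _⟩
  have m := mul_mem (mul_mem hc (mul_mem (h.wrA.le i d hd) (h.wrA.le j e he))) (inv_mem hc)
  have ff := conj_sq (a := d * e) (by
    rw [mul_assoc, ← mul_assoc e, ← (h.wrA.comm i j n d hd e he).eq, mul_assoc, sq' j e he, mul_one, sq' i d hd]) c
  obtain ⟨p, b, e1⟩ := h.tst_of_mp m H
  generalize c * (d * e) * c⁻¹ = f at *
  obtain ⟨u, u0⟩ := exists_ne (0 : U)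
  obtain ⟨μ, m1⟩ := exists_fun0 (F := F) u0
  have e2 : ∀ x, μ (b (b u)) • p (p x) = x := fun x => by
    simpa [e1, m1] using congrArg (TensorProduct.rid F W ∘ μ.lTensor W ∘ (E l).symm) (LinearEquiv.congr_fun ff (E l (x ⊗ₜ u)))
  have := Fintype.ofFinite F
  obtain ⟨k, hk⟩ := FiniteField.isSquare_of_char_two (ringChar.eq_iff.2 (CharTwo.of_one_ne_zero_of_two_eq_zero
    one_ne_zero h2)) (μ (b (b u)))
  have := h.ntW
  obtain ⟨x, x0⟩ := exists_ne (0 : W)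
  have k0 : k ≠ 0 := by rintro rfl; exact x0 (by simpa [hk] using (e2 x).symm)
  obtain ⟨r, hr, H⟩ := hF f m l (.smulOfNeZero F W k k0 * p) (.smulOfNeZero F U _ (inv_ne_zero k0) * b)
    (fun w u => by simp [e1, smul_tmul, k0]) (LinearEquiv.ext fun x => by simpa [hk, smul_smul] using e2 x)
  refine ⟨_, ⟨r, hr, rfl⟩, ext_e' (E l) fun w u => ?_⟩
  simp [e1, show r (p w) = p (r w) by simpa [k0] using LinearEquiv.congr_fun H.eq w]

/-- The criterion for unipotent root elements in odd characteristic. -/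
theorem le_odd [FiniteDimensional F V] (h2 : (2 : F) ≠ 0) (un : ∀ r ∈ T, ∀ x, r (r x - x) = r x - x)
    (hP : ∀ S : Submodule F W, finrank F W ≤ finrank F S + 2 → ∃ w ∈ S, w ∈ P ∧ w ≠ 0) : X ≤ wstab E := by
  have := h.nt
  have un' : ∀ r ∈ T, ∀ i (c : V ≃ₗ[F] V) x, (c * lf (E i) r * c⁻¹) ((c * lf (E i) r * c⁻¹) x - x) =
      (c * lf (E i) r * c⁻¹) x - x := fun r hr i c x => by
    have := LinearMap.congr_fun (ext_e (E i) (x := lf (E i) r * (lf (E i) r - 1)) (y := lf (E i) r - 1) fun w u => by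
      simpa [sub_tmul] using congrArg (fun x => E i (x ⊗ₜ u)) (un r hr w)) (c⁻¹ x)
    simpa using congrArg c this
  refine h.le_wstab (h.wrA.ind ?_ fun X' a I i _ _ hi _ k => ?_)
  · rintro c hc i _ ⟨r, hr, rfl⟩ H j
    obtain ⟨j', m⟩ := H j
    obtain ⟨j'', m'⟩ := H j'
    by_contra n
    replace n : j ≠ j' := by rintro rfl; exact n m
    obtain ⟨s, hs⟩ := h.ne
    obtain ⟨s', hs', e1⟩ := m.1 _ ⟨s, hs, rfl⟩
    obtain ⟨s'', hs'', e2⟩ := m'.1 _ ⟨s', hs', rfl⟩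
    have n' : j'' ≠ j' := by rintro rfl; exact n (h.wrA.idx' m.inv m'.inv)
    have e3 := un' r hr i c
    generalize c * lf (E i) r * c⁻¹ = d at *
    replace e1 := congrArg LinearEquiv.toLinearMap (eq_mul_inv_iff_mul_eq.1 e1)
    replace e2 := congrArg LinearEquiv.toLinearMap (eq_mul_inv_iff_mul_eq.1 e2)
    replace e3 : ((d : End F V) - 1) * (d - 1) = 0 := LinearMap.ext fun x => by simpa [sub_eq_zero] using e3 x
    simp only [LinearEquiv.coe_toLinearMap_mul, coe_lf] at e1 e2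
    obtain ⟨w, -, -, φ, -, a1⟩ := h.rk s hs
    obtain ⟨w', -, -, φ', -, a2⟩ := h.rk s'' hs''
    have fin : ∀ y : End F V, y * fa (E j) s = y → y * fa (E j'') s'' = y → y * (fa (E j') s' - 1) = 0 := fun y b1 b2 =>
      (smul_eq_zero.1 (by
        rw [two_smul]
        linear_combination (norm := noncomm_ring) (b2 - b1) * d + b1 + b1 - y * e2 + y * (2 - d) * e1 * (2 - d) +
          y * (2 - d) * fa (E j') s' * e3 - y * e3 * fa (E j) s * (2 - d))).resolve_left h2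
    have cm : ∀ l ≠ j', ∀ a, Commute (fa (E j') s' - 1) (fa (E l) a) := fun l n a =>
      (h.comm j' l n.symm _ a).sub_left (Commute.one_left _)
    refine h.not_scal hs' 1 (sub_eq_zero.1 (fa_inj (e := E j') ?_))
    rw [one_smul, map_sub, map_one]
    obtain ⟨y, y0, y1, y2⟩ := exists_rk1_kill h.three w w'
    have b1 : y * s = y := LinearMap.ext fun x => by simp [a1, y1]
    have b2 : y * s'' = y := LinearMap.ext fun x => by simp [a2, y2]
    by_cases n'' : j'' = j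
    · subst n''
      exact indep y0 (cm _ n) (fin _ (by rw [← map_mul, b1]) (by rw [← map_mul, b2]))
    refine indep y0 (cm _ n') (indep y0 (fun a => (h.comm j'' j n'' y a).mul_left (cm _ n a)) ?_)
    rw [← mul_assoc]
    exact fin _ (by rw [mul_assoc, (h.comm j'' j n'' y s).eq, ← mul_assoc, ← map_mul, b1]) (by rw [mul_assoc, ← map_mul, b2])
  have h' := h.mono a k.le
  obtain ⟨r, hr⟩ := h.ne
  have m := h'.le i r hr
  refine quad_engine h2 m (fun l => ⟨l, k.self ⟨r, hr, rfl⟩ l⟩) (by simpa using un' r hr i 1)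
    (fun c hc H => inv_mem_iff.1 (k.rc i hi _ ⟨r, hr, rfl⟩ _ (inv_mem hc) (by rwa [inv_inv]))) fun c hc z hz z1 z2 z3 z4 => ?_
  have md := mul_mem (mul_mem (inv_mem hc) m) hc
  have zX : z ∈ X' := (Subgroup.closure_le _).2 (by rintro _ (rfl | rfl); exacts [m, md]) hz
  obtain ⟨w, -, w0, φ, φ0, e1⟩ := h.rk r hr
  obtain ⟨x, hx⟩ : ∃ x, φ x ≠ 0 := by by_contra! hc; exact φ0 (LinearMap.ext hc)
  obtain ⟨S, s1, s2⟩ := quad_fix h2 h.three w0 φ0 e1 (by simpa [e1, hx, w0] using un r hr x)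
    (by simpa using un' r hr i c⁻¹) (Y := LinearMap.range (c.symm.toLinearMap ∘ₗ (E i).toLinearMap ∘ₗ
      TensorProduct.mk F W U w)) (LinearMap.finrank_range_le _) (fun x => ⟨cL φ ((E i).symm (c x)), by simp [lf_rk1 e1]⟩)
    hz z1 z2 z3 z4 (h'.pt zX hr (by rw [z3.eq, mul_inv_cancel_right]))
  obtain ⟨y, y1, y2, y0⟩ := hP S s1
  exact k.N i hi _ md (h'.mp md (h'.par _ md i i y y2 y0 y fun u => ⟨u, s2 y y1 u⟩))

end TG

end Cfsg.Agent.Root.Wr
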