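import Cfsg.Agent.Root.Wr2

/-! Invariant subalgebras for tensor-power frames (`TW.alg`), maximality of the stabiliser of a frame in `SL`
(`isMaximalIn_wstab`), the standard frame `sE` and the dictionary `mem_wreath`. -/

set_option autoImplicit false

namespace Cfsg.Agent.Root.Wr

open Cfsg.Agent.Geom Cfsg.Agent.AutCl Module TensorProduct Mx

variable {F : Type*} [Field F] {V W U : Type*} [AddCommGroup V] [Module F V] [AddCommGroup W] [Module F W]
  [AddCommGroup U] [Module F U] {ι : Type*} [FiniteDimensional F W] {e : W ⊗[F] U ≃ₗ[F] V}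

theorem exists_ker_notMem (h : 3 ≤ finrank F W) (ψ : Dual F W) (x : W) : ∃ z, ψ z = 0 ∧ z ∉ F ∙ x :=
  exists_notMem_of_lt (U := LinearMap.ker ψ) (by
    have := ψ.finrank_range_add_finrank_ker
    have := Submodule.finrank_le (LinearMap.range ψ)
    have := finrank_span_one (F := F) x
    rw [finrank_self] at *; omega)

theorem mem_of_rk1 {R : Submodule F (End F W)} (h : ∀ y κ, rk1 y κ ∈ R) (a : End F W) : a ∈ R := by
  let b := finBasis F W
  rw [show a = ∑ i, rk1 (a (b i)) (b.coord i) from LinearMap.ext fun x => by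
    conv_lhs => rw [← b.sum_repr x, map_sum]
    simp]
  exact sum_mem fun i _ => h _ _

theorem rk1_spread (h3 : 3 ≤ finrank F W) (R : Submodule F (End F W))
    (hc : ∀ ρ ∈ R, ∀ x ν, ν x = 0 → (1 + rk1 x ν) * ρ * (1 - rk1 x ν) ∈ R) {x : W} {χ : Dual F W} (x0 : x ≠ 0)
    (χ0 : ∃ z, χ z = 1) (e : χ x = 0) (H : rk1 x χ ∈ R) (z : W) (ψ : Dual F W) (a : ψ z = 0) : rk1 z ψ ∈ R := by
  have s1 : ∀ {x χ}, x ≠ 0 → rk1 x χ ∈ R → ∀ y, χ y = 0 → rk1 y χ ∈ R := fun {x χ} x0 H y a => by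
    by_cases b : y ∈ F ∙ x
    · obtain ⟨k, rfl⟩ := Submodule.mem_span_singleton.1 b
      convert R.smul_mem k H using 1; ext v; simp [smul_smul, mul_comm]
    obtain ⟨κ, a1, a2⟩ := exists_fun1 (notMem_symm b x0)
    convert sub_mem (hc _ H y κ a2) H using 1; ext v; simp [a, a1]
  obtain ⟨y, y0, y1, y2⟩ := exists_ker2 h3 χ ψ
  obtain ⟨p, p1⟩ := χ0
  have H1 := s1 x0 H y y1
  refine s1 y0 ?_ z a
  convert add_mem (sub_mem H1 (hc _ H1 p (ψ - ψ p • χ) (by simp [p1]))) (R.smul_mem (ψ p) H1) using 1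
  ext v; simp [p1, y1, y2]; module

theorem top_of_rk1 (h3 : 3 ≤ finrank F W) (R : Submodule F (End F W)) (hm : ∀ a ∈ R, ∀ b ∈ R, a * b ∈ R)
    (H : ∀ x ψ, ψ x = 0 → rk1 x ψ ∈ R) (a : End F W) : a ∈ R := mem_of_rk1 (fun y κ => by
  obtain ⟨z, z0, z1, -⟩ := exists_ker2 h3 κ κ
  by_cases hy : z ∈ F ∙ y
  · obtain ⟨k, rfl⟩ := Submodule.mem_span_singleton.1 hy
    exact H _ _ (by simpa [left_ne_zero_of_smul z0] using z1)
  obtain ⟨χ, c1, c2⟩ := exists_fun1 hy
  simpa [rk1_mul, c1] using hm _ (H y χ c2) _ (H z κ z1)) a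

/-- The block of `ρ` at `(ψ, x)`. -/
noncomputable def blk (e : W ⊗[F] U ≃ₗ[F] V) (ρ : End F V) (ψ : Dual F W) (x : W) : End F U :=
  cL ψ ∘ₗ e.symm.toLinearMap ∘ₗ ρ ∘ₗ e.toLinearMap ∘ₗ TensorProduct.mk F W U x

omit [FiniteDimensional F W] in
theorem fa_rk1 (x : W) (ψ : Dual F W) (v : V) : fa e (rk1 x ψ) v = e (x ⊗ₜ cL ψ (e.symm v)) :=
  LinearMap.congr_fun (ext_e e (x := fa e (rk1 x ψ)) (y := e.toLinearMap ∘ₗ tt x ψ 1 ∘ₗ e.symm.toLinearMap)
    fun y u => by simp [smul_tmul]) v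

omit [FiniteDimensional F W] in
theorem fa_mul_fa (ρ : End F V) (y x : W) (ψ χ : Dual F W) :
    fa e (rk1 y ψ) * ρ * fa e (rk1 x χ) = fa e (rk1 y χ) * fb e (blk e ρ ψ x) := ext_e e fun w u => by
  simp only [Module.End.mul_apply, fa_tmul, fb_tmul]
  simp [fa_rk1, blk, ← smul_tmul']

theorem comm_of_blk {ρ : End F V} (h : ∀ x ψ, ψ x = 0 → blk e ρ ψ x = 0) (a : End F W) : Commute ρ (fa e a) := by
  rcases subsingleton_or_nontrivial W with hW | hW
  · exact ext_e e fun w u => by simp [Subsingleton.elim w 0]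
  have k : ∀ x φ, φ x = 1 → ∀ u, ρ (e (x ⊗ₜ u)) = e (x ⊗ₜ blk e ρ φ x u) := fun x φ p u =>
    e.symm_apply_eq.1 (eq_of_cL fun χ => by
      simpa [blk, sub_eq_zero] using LinearMap.congr_fun (h x (χ - χ x • φ) (by simp [p])) u)
  obtain ⟨x, x0⟩ := exists_ne (0 : W)
  obtain ⟨φ, p⟩ := exists_fun0 (F := F) x0
  rw [show ρ = fb e (blk e ρ φ x) from ext_e e fun y u => ?_]
  · exact (fa_fb _ _).symm
  by_cases hy : y ∈ F ∙ x
  · obtain ⟨t, rfl⟩ := Submodule.mem_span_singleton.1 hy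
    simp [← smul_tmul', k x φ p]
  obtain ⟨χ, c1, c2⟩ := exists_fun1 (F := F) (x := y) (y := y + x) fun hc => by
    obtain ⟨κ, d1, d2⟩ := exists_fun1 hy
    obtain ⟨t, e1⟩ := Submodule.mem_span_singleton.1 hc
    obtain rfl : t = 1 := by simpa [d1, d2] using congrArg κ e1
    exact x0 (by simpa using e1)
  have c3 : χ x = -1 := by rw [map_add, c1] at c2; linear_combination c2
  have : cL χ (e.symm (ρ (e ((y + x) ⊗ₜ u)))) = 0 := LinearMap.congr_fun (h _ χ c2) u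
  rw [add_tmul, map_add, map_add, k x φ p, k y χ c1] at this
  rw [k y χ c1, fb_tmul, show blk e ρ χ y u = blk e ρ φ x u by simpa [c1, c3, add_neg_eq_zero] using this]

theorem exists_blk (h3 : 3 ≤ finrank F W) (R : Submodule F (End F V))
    (hc : ∀ ρ ∈ R, ∀ x ν, ν x = 0 → fa e (1 + rk1 x ν) * ρ * fa e (1 - rk1 x ν) ∈ R) {ρ : End F V} (hρ : ρ ∈ R)
    (n : ¬ ∀ a, Commute ρ (fa e a)) : ∃ b ≠ 0, ∀ x ψ, ψ x = 0 → fa e (rk1 x ψ) * fb e b ∈ R := by
  obtain ⟨x, ψ, p, b0⟩ : ∃ x ψ, ψ x = 0 ∧ blk e ρ ψ x ≠ 0 := by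
    by_contra! hc; exact n (comm_of_blk hc)
  obtain ⟨z, z1, z2⟩ := exists_ker_notMem h3 ψ x
  obtain ⟨κ, k1, k2⟩ := exists_fun1 z2
  obtain ⟨χ, c0, c1, c2⟩ := exists_fun2 h3 x z
  have H : fa e (rk1 x κ) * fb e (blk e ρ ψ x) + fa e (rk1 x ψ) * fb e (blk e ρ κ x) ∈ R := by
    convert sub_mem (add_mem (hc ρ hρ x ψ p) (hc ρ hρ x κ k2)) (add_mem (hc ρ hρ x (ψ + κ) (by simp [p, k2])) hρ) using 1
    rw [← fa_mul_fa, ← fa_mul_fa, show rk1 x (ψ + κ) = rk1 x ψ + rk1 x κ from LinearMap.ext fun v => by simp [add_smul]]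
    simp only [map_add, map_sub, map_one]; noncomm_ring
  refine ⟨_, b0, rk1_spread h3 (R.comap ((LinearMap.mulRight F (fb e (blk e ρ ψ x))) ∘ₗ (fa e).toLinearMap))
    (fun a ha y ν q => ?_) (x := x) (by rintro rfl; exact b0 (LinearMap.ext fun u => by simp [blk])) c0 c1 ?_⟩
  · change fa e _ * _ ∈ R
    convert hc _ ha y ν q using 1
    change _ = _ * (fa e _ * _) * _
    rw [map_mul, map_mul, mul_assoc _ (fa e _) (fb e _), (fa_fb _ _).eq]; simp only [mul_assoc]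
  · change fa e _ * _ ∈ R
    convert sub_mem H (hc _ H z χ c2) using 1
    exact ext_e e fun w u => by simp [c1, k1, z1, sub_tmul, add_tmul]

variable {E : ι → W ⊗[F] U ≃ₗ[F] V}

/-- A non-zero invariant subalgebra consists of scalars or contains a factor. -/
theorem TW.alg [Nontrivial U] (h : TW E) (h3 : 3 ≤ finrank F W) (i₀ : ι) (J : Finset ι) (R : Submodule F (End F V))
    (hm : ∀ a ∈ R, ∀ b ∈ R, a * b ∈ R) (h0 : ∀ ρ ∈ R, ∀ l ∉ J, ∀ a, Commute ρ (fa (E l) a))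
    (hc : ∀ j ∈ J, ∀ ρ ∈ R, ∀ x ν, ν x = 0 → fa (E j) (1 + rk1 x ν) * ρ * fa (E j) (1 - rk1 x ν) ∈ R) {ρ : End F V}
    (hρ : ρ ∈ R) : (∃ k : F, ρ = k • 1) ∨ ∃ j ∈ J, ∀ a, fa (E j) a ∈ R := by
  classical
  have : Nontrivial W := nontrivial_of_finrank_pos (R := F) (by omega)
  induction J using Finset.strongInduction generalizing R ρ with | _ J ih =>
  by_cases H : ∀ j ∈ J, ∀ a, Commute ρ (fa (E j) a)
  · have H' : ∀ j a, Commute ρ (fa (E j) a) := fun j => by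
      by_cases hj : j ∈ J
      exacts [H j hj, h0 ρ hρ j hj]
    obtain ⟨a, rfl⟩ := h.fa_of (i := i₀) fun j _ => H' j
    obtain ⟨k, rfl⟩ := scal_of_fa (H' i₀)
    exact .inl ⟨k, by simp⟩
  obtain ⟨j, hj, n⟩ : ∃ j ∈ J, ¬ ∀ a, Commute ρ (fa (E j) a) := by simpa using H
  obtain ⟨b, b0, hb⟩ := exists_blk h3 R (hc j hj) hρ n
  let R' : Submodule F (End F V) :=
    { carrier := {ρ | (∀ l ∉ J.erase j, ∀ a, Commute ρ (fa (E l) a)) ∧ ∀ x ψ, ψ x = 0 → fa (E j) (rk1 x ψ) * ρ ∈ R}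
      zero_mem' := by simp
      add_mem' := fun p q => ⟨fun l hl a => (p.1 l hl a).add_left (q.1 l hl a), fun x ψ e => by
        rw [mul_add]; exact add_mem (p.2 x ψ e) (q.2 x ψ e)⟩
      smul_mem' := fun k _ p => ⟨fun l hl a => (p.1 l hl a).smul_left k, fun x ψ e => by
        rw [mul_smul_comm]; exact R.smul_mem k (p.2 x ψ e)⟩ }
  have m1 : fb (E j) b ∈ R' := ⟨fun l hl a => by
    by_cases e : l = j
    · exact e ▸ (fa_fb _ _).symm
    obtain ⟨φ, ⟨y, p⟩, -⟩ := exists_fun2 h3 (0 : W) 0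
    obtain ⟨x, x0, q, -⟩ := exists_ker2 h3 φ φ
    have c := h.comm l j e a
    refine sub_eq_zero.1 (indep (e := E j) (a := rk1 x φ) (fun e => x0 (by simpa [p] using LinearMap.congr_fun e y))
      (fun a' => (((fa_fb _ _).symm.mul_left (c a')).sub_left ((c a').mul_left (fa_fb _ _).symm))) ?_)
    rw [mul_sub, ← mul_assoc, (h0 _ (hb x φ q) l (by simpa [e] using hl) a).eq, ← mul_assoc, ← mul_assoc, (c _).eq,
      sub_self], hb⟩
  have m2 : 1 ∈ R' := by
    refine (ih _ (Finset.erase_ssubset hj) R' (fun p hp q hq => ⟨fun l hl a => (hp.1 l hl a).mul_left (hq.1 l hl a),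
      fun x ψ e => ?_⟩) (fun _ p => p.1) (fun l hl p hp y ν e => ⟨fun l' hl' a => ?_, fun x ψ e' => ?_⟩) m1).elim
      (fun ⟨k, e⟩ => ?_) fun ⟨l, _, e⟩ => by simpa using e 1
    rotate_left 3
    · have k0 : k ≠ 0 := by
        rintro rfl
        obtain ⟨w, w0⟩ := exists_ne (0 : W)
        exact b0 (LinearMap.ext fun u => tmul_inj (F := F) w0 (by simpa using LinearMap.congr_fun e (E j (w ⊗ₜ u))))
      simpa [e, k0] using R'.smul_mem k⁻¹ m1
    · obtain ⟨z, z1, z2⟩ := exists_ker_notMem h3 ψ x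
      obtain ⟨χ, c1, c2⟩ := exists_fun1 z2
      convert hm _ (hp.2 x χ c2) _ (hq.2 z ψ z1) using 1
      rw [mul_assoc, ← mul_assoc p, (hp.1 j (by simp) _).eq, mul_assoc, ← mul_assoc, ← mul_assoc, ← map_mul, rk1_mul, c1,
        one_smul, mul_assoc]
    · have c := h.comm l l' (by rintro rfl; exact hl' hl)
      exact ((c _ a).mul_left (hp.1 l' hl' a)).mul_left (c _ a)
    · convert hc l (Finset.mem_of_mem_erase hl) _ (hp.2 x ψ e') y ν e using 1
      simp only [← mul_assoc, (h.comm l j (Finset.ne_of_mem_erase hl) _ _).eq]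
  exact .inr ⟨j, hj, top_of_rk1 h3 (R.comap (fa (E j)).toLinearMap) (fun a ha b hb => by simpa using hm _ ha _ hb)
    fun x ψ e => by simpa using m2.2 x ψ e⟩

variable [FiniteDimensional F U]

theorem SL_of_all {X : Subgroup (W ⊗[F] U ≃ₗ[F] W ⊗[F] U)} (h3 : 3 ≤ finrank F W) (all : ∀ y κ, RR X (rk1 y κ)) :
    SLg F _ ≤ X := by
  refine SLg_le' fun p => ?_
  induction p with
  | zero => exact zero_mem _
  | add x y a b => exact add_mem a b
  | tmul w u =>
    intro Φ hΦ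
    by_cases w0 : w = 0
    · exact HasL.zero.congr (by simp [w0])
    by_cases u0 : u = 0
    · exact HasL.zero.congr (by simp [u0])
    obtain ⟨φ, a1⟩ := exists_fun0 (F := F) w0
    obtain ⟨μ, a2⟩ := exists_fun0 (F := F) u0
    obtain ⟨z, z0, z1, -⟩ := exists_ker2 h3 φ φ
    obtain ⟨χ, a3, a4⟩ := exists_fun1 (notMem_symm (notMem_of_fun (a1 ▸ one_ne_zero) z1) z0)
    let ν := Φ ∘ₗ TensorProduct.mk F W U w
    have H1 := (all u μ w χ a4).comm (all u ν z φ z1) (tt_mul_zero a4) (tt_mul_zero z1)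
      (LinearMap.ext fun v => by simp [ν, hΦ])
    let b := finBasis F U
    let ψ := fun j => Φ ∘ₗ (TensorProduct.mk F W U).flip (b j) - ν (b j) • φ
    have a5 : ∀ j, ψ j w = 0 := fun j => by simp [ψ, ν, a1]
    have H2 := hasL_sum (X := X) Finset.univ (y := w ⊗ₜ[F] u) (φ := fun j => b.coord j ∘ₗ cL (ψ j))
      (fun j => by simp [a5]) fun j => (all u (b.coord j) w _ (a5 j)).congr fun v => by simp
    refine (H1.add H2 (LinearMap.ext fun v => by simp [z1, a1, ν, hΦ])).congr fun v => ?_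
    have : Φ v = ν (cL φ v) + ∑ j, b.coord j (cL (ψ j) v) := by
      induction v with
      | zero => simp
      | add x y a b => simp only [map_add, a, b, Finset.sum_add_distrib]; ring
      | tmul x y =>
        have e1 : ∀ f : Dual F U, ∑ j, b.repr y j * f (b j) = f y := fun f => by
          conv_rhs => rw [← b.sum_repr y, map_sum]
          simp only [map_smul, smul_eq_mul]
        have e2 := e1 (Φ ∘ₗ TensorProduct.mk F W U x - φ x • ν)
        simp only [LinearMap.sub_apply, LinearMap.smul_apply, LinearMap.comp_apply, mk_apply, smul_eq_mul] at e2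
        simp only [ψ, cL_tmul, map_smul, Basis.coord_apply, smul_eq_mul, LinearMap.sub_apply, LinearMap.smul_apply,
          LinearMap.comp_apply, LinearMap.flip_apply, mk_apply, mul_comm _ (b.repr y _), mul_comm (ν (b _)), e2]
        ring
    simp [this, a2, a3, add_smul]

theorem par_SL {X X' : Subgroup (W ⊗[F] U ≃ₗ[F] W ⊗[F] U)} (h3 : 3 ≤ finrank F W) (h0 : RR X' 1) (h1 : RR X 1)
    (hS : ∀ {w φ ρ}, w ≠ 0 → (∃ z, φ z = 1) → φ w = 0 → HasL X (tt w φ ρ) → ∃ k : F, ρ = k • 1)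
    {c : W ⊗[F] U ≃ₗ[F] W ⊗[F] U} (hc : ∀ {α β : End F (W ⊗[F] U)}, HasL X' α → (∀ v, β (c v) = c (α v)) → HasL X β)
    {w w' : W} (w0 : w ≠ 0)
    (hw : ∀ u, ∃ u', c (w ⊗ₜ u) = w' ⊗ₜ u') : c ∈ tstab F W U := by
  rcases subsingleton_or_nontrivial U with hU | hU
  · exact ⟨1, 1, fun w u => by simp [Subsingleton.elim u 0]⟩
  obtain ⟨u₀, u0⟩ := exists_ne (0 : U)
  obtain ⟨μ, m1⟩ := exists_fun0 (F := F) u0
  have w1 : w' ≠ 0 := by
    rintro rfl
    obtain ⟨u', e⟩ := hw u₀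
    rw [zero_tmul, c.map_eq_zero_iff] at e
    exact u0 (tmul_inj w0 (e.trans (tmul_zero _ _).symm))
  obtain ⟨χ, c1⟩ := exists_fun0 (F := F) w1
  let β₀ : End F U := cL χ ∘ₗ c.toLinearMap ∘ₗ TensorProduct.mk F W U w
  have b0 : ∀ u, c (w ⊗ₜ u) = w' ⊗ₜ β₀ u := fun u => by
    obtain ⟨u', e⟩ := hw u
    simp [β₀, e, c1]
  obtain ⟨β, b1⟩ : ∃ β : U ≃ₗ[F] U, ∀ u, c (w ⊗ₜ u) = w' ⊗ₜ β u :=
    ⟨.ofInjectiveEndo β₀ fun u u' e => tmul_inj w0 (c.injective (by rw [b0, b0, e])), b0⟩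
  have b2 : ∀ u, c.symm (w' ⊗ₜ u) = w ⊗ₜ β.symm u := fun u => c.symm_apply_eq.2 (by simp [b1])
  have key : ∀ z, ∃ z', ∀ u, c (z ⊗ₜ β.symm u) = z' ⊗ₜ u := fun z => by
    obtain ⟨φ, ⟨y, a1⟩, a2, a3⟩ := exists_fun2 h3 w z
    let Θ := β.toLinearMap ∘ₗ cL φ ∘ₗ c.symm.toLinearMap
    have H := hc (h0 w φ a2) (β := TensorProduct.mk F W U w' ∘ₗ Θ) fun v => by simp [Θ, b1]
    let φ' := μ ∘ₗ Θ ∘ₗ (TensorProduct.mk F W U).flip u₀
    have t1 : ∀ x u, Θ (x ⊗ₜ u) = φ' x • u := fun x u => by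
      obtain ⟨ψ, p1, p2, p3⟩ := exists_fun2 h3 w' x
      obtain ⟨k, hk⟩ : ∃ k : F, Θ ∘ₗ TensorProduct.mk F W U x = k • 1 := by
        exact (hS w1 p1 p2 ((H.comm (h1 x ψ p3) (LinearMap.ext fun v => by simp [Θ, b2, a2])
          (tt_mul_zero p3) (LinearMap.ext fun v => by simp [p2])).congr fun v => by simp))
      have := LinearMap.congr_fun hk
      simp only [LinearMap.comp_apply, mk_apply] at this
      simp [φ', this, m1]
    have t2 : ∀ v, Θ v = cL φ' v := fun v => by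
      induction v with
      | zero => simp
      | tmul x u => simp [t1]
      | add x y a b => simp [a, b]
    have t3 : ∀ v, cL φ' (c v) = β (cL φ v) := fun v => by simp [← t2, Θ]
    have t4 : ∃ x, φ' x = 1 := by
      by_contra! hx
      have : φ' = 0 := LinearMap.ext fun x => by_contra fun e => hx ((φ' x)⁻¹ • x) (by simp [show φ' x ≠ 0 from e])
      exact u0 (by simpa [this, a1] using (t3 (y ⊗ₜ u₀)).symm)
    let Λ := c.toLinearMap ∘ₗ TensorProduct.mk F W U z ∘ₗ β.symm.toLinearMap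
    have H' := hc (h0 z φ a3) (β := Λ ∘ₗ cL φ') fun v => by simp [Λ, t3]
    have l1 : ∀ ψ, ∃ k : F, cL ψ ∘ₗ Λ = k • 1 := fun ψ => by
      obtain ⟨x, x0, p1, p2⟩ := exists_ker2 h3 ψ φ'
      exact (hS x0 t4 p2 (((h1 x ψ p1).comm H' (tt_mul_zero p1) (LinearMap.ext fun v => by
        simp [Λ, t3, a3]) (LinearMap.ext fun v => by simp [p2])).congr fun v => by simp))
    choose k hk using l1
    let b := finBasis F W
    refine ⟨∑ i, k (b.coord i) • b i, fun u => ?_⟩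
    rw [← sum_cL b (c _), sum_tmul]
    exact Finset.sum_congr rfl fun i _ => by
      rw [smul_tmul]; exact congrArg _ (LinearMap.congr_fun (hk (b.coord i)) u)
  let a₀ : End F W := (TensorProduct.rid F W).toLinearMap ∘ₗ μ.lTensor W ∘ₗ c.toLinearMap ∘ₗ
    (TensorProduct.mk F W U).flip (β.symm u₀)
  have a1 : ∀ z u, c (z ⊗ₜ u) = a₀ z ⊗ₜ β u := fun z u => by
    obtain ⟨z', e⟩ := key z
    simp [a₀, e, m1, ← e (β u)]
  refine ⟨.ofInjectiveEndo a₀ ((injective_iff_map_eq_zero _).2 fun z e => by_contra fun z0 => u0 (tmul_inj (F := F) z0 ?_)),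
    β, a1⟩
  simpa [e] using a1 z u₀

/-- The transvections. -/
def TSL (F W : Type*) [Field F] [AddCommGroup W] [Module F W] : Set (W ≃ₗ[F] W) :=
  {r | ∃ w, w ≠ 0 ∧ ∃ φ : Dual F W, φ ≠ 0 ∧ φ w = 0 ∧ ∀ x, r x = x + φ x • w}

omit [FiniteDimensional F W] in
theorem tv_mem {w : W} {φ : Dual F W} (w0 : w ≠ 0) (φ0 : φ ≠ 0) (h : φ w = 0) : .transvection h ∈ TSL F W :=
  ⟨w, w0, φ, φ0, h, fun x => by simp [LinearMap.transvection.apply]⟩

variable {X : Subgroup (V ≃ₗ[F] V)}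

/-- The stabiliser in `X` of a factor is transitive on the other factors. -/
def Sw (E : ι → W ⊗[F] U ≃ₗ[F] V) (X : Subgroup (V ≃ₗ[F] V)) : Prop :=
  ∀ i j l, j ≠ i → l ≠ i → ∃ τ ∈ X, tst (E j) (E l) τ ∧ tst (E i) (E i) τ

omit [FiniteDimensional F W] [FiniteDimensional F U] in
theorem conj_fa {e e' : W ⊗[F] U ≃ₗ[F] V} {g : V ≃ₗ[F] V} {a : W ≃ₗ[F] W} {b : U ≃ₗ[F] U}
    (h : ∀ w u, g (e (w ⊗ₜ u)) = e' (a w ⊗ₜ b u)) (p : End F W) (q : End F U) :
    (g : End F V) * (fa e p * fb e q) * (g⁻¹ : V ≃ₗ[F] V) =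
      fa e' (a * p * (a⁻¹ : W ≃ₗ[F] W)) * fb e' (b * q * (b⁻¹ : U ≃ₗ[F] U)) := ext_e e' fun w u => by
  simp only [Module.End.mul_apply, LinearEquiv.coe_coe, tst_inv h, fa_tmul, fb_tmul, h]

omit [FiniteDimensional F W] in
theorem tst_of_conj [Nontrivial W] {e e' : W ⊗[F] U ≃ₗ[F] V} {g : V ≃ₗ[F] V} (h : ∀ a, (g : End F V) * fa e a = fa e' a * g) :
    ∃ b : U ≃ₗ[F] U, ∀ w u, g (e (w ⊗ₜ u)) = e' (w ⊗ₜ b u) := by
  obtain ⟨b, hb⟩ := exists_fb (e := e) (z := e.toLinearMap ∘ₗ e'.symm.toLinearMap ∘ₗ g) fun a => LinearMap.ext fun v => by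
    have := LinearMap.congr_fun (h a) v
    simp only [Module.End.mul_apply, LinearEquiv.coe_coe, LinearMap.comp_apply] at this ⊢
    rw [this]; simp [fa, LinearEquiv.conjAlgEquiv_apply]
  have e1 : ∀ w u, g (e (w ⊗ₜ u)) = e' (w ⊗ₜ b u) := fun w u => e'.symm_apply_eq.1 (e.injective (by
    simpa using LinearMap.congr_fun hb (e (w ⊗ₜ u))))
  obtain ⟨y, y0⟩ := exists_ne (0 : W)
  exact ⟨.ofInjectiveEndo b fun u u' h => tmul_inj y0 (e.injective (g.injective (by rw [e1, e1, h]))), e1⟩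

omit [FiniteDimensional F W] in
theorem TW.lf_mem [Nontrivial W] (h : TW E) (i : ι) (r : W ≃ₗ[F] W) : lf (E i) r ∈ wstab E := ⟨1, fun j => by
  by_cases e : j = i
  · exact e ▸ ⟨r, 1, fun w u => by simp⟩
  · exact ⟨1, tst_of_conj fun a => coe_lf (e := E i) r ▸ (h.comm i j (Ne.symm e) r a).eq⟩⟩

theorem tg_SL [Nontrivial U] [Finite ι] (h : TW E) (h3 : 3 ≤ finrank F W) (le : ∀ i, ∀ r ∈ TSL F W, lf (E i) r ∈ X)
    (sw : Sw E X) (hS : ¬ SLg F V ≤ X) : TG E X (TSL F W) Set.univ := by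
  classical
  have := Fintype.ofFinite ι
  have : Nontrivial W := nontrivial_of_finrank_pos (R := F) (by omega)
  have tv : ∀ i x (ν : Dual F W), ν x = 0 → ∃ g ∈ X, (g : End F V) = fa (E i) (1 + rk1 x ν) ∧
      (g⁻¹ : V ≃ₗ[F] V) = fa (E i) (1 - rk1 x ν) := fun i x ν e => by
    by_cases H : x = 0 ∨ ν = 0
    · have : rk1 x ν = 0 := by rcases H with rfl | rfl <;> ext <;> simp
      exact ⟨1, one_mem _, by simp [this]; rfl, by simp [this]; rfl⟩
    refine ⟨_, le i _ (tv_mem (not_or.1 H).1 (not_or.1 H).2 e), by rw [coe_lf]; rfl, ?_⟩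
    rw [← map_inv, coe_lf]; congr 1
    exact LinearMap.ext fun v => (LinearEquiv.transvection e).symm_apply_eq.2 (by simp [LinearMap.transvection.apply, e])
  have tr : ∀ i w φ ρ, HasL (X.comap (autCongr (E i)).toMonoidHom) (tt w φ ρ) ↔
      HasL X (fa (E i) (rk1 w φ) * fb (E i) ρ) := fun i w φ ρ => by
    have e : ∀ v, (fa (E i) (rk1 w φ) * fb (E i) ρ) (E i v) = E i (tt w φ ρ v) :=
      LinearMap.congr_fun (TensorProduct.ext' (g := (fa (E i) (rk1 w φ) * fb (E i) ρ) ∘ₗ (E i).toLinearMap)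
        (h := (E i).toLinearMap ∘ₗ tt w φ ρ) fun x u => by simp [smul_tmul])
    refine ⟨fun H => ?_, fun H => ?_⟩ <;> obtain ⟨g, hg, e1⟩ := H.exists_apply
    · exact .of_apply hg fun v => by rw [← (E i).apply_symm_apply v, e]; simp [e1]
    · exact .of_apply (g := (autCongr (E i)).symm g) (by simpa) fun v => by rw [autCongr_symm_apply, e1, e]; simp
  have one : ∀ i, RR (X.comap (autCongr (E i)).toMonoidHom) 1 := fun i w φ e => (tr i w φ 1).2 (by
    obtain ⟨g, hg, e1, -⟩ := tv i w φ e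
    exact ⟨g, hg, by simp [e1]⟩)
  refine ⟨h, h3, ‹_›, le, fun r ⟨w, a, φ, b, _, c⟩ => ⟨w, trivial, a, φ, b, c⟩, fun S hS => ?_,
    fun c hc i₀ i w _ w0 w' H => ?_, fun c _ i j a b _ r ⟨w, p, φ, q, s, t⟩ =>
      ⟨a w, by simpa, φ ∘ₗ a.symm.toLinearMap, fun e => q (LinearMap.ext fun x => by
        simpa using LinearMap.congr_fun e (a x)), by simpa, fun x => by simp [t]⟩⟩
  · refine eq_top_iff.2 fun a _ => top_of_rk1 h3 S.toSubmodule (fun _ p _ q => S.mul_mem p q) (fun x ψ e => ?_) a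
    by_cases H : x = 0 ∨ ψ = 0
    · rw [show rk1 x ψ = 0 by rcases H with rfl | rfl <;> ext <;> simp]; exact zero_mem _
    rw [Subalgebra.mem_toSubmodule]
    convert S.sub_mem (hS _ (tv_mem (not_or.1 H).1 (not_or.1 H).2 e)) S.one_mem using 1
    ext v; simp [LinearMap.transvection.apply]
  refine (par_SL h3 (one i₀) (one i) (fun {w φ ρ} w0 φ0 e H => by_contra fun hs => hS ?_)
    (c := (E i₀).trans (c.trans (E i).symm)) (fun {α β} H e => ?_) w0 (w' := w') fun u => (H u).imp fun u' e => by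
      simp [e]).imp fun a ⟨b, e⟩ => ⟨b, fun w u => by rw [← e]; simp⟩
  swap
  · obtain ⟨g, hg, e1⟩ := H.exists_apply
    refine .of_apply (g := (autCongr (E i)).symm (c * autCongr (E i₀) g * c⁻¹))
      (by simpa using mul_mem (mul_mem hc hg) (inv_mem hc)) fun v => ?_
    obtain ⟨v, rfl⟩ := ((E i₀).trans (c.trans (E i).symm)).surjective v
    rw [autCongr_symm_apply, e]; simp [e1]
  let R : Subalgebra F (End F V) :=
    { carrier := {z | (∀ a, Commute z (fa (E i) a)) ∧ ∀ w φ, φ w = 0 → HasL X (fa (E i) (rk1 w φ) * z)}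
      add_mem' := fun {p q} hp hq => ⟨fun a => (hp.1 a).add_left (hq.1 a), fun w φ e => by
        rw [mul_add]
        refine (hp.2 w φ e).add (hq.2 w φ e) ?_
        rw [mul_assoc, ← mul_assoc p, (hp.1 _).eq, mul_assoc, ← mul_assoc, ← map_mul, rk1_mul_zero e]; simp⟩
      algebraMap_mem' := fun k => ⟨fun a => Algebra.commute_algebraMap_left _ _, fun w φ e => by
        simpa [Algebra.algebraMap_eq_smul_one, ← map_smul, show k • rk1 w φ = rk1 (k • w) φ from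
          LinearMap.ext fun v => by simp [smul_smul, mul_comm]] using (tr i _ _ _).1 (one i (k • w) φ (by simp [e]))⟩
      mul_mem' := fun {p q} hp hq => ⟨fun a => (hp.1 a).mul_left (hq.1 a), by
        obtain ⟨p, rfl⟩ := exists_fb hp.1
        obtain ⟨q, rfl⟩ := exists_fb hq.1
        obtain ⟨z, z1⟩ := φ0
        obtain ⟨ψ, ⟨y, a1⟩, a2, a3⟩ := exists_fun2 h3 w z
        refine fun x χ e' => map_mul (fb (E i)) p q ▸ (tr i _ _ _).1 ((one i).of_one h3 w0 ⟨y, a1⟩ a2 ?_ x χ e')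
        simpa [tt_mul, z1] using ((tr i _ _ _).2 (hp.2 w φ e)).comm ((tr i _ _ _).2 (hq.2 z ψ a3)) (tt_mul_zero e)
          (tt_mul_zero a3) (tt_mul_zero a2)⟩ }
  have cj : ∀ g ∈ X, tst (E i) (E i) g → ∀ z ∈ R, (g : End F V) * z * (g⁻¹ : V ≃ₗ[F] V) ∈ R := by
    rintro g hg ⟨a, b, e⟩ z hz
    obtain ⟨p, rfl⟩ := exists_fb hz.1
    have e1 := conj_fa e 1 p
    rw [mul_one (a : End F W), ← LinearEquiv.coe_toLinearMap_mul, mul_inv_cancel] at e1
    simp only [map_one, one_mul, LinearEquiv.coe_toLinearMap_one, ← Module.End.one_eq_id] at e1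
    refine e1 ▸ ⟨fun a => (fa_fb _ _).symm, fun w φ q => (hz.2 (a⁻¹ w) (φ ∘ₗ a) (by simpa)).conj hg fun v => ?_⟩
    exact LinearMap.congr_fun (ext_e (E i) (x := fa (E i) (rk1 w φ) * fb (E i) (b * p * (b⁻¹ : U ≃ₗ[F] U)) * g)
      (y := g * (fa (E i) (rk1 (a⁻¹ w) (φ ∘ₗ a)) * fb (E i) p)) fun x u => by simp [e, ← smul_tmul']) v
  have hρ : fb (E i) ρ ∈ R := ⟨fun a => (fa_fb _ _).symm, fun x χ e' => (tr i _ _ _).1 ((one i).of_one h3 w0 φ0 e H x χ e')⟩
  rcases h.alg h3 i (Finset.univ.erase i) R.toSubmodule (fun _ p _ q => R.mul_mem p q)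
    (fun ρ hρ l hl => by rw [show l = i by simpa using hl]; exact hρ.1) (fun j hj ρ hρ x ν e => by
      obtain ⟨g, hg, e1, e2⟩ := tv j x ν e
      rw [← e1, ← e2]
      exact cj g hg ⟨1, tst_of_conj fun a => e1 ▸ (h.comm j i (Finset.ne_of_mem_erase hj) _ a).eq⟩ ρ hρ) hρ with ⟨k, e1⟩ | ⟨j, hj, e1⟩
  · exact (hs ⟨k, LinearMap.ext fun u => tmul_inj (F := F) w0 ((E i).injective (by
      simpa using LinearMap.congr_fun e1 (E i (w ⊗ₜ u))))⟩).elim
  have all := h.gen i R fun l hl a => by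
    obtain ⟨τ, hτ, ⟨p, q, e2⟩, e3⟩ := sw i j l (Finset.ne_of_mem_erase hj) hl
    have e4 := conj_fa e2 ((p⁻¹ : W ≃ₗ[F] W) * a * p) 1
    rw [mul_one (q : End F U), ← LinearEquiv.coe_toLinearMap_mul, mul_inv_cancel] at e4
    simp only [map_one, mul_one, LinearEquiv.coe_toLinearMap_one, ← Module.End.one_eq_id] at e4
    convert e4 ▸ cj τ hτ e3 _ (e1 _) using 2
    ext v; simp
  intro g hg
  simpa using SL_of_all h3 (fun y κ w φ e => (tr i _ _ _).2 ((all _).2 w φ e)) (x := (autCongr (E i)).symm g) (by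
    rwa [SLg, MonoidHom.mem_ker, ← det_autCongr (E i), MulEquiv.apply_symm_apply])

/-- The transpositions of the factors are induced by involutions in `K`. -/
def Sw0 [DecidableEq ι] (E : ι → W ⊗[F] U ≃ₗ[F] V) (K : Subgroup (V ≃ₗ[F] V)) : Prop :=
  ∀ j l, ∃ τ ∈ K, τ * τ = 1 ∧ ∀ i a, (τ : End F V) * fa (E i) a = fa (E (Equiv.swap j l i)) a * τ

omit [FiniteDimensional F W] in
theorem exists_tv {a : W ≃ₗ[F] W} (h2 : (2 : F) = 0) (h : a * a = 1) (n : a ≠ 1) : ∃ q ∈ TSL F W, Commute q a ∧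
    ∃ θ : End F W, (q : End F W) = 1 + ((a : End F W) - 1) * θ * ((a : End F W) - 1) := by
  obtain ⟨x, hx⟩ : ∃ x, a x - x ≠ 0 := by
    by_contra! hc; exact n (LinearEquiv.ext fun x => sub_eq_zero.1 (hc x))
  obtain ⟨ψ, p⟩ := exists_fun0 (F := F) hx
  have e : ∀ y, a (a y - y) = a y - y := fun y => by
    rw [map_sub, show a (a y) = y from LinearEquiv.congr_fun h y, ← neg_sub, neg_eq_iff_add_eq_zero, ← two_smul F, h2,
      zero_smul]
  have e' : (ψ ∘ₗ ((a : End F W) - 1)) (a x - x) = 0 := by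
    rw [LinearMap.comp_apply, LinearMap.sub_apply, LinearEquiv.coe_coe, e]; simp
  refine ⟨_, tv_mem hx (fun e => by simpa [e] using (show (ψ ∘ₗ ((a : End F W) - 1)) x = 1 from p)) e',
    LinearEquiv.ext fun y => ?_, rk1 x ψ, LinearMap.ext fun y => by simp [LinearMap.transvection.apply, smul_sub]⟩
  have := e y
  rw [map_sub] at this
  simp [LinearMap.transvection.apply, e, this, -map_sub]

theorem isMaximalIn_wstab [Finite F] [Finite ι] [DecidableEq ι] [Nonempty ι] [FiniteDimensional F V] (h : TW E)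
    (h3 : 3 ≤ finrank F W) (hU : 2 ≤ finrank F U) (ho : Odd (finrank F W) → Odd (finrank F U)) (sw : Sw0 E ⊤) :
    Geo.IsMaximalIn (SLg F V) (wstab E ⊓ SLg F V) := by
  have : Nontrivial W := nontrivial_of_finrank_pos (R := F) (by omega)
  have : Nontrivial U := nontrivial_of_finrank_pos (R := F) (by omega)
  have : Finite V := Module.finite_of_finite F
  have : Finite (V ≃ₗ[F] V) := Finite.of_injective _ DFunLike.coe_injective
  obtain ⟨w, w0, -⟩ := exists_ker2 h3 0 0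
  obtain ⟨φ, ⟨z, a1⟩, a2, -⟩ := exists_fun2 h3 w w
  have φ0 : φ ≠ 0 := by rintro rfl; simp at a1
  refine max_crit inf_le_right ?_ fun X x1 x2 g hg hg' => by_contra fun hS => hg' ⟨?_, x2 hg⟩
  · obtain ⟨i⟩ := ‹Nonempty ι›
    obtain ⟨u, u0⟩ := exists_ne (0 : U)
    obtain ⟨x, -, hx⟩ := exists_notMem_of_lt (U := ⊤) (R := F ∙ u) (by
      have := finrank_span_one (F := F) u; rw [finrank_top]; omega)
    obtain ⟨ν, b1, b2⟩ := exists_fun1 hx
    obtain ⟨g, hg, e1⟩ := hasL_SLg (α := fa (E i) (rk1 w φ) * fb (E i) (rk1 x ν)) (ext_e (E i) fun y u => by simp [a2])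
    refine ⟨g, hg, fun ⟨⟨π, H⟩, _⟩ => ?_⟩
    obtain ⟨a, b, e2⟩ := H i
    have e3 : ∀ y u, E (π i) (a y ⊗ₜ b u) = E i (y ⊗ₜ u + (φ y • w) ⊗ₜ (ν u • x)) := fun y u => by
      simpa [e2] using LinearMap.congr_fun e1 (E i (y ⊗ₜ u))
    by_cases n : π i = i
    · obtain ⟨ψ, p1, p2⟩ := exists_fun1 (notMem_symm (notMem_of_fun (a1 ▸ one_ne_zero) a2) w0)
      rw [n] at e3
      have d1 := congrArg (cL ψ) ((E i).injective (e3 z u))
      have d2 := congrArg (cL ψ) ((E i).injective (e3 z x))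
      simp [p1, p2, a1, b1, b2] at d1 d2
      rcases d1 with d1 | d1
      · simp [d1] at d2; simp [← d2] at b1
      · exact u0 d1
    have e4 : fa (E i) (rk1 w φ) = fa (E (π i)) (a * rk1 w φ * (a⁻¹ : W ≃ₗ[F] W)) := ext_e (E (π i)) fun y v => by
      obtain ⟨y, rfl⟩ := a.surjective y
      obtain ⟨v, rfl⟩ := b.surjective v
      rw [fa_tmul, e3, map_add, map_add]; simp [← smul_tmul', e3, a2]
    obtain ⟨k, e5⟩ := scal_of_fa (e := E i) (a := rk1 w φ) fun a' => e4 ▸ h.comm _ _ n _ a'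
    simpa [show k = 0 by simpa [a2, w0] using (LinearMap.congr_fun e5 w).symm, a1, w0] using LinearMap.congr_fun e5 z
  have k := tg_SL h h3 (fun i r ⟨w, _, φ, _, p, q⟩ => x1 ⟨h.lf_mem i r, (hasL_SLg (α := fa (E i) (rk1 w φ)) (by
    rw [← map_mul, rk1_mul_zero p, map_zero])).mem fun v => by rw [lf_rk1 q, fa_rk1]⟩) (fun i j l nj nl => ?_) hS
  · by_cases h2 : (2 : F) = 0
    · have sq : ∀ r ∈ TSL F W, r * r = 1 := fun r ⟨w, _, φ, _, p, q⟩ => LinearEquiv.ext fun x => by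
        simp [q, p, add_assoc, ← two_smul F, h2]
      refine k.le_even h2 sq (fun r hr s hs n c => ?_) (fun r ⟨w, w0, φ, _, p, q⟩ => ?_) (fun _ _ _ a _ _ e => ?_) ?_ hg
      · refine (exists_tv h2 ?_ fun e => n ?_).imp fun q H => ⟨H.1, H.2.2⟩
        · rw [mul_assoc, ← mul_assoc s, ← c.eq, mul_assoc, sq s hs, mul_one, sq r hr]
        · rw [← inv_eq_of_mul_eq_one_right e, inv_eq_of_mul_eq_one_right (sq r hr)]
      · obtain ⟨y, y1, y2⟩ := exists_ker_notMem h3 φ w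
        obtain ⟨ψ, c1, c2⟩ := exists_fun1 y2
        exact ⟨_, tv_mem w0 (by rintro rfl; simp at c1) c2, fun e => by
          simpa [q, y1, c1, w0, LinearMap.transvection.apply] using LinearEquiv.congr_fun e y,
          LinearEquiv.ext fun x => by simp [q, p, c2, LinearMap.transvection.apply, add_right_comm]⟩
      · by_cases n : a = 1
        · exact ⟨_, tv_mem w0 φ0 a2, n ▸ Commute.one_right _⟩
        · exact (exists_tv h2 e n).imp fun q H => ⟨H.1, H.2.1⟩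
      obtain ⟨y, y1, y2⟩ := exists_ker_notMem h3 φ w
      have n : w + y ≠ 0 := fun e => y2 (eq_neg_of_add_eq_zero_right e ▸ neg_mem (Submodule.mem_span_singleton_self w))
      refine ⟨[.transvection a2, .transvection y1, .transvection (f := φ) (v := w + y) (by simp [a2, y1])], ⟨1, rfl⟩,
        by simp [tv_mem w0 φ0, tv_mem (show y ≠ 0 by rintro rfl; simp at y2) φ0, tv_mem n φ0], LinearEquiv.ext fun x => ?_⟩
      simp [LinearMap.transvection.apply, a2, y1]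
      linear_combination (norm := module) (φ x * h2) • (w + y)
    · exact k.le_odd h2 (fun r ⟨w, _, φ, _, p, q⟩ x => by simp [q, p]) (fun S hS => by
        obtain ⟨x, hx, x0⟩ := exists_notMem_of_lt (U := S) (R := ⊥) (by simp; omega)
        exact ⟨x, hx, trivial, x0⟩) hg
  obtain ⟨τ, -, t2, e⟩ := sw j l
  have m : τ ∈ wstab E := ⟨.swap j l, fun i => ⟨1, tst_of_conj (e i)⟩⟩
  have t1 : tst (E j) (E l) τ := ⟨1, tst_of_conj (by simpa using e j)⟩
  obtain ⟨b, e1⟩ := tst_of_conj (e := E i) (e' := E i) (g := τ) (by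
    simpa [Equiv.swap_apply_of_ne_of_ne nj.symm nl.symm] using e i)
  have d1 : LinearMap.det (b : End F U) * LinearMap.det (b : End F U) = 1 := by
    rw [← map_mul, show (b : End F U) * b = 1 from LinearMap.ext fun u => tmul_inj (F := F) w0 ((E i).injective (by
      simpa [e1] using LinearEquiv.congr_fun t2 (E i (w ⊗ₜ u)))), map_one]
  have dt : ∀ (g : V ≃ₗ[F] V) (a : W ≃ₗ[F] W), (∀ w u, g (E i (w ⊗ₜ u)) = E i (a w ⊗ₜ b u)) →
      LinearMap.det (a : End F W) ^ finrank F U * LinearMap.det (b : End F U) ^ finrank F W = 1 → g ∈ SLg F V :=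
    fun g a e H => by
      rw [show g = autCongr (E i) (TensorProduct.congr a b) from ext_e' (E i) fun w u => by simp [e], SLg,
        MonoidHom.mem_ker, det_autCongr]
      exact mem_SLg.2 (by rwa [det_congr])
  by_cases d2 : LinearMap.det (b : End F U) ^ finrank F W = 1
  · exact ⟨τ, x1 ⟨m, dt τ 1 e1 (by simpa [← Module.End.one_eq_id])⟩, t1, 1, b, e1⟩
  have d3 := (mul_self_eq_one_iff.1 d1).resolve_left fun e => d2 (by simp [e])
  have o : Odd (finrank F W) := Nat.not_even_iff_odd.1 fun e => d2 (by rw [d3, e.neg_one_pow])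
  have e2 : ∀ w u, (lf (E i) (.neg F) * τ) (E i (w ⊗ₜ u)) = E i (LinearEquiv.neg F w ⊗ₜ b u) := fun w u => by simp [e1]
  refine ⟨_, x1 ⟨mul_mem (h.lf_mem i _) m, dt _ _ e2 ?_⟩, t1.mul ⟨1, tst_of_conj fun a =>
    coe_lf (e := E i) (.neg F) ▸ (h.comm i l nl.symm _ a).eq⟩, _, b, e2⟩
  rw [show ((LinearEquiv.neg F : W ≃ₗ[F] W) : End F W) = (-1 : F) • 1 from LinearMap.ext fun x => by simp,
    LinearMap.det_smul, d3, o.neg_one_pow, map_one, mul_one, (ho o).neg_one_pow]; simp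

section Std
open Matrix Asch

/-- The standard frame. -/
noncomputable def sE (F : Type*) [Field F] (m : ℕ) {n : ℕ} (i : Fin (n + 1)) :
    (Fin m → F) ⊗[F] ((Fin n → Fin m) → F) ≃ₗ[F] ((Fin (n + 1) → Fin m) → F) :=
  (kE F _ _).trans (.funCongrLeft F F (((Fin.insertNthEquiv (fun _ => Fin m) i).symm).trans (Equiv.prodComm _ _)))

variable {m n : ℕ}

theorem sE_tmul (i : Fin (n + 1)) (w : Fin m → F) (u : (Fin n → Fin m) → F) (x : Fin (n + 1) → Fin m) :
    sE F m i (w ⊗ₜ u) x = w (x i) * u (i.removeNth x) := by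
  simp [sE, kE_tmul, kv, mul_comm]

theorem ptens_sE (a : Fin (n + 1) → Matrix (Fin m) (Fin m) F) (i : Fin (n + 1)) (w : Fin m → F)
    (u : (Fin n → Fin m) → F) : ptens a *ᵥ sE F m i (w ⊗ₜ u) = sE F m i ((a i *ᵥ w) ⊗ₜ (ptens (i.removeNth a) *ᵥ u)) := by
  funext x
  rw [sE_tmul, mulVec, dotProduct, ← (Fin.insertNthEquiv (fun _ => Fin m) i).sum_comp, Fintype.sum_prod_type]
  simp only [mulVec, dotProduct, Finset.sum_mul_sum, sE_tmul, ptens_apply, Fin.prod_univ_succAbove _ i]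
  refine Finset.sum_congr rfl fun k _ => Finset.sum_congr rfl fun y _ => ?_
  rw [show i.removeNth (Fin.insertNthEquiv (fun _ => Fin m) i (k, y)) = y from funext fun j => by simp [Fin.removeNth]]
  simp [Fin.removeNth]; ring

variable {κ : Type} [Fintype κ] [DecidableEq κ] (e : κ ≃ (Fin (n + 1) → Fin m)) (P : GL κ F)

/-- The frame given by `e` and `P`. -/
noncomputable def pE (i : Fin (n + 1)) : (Fin m → F) ⊗[F] ((Fin n → Fin m) → F) ≃ₗ[F] (κ → F) :=
  (sE F m i).trans (tv e P)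

theorem fa_pE (i : Fin (n + 1)) (a : Matrix (Fin m) (Fin m) F) :
    fa (pE e P i) (toLin' a) = toLin' (tp e P (fac i a)) := ext_e (pE e P i) fun w u => by
  rw [fa_tmul]
  simp only [pE, LinearEquiv.trans_apply, toLin'_apply, tp_mulVec, fac_apply, ptens_sE, Pi.mulSingle_eq_same]
  rw [show i.removeNth (Pi.mulSingle i a : Fin (n + 1) → _) = 1 from funext fun j => by simp [Fin.removeNth], ptens_one,
    one_mulVec]

theorem fb_pE (i : Fin (n + 1)) (j : Fin n) (a : Matrix (Fin m) (Fin m) F) :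
    fb (pE e P i) (toLin' (fac j a)) = fa (pE e P (i.succAbove j)) (toLin' a) := by
  rw [fa_pE]
  refine ext_e (pE e P i) fun w u => ?_
  rw [fb_tmul]
  simp only [pE, LinearEquiv.trans_apply, toLin'_apply, tp_mulVec, fac_apply, ptens_sE]
  rw [Pi.mulSingle_eq_of_ne (Fin.succAbove_ne i j).symm, one_mulVec,
    show i.removeNth (Pi.mulSingle (i.succAbove j) a : Fin (n + 1) → _) = Pi.mulSingle j a from funext fun l => by
      simp [Fin.removeNth, Pi.mulSingle_apply]]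

theorem tw_pE : TW (pE e P) := by
  refine ⟨fun i j h a b => ?_, fun i S hS b => ?_⟩
  · obtain ⟨a, rfl⟩ := toLin'.surjective a
    obtain ⟨b, rfl⟩ := toLin'.surjective b
    have : fac i a * fac j b = fac j b * fac i a := ((Pi.mulSingle_commute (f := fun _ => Matrix (Fin m) (Fin m) F) h a b).map
      (ptensHom _ m F)).eq
    rw [fa_pE, fa_pE, Commute, SemiconjBy, Module.End.mul_eq_comp, Module.End.mul_eq_comp, ← toLin'_mul, ← toLin'_mul,
      ← map_mul, this, map_mul]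
  obtain ⟨b, rfl⟩ := toLin'.surjective b
  have : b ∈ S.comap ((fb (pE e P i)).comp toLinAlgEquiv'.toAlgHom) := (eq_top_of_fac fun j a => by
    have := hS (i.succAbove j) (Fin.succAbove_ne i j) (toLin' a)
    rwa [← fb_pE] at this).ge trivial
  exact this

theorem conj_pE {g : GL κ F} {i j : Fin (n + 1)} {a a' : Matrix (Fin m) (Fin m) F} :
    (glEquiv κ F g).toLinearMap * fa (pE e P i) (toLin' a) = fa (pE e P j) (toLin' a') * (glEquiv κ F g).toLinearMap ↔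
      cj g (tp e P (fac i a)) = tp e P (fac j a') := by
  rw [cj_eq_iff, fa_pE, fa_pE, ← toLin'.injective.eq_iff, toLin'_mul, toLin'_mul]; rfl

theorem pperm_pE (π : Equiv.Perm (Fin (n + 1))) (i : Fin (n + 1)) (a : End F (Fin m → F)) :
    (glEquiv κ F (tg e P (pperm F m π))).toLinearMap * fa (pE e P i) a =
      fa (pE e P (π i)) a * (glEquiv κ F (tg e P (pperm F m π))).toLinearMap := by
  obtain ⟨a, rfl⟩ := toLin'.surjective a
  rw [conj_pE, cj_tg, cj_pperm_fac]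

theorem pperm_swap (j l : Fin (n + 1)) : glEquiv κ F (tg e P (pperm F m (.swap j l))) *
    glEquiv κ F (tg e P (pperm F m (.swap j l))) = 1 := by
  rw [← map_mul, ← map_mul, show pperm F m (.swap j l) * pperm F m (.swap j l) = 1 from
    Units.ext (pperm F m (.swap j l)).val_inv, map_one, map_one]

theorem mem_wreath [Nonempty (Fin m)] {g : GL κ F} :
    g ∈ Geo.tensorWreathSubgroup m (n + 1) e P ↔ glEquiv κ F g ∈ wstab (pE e P) := by
  refine ⟨fun h => ?_, fun h => le_tensorWreathSubgroup (H := (wstab (pE e P)).comap (glEquiv κ F).toMonoidHom)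
    (fun g ⟨π, h⟩ => ⟨π, fun i a => ?_⟩) h⟩
  · obtain ⟨k, hk, rfl⟩ := mem_tensorWreathSubgroup.1 h
    obtain ⟨π, u, rfl⟩ := exists_of_mem_wreath hk
    rw [map_mul, map_mul]
    refine mul_mem ⟨π, fun i => ⟨1, tst_of_conj (pperm_pE e P π i)⟩⟩ ⟨1, fun i => ⟨glEquiv _ F (u i),
      glEquiv _ F (ptensGL (i.removeNth u)), fun w v => ?_⟩⟩
    simp only [pE, LinearEquiv.trans_apply, glEquiv_apply, tg_mulVec, coe_ptensGL, ptens_sE]; rfl
  obtain ⟨p, q, h⟩ := h i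
  obtain ⟨a', e1⟩ := toLin'.surjective (p.toLinearMap * toLin' a * p⁻¹.toLinearMap)
  exact ⟨a', (conj_pE e P).1 (e1 ▸ ext_e (pE e P i) fun w u => by
    simp only [Module.End.mul_apply, fa_tmul, LinearEquiv.coe_coe]
    erw [h, h]; simp)⟩

theorem isMaximalIn_wreathSL [Fintype F] (hm : 3 ≤ m) (hn : 1 ≤ n) : Geo.IsMaximalIn (Geo.specialLinear κ F)
    (Geo.tensorWreathSubgroup m (n + 1) e P ⊓ Geo.specialLinear κ F) := by
  have : Nonempty (Fin m) := ⟨⟨0, by omega⟩⟩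
  refine isMaximalIn_inf _ (isMaximalIn_wstab (tw_pE e P) (by simpa) ?_ (fun h => ?_) fun j l =>
    ⟨_, trivial, pperm_swap e P j l, pperm_pE e P _⟩) (fun g => mem_specialLinear) fun g => mem_wreath e P
  · simpa using (show 2 ≤ m by omega).trans (Nat.le_self_pow (by omega) m)
  · simpa using Odd.pow (by simpa using h)

end Std

end Cfsg.Agent.Root.Wr
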